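import Mathlib
import Cfsg.Agent.Class.Max.C2Fm
import Cfsg.Agent.Class.Max.LowNd
import Cfsg.Agent.Class.Max.C2Mon1
import Cfsg.Agent.Class.Orth.SqClass
import Cfsg.Agent.Class.Orth.OmegaIndex

/-!
Class `C₂` for orthogonal groups: reflections, reflection classes of an overgroup, connectivity.
-/

set_option autoImplicit false

namespace Cfsg.Agent.Class.Max

open Module

variable {F V : Type*} [Field F] [AddCommGroup V] [Module F V] {ι : Type*}

theorem isSquare_mul_or [Finite F] {x y z : F} (hx : x ≠ 0) (hy : y ≠ 0) (hz : z ≠ 0) :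
    IsSquare (x * y) ∨ IsSquare (x * z) ∨ IsSquare (y * z) := by
  classical
  have := Fintype.ofFinite F
  simp only [← quadraticChar_one_iff_isSquare (mul_ne_zero hx hy),
    ← quadraticChar_one_iff_isSquare (mul_ne_zero hx hz),
    ← quadraticChar_one_iff_isSquare (mul_ne_zero hy hz), map_mul]
  rcases quadraticChar_dichotomy hx with h1 | h1 <;> rcases quadraticChar_dichotomy hy with h2 | h2 <;>
    rcases quadraticChar_dichotomy hz with h3 | h3 <;> simp [h1, h2, h3]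

theorem exists_notMem_finset [Fintype F] (s : Finset F) (h : s.card < Fintype.card F) :
    ∃ a, a ∉ s := by
  obtain ⟨t, -, ht⟩ := Finset.exists_mem_notMem_of_card_lt_card (s := s) (t := Finset.univ) h
  exact ⟨t, ht⟩

namespace Fm

variable {Φ : Fm F V} {M N : Subgroup (V ≃ₗ[F] V)}

namespace IsO

variable (hO : Φ.IsO)
include hO

theorem B_smul_left (a : F) (x y : V) : Φ.B (a • x) y = a * Φ.B x y := by
  rw [Φ.B_smul_left, hO.σ]

/-- The reflection in `a` (the identity if `a` is singular). -/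
def r (a : V) : V ≃ₗ[F] V :=
  LinearEquiv.ofInvolutive (LinearMap.id - (Φ.Q a)⁻¹ • (Φ.B a).smulRight a) fun x => by
    simp only [LinearMap.sub_apply, LinearMap.id_apply, LinearMap.smul_apply,
      LinearMap.smulRight_apply, Φ.bsimp, hO.B_self a]
    by_cases h : Φ.Q a = 0
    · simp [h]
    · match_scalars <;> field_simp
      ring

theorem r_apply (a x : V) : hO.r a x = x - ((Φ.Q a)⁻¹ * Φ.B a x) • a := by
  rw [mul_smul]; rfl

theorem r_r (a x : V) : hO.r a (hO.r a x) = x := (hO.r a).symm_apply_apply x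

theorem r_mul_self (a : V) : hO.r a * hO.r a = 1 := LinearEquiv.ext (hO.r_r a)

theorem r_inv (a : V) : (hO.r a)⁻¹ = hO.r a := inv_eq_of_mul_eq_one_right (hO.r_mul_self a)

theorem r_eq {a : V} (ha : Φ.Q a ≠ 0) : hO.r a = refl ha (hO.π _) :=
  LinearEquiv.ext fun x => by rw [r_apply, refl_apply]

theorem r_of_perp {a x : V} (h : Φ.B a x = 0) : hO.r a x = x := by simp [r_apply, h]

theorem r_of_sing {a : V} (h : Φ.Q a = 0) : hO.r a = 1 :=
  LinearEquiv.ext fun x => by simp [r_apply, h]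

theorem r_mem_supp {P : Submodule F V} {a : V} (ha : a ∈ P) : hO.r a ∈ Φ.supp P := by
  by_cases h : Φ.Q a = 0
  · rw [hO.r_of_sing h]; exact Subgroup.one_mem _
  · rw [hO.r_eq h]; exact refl_mem_supp ha _ _

theorem r_mem_Iso (a : V) : hO.r a ∈ Φ.Iso := (hO.r_mem_supp (P := ⊤) trivial).1

theorem Q_r (a x : V) : Φ.Q (hO.r a x) = Φ.Q x := Iso.Q (hO.r_mem_Iso a) x

theorem conj_r {g : V ≃ₗ[F] V} (hg : g ∈ Φ.Iso) (a : V) : g * hO.r a * g⁻¹ = hO.r (g a) :=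
  LinearEquiv.ext fun x => by
    rw [mul_app, mul_app, r_apply, r_apply, map_sub, map_smul, app_inv_app, Iso.B_inv hg, Iso.Q hg]

theorem r_smul {t : F} (ht : t ≠ 0) (a : V) : hO.r (t • a) = hO.r a := LinearEquiv.ext fun x => by
  rw [r_apply, r_apply, hO.Q_smul, hO.B_smul_left, smul_smul]
  congr 2
  by_cases h : Φ.Q a = 0
  · simp [h]
  · field_simp

theorem r_self {a : V} (ha : Φ.Q a ≠ 0) : hO.r a a = -a := by
  rw [r_apply, hO.B_self, show (Φ.Q a)⁻¹ * (2 * Φ.Q a) = 2 by field_simp]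
  module

theorem r_mul_r_sub {a v : V} (ha : Φ.Q a ≠ 0) (hv : Φ.Q v = 0) (h : Φ.B v a = 0) (x : V) :
    (hO.r a * hO.r (a - v)) x = Φ.ef v (-(Φ.Q a)⁻¹ • a) (Φ.Q a)⁻¹ x := by
  have h1 : Φ.Q (a - v) = Φ.Q a := by rw [hO.Q_sub, hv, hO.symm v, h]; ring
  simp only [mul_app, r_apply, hO.ef, h1, Φ.bsimp, hO.σ, hO.B_self a, hO.symm v a, h]
  match_scalars <;> field_simp
  · ring
  · ring

theorem inA_of_r {a v : V} (ha : Φ.Q a ≠ 0) (hv : Φ.Q v = 0) (h : Φ.B v a = 0)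
    (hM : hO.r a * hO.r (a - v) ∈ M) : Φ.InA M v (-(Φ.Q a)⁻¹ • a) :=
  ⟨_, ⟨hv, by simp [h], by rw [hO.π, hO.Q_smul]; field_simp⟩, _, hM, hO.r_mul_r_sub ha hv h⟩

theorem polar_qf (x y : V) : QuadraticMap.polar hO.qf x y = Φ.B x y := by
  change Φ.Q (x + y) - Φ.Q x - Φ.Q y = _
  rw [hO.Q_add]; ring

theorem nd_qf : Orth.ND hO.qf := fun x h => Φ.nondeg x fun y => hO.polar_qf x y ▸ h y

theorem rep [Finite F] {P : Submodule F V} (hP : Φ.ND P) (h2 : 2 ≤ finrank F P) (c : F) :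
    ∃ v ∈ P, Φ.Q v = c := by
  by_cases hc : c = 0
  · exact ⟨0, P.zero_mem, by rw [hc, Φ.Q_zero]⟩
  · exact Orth.exists_mem_Q_eq (Q := hO.qf) P
      (fun x hx h => hP x hx fun y hy => hO.polar_qf x y ▸ h y hy) h2 hc

theorem mem_OG {g : V ≃ₗ[F] V} : g ∈ Orth.OG hO.qf ↔ g ∈ Φ.Iso :=
  ⟨fun h => ⟨fun x y => by
    rw [← hO.polar_qf, ← hO.polar_qf]; exact Orth.OG.map_polar ⟨g, h⟩ x y, h⟩, fun h => h.2⟩

theorem hasE_hasE_symm {a w : V} : Φ.HasE M a w 0 ↔ Φ.HasE M w (-a) 0 := by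
  rw [hasE_symm, hO.ε, one_smul]

theorem inA_symm {a w : V} (hw : Φ.Q w = 0) (h : Φ.InA M a w) : Φ.InA M w a := by
  obtain ⟨c, hv, h⟩ := h
  have hc : c = 0 := by rw [← hO.π c, hv.norm, hw]
  subst hc
  have := (InA.neg ⟨0, valid_zero hw (by rw [map_neg, Φ.perp_symm hv.perp, neg_zero])
    (by rw [Φ.Q_neg, hv.sing]), hO.hasE_hasE_symm.1 h⟩ :)
  rwa [neg_neg] at this

variable [FiniteDimensional F V]

theorem comm [Finite F] (h5 : 5 ≤ finrank F V) : Φ.Comm := fun g hg h hh => by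
  have h1 : (fmQuad hO.qf hO.nd_qf).EG ≤ Φ.EG := EG_le fun e w c hv => by
    have h2 : Φ.Valid e w c := ⟨hv.sing, hO.polar_qf e w ▸ hv.perp, (hO.π c).trans hv.norm⟩
    refine ⟨h2.eich, h2.eich_mem, fun x => ?_⟩
    rw [h2.eich_apply, hO.ef, ← hO.polar_qf, ← hO.polar_qf]
    change _ = x + _ - (1 * _) • e
    rw [one_mul]; rfl
  refine h1 ?_
  rw [EG_fmQuad, ← hO.nd_qf.commutator_eq_EG_of_five_le h5]
  have h2 := Subgroup.commutator_mem_commutator
    (Subgroup.mem_top (⟨g, hO.mem_OG.2 hg⟩ : Orth.OG hO.qf))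
    (Subgroup.mem_top (⟨h, hO.mem_OG.2 hh⟩ : Orth.OG hO.qf))
  exact ⟨_, h2, rfl⟩

theorem Iso_le (h5 : 5 ≤ finrank F V) {K : Subgroup (V ≃ₗ[F] V)}
    (h : ∀ a, Φ.Q a ≠ 0 → hO.r a ∈ K) : Φ.Iso ≤ K := fun g hg => by
  refine (hO.nd_qf.reflGen (Or.inr (by omega))).induction (p := fun g => g.1 ∈ K) K.one_mem
    (fun v g hv ih => K.mul_mem ?_ ih) ⟨g, hO.mem_OG.2 hg⟩
  convert h v hv using 1
  exact LinearEquiv.ext fun x => by rw [Orth.refl_apply, hO.r_apply, hO.polar_qf, hO.symm]; rfl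

theorem r_mul_r_mem (h5 : 5 ≤ finrank F V) {a b : V} (ha : Φ.Q a ≠ 0) (h : Φ.Q b = Φ.Q a) :
    hO.r a * hO.r b ∈ Φ.EG := by
  have := refl_mul_inv_mem_EG (hO.d ▸ h5) ha (hO.π _) ((hO.π _).trans h.symm)
    (fun e => ha (by rw [e, Φ.Q_zero])) (fun e => ha (by rw [← h, e, Φ.Q_zero]))
  have e : refl ha ((hO.π _).trans h.symm) = hO.r b :=
    LinearEquiv.ext fun x => by rw [refl_apply, r_apply, h]
  rwa [← hO.r_eq ha, e, hO.r_inv] at this

theorem exists_smul_Q_eq {a b : V} (hb : Φ.Q b ≠ 0) (h : IsSquare (Φ.Q a * Φ.Q b)) :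
    ∃ t : F, Φ.Q (t • b) = Φ.Q a := by
  obtain ⟨s, hs⟩ := h
  exact ⟨s / Φ.Q b, by rw [hO.Q_smul]; field_simp; linear_combination -hs⟩

theorem cov_of_r (h5 : 5 ≤ finrank F V) {K : Subgroup (V ≃ₗ[F] V)} (hK : K ≤ Φ.Iso)
    (h : ∀ c ≠ 0, ∃ b, Φ.Q b = c ∧ hO.r b ∈ K) : Φ.Cov K := by
  let L : Subgroup (V ≃ₗ[F] V) :=
    { carrier := {g | g ∈ Φ.Iso ∧ ∃ k ∈ K, g * k ∈ Φ.EG}
      mul_mem' := by
        rintro g g' ⟨hg, k, hk, e⟩ ⟨hg', k', hk', e'⟩
        refine ⟨Φ.Iso.mul_mem hg hg', k' * k, K.mul_mem hk' hk, ?_⟩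
        have := Φ.EG.mul_mem (EG_normal hg e') e
        convert this using 1
        group
      one_mem' := ⟨Φ.Iso.one_mem, 1, K.one_mem, by simp⟩
      inv_mem' := by
        rintro g ⟨hg, k, hk, e⟩
        refine ⟨Φ.Iso.inv_mem hg, k⁻¹, K.inv_mem hk, ?_⟩
        have := EG_normal (hK hk) (Φ.EG.inv_mem e)
        convert this using 1
        group }
  intro g hg
  refine (hO.Iso_le h5 (K := L) (fun a ha => ⟨hO.r_mem_Iso a, ?_⟩) hg).2
  obtain ⟨b, hb, hb'⟩ := h _ ha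
  exact ⟨_, hb', hO.r_mul_r_mem h5 ha hb⟩

theorem cov_supp [Finite F] (h5 : 5 ≤ finrank F V) {P : Submodule F V} (hP : Φ.ND P)
    (h2 : 2 ≤ finrank F P) : Φ.Cov (Φ.supp P) :=
  hO.cov_of_r h5 inf_le_left fun c _ =>
    let ⟨v, hv, e⟩ := hO.rep hP h2 c
    ⟨v, e, hO.r_mem_supp hv⟩

omit [FiniteDimensional F V] in
/-- A non-singular vector not perpendicular to a given vector. -/
theorem exists_nonsing_ne {W : Submodule F V} (hW : Φ.ND W)
    (h : 3 ≤ finrank F W ∨ (∀ s ∈ W, Φ.Q s = 0 → s = 0) ∨ ∃ t : F, t ≠ 0 ∧ t ≠ 1) {x : V}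
    (hx : x ∈ W) (hx0 : x ≠ 0) : ∃ w ∈ W, Φ.Q w ≠ 0 ∧ Φ.B x w ≠ 0 := by
  by_contra hc
  push Not at hc
  have hc' : ∀ w ∈ W, Φ.B x w ≠ 0 → Φ.Q w = 0 := fun w hw h => by
    by_contra h'
    exact h (hc w hw h')
  obtain ⟨w, hw, hxw⟩ := hW.exists_ne hx hx0
  have h1 := hc' w hw hxw
  have h2 : ∀ z ∈ W, Φ.B x z = 0 → Φ.Q z = -Φ.B w z := fun z hz h => by
    have := hc' (w + z) (W.add_mem hw hz) (by rwa [map_add, h, add_zero])
    rw [hO.Q_add, h1] at this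
    linear_combination this
  have hxx : Φ.B x x = 0 := by
    by_contra h
    exact h (Φ.B_self (hc' x hx h))
  rcases h with h | h | ⟨t, ht, ht'⟩
  · have : FiniteDimensional F W := Module.finite_of_finrank_pos (by omega)
    obtain ⟨z, -, hz0, hz⟩ := exists_ne_zero_ker
      [(Φ.B x).domRestrict W, (Φ.B w).domRestrict W] ⊤ (by rw [finrank_top]; exact h)
    simp only [List.mem_cons, List.not_mem_nil, or_false, forall_eq_or_imp, forall_eq,
      LinearMap.domRestrict_apply] at hz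
    refine hz0 (Subtype.ext (hW z.1 z.2 fun y hy => ?_))
    have h3 : Φ.B x (y - (Φ.B x y / Φ.B x w) • w) = 0 := by simp [hxw]
    have h4 := W.sub_mem hy (W.smul_mem (Φ.B x y / Φ.B x w) hw)
    have h5 := h2 _ (W.add_mem z.2 h4) (by rw [map_add, h3, hz.1, add_zero])
    rw [hO.Q_add, h2 _ h4 h3, h2 _ z.2 hz.1, map_add] at h5
    have h6 : Φ.B z (y - (Φ.B x y / Φ.B x w) • w) = 0 := by linear_combination h5
    simpa [Φ.perp_symm hz.2] using h6
  · exact hxw (by simp [h w hw h1])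
  · have h3 := h2 x hx hxx
    have h4 := h2 (t • x) (W.smul_mem t hx) (by simp [hxx])
    rw [hO.Q_smul, h3, Φ.B_smul_right] at h4
    have : t * (t - 1) * Φ.B w x = 0 := by linear_combination -h4
    simp [ht, sub_ne_zero.2 ht', Φ.ne_symm hxw] at this

end IsO

variable (Φ) in
/-- The blocks for which the imprimitive subgroup is maximal (apart from frames). -/
structure Good [Fintype F] (W : Submodule F V) : Prop where
  nd : Φ.ND W
  two_le : 2 ≤ finrank F W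
  two : finrank F W = 2 → Fintype.card F ≠ 3 ∧
    ((∀ s ∈ W, Φ.Q s = 0 → s = 0) ∨ 7 ≤ Fintype.card F)
  three : finrank F W = 3 → 5 ≤ Fintype.card F
  four : finrank F W = 4 → Fintype.card F = 2 → ∀ T ≤ W, Φ.TS T → finrank F T ≠ 2

theorem card_cases [Fintype F] : Fintype.card F = 2 ∨ Fintype.card F = 3 ∨ 4 ≤ Fintype.card F := by
  have := Fintype.one_lt_card (α := F)
  omega

theorem two_eq_zero_of_card [Fintype F] (h : Fintype.card F = 2 ∨ Fintype.card F = 4) :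
    (2 : F) = 0 := by
  have := FiniteField.cast_card_eq_zero F
  rcases h with h | h <;> rw [h] at this
  · exact_mod_cast this
  · have h1 : (2 : F) * 2 = 0 := by rw [← this]; norm_num
    simpa using h1

theorem five_le_card [Fintype F] (h2 : (2 : F) ≠ 0) (h3 : Fintype.card F ≠ 3) :
    5 ≤ Fintype.card F := by
  have := Fintype.one_lt_card (α := F)
  have : ¬ (Fintype.card F = 2 ∨ Fintype.card F = 4) := fun h => h2 (two_eq_zero_of_card h)
  omega

namespace IsO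

variable (hO : Φ.IsO) [FiniteDimensional F V] [Fintype F] {W : Submodule F V} (hW : Φ.Good W)
include hO hW

omit [FiniteDimensional F V] in
theorem good_nonsing {x : V} (hx : x ∈ W) (hx0 : x ≠ 0) : ∃ w ∈ W, Φ.Q w ≠ 0 ∧ Φ.B x w ≠ 0 := by
  refine hO.exists_nonsing_ne hW.nd ?_ hx hx0
  rcases hW.two_le.lt_or_eq with h | h
  · exact Or.inl h
  · exact Or.inr ((hW.two h.symm).2.imp_right fun h =>
      Orth.exists_ne_zero_ne_one_of_card (by omega))

/-- If every non-singular vector lies in `A` or is perpendicular to `A`, then `A` is everything. -/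
theorem le_of_nonsing {A : Submodule F V} (hA : A ≤ W) {y : V} (hy : y ∈ A) (hy0 : Φ.Q y ≠ 0)
    (h : ∀ b ∈ W, Φ.Q b ≠ 0 → b ∈ A ∨ b ∈ Φ.perp A) : W ≤ A := by
  have hnd : Φ.ND A := fun x hx hx' => by
    by_contra hx0
    obtain ⟨w, hw, h1, h2⟩ := hO.good_nonsing hW (hA hx) hx0
    rcases h w hw h1 with h3 | h3
    exacts [h2 (hx' w h3), h2 (h3 x hx)]
  intro w hw
  by_contra hwA
  obtain ⟨a₀, ha₀, ha'⟩ := hnd.exists_decomp w
  set a' := w - a₀ with ha'def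
  have ha'W : a' ∈ W := W.sub_mem hw (hA ha₀)
  have ha'0 : a' ≠ 0 := fun e => hwA (by rw [sub_eq_zero.1 e]; exact ha₀)
  have key : ∀ a ∈ A, a ≠ 0 → ∀ b ∈ W, b ∈ Φ.perp A → b ≠ 0 → Φ.Q a = -Φ.Q b :=
    fun a ha ha0 b hb hb' hb0 => by
      by_contra hc
      rcases h (a + b) (W.add_mem (hA ha) hb) (by
        rw [Φ.Q_add_perp (hb' a ha)]; exact fun e => hc (by linear_combination e)) with h1 | h1
      · exact hb0 (Submodule.disjoint_def.1 hnd.isCompl.1 b ((A.add_mem_iff_right ha).1 h1) hb')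
      · exact ha0 (Submodule.disjoint_def.1 hnd.isCompl.1 a ha
          (((Φ.perp A).add_mem_iff_left hb').1 h1))
  have hy1 : y ≠ 0 := fun e => hy0 (by rw [e, Φ.Q_zero])
  have hA1 : ∀ a ∈ A, a ≠ 0 → Φ.Q a = Φ.Q y := fun a ha ha0 => by
    rw [key a ha ha0 a' ha'W ha' ha'0, key y hy hy1 a' ha'W ha' ha'0]
  have hA2 : ∀ b ∈ W ⊓ Φ.perp A, b ≠ 0 → Φ.Q b = -Φ.Q y := fun b hb hb0 => by
    rw [key y hy hy1 b hb.1 hb.2 hb0, neg_neg]
  have hnd' : Φ.ND (W ⊓ Φ.perp A) := fun x hx hx' => hW.nd x hx.1 fun z hz => by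
    obtain ⟨a, ha, ha1⟩ := hnd.exists_decomp z
    have := hx' _ ⟨W.sub_mem hz (hA ha), ha1⟩
    rwa [map_sub, Φ.perp_symm (hx.2 a ha), sub_zero] at this
  have hdim : finrank F A + finrank F ↥(W ⊓ Φ.perp A) = finrank F W := by
    have h1 := Submodule.finrank_sup_add_finrank_inf_eq A (W ⊓ Φ.perp A)
    rw [show A ⊓ (W ⊓ Φ.perp A) = ⊥ from eq_bot_iff.2 fun x hx =>
      Submodule.disjoint_def.1 hnd.isCompl.1 x hx.1 hx.2.2, finrank_bot, add_zero,
      show A ⊔ W ⊓ Φ.perp A = W from le_antisymm (sup_le hA inf_le_left) fun z hz => by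
        obtain ⟨a, ha, ha1⟩ := hnd.exists_decomp z
        exact Submodule.mem_sup.2 ⟨a, ha, z - a, ⟨W.sub_mem hz (hA ha), ha1⟩, by abel⟩] at h1
    exact h1.symm
  have hle : ∀ (X : Submodule F V) (c : F), c ≠ 0 → (∀ x ∈ X, x ≠ 0 → Φ.Q x = c) →
      finrank F X ≤ 2 := fun X c hc hX => by
    by_contra h1
    obtain ⟨v, hv, hv0, h2⟩ := Φ.iso X (by rw [hO.d]; omega)
    exact hc (by rw [← hX v hv hv0, h2])
  have hsq : ∀ t : F, t ≠ 0 → t * t = 1 := fun t ht => by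
    have := hA1 _ (A.smul_mem t hy) (smul_ne_zero ht hy1)
    rw [hO.Q_smul] at this
    exact mul_right_cancel₀ hy0 (by rw [this, one_mul])
  have hq : Fintype.card F ≤ 3 := by
    by_contra h1
    obtain ⟨t, h2, h3, h4⟩ := exists_ne_ne_ne (F := F) (by omega) 1 (-1)
    have : (t - 1) * (t + 1) = 0 := by linear_combination hsq t h2
    rcases mul_eq_zero.1 this with h5 | h5
    exacts [h3 (sub_eq_zero.1 h5), h4 (eq_neg_of_add_eq_zero_left h5)]
  have h1 := hle A _ hy0 hA1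
  have h2 := hle _ _ (neg_ne_zero.2 hy0) hA2
  have h3 := hW.two_le
  by_cases hc : (2 : F) = 0
  · have hq2 : Fintype.card F = 2 := by
      rcases card_cases (F := F) with h | h | h
      · exact h
      · exact absurd hc (two_ne_zero_of_odd (h ▸ (by decide : Odd 3)))
      · omega
    have hone : ∀ t : F, t ≠ 0 → t = 1 := fun t ht => by
      have : (t - 1) * (t - 1) = 0 := by linear_combination hsq t ht + (1 - t) * hc
      exact sub_eq_zero.1 (mul_self_eq_zero.1 this)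
    obtain ⟨y₂, hy₂, e1⟩ := hnd.exists_ne hy hy1
    obtain ⟨b₂, hb₂, e2⟩ := hnd'.exists_ne ⟨ha'W, ha'⟩ ha'0
    have hy₂0 : y₂ ≠ 0 := fun e => e1 (by simp [e])
    have hb₂0 : b₂ ≠ 0 := fun e => e2 (by simp [e])
    have hpair : ∀ (X : Submodule F V) (u v : V), u ∈ X → v ∈ X → Φ.B u v ≠ 0 → 2 ≤ finrank F X :=
      fun X u v hu hv huv => by
        have li : LinearIndependent F ![u, v] := by
          rw [LinearIndependent.pair_iff]
          intro s t e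
          have e3 := congrArg (Φ.B u) e
          have e4 := congrArg (Φ.B v) e
          simp only [Φ.bsimp, hO.B_self, hc, zero_mul, mul_zero, zero_add, add_zero, mul_eq_zero,
            huv, Φ.ne_symm huv, or_false] at e3 e4
          exact ⟨e4, e3⟩
        have := (finrank_span_eq_card li).symm.le.trans (Submodule.finrank_mono
          (show _ ≤ X from Submodule.span_le.2 (by
            rintro _ ⟨i, rfl⟩
            fin_cases i
            exacts [hu, hv])))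
        simpa using this
    have h4 := hpair A y y₂ hy hy₂ e1
    have h5 := hpair (W ⊓ Φ.perp A) a' b₂ ⟨ha'W, ha'⟩ hb₂ e2
    have hs1 : Φ.Q (y + a') = 0 := by
      rw [Φ.Q_add_perp (ha' y hy), hA2 a' ⟨ha'W, ha'⟩ ha'0, add_neg_cancel]
    have hs2 : Φ.Q (y₂ + b₂) = 0 := by
      rw [Φ.Q_add_perp (hb₂.2 y₂ hy₂), hA2 b₂ hb₂ hb₂0, hA1 y₂ hy₂ hy₂0, add_neg_cancel]
    have hs3 : Φ.B (y + a') (y₂ + b₂) = 0 := by
      simp only [Φ.bsimp, hb₂.2 y hy, Φ.perp_symm (ha' y₂ hy₂), hone _ e1, hone _ e2]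
      linear_combination hc
    refine hW.four (by omega) hq2 (Submodule.span F {y + a', y₂ + b₂}) (Submodule.span_le.2 ?_)
      (ts_span ?_ ?_) ?_
    · rintro _ (rfl | rfl)
      exacts [W.add_mem (hA hy) ha'W, W.add_mem (hA hy₂) hb₂.1]
    · rintro _ (rfl | rfl)
      exacts [hs1, hs2]
    · rintro _ (rfl | rfl) _ (rfl | rfl)
      exacts [Φ.B_self hs1, hs3, Φ.perp_symm hs3, Φ.B_self hs2]
    · have li : LinearIndependent F ![y + a', y₂ + b₂] := by
        rw [LinearIndependent.pair_iff]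
        intro s t e
        have e3 := congrArg (Φ.B y) e
        have e4 := congrArg (Φ.B y₂) e
        simp only [Φ.bsimp, hO.B_self, hc, zero_mul, mul_zero, zero_add, add_zero, mul_eq_zero,
          e1, Φ.ne_symm e1, or_false, ha' y hy, ha' y₂ hy₂, hb₂.2 y hy, hb₂.2 y₂ hy₂] at e3 e4
        exact ⟨e4, e3⟩
      have e3 := finrank_span_eq_card li
      rw [Matrix.range_cons, Matrix.range_cons, Matrix.range_empty, Set.union_empty,
        Set.singleton_union] at e3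
      simpa using e3
  · have hone : ∀ (X : Submodule F V) (c : F), c ≠ 0 → Φ.ND X → (∀ x ∈ X, x ≠ 0 → Φ.Q x = c) →
        finrank F X ≤ 1 := fun X c hc0 hX hX' => by
      by_contra h4
      obtain ⟨v, hv, e⟩ := hO.rep hX (by omega) (-c)
      have := hX' v hv fun e' => hc0 (by rw [e', Φ.Q_zero] at e; simpa using e)
      exact hc (mul_right_cancel₀ hc0 (by linear_combination e - this))
    have h4 := hone A _ hy0 hnd hA1
    have h5 := hone _ _ (neg_ne_zero.2 hy0) hnd' hA2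
    have := five_le_card hc (hW.two (by omega)).1
    omega

theorem exists_aux (h2 : (2 : F) ≠ 0) {y : V} (hy : y ∈ W) (hy0 : Φ.Q y ≠ 0) :
    ∃ z ∈ W, z ≠ 0 ∧ Φ.B y z = 0 ∧ Φ.Q z ≠ Φ.Q y ∧ Φ.Q y + Φ.Q z ≠ 0 := by
  classical
  have h1 := finrank_le_inf_ker W (Φ.B y)
  have hy1 : y ≠ 0 := fun e => hy0 (by rw [e, Φ.Q_zero])
  by_cases hs : ∃ z ∈ W ⊓ LinearMap.ker (Φ.B y), z ≠ 0 ∧ Φ.Q z = 0
  · obtain ⟨z, hz, hz0, h⟩ := hs
    exact ⟨z, hz.1, hz0, hz.2, by rw [h]; exact hy0.symm, by rwa [h, add_zero]⟩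
  push Not at hs
  have h3 : finrank F ↥(W ⊓ LinearMap.ker (Φ.B y)) ≤ 2 := by
    by_contra h3
    obtain ⟨v, hv, hv0, h4⟩ := Φ.iso (W ⊓ LinearMap.ker (Φ.B y)) (by rw [hO.d]; omega)
    exact hs v hv hv0 h4
  rcases hW.two_le.lt_or_eq with h | h
  · have h4 := hW.three (by omega)
    obtain ⟨c, hc⟩ := exists_notMem_finset ({0, Φ.Q y, -Φ.Q y} : Finset F)
      (lt_of_le_of_lt Finset.card_le_three (by omega))
    simp only [Finset.mem_insert, Finset.mem_singleton, not_or] at hc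
    obtain ⟨z, hz, e⟩ := hO.rep (P := W ⊓ LinearMap.ker (Φ.B y)) (fun x hx hx' => by
      by_contra hx0
      exact mul_ne_zero h2 (hs x hx hx0) (hO.B_self x ▸ hx' x hx)) (by omega) c
    exact ⟨z, hz.1, fun e' => hc.1 (by rw [← e, e', Φ.Q_zero]), hz.2, e ▸ hc.2.1,
      fun e' => hc.2.2 (by linear_combination e' - e)⟩
  obtain ⟨z, hz, hz0⟩ := Submodule.exists_mem_ne_zero_of_ne_bot
    (p := W ⊓ LinearMap.ker (Φ.B y)) (fun e => by rw [e, finrank_bot] at h1; omega)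
  have hz1 := hs z hz hz0
  have hyz : Φ.B y z = 0 := hz.2
  obtain ⟨h3, h4⟩ := hW.two h.symm
  have h5 := five_le_card h2 h3
  obtain ⟨t, ht0, ht1, ht2⟩ : ∃ t : F, t ≠ 0 ∧ t * t * Φ.Q z ≠ Φ.Q y ∧
      Φ.Q y + t * t * Φ.Q z ≠ 0 := by
    rcases h4 with h4 | h4
    · obtain ⟨t, ht⟩ := exists_eval_ne_zero
        (Polynomial.X * (Polynomial.X * Polynomial.X * Polynomial.C (Φ.Q z) - Polynomial.C (Φ.Q y)))
        (mul_ne_zero Polynomial.X_ne_zero fun e => hy0 (by simpa using congrArg (Polynomial.eval 0) e))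
        (lt_of_le_of_lt (show _ ≤ 3 by compute_degree) (by omega))
      simp only [Polynomial.eval_mul, Polynomial.eval_X, Polynomial.eval_sub, Polynomial.eval_C,
        mul_ne_zero_iff, sub_ne_zero] at ht
      refine ⟨t, ht.1, ht.2, fun e => ?_⟩
      have := h4 (y + t • z) (W.add_mem hy (W.smul_mem t hz.1)) (by
        rw [Φ.Q_add_perp (by simp [hyz]), hO.Q_smul, e])
      have h6 := congrArg (Φ.B y) this
      simp [hyz, hO.B_self, h2, hy0] at h6
    · obtain ⟨t, ht⟩ := exists_eval_ne_zero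
        (Polynomial.X * (Polynomial.X * Polynomial.X * Polynomial.C (Φ.Q z) - Polynomial.C (Φ.Q y)) *
          (Polynomial.C (Φ.Q y) + Polynomial.X * Polynomial.X * Polynomial.C (Φ.Q z)))
        (mul_ne_zero (mul_ne_zero Polynomial.X_ne_zero fun e =>
          hy0 (by simpa using congrArg (Polynomial.eval 0) e)) fun e =>
          hy0 (by simpa using congrArg (Polynomial.eval 0) e))
        (lt_of_le_of_lt (show _ ≤ 5 by compute_degree) (by omega))
      simp only [Polynomial.eval_mul, Polynomial.eval_X, Polynomial.eval_sub, Polynomial.eval_C,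
        Polynomial.eval_add, mul_ne_zero_iff, sub_ne_zero] at ht
      exact ⟨t, ht.1.1, ht.1.2, ht.2⟩
  exact ⟨t • z, W.smul_mem t hz.1, smul_ne_zero ht0 hz0, by simp [hyz], by rwa [hO.Q_smul],
    by rwa [hO.Q_smul]⟩

/-- A vector of the same norm, neither proportional nor perpendicular. -/
theorem exists_nbr {y : V} (hy : y ∈ W) (hy0 : Φ.Q y ≠ 0) :
    ∃ y' ∈ W, Φ.Q y' = Φ.Q y ∧ Φ.B y y' ≠ 0 ∧ ∀ t : F, y' ≠ t • y := by
  have key : ∀ b ∈ W, Φ.Q b ≠ 0 → Φ.B b y ≠ 0 → (∀ t : F, b ≠ t • y) →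
      2 * Φ.Q y * Φ.Q b ≠ Φ.B b y * Φ.B b y →
      ∃ y' ∈ W, Φ.Q y' = Φ.Q y ∧ Φ.B y y' ≠ 0 ∧ ∀ t : F, y' ≠ t • y := fun b hb h1 h2 h3 h4 => by
    refine ⟨hO.r b y, supp_apply (hO.r_mem_supp hb) hy, hO.Q_r b y, fun e => h4 ?_, fun t e => ?_⟩
    · rw [r_apply, map_sub, Φ.B_smul_right, hO.B_self, hO.symm b y] at e
      field_simp at e
      linear_combination e
    · refine h3 (((Φ.Q b)⁻¹ * Φ.B b y)⁻¹ * (1 - t)) ?_
      rw [mul_smul, sub_smul, one_smul, ← e, r_apply, sub_sub_cancel, smul_smul,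
        inv_mul_cancel₀ (mul_ne_zero (inv_ne_zero h1) h2), one_smul]
  by_cases h2 : (2 : F) = 0
  · obtain ⟨b, hb, h3, h4⟩ := hO.good_nonsing hW hy fun e => hy0 (by rw [e, Φ.Q_zero])
    refine key b hb h3 (Φ.ne_symm h4) (fun t e => h4 ?_) ?_
    · simp [e, hO.B_self, h2]
    · simpa [h2] using Φ.ne_symm h4
  · obtain ⟨z, hz, hz0, h3, h4, h5⟩ := hO.exists_aux hW h2 hy hy0
    have h6 : Φ.B (y + z) y = 2 * Φ.Q y := by
      rw [Φ.B_add_left, Φ.perp_symm h3, add_zero, hO.B_self]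
    refine key (y + z) (W.add_mem hy hz) (by rwa [Φ.Q_add_perp h3]) (by rw [h6]; exact mul_ne_zero h2 hy0)
      (fun t e => hz0 ?_) fun e => h4 ?_
    · have h7 := h6
      rw [e, hO.B_smul_left, hO.B_self] at h7
      rw [mul_right_cancel₀ (mul_ne_zero h2 hy0) (h7.trans (one_mul _).symm), one_smul] at e
      simpa using e
    · rw [h6, Φ.Q_add_perp h3] at e
      exact mul_left_cancel₀ (mul_ne_zero h2 hy0) (by linear_combination e)

/-- The vectors of a given norm cannot be split into two perpendicular parts. -/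
theorem le_of_norm {X Y : Submodule F V} (hXY : ∀ x ∈ X, ∀ y ∈ Y, Φ.B x y = 0)
    (hd : ∀ x ∈ X, x ∈ Y → x = 0) {y : V} (hy : y ∈ W) (hyX : y ∈ X) (hy0 : Φ.Q y ≠ 0)
    (h : ∀ u ∈ W, Φ.Q u = Φ.Q y → u ∈ X ∨ u ∈ Y) : W ≤ X := by
  let S : Set V := {u | u ∈ W ∧ u ∈ X ∧ Φ.Q u = Φ.Q y}
  have h1 : Submodule.span F S ≤ X := Submodule.span_le.2 fun u hu => hu.2.1
  refine (hO.le_of_nonsing hW (Submodule.span_le.2 fun u hu => hu.1)
    (Submodule.subset_span (show y ∈ S from ⟨hy, hyX, rfl⟩)) hy0 fun b hb hb0 => ?_).trans h1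
  by_contra hc
  push Not at hc
  obtain ⟨u, hu, hbu⟩ : ∃ u ∈ S, Φ.B b u ≠ 0 := by
    by_contra h2
    push Not at h2
    exact hc.2 fun x hx => Φ.perp_symm
      ((Submodule.span_le.2 h2 : Submodule.span F S ≤ LinearMap.ker (Φ.B b)) hx)
  have hsub : ∀ u, Φ.B b u ≠ 0 → ∀ Z : Submodule F V, u ∈ Z → hO.r b u ∈ Z → b ∈ Z :=
    fun u hbu Z h2 h3 => by
      rw [r_apply, Z.sub_mem_iff_right h2] at h3
      exact (Z.smul_mem_iff (mul_ne_zero (inv_ne_zero hb0) hbu)).1 h3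
  have hnX : ∀ u ∈ S, Φ.B b u ≠ 0 → hO.r b u ∈ Y := fun u hu hbu =>
    (h _ (supp_apply (hO.r_mem_supp hb) hu.1) (by rw [hO.Q_r, hu.2.2])).resolve_left fun h2 =>
      hc.1 (hsub u hbu _ (Submodule.subset_span hu) (Submodule.subset_span
        (show _ ∈ S from ⟨supp_apply (hO.r_mem_supp hb) hu.1, h2, by rw [hO.Q_r, hu.2.2]⟩)))
  obtain ⟨u', hu', e1, e2, e3⟩ := hO.exists_nbr hW hu.1 (hu.2.2 ▸ hy0)
  have hu'S : u' ∈ S := ⟨hu', (h u' hu' (e1.trans hu.2.2)).resolve_right fun h2 =>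
    e2 (hXY u hu.2.1 u' h2), e1.trans hu.2.2⟩
  have h2 := hnX u hu hbu
  have h3 : Φ.B b u' ≠ 0 := fun h3 => e2 (by
    have := hXY u' hu'S.2.1 _ h2
    rw [r_apply, map_sub, Φ.B_smul_right, Φ.perp_symm h3, mul_zero, sub_zero] at this
    exact Φ.perp_symm this)
  have h4 := hnX u' hu'S h3
  have h5 : u' - (Φ.B b u' / Φ.B b u) • u = hO.r b u' - (Φ.B b u' / Φ.B b u) • hO.r b u := by
    simp only [r_apply]
    match_scalars <;> field_simp
    ring
  exact e3 _ (sub_eq_zero.1 (hd _ (X.sub_mem hu'S.2.1 (X.smul_mem _ hu.2.1))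
    (h5 ▸ Y.sub_mem h4 (Y.smul_mem _ h2))))

theorem le_of_norm_mem {X : Submodule F V} {c : F} (hc : c ≠ 0)
    (h : ∀ u ∈ W, Φ.Q u = c → u ∈ X) : W ≤ X := by
  obtain ⟨y, hy, rfl⟩ := hO.rep hW.nd hW.two_le c
  exact hO.le_of_norm hW (Y := ⊥) (fun x _ z hz => by rw [(Submodule.mem_bot F).1 hz, map_zero])
    (fun _ _ h => h) hy (h y hy rfl) hc fun u hu e => Or.inl (h u hu e)

end IsO

end Fm

end Cfsg.Agent.Class.Max
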