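import Mathlib
import Cfsg.Agent.Class.Max.C2O1
import Cfsg.Agent.Class.Max.C2Mon2

/-!
Class `C₂` for orthogonal groups: the reflection classes of an overgroup; blocks of dimension at
least three and hyperbolic planes.
-/

set_option autoImplicit false

namespace Cfsg.Agent.Class.Max

open Module

variable {F V : Type*} [Field F] [AddCommGroup V] [Module F V] {ι : Type*}

theorem exists_sq_ne_one' [Fintype F] (h : 4 ≤ Fintype.card F) : ∃ a : F, a ≠ 0 ∧ a * a ≠ 1 := by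
  obtain ⟨t, h0, h1, h2⟩ := exists_ne_ne_ne (F := F) h 1 (-1)
  exact ⟨t, h0, fun e => (mul_self_eq_one_iff.1 e).elim h1 h2⟩

theorem exists_third [Fintype ι] (h : 3 ≤ Fintype.card ι) (i j : ι) : ∃ m, m ≠ i ∧ m ≠ j := by
  classical
  simpa using exists_ne_list [i, j] h

theorem exists_fourth [Fintype ι] (h : 4 ≤ Fintype.card ι) (i j k : ι) :
    ∃ m, m ≠ i ∧ m ≠ j ∧ m ≠ k := by
  classical
  simpa using exists_ne_list [i, j, k] h

theorem exists_fifth [Fintype ι] (h : 5 ≤ Fintype.card ι) (i j k l : ι) :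
    ∃ m, m ≠ i ∧ m ≠ j ∧ m ≠ k ∧ m ≠ l := by
  classical
  simpa using exists_ne_list [i, j, k, l] h

theorem exists_pair_eq [FiniteDimensional F V] {W : Submodule F V} (h2 : finrank F W = 2) {x y : V}
    (hx : x ∈ W) (hy : y ∈ W) (h : ∀ s t : F, s • x + t • y = 0 → s = 0 ∧ t = 0) {w : V}
    (hw : w ∈ W) : ∃ a b : F, a • x + b • y = w := by
  have e3 := finrank_span_eq_card (LinearIndependent.pair_iff.2 h)
  rw [Matrix.range_cons, Matrix.range_cons, Matrix.range_empty, Set.union_empty,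
    Set.singleton_union] at e3
  have : Submodule.span F {x, y} = W := Submodule.eq_of_le_of_finrank_le
    (Submodule.span_le.2 (by rintro _ (rfl | rfl); exacts [hx, hy])) (by rw [e3, h2]; simp)
  exact Submodule.mem_span_pair.1 (this ▸ hw)

namespace Fm

variable {Φ : Fm F V} {D : ι → Submodule F V} {M : Subgroup (V ≃ₗ[F] V)}

theorem ND.plane_perp [FiniteDimensional F V] {W : Submodule F V} (hW : Φ.ND W)
    (h2 : finrank F W = 2) {n x y : V} (hn : n ∈ W) (hn0 : n ≠ 0) (hx : x ∈ W) (hx0 : x ≠ 0)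
    (hy : y ∈ W) (h1 : Φ.B n x = 0) (h3 : Φ.B n y = 0) : ∃ t : F, y = t • x := by
  by_contra hc
  push Not at hc
  refine hn0 (hW n hn fun w hw => ?_)
  obtain ⟨a, b, rfl⟩ := exists_pair_eq h2 hx hy (fun s t e => by
    by_cases ht : t = 0
    · rw [ht, zero_smul, add_zero, smul_eq_zero] at e
      exact ⟨e.resolve_right hx0, ht⟩
    · refine absurd ?_ (hc (-(t⁻¹ * s)))
      rw [neg_smul, mul_smul, eq_neg_of_add_eq_zero_left e, smul_neg, neg_neg, smul_smul,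
        inv_mul_cancel₀ ht, one_smul]) hw
  simp [h1, h3]

theorem ND.inf_one {W : Submodule F V} (hW : Φ.ND W) {z : V} (hz : z ∈ W) (h : Φ.B z z ≠ 0) :
    Φ.ND (W ⊓ LinearMap.ker (Φ.B z)) := by
  rintro x ⟨hx, h1⟩ h3
  refine hW x hx fun y hy => ?_
  have := h3 (y - (Φ.B z y / Φ.B z z) • z) ⟨W.sub_mem hy (W.smul_mem _ hz), by simp [h]⟩
  simpa [Φ.perp_symm h1] using this

theorem ND.inf_two {W : Submodule F V} (hW : Φ.ND W) {z y : V} (hz : z ∈ W) (hy : y ∈ W)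
    (h : Φ.B z z = 0) (h' : Φ.B z y ≠ 0) :
    Φ.ND (W ⊓ LinearMap.ker (Φ.B z) ⊓ LinearMap.ker (Φ.B y)) := by
  rintro x ⟨⟨hx, h1⟩, h2⟩ h3
  refine hW x hx fun w hw => ?_
  have := h3 (w - (Φ.B z w / Φ.B z y) • y -
      (Φ.B y (w - (Φ.B z w / Φ.B z y) • y) / Φ.B y z) • z)
    ⟨⟨W.sub_mem (W.sub_mem hw (W.smul_mem _ hy)) (W.smul_mem _ hz), by simp [h, h']⟩, 
      LinearMap.mem_ker.2 (by
        rw [map_sub, Φ.B_smul_right, div_mul_cancel₀ _ (Φ.ne_symm h'), sub_self])⟩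
  simpa [Φ.perp_symm h1, Φ.perp_symm h2] using this

variable (Φ D M) in
/-- An overgroup of the stabiliser of an orthogonal decomposition. -/
structure OBase : Prop where
  o : Φ.IsO
  dec : Φ.ODec D
  five : 5 ≤ finrank F V
  le : Φ.HE D ≤ M
  iso : M ≤ Φ.Iso

variable (Φ D M) in
/-- The same, with blocks of dimension at least two. -/
structure OSet [Fintype F] [Fintype ι] : Prop extends Φ.OBase D M where
  good : ∀ i, Φ.Good (D i)
  big : 3 ≤ Fintype.card ι ∨ ∀ i, 5 ≤ finrank F (D i)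
  pl : ∀ i, finrank F (D i) = 2 → 5 ≤ Fintype.card ι

namespace OBase

variable [FiniteDimensional F V] [Fintype ι] (h : Φ.OBase D M)

theorem r_mem_HI {i : ι} {u : V} (hu : u ∈ D i) : h.o.r u ∈ Φ.HI D :=
  h.dec.supp_le le_rfl (h.o.r_mem_supp hu)

theorem rr_mem {i j : ι} {u v : V} (hu : u ∈ D i) (hv : v ∈ D j) (h0 : Φ.Q u ≠ 0)
    (e : Φ.Q v = Φ.Q u) : h.o.r u * h.o.r v ∈ Φ.HE D :=
  ⟨(dstab D).mul_mem (h.r_mem_HI hu).1 (h.r_mem_HI hv).1, h.o.r_mul_r_mem h.five h0 e⟩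

omit [FiniteDimensional F V] [Fintype ι] in
/-- The vectors whose reflection is congruent modulo `M` to a reflection in a block. -/
def Cls (c : F) (x : V) : Prop :=
  Φ.Q x = c ∧ ∃ i, ∃ u ∈ D i, Φ.Q u = c ∧ h.o.r x * h.o.r u ∈ M

omit [FiniteDimensional F V] [Fintype ι] in
/-- The whole orbit under the stabiliser of the decomposition lies in the class. -/
def Fl (c : F) (a : V) : Prop := ∀ g ∈ Φ.HI D, h.Cls c (g a)

omit [FiniteDimensional F V] [Fintype ι] in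
theorem cls_of_mem {i : ι} {u : V} (hu : u ∈ D i) : h.Cls (Φ.Q u) u :=
  ⟨rfl, i, u, hu, rfl, by rw [h.o.r_mul_self]; exact M.one_mem⟩

variable {h} {c : F} (hc : c ≠ 0)

omit [FiniteDimensional F V] [Fintype ι] in
theorem Cls.of_rr {x y : V} (hy : h.Cls c y) (hx : Φ.Q x = c) (e : h.o.r x * h.o.r y ∈ M) :
    h.Cls c x := by
  obtain ⟨-, i, u, hu, h1, h2⟩ := hy
  refine ⟨hx, i, u, hu, h1, ?_⟩
  have := M.mul_mem e h2
  rwa [mul_assoc, ← mul_assoc (h.o.r y), h.o.r_mul_self, one_mul] at this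

omit [FiniteDimensional F V] [Fintype ι] in
theorem Fl.cls {a : V} (ha : h.Fl c a) : h.Cls c a := ha 1 (Subgroup.one_mem _)

omit [FiniteDimensional F V] [Fintype ι] in
theorem Fl.map {a : V} (ha : h.Fl c a) {g : V ≃ₗ[F] V} (hg : g ∈ Φ.HI D) : h.Fl c (g a) :=
  fun k hk => ha (k * g) (Subgroup.mul_mem _ hk hg)

theorem Fl.mv {a d : V} (ha : h.Fl c a) {i : ι} (hi : Φ.Q (h.dec.pr i a) ≠ 0) (hd : d ∈ D i)
    (e : Φ.Q d = Φ.B d a) : h.Fl c (a - d) := by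
  have h1 : Φ.Q (h.dec.pr i a - d) = Φ.Q (h.dec.pr i a) := by
    rw [h.o.Q_sub, h.o.symm, h.dec.B_pr hd, e]; ring
  obtain ⟨g, hg, e1⟩ := (h.dec.nd i).exists_supp_move (h.dec.pr_mem i a)
    ((D i).sub_mem (h.dec.pr_mem i a) hd) (fun e => hi (by rw [e, Φ.Q_zero]))
    (fun e => hi (by rw [← h1, e, Φ.Q_zero])) h1
  have := ha.map (h.dec.supp_le le_rfl hg)
  have h2 := supp_fix hg (h.dec.sub_pr_mem i a)
  rw [map_sub, e1, sub_eq_iff_eq_add] at h2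
  rwa [h2, show a - h.dec.pr i a + (h.dec.pr i a - d) = a - d by abel] at this

include hc

theorem Cls.rr {x y : V} (hx : h.Cls c x) (hy : h.Cls c y) : h.o.r x * h.o.r y ∈ M := by
  obtain ⟨-, i, u, hu, h1, h2⟩ := hx
  obtain ⟨-, j, v, hv, h3, h4⟩ := hy
  have := M.mul_mem (M.mul_mem h2 (h.le (h.rr_mem hu hv (h1 ▸ hc) (h3.trans h1.symm))))
    (M.inv_mem h4)
  rwa [mul_inv_rev, h.o.r_inv, h.o.r_inv, mul_assoc, mul_assoc, mul_assoc,
    ← mul_assoc (h.o.r u), h.o.r_mul_self, one_mul, ← mul_assoc (h.o.r v), h.o.r_mul_self,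
    one_mul] at this

theorem Cls.map {g : V ≃ₗ[F] V} (hg : g ∈ M) {x y : V} (hy : h.Cls c y) (hgy : h.Cls c (g y))
    (hx : h.Cls c x) : h.Cls c (g x) := by
  refine hgy.of_rr (by rw [Iso.Q (h.iso hg), hx.1]) ?_
  have := M.mul_mem (M.mul_mem hg (hx.rr hc hy)) (M.inv_mem hg)
  rw [← h.o.conj_r (h.iso hg), ← h.o.conj_r (h.iso hg)]
  convert this using 1
  group

theorem Cls.he {g : V ≃ₗ[F] V} (hg : g ∈ Φ.HE D) {x : V} (hx : h.Cls c x) : h.Cls c (g x) := by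
  obtain ⟨-, i, u, hu, h1, -⟩ := id hx
  obtain ⟨j, hj⟩ := dstab_apply hg.1 i
  refine Cls.map hc (h.le hg) (h1 ▸ h.cls_of_mem hu) ?_ hx
  have := h.cls_of_mem (hj u hu)
  rwa [Iso.Q (HE_le_HI hg).2, h1] at this

theorem Cls.r {b x : V} (hb : h.Cls c b) (hx : h.Cls c x) : h.Cls c (h.o.r b x) := by
  refine hb.of_rr (by rw [h.o.Q_r, hx.1]) ?_
  rw [← h.o.conj_r (h.o.r_mem_Iso b), h.o.r_inv, mul_assoc, h.o.r_mul_self, mul_one]
  exact hb.rr hc hx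

theorem Cls.sub' {b x : V} (hb : h.Cls c b) (hx : h.Cls c x) {β : F} (e : Φ.B b x = β * c) :
    h.Cls c (x - β • b) := by
  have := hb.r hc hx
  rwa [h.o.r_apply, hb.1, e, mul_comm β, inv_mul_cancel_left₀ hc] at this

theorem Cls.sub {b x : V} (hb : h.Cls c b) (hx : h.Cls c x) {β : F}
    (e : Φ.Q (x - b) = (2 - β) * c) : h.Cls c (x - β • b) := by
  refine hb.sub' hc hx ?_
  rw [h.o.Q_sub, hx.1, hb.1, h.o.symm] at e
  linear_combination -e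

theorem fl_of_cov {K : Subgroup (V ≃ₗ[F] V)} (hK : K ≤ Φ.HI D) (hK' : Φ.Cov K) {a : V}
    (ha : ∀ k ∈ K, h.Cls c (k a)) : h.Fl c a := fun g hg => by
  obtain ⟨k, hk, e⟩ := hK' g hg.2
  have := (ha _ (K.inv_mem hk)).he hc ⟨(dstab D).mul_mem hg.1 (hK hk).1, e⟩
  rwa [mul_app, app_inv_app] at this

theorem Cls.inA {a v : V} (ha : h.Cls c a) (hv : Φ.Q v = 0) (hav : h.Cls c (a - v)) :
    Φ.InA M v (-c⁻¹ • a) := by
  have h1 := hav.1
  rw [h.o.Q_sub, ha.1, hv, h.o.symm] at h1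
  have := h.o.inA_of_r (ha.1 ▸ hc) hv (by linear_combination -h1) (ha.rr hc hav)
  rwa [ha.1] at this

variable [Fintype F]

theorem Cls.fl_of_supp {P : Submodule F V} {i : ι} (hP : P ≤ D i) (hP1 : Φ.ND P)
    (hP2 : 2 ≤ finrank F P) {a : V} (ha : h.Cls c a) (hi : a ∈ Φ.perp P) : h.Fl c a :=
  fl_of_cov hc (h.dec.supp_le hP) (h.o.cov_supp h.five hP1 hP2) fun k hk => by
    rwa [supp_fix hk hi]

theorem Cls.fl_of_two (h2 : (2 : F) = 0) {a : V} (ha : h.Cls c a) : h.Fl c a := by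
  let K : Subgroup (V ≃ₗ[F] V) :=
    { carrier := {g | g ∈ Φ.HI D ∧ ∀ x, h.Cls c x ↔ h.Cls c (g x)}
      mul_mem' := fun ha hb => ⟨Subgroup.mul_mem _ ha.1 hb.1, fun x => (hb.2 x).trans (ha.2 _)⟩
      one_mem' := ⟨Subgroup.one_mem _, fun _ => Iff.rfl⟩
      inv_mem' := fun {g} hg => ⟨Subgroup.inv_mem _ hg.1, fun x => by
        rw [hg.2 (g⁻¹ x), app_inv_app]⟩ }
  obtain ⟨-, i, u, hu, h1, -⟩ := id ha
  have h3 : h.Cls c u := h1 ▸ h.cls_of_mem hu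
  refine fl_of_cov hc (K := K) (fun g hg => hg.1) (h.o.cov_of_r h.five (fun g hg => hg.1.2)
    fun c' hc' => ?_) fun k hk => (hk.2 a).1 ha
  obtain ⟨t, ht⟩ := exists_sq_of_two_eq_zero h2 (c' / c)
  refine ⟨t • u, by rw [h.o.Q_smul, ht, h1, div_mul_cancel₀ _ hc], ?_⟩
  rw [h.o.r_smul (fun e => div_ne_zero hc' hc (by rw [← ht, e, mul_zero]))]
  exact ⟨h.r_mem_HI hu, fun x => ⟨h3.r hc, fun hx => h.o.r_r u x ▸ h3.r hc hx⟩⟩

theorem Cls.fl_of_classes {a : V} (ha : h.Cls c a) {i j : ι} {n n' : V} (hn : n ∈ D i)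
    (hn' : n' ∈ D j) (h0 : Φ.Q n ≠ 0) (h0' : Φ.Q n' ≠ 0) (e : Φ.B n a = 0) (e' : Φ.B n' a = 0)
    (hs : ¬ IsSquare (Φ.Q n * Φ.Q n')) : h.Fl c a := by
  refine fl_of_cov hc (K := Φ.HI D ⊓ fixing {a}) inf_le_left (h.o.cov_of_r h.five
    (fun g hg => hg.1.2) fun c' hc' => ?_) fun k hk => by rwa [hk.2 a rfl]
  have key : ∀ i, ∀ n ∈ D i, Φ.Q n ≠ 0 → Φ.B n a = 0 → IsSquare (c' * Φ.Q n) →
      ∃ b, Φ.Q b = c' ∧ h.o.r b ∈ Φ.HI D ⊓ fixing {a} := fun i n hn h0 e ⟨s, hs⟩ =>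
    ⟨(s / Φ.Q n) • n, by rw [h.o.Q_smul]; field_simp; linear_combination -hs,
      h.r_mem_HI ((D i).smul_mem _ hn), fun x hx => h.o.r_of_perp (by simp [show x = a from hx, e])⟩
  rcases isSquare_mul_or hc' h0 h0' with h1 | h1 | h1
  exacts [key i n hn h0 e h1, key j n' hn' h0' e' h1, absurd h1 hs]

end OBase

namespace OSet

variable [FiniteDimensional F V] [Fintype F] [Fintype ι] (h : Φ.OSet D M)
include h

omit [FiniteDimensional F V] in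
theorem seven_le {i : ι} {e : V} (he : e ∈ D i) (he0 : Φ.Q e = 0) (he1 : e ≠ 0) {j : ι}
    (h2 : finrank F (D j) = 2) : 7 ≤ Fintype.card F := by
  obtain ⟨s, hs, h3, h4⟩ := h.dec.exists_sing he he0 he1 j
  exact ((h.good j).two h2).2.resolve_left fun h5 => h4 (h5 s hs h3)

theorem cov (m : ι) : Φ.Cov (Φ.supp (D m)) := h.o.cov_supp h.five (h.dec.nd m) (h.good m).two_le

theorem cv (m : ι) : Φ.Cv D (Φ.perp (D m)) := h.dec.cv_of_supp le_rfl (h.cov m) fun _ hx => hx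

theorem EG_le_of_inA {i : ι} {e w : V} (he : e ∈ D i) (he0 : Φ.Q e = 0) (he1 : e ≠ 0)
    (hw : Φ.InA M e w) (hw' : w ∉ D i) : Φ.EG ≤ M := by
  refine h.dec.EG_le_of_inA (h.o.comm h.five) (by simpa only [h.o.σ] using exists_sq_sub_sq)
    (fun j => ?_) (fun j => ?_) h.le h.iso he he0 he1 (fun j hj => ?_) hw hw'
  · rcases (h.good j).two_le.lt_or_eq with h1 | h1
    · exact Or.inr (Or.inr h1)
    · simpa only [h.o.σ] using
        Or.inl (exists_sq_ne_one' (le_trans (by norm_num) (h.seven_le he he0 he1 h1.symm)))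
  · by_cases h1 : finrank F (D j) = 2
    · exact Or.inr (Or.inr (Or.inr
        (exists_ne_ne_ne (le_trans (by norm_num) (h.seven_le he he0 he1 h1)))))
    · exact Or.inr (Or.inl h1)
  · rcases h.big with h1 | h1
    · obtain ⟨m, h2, h3⟩ := exists_third h1 i j
      refine (h.cv m).mono ?_
      rintro x (rfl | hx)
      exacts [h.dec.le_perp h2 he, h.dec.le_perp h3 hx]
    · obtain ⟨f, hf, hf0, hef⟩ := exists_partner he he0 ((h.dec.nd i).exists_ne he he1)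
      have h2 := finrank_le_inf_ker₂ (D i) (Φ.B e) (Φ.B f)
      have h3 := h1 i
      refine h.dec.cv_of_supp (inf_le_left.trans inf_le_left) (h.o.cov_supp h.five
        ((h.dec.nd i).inf_hyp he hf he0 hf0 hef) (by omega)) ?_
      rintro x (rfl | hx) y hy
      exacts [Φ.perp_symm hy.1.2, h.dec.perp i j hj.symm y hy.1.1 x hx]

variable {c : F} (hc : c ≠ 0)
include hc

theorem fl_of_zero {a : V} (ha : h.Cls c a) {m : ι} (hm : h.dec.pr m a = 0) : h.Fl c a :=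
  ha.fl_of_supp hc le_rfl (h.dec.nd m) (h.good m).two_le (h.dec.pr_eq_zero_iff.1 hm)

theorem EG_le_of_sub {a v : V} (ha : h.Cls c a) {i : ι} (hv : v ∈ D i) (hv0 : Φ.Q v = 0)
    (hv1 : v ≠ 0) (hav : h.Cls c (a - v)) (hi : a ∉ D i) : Φ.EG ≤ M :=
  h.EG_le_of_inA hv hv0 hv1 (ha.inA hc hv0 hav)
    fun e => hi (((D i).smul_mem_iff (neg_ne_zero.2 (inv_ne_zero hc))).1 e)

/-- A singular component. -/
theorem EG_le_of_sing (h4 : 4 ≤ Fintype.card F) {a : V} (ha : h.Cls c a) {i : ι}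
    (h0 : Φ.Q (h.dec.pr i a) = 0) (h1 : h.dec.pr i a ≠ 0) : Φ.EG ≤ M := by
  have he := h.dec.pr_mem i a
  obtain ⟨f, hf, hf0, hef⟩ := exists_partner he h0 ((h.dec.nd i).exists_ne he h1)
  obtain ⟨s, hs, hs'⟩ := exists_sq_ne_one' h4
  obtain ⟨g, hg, ht⟩ := (h.o.comm h.five).exists_isTor h0 hf0 hef hs
  have h2 := ht.mem_supp he hf
  have h3 := ha.he hc ⟨(h.dec.supp_le le_rfl h2).1, hg⟩
  have h5 := supp_fix h2 (h.dec.sub_pr_mem i a)
  rw [map_sub, ht.fst, sub_eq_iff_eq_add, h.o.σ] at h5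
  refine h.EG_le_of_sub hc ha ((D i).smul_mem (1 - s * s) he) (Φ.Q_smul_zero h0 _)
    (smul_ne_zero (sub_ne_zero.2 hs'.symm) h1) (by convert h3 using 1; rw [h5]; module) fun e => ?_
  rw [h.dec.pr_of_mem e, ha.1] at h0
  exact hc h0

theorem EG_le_of_val (h4 : 4 ≤ Fintype.card F) {a d d' : V} (ha : h.Cls c a) {i : ι}
    (ha' : h.Cls c (a - d - d')) (hd : d ∈ D i) (hd' : d' ∈ Φ.perp (D i))
    (hi : Φ.Q (h.dec.pr i a) ≠ 0) {β : F} (h0 : β ≠ 0) (h1 : β * β ≠ 1) (e0 : Φ.Q d = Φ.B d a)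
    (e1 : Φ.Q d = Φ.Q (h.dec.pr i a) * (2 - β - β⁻¹)) (e2 : Φ.Q d + Φ.Q d' = (2 - β) * c) :
    Φ.EG ≤ M := by
  have h2 := ha'.sub hc ha (β := β) (by
    rw [show a - (a - d - d') = d + d' by abel, Φ.Q_add_perp (hd' d hd), e2])
  have h3 : h.dec.pr i (a - β • (a - d - d')) = h.dec.pr i a - β • (h.dec.pr i a - d) := by
    simp only [map_sub, map_smul, h.dec.pr_of_mem hd, h.dec.pr_eq_zero_iff.2 hd', sub_zero]
  rw [← h.dec.B_pr hd] at e0
  set x := h.dec.pr i a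
  refine h.EG_le_of_sing hc h4 h2 (i := i) ?_ fun e => h1 ?_
  · simp only [h3, h.o.Q_sub, h.o.Q_smul, Φ.bsimp, h.o.B_self, h.o.symm d x, ← e0, e1]
    field_simp
    ring
  · rw [h3, sub_eq_zero] at e
    have h5 := congrArg Φ.Q e
    rw [h.o.Q_smul, h.o.Q_sub, h.o.symm d x, ← e0, add_sub_cancel_right] at h5
    exact mul_right_cancel₀ hi (by rw [← h5, one_mul])

theorem EG_le_of_four {a : V} (ha : h.Cls c a) (hb : ∀ i, a ∉ D i)
    (h4 : ∀ i, 4 ≤ finrank F (D i)) : Φ.EG ≤ M := by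
  obtain ⟨i, hi⟩ := h.dec.exists_Q_pr_ne (ha.1 ▸ hc)
  have h1 := finrank_le_inf_ker (D i) (Φ.B a)
  have h2 := h4 i
  obtain ⟨e, he, he1, he0⟩ := Φ.iso (D i ⊓ LinearMap.ker (Φ.B a)) (by rw [h.o.d]; omega)
  obtain ⟨z, hz, h3, h5⟩ : ∃ z ∈ D i, Φ.B e z = 0 ∧ Φ.B z a ≠ 0 := by
    by_contra hz
    push Not at hz
    obtain ⟨t, ht⟩ := Φ.exists_smul_of_perp (e := e) (v := h.dec.pr i a) fun y hy => by
      rw [← h.dec.B_pr (h.dec.pr_mem i a), h.dec.B_pr_left (h.dec.pr_mem i y)]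
      exact Φ.perp_symm (hz _ (h.dec.pr_mem i y) (by rwa [h.dec.B_pr he.1]))
    exact hi (ht ▸ Φ.Q_smul_zero he0 t)
  obtain ⟨g, hg, eg⟩ := h.dec.hasOn i e he.1 z hz _ (h.o.valid he0 h3)
  have h6 := ha.he hc hg
  rw [eg, ef_apply_of_perp' (Φ.perp_symm he.2)] at h6
  exact h.EG_le_of_sub hc ha ((D i).smul_mem _ he.1) (Φ.Q_smul_zero he0 _)
    (smul_ne_zero (mul_ne_zero Φ.eps_ne h5) he1) h6 (hb i)

omit hc in
theorem two_ne_zero_of_three {i : ι} (h3 : finrank F (D i) = 3) : (2 : F) ≠ 0 := fun h2 => by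
  have := Symm2.even_finrank_of_alt (χ := h.o.qf.polarBilin.domRestrict₁₂ (D i) (D i))
    (fun x => by
      change QuadraticMap.polar _ _ _ = _
      rw [h.o.polar_qf, h.o.B_self, h2, zero_mul])
    fun x hx => Subtype.ext (h.dec.nd i x.1 x.2 fun y hy => h.o.polar_qf x y ▸ hx ⟨y, hy⟩)
  rw [h3] at this
  exact absurd this (by decide)

omit hc in
theorem exists_val {i : ι} (h3 : finrank F (D i) = 3) {a : V} (hi : Φ.Q (h.dec.pr i a) ≠ 0)
    (γ : F) : ∃ d ∈ D i, Φ.Q d = Φ.B d a ∧ Φ.Q d = γ := by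
  have h2 := h.two_ne_zero_of_three h3
  by_cases hγ : γ = 0
  · exact ⟨0, (D i).zero_mem, by simp [Φ.Q_zero], by rw [hγ, Φ.Q_zero]⟩
  have hx := h.dec.pr_mem i a
  have h1 := finrank_le_inf_ker (D i) (Φ.B (h.dec.pr i a))
  obtain ⟨n, hn, e⟩ := h.o.rep ((h.dec.nd i).inf_one hx (by
    rw [h.o.B_self]; exact mul_ne_zero h2 hi)) (by omega) (γ⁻¹ - (2 * 2 * Φ.Q (h.dec.pr i a))⁻¹)
  have h4 := (D i).smul_mem γ ((D i).add_mem ((D i).smul_mem (2 * Φ.Q (h.dec.pr i a))⁻¹ hx) hn.1)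
  have h5 : Φ.B (h.dec.pr i a) n = 0 := hn.2
  refine ⟨_, h4, ?_, ?_⟩
  · rw [← h.dec.B_pr h4]
    simp only [h.o.Q_add, h.o.Q_smul, Φ.bsimp, h.o.σ, h.o.B_self, e, h5, Φ.perp_symm h5]
    field_simp
    ring
  · simp only [h.o.Q_add, h.o.Q_smul, Φ.bsimp, h.o.σ, e, h5]
    field_simp
    ring

theorem EG_le_of_three {a : V} (ha : h.Cls c a) (hb : ∀ i, a ∉ D i)
    (h3 : ∀ i, finrank F (D i) = 3) : Φ.EG ≤ M := by
  obtain ⟨i, hi⟩ := h.dec.exists_Q_pr_ne (ha.1 ▸ hc)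
  obtain ⟨j, hij, hj⟩ := h.dec.exists_pr_ne_of_notMem (hb i)
  have h4 : 4 ≤ Fintype.card F := le_trans (by norm_num) ((h.good i).three (h3 i))
  by_cases hj' : Φ.Q (h.dec.pr j a) = 0
  · exact h.EG_le_of_sing hc h4 ha hj' hj
  have h1 := finrank_le_inf_ker (D i) (Φ.B (h.dec.pr i a))
  have h2 := h3 i
  have hF := ha.fl_of_supp hc inf_le_left ((h.dec.nd i).inf_one (h.dec.pr_mem i a) (by
    rw [h.o.B_self]; exact mul_ne_zero (h.two_ne_zero_of_three h2) hi)) (by omega) fun x hx => by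
      rw [← h.dec.B_pr hx.1]; exact Φ.perp_symm hx.2
  obtain ⟨β, h0, h5⟩ := exists_sq_ne_one' h4
  obtain ⟨d, hd, e1, e2⟩ := h.exists_val h2 hi (Φ.Q (h.dec.pr i a) * (2 - β - β⁻¹))
  obtain ⟨d', hd', e3, e4⟩ := h.exists_val (h3 j) hj' ((2 - β) * c - Φ.Q d)
  refine h.EG_le_of_val hc h4 ha ((hF.mv hi hd e1).mv (i := j) ?_ hd' ?_).cls hd
    (h.dec.le_perp hij.symm hd') hi h0 h5 e1 e2 (by rw [e4]; ring)
  · rwa [map_sub, h.dec.pr_of_ne hij hd, sub_zero]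
  · rw [map_sub, h.dec.perp j i hij d' hd' d hd, sub_zero, e3]

end OSet

end Fm

end Cfsg.Agent.Class.Max
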