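import Mathlib
import Cfsg.Agent.Class.Max.C2O2
import Cfsg.Agent.Class.Max.FrD

/-!
Reflection groups over prime fields: generation from one Eichler transformation, and triples of
reflections in a group without such transformations.
-/

set_option autoImplicit false

namespace Cfsg.Agent.Class.Max

open Module Cfsg.Agent.Class.Dickson

variable {F V : Type*} [Field F] [AddCommGroup V] [Module F V]

section Mat

variable {N A : Matrix (Fin 2) (Fin 2) F} {β : F}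

theorem unip_conj (hN : N * N = 0) (h : N * A + A * N = β • 1) :
    (1 + N) * A * (1 - N) - A = (2 : F) • (N * A) - β • 1 - β • N := by
  have h1 : A * N = β • 1 - N * A := by rw [← h]; abel
  simp only [add_mul, mul_sub, one_mul, mul_one, mul_assoc, h1, Matrix.mul_smul, ← mul_assoc N N, hN,
    zero_mul]
  module

theorem unip_conj_sq (hN : N * N = 0) (h : N * A + A * N = β • 1) :
    ((2 : F) • (N * A) - β • 1 - β • N) * ((2 : F) • (N * A) - β • 1 - β • N) = (β * β) • 1 := by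
  have h1 : A * N = β • 1 - N * A := by rw [← h]; abel
  have h2 : ∀ X, A * (N * X) = β • X - N * (A * X) := fun X => by
    rw [← mul_assoc, h1, sub_mul, Matrix.smul_mul, one_mul, mul_assoc]
  simp only [sub_mul, mul_sub, one_mul, mul_one, mul_assoc, h1, h2, Matrix.mul_smul, Matrix.smul_mul,
    ← mul_assoc N N, hN, zero_mul]
  module

end Mat

namespace Fm

variable {Φ : Fm F V} {K : Subgroup (V ≃ₗ[F] V)}

theorem InA.sing {e w : V} (h : Φ.InA K e w) : Φ.Q e = 0 := h.choose_spec.1.sing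

theorem InA.smul_prime (hF : ∀ a : F, ∃ n : ℕ, a = n) {e w : V} (h : Φ.InA K e w) (a : F) :
    Φ.InA K e (a • w) := by
  obtain ⟨n, rfl⟩ := hF a
  induction n with
  | zero => simpa using inA_zero h.sing
  | succ n ih => rw [Nat.cast_succ, add_smul, one_smul]; exact ih.add h

/-- The vectors `w` with an Eichler transformation `E(e, w)` in `K`. -/
def subA (hF : ∀ a : F, ∃ n : ℕ, a = n) (K : Subgroup (V ≃ₗ[F] V)) {e : V} (he : Φ.Q e = 0) :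
    Submodule F V where
  carrier := {w | Φ.InA K e w}
  add_mem' := InA.add
  zero_mem' := inA_zero he
  smul_mem' a _ h := h.smul_prime hF a

namespace IsO

variable (hO : Φ.IsO)
include hO

theorem inA_hasE {e w : V} (h : Φ.InA K e w) : ∃ g ∈ K, ∀ x, g x = Φ.ef e w (Φ.Q w) x := by
  obtain ⟨c, hv, h⟩ := h
  rwa [← hv.norm, hO.π]

theorem full_of_inA {e : V} (h : ∀ w, Φ.B e w = 0 → Φ.InA K e w) : Φ.Full K e := fun w c hv => by
  rw [← hO.π c, hv.norm]; exact hO.inA_hasE (h w hv.perp)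

theorem inA_of_fix {g : V ≃ₗ[F] V} (hg : g ∈ K) (hI : g ∈ Φ.Iso) {v y : V} (hv : Φ.Q v = 0)
    (h1 : g v = v) (h2 : ∀ x, Φ.B v x = 0 → ∃ t : F, g x = x + t • v) (hy : Φ.B v y ≠ 0) :
    Φ.InA K v ((Φ.B v y)⁻¹ • (g y - y)) := by
  have h3 : Φ.B v (g y) = Φ.B v y := by conv_lhs => rw [← h1, Iso.B hI]
  obtain ⟨c, hc, e⟩ := exists_ef_eq hv hy h3 (Iso.Q hI y)
  refine ⟨c, hc, g, hg, fun x => ?_⟩
  have h4 : Φ.B v (x - (Φ.B v x / Φ.B v y) • y) = 0 := by simp [hy]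
  obtain ⟨t, ht⟩ := h2 _ h4
  have h5 := Iso.B hI y (x - (Φ.B v x / Φ.B v y) • y)
  have h6 : hc.eich (x - (Φ.B v x / Φ.B v y) • y) = g (x - (Φ.B v x / Φ.B v y) • y) := by
    rw [hc.eich_apply, ef_apply_of_perp' h4, ht, sub_eq_add_neg _ (_ • v), ← neg_smul]
    congr 2
    rw [ht, map_add, map_smul, hO.symm v, h3, smul_eq_mul] at h5
    rw [hO.ε, hO.B_smul_left, Φ.B_sub_left]
    field_simp
    linear_combination -h5
  rw [map_sub, map_sub, map_smul, map_smul, hc.eich_apply y, e, sub_left_inj] at h6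
  exact h6.symm

theorem exists_tau (hF : ∀ a : F, ∃ n : ℕ, a = n) (h2 : (2 : F) ≠ 0) {v w b : V}
    (hβ : Φ.B v w ≠ 0) (hb : Φ.Q b ≠ 0) (hv : Φ.InA K v b) (hw : Φ.InA K w b) :
    ∃ τ ∈ K, τ v = (4 : F) • v ∧ (∀ x, Φ.B v x = 0 → ∃ t : F, τ x = x + t • v) ∧
      Φ.InA K v (τ w - (4 : F)⁻¹ • w) := by
  obtain ⟨g₁, m₁, e₁⟩ := hO.inA_hasE (hw.smul_prime hF (2 * Φ.Q b * Φ.B v w)⁻¹)
  obtain ⟨g₂, m₂, e₂⟩ := hO.inA_hasE hv
  obtain ⟨g₃, m₃, e₃⟩ := hO.inA_hasE (hw.smul_prime hF (-(Φ.Q b * Φ.B v w)⁻¹))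
  have h4 : (4 : F) ≠ 0 := by rw [show (4 : F) = 2 * 2 by norm_num]; exact mul_ne_zero h2 h2
  have s := And.intro (Φ.B_self hv.sing) (And.intro (Φ.B_self hw.sing) (And.intro hv.perp
    (And.intro hw.perp (And.intro (Φ.perp_symm hv.perp) (And.intro (Φ.perp_symm hw.perp)
      (And.intro (hO.symm v w) (hO.B_self b)))))))
  refine ⟨g₁ * g₂ * g₃, K.mul_mem (K.mul_mem m₁ m₂) m₃, ?_, fun x hx => ⟨3 * Φ.B w x / Φ.B v w -
    2 * Φ.B b x, ?_⟩, ?_⟩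
  · simp only [mul_app, e₁, e₂, e₃, hO.ef, Φ.bsimp, hO.σ, hO.Q_smul, s]
    match_scalars <;> field_simp <;> ring
  · simp only [mul_app, e₁, e₂, e₃, hO.ef, Φ.bsimp, hO.σ, hO.Q_smul, s, hx]
    match_scalars <;> field_simp <;> ring
  · convert (hv.smul_prime hF (Φ.B v w / 2)).add
      (inA_smul_self hv.sing (-(Φ.Q b * Φ.B v w))) using 1
    simp only [mul_app, e₁, e₂, e₃, hO.ef, Φ.bsimp, hO.σ, hO.Q_smul, s]
    match_scalars <;> field_simp <;> ring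

/-- One Eichler transformation `E(v, u)` with `u` non-singular, and enough reflections. -/
theorem EG_le_of_eich (hF : ∀ a : F, ∃ n : ℕ, a = n) (h2 : (2 : F) ≠ 0) (h3 : (3 : F) ≠ 0)
    (hK : K ≤ Φ.Iso) {v u : V} (hv : v ≠ 0) (hu : Φ.InA K v u) (hu0 : Φ.Q u ≠ 0)
    (hs : ∀ U : Submodule F V, (∀ c, hO.r c ∈ K → Φ.Q c ≠ 0 → Φ.B c v ≠ 0 → c ∈ U) → U = ⊤) :
    Φ.EG ≤ K := by
  have h4 : (4 : F) ≠ 0 := by rw [show (4 : F) = 2 * 2 by norm_num]; exact mul_ne_zero h2 h2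
  have hβ : ∀ c, Φ.Q c ≠ 0 → Φ.B c v ≠ 0 → Φ.B v (hO.r c v) ≠ 0 := fun c h h' => by
    simp [hO.r_apply, Φ.B_self hu.sing, hO.symm c v, h, h']
  have hτ : ∀ c, hO.r c ∈ K → Φ.Q c ≠ 0 → Φ.B c v ≠ 0 → ∃ τ ∈ K, τ v = (4 : F) • v ∧
      (∀ x, Φ.B v x = 0 → ∃ t : F, τ x = x + t • v) ∧
      Φ.InA K v (τ (hO.r c v) - (4 : F)⁻¹ • hO.r c v) := fun c hc h h' => by
    have h5 := hu.add (inA_smul_self hu.sing (-(Φ.B c u / Φ.B c v)))
    have h6 := h5.conj hc (hK hc)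
    rw [hO.r_of_perp (x := u + _) (by simp [h'])] at h6
    refine hO.exists_tau hF h2 (hβ c h h') ?_ h5 h6
    rwa [hO.Q_add, hO.Q_smul, hu.sing, map_smul, Φ.perp_symm hu.perp, mul_zero, smul_zero, add_zero,
      add_zero]
  obtain ⟨c₀, hc₀, q₀, b₀⟩ : ∃ c, hO.r c ∈ K ∧ Φ.Q c ≠ 0 ∧ Φ.B c v ≠ 0 := by
    by_contra h
    push Not at h
    have := hs ⊥ fun c h1 h2 h3 => absurd (h c h1 h2) h3
    exact hv ((Submodule.mem_bot F).1 (this ▸ Submodule.mem_top))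
  obtain ⟨τ₀, m₀, e₀, f₀, a₀⟩ := hτ c₀ hc₀ q₀ b₀
  have β₀ := hβ c₀ q₀ b₀
  set w₀ := hO.r c₀ v
  have hU := hs (Submodule.span F {w₀} ⊔ subA hF K hu.sing) fun c hc q b => by
    obtain ⟨τ, m, e, f, a⟩ := hτ c hc q b
    have β := hβ c q b
    have hc' : c = (Φ.Q c / Φ.B c v) • (v - hO.r c v) := by
      rw [hO.r_apply, sub_sub_cancel, smul_smul, show _ * _ = (1 : F) by field_simp, one_smul]
    set w := hO.r c v
    have hx : Φ.B v (w - (Φ.B v w / Φ.B v w₀) • w₀) = 0 := by simp [β₀]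
    have h5 := (hO.inA_of_fix (K.mul_mem (K.inv_mem m₀) m) (hK (K.mul_mem (K.inv_mem m₀) m))
      hu.sing (by rw [mul_app, e, ← e₀, inv_app_app]) (fun x hx => by
        obtain ⟨t, ht⟩ := f x hx
        obtain ⟨t', ht'⟩ := f₀ x hx
        refine ⟨(t - t') / 4, (mul_app _ _ _).trans (inv_app_of_eq ?_)⟩
        rw [map_add, map_smul, e₀, ht', ht, smul_smul, div_mul_cancel₀ _ h4]
        module) β).conj m₀ (hK m₀)
    rw [e₀, map_smul, map_sub, mul_app, app_inv_app] at h5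
    obtain ⟨t, ht⟩ := f₀ _ hx
    have h6 := ((((h5.of_smul_left h4).smul_prime hF (Φ.B v w / 4)).sub a).add
      (a₀.smul_prime hF (Φ.B v w / Φ.B v w₀))).add (inA_smul_self hu.sing t)
    have h7 : τ₀ w = (Φ.B v w / Φ.B v w₀) • τ₀ w₀ + (w - (Φ.B v w / Φ.B v w₀) • w₀ + t • v) := by
      rw [← ht, map_sub, map_smul]; abel
    have h8 : Φ.InA K v (w - (Φ.B v w / Φ.B v w₀) • w₀) := by
      convert h6.smul_prime hF (-(4 / 3)) using 1
      rw [h7, hO.σ]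
      match_scalars <;> field_simp <;> ring
    rw [hc']
    refine Submodule.smul_mem _ _ (Submodule.sub_mem _ (Submodule.mem_sup_right ?_) ?_)
    · exact show Φ.InA K v v by simpa using inA_smul_self (M := K) hu.sing 1
    · exact Submodule.mem_sup.2 ⟨_, Submodule.smul_mem _ _ (Submodule.mem_span_singleton_self _),
        _, h8, by abel⟩
  have hfull : Φ.Full K v := hO.full_of_inA fun x hx => by
    obtain ⟨y, hy, z, hz, rfl⟩ := Submodule.mem_sup.1 (hU ▸ Submodule.mem_top : x ∈ _)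
    obtain ⟨t, rfl⟩ := Submodule.mem_span_singleton.1 hy
    have : t = 0 := by simpa [InA.perp hz, β₀] using hx
    rwa [this, zero_smul, zero_add]
  exact EG_le_of_full hfull (hfull.conj hc₀ (hK hc₀)) hu.sing (by rw [hO.Q_r, hu.sing]) β₀

/-- A linear map from the space to traceless `2 × 2` matrices identifying `X` with `sl₂`. -/
theorem exists_psi (h2 : (2 : F) ≠ 0) (hsq : ∀ a : F, ∃ x y, x * x + y * y = a) {b₁ b₂ b₀ : V}
    (q₁ : Φ.Q b₁ = 1) (q₂ : Φ.Q b₂ = 1) (q₀ : Φ.Q b₀ ≠ 0) (h12 : Φ.B b₁ b₂ = 0)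
    (h10 : Φ.B b₁ b₀ = 0) (h20 : Φ.B b₂ b₀ = 0) :
    ∃ ψ : V →ₗ[F] Matrix (Fin 2) (Fin 2) F, (∀ x, (ψ x).trace = 0) ∧
      (∀ c ∈ Submodule.span F {b₁, b₂, b₀}, ∀ x, ψ c * ψ x + ψ x * ψ c = (-Φ.Q b₀ * Φ.B c x) • 1) ∧
      (∀ n : Matrix (Fin 2) (Fin 2) F, n.trace = 0 → ∃ c ∈ Submodule.span F {b₁, b₂, b₀}, ψ c = n) ∧
      ψ b₁ * ψ b₂ = ψ b₀ := by
  obtain ⟨α, β, hαβ⟩ := hsq (-Φ.Q b₀)
  let ψ : V →ₗ[F] Matrix (Fin 2) (Fin 2) F :=
    (Φ.B b₁).smulRight ((2 : F)⁻¹ • !![α, β; β, -α]) + (Φ.B b₂).smulRight ((2 : F)⁻¹ • !![-β, α; α, β]) +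
      (Φ.B b₀).smulRight ((2 : F)⁻¹ • !![0, -1; 1, 0])
  have hψ : ∀ x, ψ x = !![(Φ.B b₁ x * α - Φ.B b₂ x * β) / 2,
      (Φ.B b₁ x * β + Φ.B b₂ x * α - Φ.B b₀ x) / 2; (Φ.B b₁ x * β + Φ.B b₂ x * α + Φ.B b₀ x) / 2,
      -((Φ.B b₁ x * α - Φ.B b₂ x * β) / 2)] := fun x => by
    ext i j
    fin_cases i <;> fin_cases j <;> simp [ψ] <;> ring
  have s := And.intro (hO.B_self b₁) (And.intro (hO.B_self b₂) (And.intro (hO.B_self b₀)
    (And.intro h12 (And.intro h10 (And.intro h20 (And.intro (Φ.perp_symm h12)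
      (And.intro (Φ.perp_symm h10) (And.intro (Φ.perp_symm h20) (And.intro q₁ q₂)))))))))
  refine ⟨ψ, fun x => by simp [hψ], fun c hc x => ?_, fun n hn => ?_, ?_⟩
  · obtain ⟨a₁, a₂, a₀, rfl⟩ := Submodule.mem_span_triple.1 hc
    rw [hψ, hψ]
    simp only [Φ.bsimp, hO.σ, s]
    ext i j
    fin_cases i <;> fin_cases j <;> simp <;> field_simp
    · linear_combination (2 * a₁ * Φ.B b₁ x + 2 * a₂ * Φ.B b₂ x) * hαβ
    · ring
    · ring
    · linear_combination (2 * a₁ * Φ.B b₁ x + 2 * a₂ * Φ.B b₂ x) * hαβ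
  · refine ⟨_, Submodule.mem_span_triple.2 ⟨-(n 0 0 * α + (n 0 1 + n 1 0) / 2 * β) / Φ.Q b₀,
      -((n 0 1 + n 1 0) / 2 * α - n 0 0 * β) / Φ.Q b₀, (n 1 0 - n 0 1) / (2 * Φ.Q b₀), rfl⟩, ?_⟩
    rw [Matrix.trace_fin_two] at hn
    rw [hψ]
    simp only [Φ.bsimp, s]
    ext i j
    fin_cases i <;> fin_cases j <;> simp <;> field_simp
    · linear_combination (-2 * n 0 0) * hαβ
    · linear_combination (-(n 0 1 + n 1 0)) * hαβ
    · linear_combination (-(n 0 1 + n 1 0)) * hαβ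
    · linear_combination (2 * n 0 0) * hαβ - 2 * Φ.Q b₀ * hn
  · rw [hψ, hψ, hψ]
    simp only [s]
    ext i j
    fin_cases i <;> fin_cases j <;> simp <;> field_simp
    · ring
    · linear_combination hαβ
    · linear_combination -hαβ
    · ring

section Psi

variable (h2 : (2 : F) ≠ 0) {X : Submodule F V} {ψ : V →ₗ[F] Matrix (Fin 2) (Fin 2) F} {κ : F}
  (hκ : κ ≠ 0) (ac : ∀ c ∈ X, ∀ x, ψ c * ψ x + ψ x * ψ c = (κ * Φ.B c x) • 1)
include h2 hκ ac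

omit hO h2 in
theorem psi_inj {c : V} (hc : c ∈ X) (h : ψ c = 0) : c = 0 := Φ.nondeg c fun x => by
  have := congrFun (congrFun (ac c hc x) 0) 0
  simpa [h, hκ] using this.symm

omit hκ in
theorem psi_sq {c : V} (hc : c ∈ X) : ψ c * ψ c = (κ * Φ.Q c) • 1 := by
  have := ac c hc c
  rw [hO.B_self, ← two_smul F, mul_left_comm, mul_smul] at this
  exact smul_right_injective _ h2 this

/-- An element of `K` supported on `X` and inducing a non-trivial unipotent element is an Eichler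
transformation. -/
theorem inA_of_psi [FiniteDimensional F V] (hK : K ≤ Φ.Iso) {g : V ≃ₗ[F] V} (hg : g ∈ K)
    (hX : ∀ x, g x - x ∈ X) {v : V} (hv : v ∈ X) (hv0 : v ≠ 0) (hN : ψ v * ψ v = 0)
    (h : ∀ x, ψ (g x) * (1 + ψ v) = (1 + ψ v) * ψ x) : ∃ u, Φ.InA K v u ∧ Φ.Q u ≠ 0 := by
  have hN0 : ψ v ≠ 0 := fun e => hv0 (psi_inj hκ ac hv e)
  have q : Φ.Q v = 0 := by
    have := congrFun (congrFun (hO.psi_sq h2 ac hv) 0) 0
    simpa [hN, hκ] using this.symm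
  have hU : ∀ x, ψ (g x - x) = (2 : F) • (ψ v * ψ x) - (κ * Φ.B v x) • 1 - (κ * Φ.B v x) • ψ v :=
    fun x => by
      rw [← unip_conj hN (ac v hv x), ← h, map_sub, mul_assoc]
      simp [add_mul, mul_sub, hN]
  obtain ⟨y, hy⟩ := Φ.exists_B_ne hv0
  refine ⟨_, hO.inA_of_fix hg (hK hg) q (sub_eq_zero.1 (psi_inj hκ ac (hX v) ?_))
    (fun x hx => ?_) hy, ?_⟩
  · simp [hU, hN, Φ.B_self q]
  · obtain ⟨t, ht⟩ := Φ.exists_smul_of_perp (e := v) (v := g x - x) fun z hz => by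
      have h3 := congrArg (ψ v * ·) (ac _ (hX x) z)
      have h4 := ac v hv z
      rw [hz, mul_zero, zero_smul, add_eq_zero_iff_eq_neg] at h4
      simp only [hU, hx, mul_zero, zero_smul, sub_zero, mul_add, Matrix.mul_smul, Matrix.smul_mul,
        ← mul_assoc, hN, zero_mul, smul_zero, mul_one, h4, neg_mul] at h3
      rw [mul_assoc (ψ z), hN] at h3
      simpa [hN0, hκ] using h3.symm
    exact ⟨t, by rw [← ht]; abel⟩
  · have h3 := hO.psi_sq h2 ac (hX y)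
    rw [hU, unip_conj_sq hN (ac v hv y)] at h3
    have h4 := congrFun (congrFun h3 0) 0
    rw [hO.Q_smul]
    refine mul_ne_zero (by simpa using hy) fun e => ?_
    simp [e, hκ, hy] at h4

end Psi

/-- Three reflections, two of them commuting, in a group without Eichler transformations. -/
theorem triple [Finite F] [FiniteDimensional F V] (h2 : (2 : F) ≠ 0)
    (hsq : ∀ a : F, ∃ x y, x * x + y * y = a) (hK : K ≤ Φ.Iso)
    (hE : ∀ v u, v ≠ 0 → Φ.InA K v u → Φ.Q u = 0) {b₁ b₂ w : V} (q₁ : Φ.Q b₁ = 1) (q₂ : Φ.Q b₂ = 1)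
    (q : Φ.Q w = 1) (h12 : Φ.B b₁ b₂ = 0) (k₁ : hO.r b₁ ∈ K) (k₂ : hO.r b₂ ∈ K) (k : hO.r w ∈ K)
    (t₁ : Φ.B b₁ w ≠ 0) (t₂ : Φ.B b₂ w ≠ 0) (hs : Φ.B b₁ w ^ 2 + Φ.B b₂ w ^ 2 ≠ 4) :
    Φ.B b₁ w ^ 2 = 1 ∨ Φ.B b₂ w ^ 2 = 1 ∨
      (Φ.B b₁ w ^ 4 - 3 * Φ.B b₁ w ^ 2 + 1 = 0 ∧ Φ.B b₁ w ^ 2 + Φ.B b₂ w ^ 2 = 3) := by
  obtain ⟨b₀, hb₀⟩ : ∃ b₀, b₀ = w - (Φ.B b₁ w / 2) • b₁ - (Φ.B b₂ w / 2) • b₂ := ⟨_, rfl⟩
  have h21 := Φ.perp_symm h12
  have h10 : Φ.B b₁ b₀ = 0 := by simp [hb₀, hO.B_self, q₁, h12, h2]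
  have h20 : Φ.B b₂ b₀ = 0 := by simp [hb₀, hO.B_self, q₂, h21, h2]
  have h0w : Φ.B b₀ w = 2 * Φ.Q b₀ := by
    rw [← hO.B_self]; nth_rw 3 [hb₀]; simp [Φ.perp_symm h10, Φ.perp_symm h20]
  have q₀ : Φ.Q b₀ ≠ 0 := fun e => hs (by
    rw [e, hb₀] at h0w
    simp only [Φ.bsimp, hO.σ, hO.B_self, q] at h0w
    field_simp at h0w
    linear_combination -h0w)
  have t₀ : Φ.B b₀ w ≠ 0 := h0w ▸ mul_ne_zero h2 q₀
  obtain ⟨ψ, tr, ac, sj, pr⟩ := hO.exists_psi h2 hsq q₁ q₂ q₀ h12 h10 h20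
  set X := Submodule.span F {b₁, b₂, b₀}
  have x₁ : b₁ ∈ X := Submodule.subset_span (by simp)
  have x₂ : b₂ ∈ X := Submodule.subset_span (by simp)
  have x₀ : b₀ ∈ X := Submodule.subset_span (by simp)
  have xw : w ∈ X := Submodule.mem_span_triple.2 ⟨Φ.B b₁ w / 2, Φ.B b₂ w / 2, 1, by
    rw [one_smul]; nth_rw 1 [hb₀]; abel⟩
  have hκ := neg_ne_zero.2 q₀
  generalize -Φ.Q b₀ = κ at ac hκ
  have sq := fun c hc => hO.psi_sq h2 ac (c := c) hc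
  have dt : ∀ c ∈ X, (ψ c).det = -(κ * Φ.Q c) := fun c hc => by
    have h3 := congrFun (congrFun (sq_eq_trace_smul (ψ c)) 0) 0
    rw [sq c hc, tr] at h3
    simp at h3
    rw [h3, neg_neg]
  let Γ : Subgroup (GL (Fin 2) F) :=
    { carrier := {γ | ∃ g ∈ K, (∀ x, g x - x ∈ X) ∧ ∃ ε : F, ε * ε = 1 ∧
        ∀ x, ψ (g x) * γ.1 = ε • (γ.1 * ψ x)}
      mul_mem' := by
        rintro γ δ ⟨g, hg, g1, ε, e1, g2⟩ ⟨g', hg', g1', ε', e1', g2'⟩
        refine ⟨g * g', K.mul_mem hg hg', fun x => ?_, ε * ε', by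
          linear_combination ε' * ε' * e1 + e1', fun x => ?_⟩
        · simpa using X.add_mem (g1 (g' x)) (g1' x)
        · rw [mul_app, Units.val_mul, ← mul_assoc, g2, Matrix.smul_mul, mul_assoc, g2',
            Matrix.mul_smul, smul_smul, mul_assoc]
      one_mem' := ⟨1, K.one_mem, by simp, 1, one_mul _, by simp⟩
      inv_mem' := by
        rintro γ ⟨g, hg, g1, ε, e1, g2⟩
        refine ⟨g⁻¹, K.inv_mem hg, fun x => ?_, ε, e1, fun x => ?_⟩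
        · simpa using X.neg_mem (g1 (g⁻¹ x))
        · have := congrArg (fun A => ε • (γ⁻¹.1 * A * γ⁻¹.1)) (g2 (g⁻¹ x))
          simp only [app_inv_app, Matrix.mul_smul, Matrix.smul_mul, smul_smul, e1, one_smul,
            mul_assoc, Units.mul_inv, mul_one, Units.inv_mul_cancel_left] at this
          exact this.symm }
  have mem : ∀ c ∈ X, Φ.Q c = 1 → hO.r c ∈ K → ∃ γ ∈ Γ, γ.1 = ψ c := fun c hc qc kc =>
    ⟨Matrix.GeneralLinearGroup.mkOfDetNeZero (ψ c) (by simpa [dt c hc, qc] using hκ),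
      ⟨_, kc, fun x => by simpa [hO.r_apply] using X.smul_mem _ hc, -1, by simp, fun x => by
        change _ * ψ c = _ • (ψ c * _)
        rw [hO.r_apply, map_sub, map_smul, sub_mul, Matrix.smul_mul, sq c hc, qc,
          eq_sub_of_add_eq' (ac c hc x)]
        module⟩, rfl⟩
  have ns : ∀ γ : GL (Fin 2) F, ∀ a ∈ X, ∀ c ∈ X, ∀ o ∈ X, γ.1 = ψ a * ψ c → Φ.Q a ≠ 0 →
      Φ.B o a = 0 → Φ.B o c ≠ 0 → pmk γ ≠ 1 := fun γ a ha c hc o ho e qa e1 e2 e3 => by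
    obtain ⟨e4, e5, e6⟩ := (pmk_eq_one_iff γ).1 e3
    have h3 : ψ a * ψ c = γ 0 0 • 1 := by
      rw [← e]; ext i j; fin_cases i <;> fin_cases j <;> simp [e4, e5, e6]
    have h4 := congrArg (ψ a * ·) h3
    simp only [← mul_assoc, sq a ha, Matrix.smul_mul, Matrix.mul_smul, one_mul, mul_one] at h4
    rw [← map_smul, ← map_smul, ← sub_eq_zero, ← map_sub] at h4
    have h5 := congrArg (Φ.B o) (psi_inj hκ ac (X.sub_mem (X.smul_mem _ hc) (X.smul_mem _ ha)) h4)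
    simp [e1, e2, hκ, qa] at h5
  have tr2 : ∀ a ∈ X, ∀ c, (ψ a * ψ c).trace = κ * Φ.B a c := fun a ha c => by
    have h3 := congrArg Matrix.trace (ac a ha c)
    rw [Matrix.trace_add, Matrix.trace_mul_comm (ψ c), ← two_mul] at h3
    simp at h3
    exact mul_left_cancel₀ h2 (h3.trans (mul_comm _ _))
  obtain ⟨γ₁, m₁, e₁⟩ := mem b₁ x₁ q₁ k₁
  obtain ⟨γ₂, m₂, e₂⟩ := mem b₂ x₂ q₂ k₂
  obtain ⟨δ, m, e⟩ := mem w xw q k
  have xr : hO.r w b₁ ∈ X := by rw [hO.r_apply]; exact X.sub_mem x₁ (X.smul_mem _ xw)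
  obtain ⟨δ', m', e'⟩ := mem _ xr (by rw [hO.Q_r, q₁]) (by
    rw [← hO.conj_r (hO.r_mem_Iso w)]; exact K.mul_mem (K.mul_mem k k₁) (K.inv_mem k))
  have p₁ : (γ₁ * δ).1 = ψ b₁ * ψ w := by rw [Units.val_mul, e₁, e]
  have p₂ : (γ₂ * δ).1 = ψ b₂ * ψ w := by rw [Units.val_mul, e₂, e]
  have p₀ : (γ₁ * γ₂ * δ).1 = ψ b₀ * ψ w := by rw [Units.val_mul, Units.val_mul, e₁, e₂, pr, e]
  have p₃ : (γ₂ * δ').1 = ψ b₂ * ψ (hO.r w b₁) := by rw [Units.val_mul, e₂, e']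
  have n₁ := ns _ _ x₁ _ xw _ x₂ p₁ (by simp [q₁]) h21 t₂
  have n₂ := ns _ _ x₂ _ xw _ x₁ p₂ (by simp [q₂]) h12 t₁
  have n₃ := ns _ _ x₂ _ xr _ x₀ p₃ (by simp [q₂]) (Φ.perp_symm h20) (by
    simp [hO.r_apply, Φ.perp_symm h10, q, hO.symm b₁ w, t₁, t₀])
  have hκ2 := pow_ne_zero 2 hκ
  have hκ4 := pow_ne_zero 4 hκ
  rcases tame_traces h2 Γ (fun γ hγ h => by
      by_contra h1
      obtain ⟨g, hg, g1, ε, e1, g2⟩ := hγ
      have h3 : γ.1.trace ≠ 0 := fun e => by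
        rw [e, show (4 : F) = 2 * 2 by norm_num] at h
        simp [h2, γ.det_ne_zero] at h
      obtain ⟨v, hv, ev⟩ := sj ((4 / γ.1.trace) • γ.1 - (2 : F) • 1) (by
        simp [h3]; norm_num)
      have h4 := sq_eq_trace_smul γ.1
      have h5 : γ.1.det = γ.1.trace ^ 2 / 4 := by
        rw [h, show (4 : F) = 2 * 2 by norm_num]; field_simp
      have h6 : 1 + ψ v = (4 / γ.1.trace ^ 2) • (γ.1 * γ.1) := by
        rw [ev, h4, h5, show (4 : F) = 2 * 2 by norm_num]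
        match_scalars
        · field_simp; ring
        · field_simp
      have v0 : v ≠ 0 := fun e => h1 (by
        rw [e, map_zero, eq_comm, sub_eq_zero] at ev
        have e0 : (4 / γ.1.trace) ≠ 0 := by
          rw [show (4 : F) = 2 * 2 by norm_num]; simp [h2, h3]
        have := fun i j => congrFun (congrFun ev i) j
        refine (pmk_eq_one_iff γ).2 ⟨by simpa [e0] using this 0 1, by simpa [e0] using this 1 0,
          mul_left_cancel₀ e0 ?_⟩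
        exact (this 0 0).trans (this 1 1).symm)
      obtain ⟨u, hu, hu0⟩ := hO.inA_of_psi h2 hκ ac hK (K.mul_mem hg hg)
        (fun x => by simpa using X.add_mem (g1 (g x)) (g1 x)) hv v0 (by
          simp only [ev, sub_mul, mul_sub, Matrix.smul_mul, Matrix.mul_smul, h4, h5, mul_one, one_mul]
          rw [show (4 : F) = 2 * 2 by norm_num]; match_scalars <;> field_simp <;> ring_nf)
        (fun x => by
          rw [h6, Matrix.mul_smul, Matrix.smul_mul, mul_app, ← mul_assoc, g2, Matrix.smul_mul,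
            mul_assoc, g2, Matrix.mul_smul, smul_smul ε, e1, one_smul, mul_assoc])
      exact hu0 (hE v u v0 hu)) m₁ m₂ m
      (by rw [e₁, e₂, ← add_eq_zero_iff_eq_neg, ac _ x₁, h12, mul_zero, zero_smul])
      (e₁ ▸ tr _) (e₂ ▸ tr _) (by rw [Units.val_mul, e₁, e₂, pr, tr]) (e ▸ tr _) n₁ n₂
      (ns _ _ x₀ _ xw _ x₁ p₀ q₀ h10 t₁) (by rw [p₁, tr2 _ x₁]; exact mul_ne_zero hκ t₁)
      (by rw [p₂, tr2 _ x₂]; exact mul_ne_zero hκ t₂)
      (by rw [p₀, tr2 _ x₀]; exact mul_ne_zero hκ t₀) with h | h <;>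
    have c₁ := h _ (Γ.mul_mem m₁ m) n₁ <;> have c₂ := h _ (Γ.mul_mem m₂ m) n₂ <;>
    have c₃ := h _ (Γ.mul_mem m₂ m') n₃ <;>
    rw [p₁, tr2 _ x₁, Matrix.det_mul, dt _ x₁, dt _ xw, q₁, q] at c₁ <;>
    rw [p₂, tr2 _ x₂, Matrix.det_mul, dt _ x₂, dt _ xw, q₂, q] at c₂ <;>
    rw [p₃, tr2 _ x₂, Matrix.det_mul, dt _ x₂, dt _ xr, q₂, hO.Q_r, q₁, hO.r_apply, q, map_sub,
      map_smul, h21, hO.symm b₁ w, smul_eq_mul] at c₃ <;>
    generalize Φ.B b₁ w = x at * <;> generalize Φ.B b₂ w = y at * <;>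
    rcases c₁ with c₁ | c₁ | c₁ <;>
    first | exact absurd c₁ (mul_ne_zero hκ t₁) |
      exact Or.inl (mul_left_cancel₀ hκ2 (by linear_combination c₁)) | skip
  all_goals
    rcases c₂ with c₂ | c₂ | c₂
    · exact absurd c₂ (mul_ne_zero hκ t₂)
    · exact Or.inr (Or.inl (mul_left_cancel₀ hκ2 (by linear_combination c₂)))
  · exact absurd (mul_left_cancel₀ hκ2 (by linear_combination c₁ + c₂)) hs
  · have d₁ : x ^ 4 - 3 * x ^ 2 + 1 = 0 := mul_left_cancel₀ hκ4 (by linear_combination c₁)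
    have d₂ : y ^ 4 - 3 * y ^ 2 + 1 = 0 := mul_left_cancel₀ hκ4 (by linear_combination c₂)
    refine Or.inr (Or.inr ⟨d₁, ?_⟩)
    have d₃ : (x ^ 2 - y ^ 2) * (x ^ 2 + y ^ 2 - 3) = 0 := by linear_combination d₁ - d₂
    rcases mul_eq_zero.1 d₃ with d | d
    · rcases c₃ with c₃ | c₃ | c₃
      · simp [hκ, t₁, t₂] at c₃
      · have d₄ : (x * y) ^ 2 = 1 := mul_left_cancel₀ hκ2 (by linear_combination c₃)
        have d₅ : x ^ 4 = 1 := by linear_combination d₄ + x ^ 2 * d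
        linear_combination (1 - (x ^ 2 - 1) * (3 * x ^ 2 + 2)) * d₁ +
          ((x ^ 2 - 1) * (3 * x ^ 2 - 7) - 1) * d₅ - d
      · have d₄ : (x * y) ^ 4 - 3 * (x * y) ^ 2 + 1 = 0 :=
          mul_left_cancel₀ hκ4 (by linear_combination c₃)
        have d₅ : x ^ 8 - 3 * x ^ 4 + 1 = 0 := by
          linear_combination d₄ + (x ^ 4 * (x ^ 2 + y ^ 2) - 3 * x ^ 2) * d
        have d₆ : (2 * 2) * x ^ 2 * (x ^ 2 - 1) ^ 2 = 0 := by
          linear_combination d₅ - (1 + x ^ 4 - x ^ 2) * d₁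
        have d₇ : x ^ 2 - 1 = 0 := by simpa [h2, t₁] using d₆
        exact absurd (by linear_combination (x ^ 2 - 2) * d₇ - d₁ : (1 : F) = 0) one_ne_zero
    · exact sub_eq_zero.1 d

end IsO

end Fm

end Cfsg.Agent.Class.Max
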