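import Mathlib
import Cfsg.Agent.Class.Max.C2O2

/-!
Class `C₂` for orthogonal groups: decompositions into planes.
-/

set_option autoImplicit false

namespace Cfsg.Agent.Class.Max

open Module

variable {F V : Type*} [Field F] [AddCommGroup V] [Module F V] {ι : Type*}

theorem card_le_two_mul_image [Fintype F] [DecidableEq F] {α : F} (hα : α ≠ 0) (β γ : F) :
    Fintype.card F ≤ 2 * (Finset.univ.image fun s => (γ + s * s * α + s * β)⁻¹).card := by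
  have := FiniteField.card_image_polynomial_eval
    (p := Polynomial.C α * Polynomial.X ^ 2 + Polynomial.C β * Polynomial.X + Polynomial.C γ)
    (by rw [Polynomial.degree_quadratic hα]; norm_num)
  rw [Polynomial.natDegree_quadratic hα, ← Finset.card_image_of_injective _ inv_injective,
    Finset.image_image] at this
  convert this using 4 with s
  ext s
  simp only [Function.comp_apply, Polynomial.eval_add, Polynomial.eval_mul, Polynomial.eval_C,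
    Polynomial.eval_pow, Polynomial.eval_X]
  ring_nf

theorem exists_add_eq_of_card [Fintype F] {S T : Finset F}
    (h : Fintype.card F < S.card + T.card) {a b : F} (ha : a ≠ 0) (hb : b ≠ 0) (γ : F) :
    ∃ s ∈ S, ∃ t ∈ T, a * s + b * t = γ := by
  classical
  by_contra hc
  push Not at hc
  have h1 : Disjoint (S.image fun s => a * s) (T.image fun t => γ - b * t) := by
    rw [Finset.disjoint_left]
    intro x hx hx'
    obtain ⟨s, hs, rfl⟩ := Finset.mem_image.1 hx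
    obtain ⟨t, ht, e⟩ := Finset.mem_image.1 hx'
    exact hc s hs t ht (by linear_combination -e)
  have h2 := Finset.card_le_univ (Finset.disjUnion _ _ h1)
  rw [Finset.card_disjUnion, Finset.card_image_of_injective _ (mul_right_injective₀ ha),
    Finset.card_image_of_injective _ fun x y e => mul_left_cancel₀ hb (sub_right_injective e)] at h2
  omega

theorem odd_card_of_two_ne_zero [Fintype F] (h2 : (2 : F) ≠ 0) : Odd (Fintype.card F) := by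
  rw [Nat.odd_iff]
  refine FiniteField.odd_card_of_char_ne_two fun h => h2 ?_
  have := ringChar.of_eq h
  exact_mod_cast CharP.cast_eq_zero F 2

theorem exists_pair_add_ne (h2 : (2 : F) ≠ 0) (α : ι → F) (hα : ∀ i, α i ≠ 0) {i j k : ι}
    (hij : i ≠ j) (hik : i ≠ k) (hjk : j ≠ k) : ∃ x y z, x ≠ y ∧ x ≠ z ∧ y ≠ z ∧ α x + α y ≠ 0 ∧
      ∀ P : ι → Prop, P i → P j → P k → P x ∧ P y ∧ P z := by
  by_cases h1 : α i + α j = 0
  · by_cases h3 : α i + α k = 0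
    · exact ⟨j, k, i, hjk, hij.symm, hik.symm, fun e => mul_ne_zero h2 (hα i)
        (by linear_combination h1 + h3 - e), fun _ a b c => ⟨b, c, a⟩⟩
    · exact ⟨i, k, j, hik, hij, hjk.symm, h3, fun _ a b c => ⟨a, c, b⟩⟩
  · exact ⟨i, j, k, hij, hik, hjk, h1, fun _ a b c => ⟨a, b, c⟩⟩

namespace Fm

variable {Φ : Fm F V} {D : ι → Submodule F V} {M : Subgroup (V ≃ₗ[F] V)}

variable (Φ M) in
/-- The parameters of the Eichler transformations with a given centre. -/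
def inASub {v : V} (hv : Φ.Q v = 0) : AddSubgroup V where
  carrier := {w | Φ.InA M v w}
  zero_mem' := inA_zero hv
  add_mem' := InA.add
  neg_mem' := InA.neg

namespace IsO

variable (hO : Φ.IsO)
include hO

theorem inA_self {v : V} (hv : Φ.Q v = 0) (t : F) : Φ.InA M v (t • v) :=
  ⟨0, valid_zero hv (by simp [Φ.B_self hv]) (Φ.Q_smul_zero hv t), 1, M.one_mem, fun x => by
    rw [hO.ef, hO.B_smul_left]
    change x = _
    module⟩

theorem full_of {v : V} (h : ∀ w, Φ.B v w = 0 → Φ.InA M v w) : Φ.Full M v := fun w _ hv =>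
  (h w hv.perp).hasE (fun c hc => by rw [← hO.π c, hc]; exact hasE_zero v) hv

theorem B_r_self {s : V} (hs : Φ.Q s = 0) {b : V} (hb : Φ.Q b ≠ 0) (h : Φ.B b s ≠ 0) :
    Φ.B (hO.r b s) s ≠ 0 := by
  simp [hO.r_apply, Φ.B_self hs, hO.σ, hb, h]

variable [FiniteDimensional F V] {W : Submodule F V} (hW : Φ.ND W) (h2 : 2 ≤ finrank F W)
include hW h2

theorem exists_perp_nonsing {x : V} (hx : x ∈ W) (hx0 : Φ.Q x ≠ 0) :
    ∃ n ∈ W, Φ.Q n ≠ 0 ∧ Φ.B n x = 0 := by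
  by_cases h : Φ.B x x = 0
  · exact ⟨x, hx, hx0, h⟩
  · have := finrank_le_inf_ker W (Φ.B x)
    obtain ⟨n, hn, h1⟩ := hO.exists_nonsing (hW.inf_one hx h) fun e => by
      rw [e, finrank_bot] at this; omega
    exact ⟨n, hn.1, h1, Φ.perp_symm hn.2⟩

theorem exists_vals [Fintype F] {x : V} (hx : x ∈ W) (hx0 : Φ.Q x ≠ 0) :
    ∃ S : Finset F, Fintype.card F ≤ 2 * S.card ∧
      ∀ y ∈ S, ∃ b ∈ W, Φ.B b x = 1 ∧ (Φ.Q b)⁻¹ = y := by
  classical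
  obtain ⟨n, hn, h1, h3⟩ := hO.exists_perp_nonsing hW h2 hx hx0
  obtain ⟨p, hp, h4⟩ := hW.exists_ne hx fun e => hx0 (by rw [e, Φ.Q_zero])
  refine ⟨_, card_le_two_mul_image h1 (Φ.B ((Φ.B x p)⁻¹ • p) n) (Φ.Q ((Φ.B x p)⁻¹ • p)), ?_⟩
  intro y hy
  obtain ⟨s, -, rfl⟩ := Finset.mem_image.1 hy
  exact ⟨(Φ.B x p)⁻¹ • p + s • n, W.add_mem (W.smul_mem _ hp) (W.smul_mem _ hn),
    by simp [hO.σ, h3, hO.symm x p, h4], by rw [hO.Q_add, hO.Q_smul s, Φ.B_smul_right]⟩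

/-- Additive irreducibility of an anisotropic plane. -/
theorem add_irr [Fintype F] (han : ∀ s ∈ W, Φ.Q s = 0 → s = 0) (A : AddSubgroup V)
    (hA : ∀ b ∈ W, ∀ x ∈ W, x ∈ A → hO.r b x ∈ A) {w : V} (hw : w ∈ W) (hw0 : w ≠ 0)
    (hwA : w ∈ A) : ∀ x ∈ W, x ∈ A := by
  classical
  have hsub : ∀ b ∈ W, ∀ x ∈ W, x ∈ A → ((Φ.Q b)⁻¹ * Φ.B b x) • b ∈ A := fun b hb x hx h => by
    have := A.sub_mem h (hA b hb x hx h)
    rwa [hO.r_apply, sub_sub_cancel] at this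
  have hline : ∀ w ∈ W, w ≠ 0 → w ∈ A → ∀ t : F, t • w ∈ A := fun w hw hw0 hwA t => by
    have h0 : Φ.Q w ≠ 0 := fun e => hw0 (han w hw e)
    obtain ⟨S, hS, hS'⟩ := hO.exists_vals hW h2 hw h0
    have h1 : 0 ∉ S := fun h => by
      obtain ⟨b, hb, e1, e2⟩ := hS' 0 h
      simp [han b hb (inv_eq_zero.1 e2)] at e1
    have h3 : ∀ y ∈ insert 0 S, ((Φ.Q w)⁻¹ * y) • w ∈ A := fun y hy => by
      rcases Finset.mem_insert.1 hy with rfl | hy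
      · simp
      · obtain ⟨b, hb, e1, rfl⟩ := hS' y hy
        have := hsub w hw _ (W.smul_mem _ hb) (hsub b hb w hw hwA)
        rwa [Φ.B_smul_right, hO.symm b w, e1, mul_one, mul_one] at this
    obtain ⟨s, hs, s', hs', rfl⟩ := exists_add_eq_of_card (S := insert 0 S) (T := insert 0 S)
      (by rw [Finset.card_insert_of_notMem h1]; omega) (inv_ne_zero h0) (inv_ne_zero h0) t
    rw [add_smul]
    exact A.add_mem (h3 s hs) (h3 s' hs')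
  have key : ∀ x ∈ W, Φ.B x w ≠ 0 → x ∈ A := fun x hx h => by
    have h0 : x ≠ 0 := fun e => h (by simp [e])
    have h1 := mul_ne_zero (inv_ne_zero fun e => h0 (han x hx e)) h
    have := hline _ (W.smul_mem _ hx) (smul_ne_zero h1 h0) (hsub x hx w hw hwA)
      ((Φ.Q x)⁻¹ * Φ.B x w)⁻¹
    rwa [smul_smul, inv_mul_cancel₀ h1, one_smul] at this
  intro x hx
  by_cases h : Φ.B x w = 0
  · obtain ⟨p, hp, h4⟩ := hW.exists_ne hw hw0
    simpa using A.sub_mem (key (x + p) (W.add_mem hx hp) (by simpa [h] using Φ.ne_symm h4))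
      (key p hp (Φ.ne_symm h4))
  · exact key x hx h

end IsO

namespace OSet

variable [FiniteDimensional F V] [Fintype F] [Fintype ι] (h : Φ.OSet D M)
include h

theorem inA_conj {g : V ≃ₗ[F] V} (hg : g ∈ Φ.HI D) (m : ι) {v w : V} (hv : v ∈ Φ.perp (D m))
    (hw : Φ.InA M v w) : ∃ d ∈ D m, Φ.InA M (g v) (g (w + d)) ∧ (w ∈ Φ.perp (D m) → d = 0) := by
  obtain ⟨k, hk, e⟩ := h.cov m g hg.2
  have h1 : g * k ∈ Φ.HE D := ⟨(dstab D).mul_mem hg.1 (h.dec.supp_le le_rfl hk).1, e⟩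
  have h2 := hw.conj (h.le h1) (HE_le_HI h1).2
  rw [mul_app, mul_app, supp_fix hk hv] at h2
  exact ⟨_, supp_sub_mem hk w, by simpa using h2, fun h3 => by rw [supp_fix hk h3, sub_self]⟩

theorem inA_conj' {g : V ≃ₗ[F] V} (hg : g ∈ Φ.HI D) (m : ι) {v w : V} (hv : v ∈ Φ.perp (D m))
    (hw' : w ∈ Φ.perp (D m)) (hw : Φ.InA M v w) : Φ.InA M (g v) (g w) := by
  obtain ⟨d, -, h1, h2⟩ := h.inA_conj hg m hv hw
  rwa [h2 hw', add_zero] at h1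

theorem inA_swap {i j m : ι} (hij : i ≠ j) (hm : m ≠ j) {v : V} (hi : v ∈ Φ.perp (D i))
    (hj : v ∈ Φ.perp (D j)) (hv : v ∈ Φ.perp (D m)) (hA : ∀ x ∈ D j, Φ.InA M v x) :
    ∀ x ∈ D i, Φ.InA M v x := fun x hx => by
  obtain ⟨s, hs⟩ := h.dec.exists_isSwap hij
  have := h.inA_conj' hs.mem m hv (h.dec.le_perp hm (hs.fst x hx)) (hA _ (hs.fst x hx))
  rwa [hs.fix v hi hj, hs.invol] at this

/-- The end game for anisotropic blocks. -/
theorem EG_le_of_inA_aniso (h5 : 5 ≤ Fintype.card ι) (han : ∀ i, ∀ s ∈ D i, Φ.Q s = 0 → s = 0)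
    {i₁ i₂ j : ι} (h12 : i₁ ≠ i₂) (hj₁ : j ≠ i₁) (hj₂ : j ≠ i₂) {v w : V} (hv0 : Φ.Q v = 0)
    (hv : ∀ l, l ≠ i₁ → l ≠ i₂ → v ∈ Φ.perp (D l)) (hv1 : h.dec.pr i₁ v ≠ 0)
    (hw : Φ.InA M v w) (hw' : h.dec.pr j w ≠ 0) : Φ.EG ≤ M := by
  obtain ⟨m, m1, m2, m3⟩ := exists_fourth (by omega) i₁ i₂ j
  obtain ⟨n, n1, n2, n3, n4⟩ := exists_fifth h5 i₁ i₂ j m
  have hns : ∀ {i : ι} {b x : V}, b ∈ D i → Φ.B b x ≠ 0 → Φ.Q b ≠ 0 := fun hb h1 e =>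
    h1 (by simp [han _ _ hb e])
  have hex : ∀ (i : ι) (x : V), h.dec.pr i x ≠ 0 → ∃ b ∈ D i, Φ.B b x ≠ 0 := fun i x hx =>
    let ⟨b, hb, e⟩ := (h.dec.nd i).exists_ne (h.dec.pr_mem i x) hx
    ⟨b, hb, by rw [← h.dec.B_pr hb]; exact Φ.ne_symm e⟩
  have hvj := hv j hj₁ hj₂
  have hr : ∀ b ∈ D j, h.o.r b v = v := fun b hb => h.o.r_of_perp (hvj b hb)
  have ha : ∀ x ∈ D j, Φ.InA M v x := by
    obtain ⟨b, hb, e1⟩ := hex j w hw'
    obtain ⟨d, hd, e2, -⟩ := h.inA_conj (h.r_mem_HI hb) m (hv m m1 m2) hw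
    have e3 := (hr b hb ▸ e2).sub hw
    rw [map_add, h.o.r_of_perp (h.dec.perp j m m3.symm b hb d hd), h.o.r_apply] at e3
    set w' := w - ((Φ.Q b)⁻¹ * Φ.B b w) • b + d - w with hw'
    have e4 : w' = d - ((Φ.Q b)⁻¹ * Φ.B b w) • b := by rw [hw']; abel
    obtain ⟨b', hb', e5⟩ := (h.dec.nd j).exists_ne hb fun e => e1 (by simp [e])
    have e6 : Φ.B b' w' ≠ 0 := by
      simp [e4, h.dec.perp j m m3.symm b' hb' d hd, hns hb e1, e1, Φ.ne_symm e5]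
    have e7 := e3.sub (hr b' hb' ▸ h.inA_conj' (h.r_mem_HI hb') n (hv n n1 n2) (e4 ▸
      Submodule.sub_mem _ (h.dec.le_perp n4 hd) (h.dec.le_perp n3 ((D j).smul_mem _ hb))) e3)
    rw [h.o.r_apply, sub_sub_cancel] at e7
    exact h.o.add_irr (h.dec.nd j) (h.good j).two_le (han j) (Φ.inASub M hv0)
      (fun b hb x hx hxA => by
        have := h.inA_conj' (h.r_mem_HI hb) m (hv m m1 m2) (h.dec.le_perp m3 hx) hxA
        rwa [hr b hb] at this) ((D j).smul_mem _ hb')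
      (smul_ne_zero (mul_ne_zero (inv_ne_zero (hns hb' e6)) e6) fun e => e6 (by simp [e])) e7
  have hU : ∀ u, h.dec.pr i₁ u = 0 → h.dec.pr i₂ u = 0 → Φ.InA M v u := fun u u1 u2 =>
    h.dec.induction (P := Φ.InA M v) (inA_zero hv0) (fun _ _ => InA.add) u fun l => by
      by_cases l1 : l = i₁
      · rw [l1, u1]; exact inA_zero hv0
      by_cases l2 : l = i₂
      · rw [l2, u2]; exact inA_zero hv0
      by_cases l3 : l = j
      · exact ha _ (l3 ▸ h.dec.pr_mem l u)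
      exact h.inA_swap l3 m3 (hv l l1 l2) hvj (hv m m1 m2) ha _ (h.dec.pr_mem l u)
  obtain ⟨y, hy, hy0⟩ := h.dec.exists_ne_zero j
  obtain ⟨y', hy', e1⟩ := h.o.rep (h.dec.nd m) (h.good m).two_le (-Φ.Q y)
  have hs0 : Φ.Q (y + y') = 0 := by
    rw [Φ.Q_add_perp (h.dec.perp j m m3.symm y hy y' hy'), e1, add_neg_cancel]
  have hsp : ∀ l, l ≠ j → l ≠ m → y + y' ∈ Φ.perp (D l) := fun l l1 l2 =>
    Submodule.add_mem _ (h.dec.le_perp l1 hy) (h.dec.le_perp l2 hy')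
  have hsj : h.dec.pr j (y + y') ≠ 0 := by
    rwa [map_add, h.dec.pr_of_mem hy, h.dec.pr_of_ne m3.symm hy', add_zero]
  have hvs : Φ.B v (y + y') = 0 := by
    rw [map_add, Φ.perp_symm (hvj y hy), Φ.perp_symm (hv m m1 m2 y' hy'), add_zero]
  generalize y + y' = s at hs0 hsp hsj hvs
  have s1 := hsp i₁ hj₁.symm m1.symm
  have s2 := hsp i₂ hj₂.symm m2.symm
  have sn := hsp n n3 n4
  have s1' := h.dec.pr_eq_zero_iff.2 s1
  have s2' := h.dec.pr_eq_zero_iff.2 s2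
  obtain ⟨b, hb, e2⟩ := hex i₁ v hv1
  have e3 := h.o.B_r_self hv0 (hns hb e2) e2
  obtain ⟨c₁, v₁, g₁, hg₁, f₁⟩ := h.inA_conj' (h.r_mem_HI hb) n (hv n n1 n2)
    (Submodule.smul_mem _ (Φ.B (h.o.r b v) v)⁻¹ sn) (hU _ (by simp [s1']) (by simp [s2']))
  rw [map_smul, h.o.r_of_perp (s1 b hb)] at v₁ f₁
  have c0 : c₁ = 0 := by rw [← h.o.π c₁, v₁.norm, Φ.Q_smul_zero hs0]
  obtain ⟨z, hz, e4⟩ := hex j s hsj
  have hz' := (D j).smul_mem (Φ.B z s)⁻¹ hz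
  have e5 : Φ.B ((Φ.B z s)⁻¹ • z) s = 1 := by rw [h.o.B_smul_left, inv_mul_cancel₀ e4]
  generalize (Φ.B z s)⁻¹ • z = y₀ at hz' e5
  obtain ⟨c₂, v₂, g₂, hg₂, f₂⟩ := ha y₀ hz'
  have hS : ∀ u, h.dec.pr i₁ u = 0 → h.dec.pr i₂ u = 0 → Φ.B s u = 0 → Φ.InA M s u :=
    fun u u1 u2 u3 => by
      have p1 : Φ.B v u = 0 := (hU u u1 u2).perp
      have p2 : Φ.B (h.o.r b v) u = 0 := by
        simp [h.o.r_apply, p1, h.dec.pr_eq_zero_iff.1 u1 b hb]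
      have p3 : Φ.B (h.o.r b v) s = 0 := by simp [h.o.r_apply, hvs, s1 b hb]
      have := (((hU (u - Φ.B y₀ u • s) (by simp [u1, s1']) (by simp [u2, s2'])).add
        (h.o.inA_self hv0 (Φ.B y₀ u))).conj hg₁ (h.iso hg₁)).conj hg₂ (h.iso hg₂)
      convert this using 1
      · simp [f₁, f₂, h.o.ef, c0, e3, h.o.σ, Φ.perp_symm hvs, smul_smul, Φ.B_self hv0, hvs, e5,
          hvj y₀ hz']
      · simp only [f₁, f₂, h.o.ef, c0, h.o.σ, Φ.bsimp, Φ.perp_symm hvs, Φ.B_self hv0, hvs, e5,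
          hvj y₀ hz', p1, p2, p3, u3, Φ.B_self hs0]
        match_scalars <;> field_simp <;> ring
  have hn : ∀ x ∈ D n, Φ.InA M s x := fun x hx => hS x (h.dec.pr_of_ne n1.symm hx)
    (h.dec.pr_of_ne n2.symm hx) (Φ.perp_symm (sn x hx))
  have hF : Φ.Full M s := h.o.full_of fun u hu => by
    have u1 := h.inA_swap n1.symm n2.symm s1 sn s2 hn _ (h.dec.pr_mem i₁ u)
    have u2 := h.inA_swap n2.symm n1.symm s2 sn s1 hn _ (h.dec.pr_mem i₂ u)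
    have := (u1.add u2).add (hS (u - h.dec.pr i₁ u - h.dec.pr i₂ u)
      (by simp [h.dec.pr_pr, h.dec.pr_pr_of_ne h12])
      (by simp [h.dec.pr_pr, h.dec.pr_pr_of_ne h12.symm]) (by simp [hu, u1.perp, u2.perp]))
    convert this using 1
    abel
  obtain ⟨k, hk, ek⟩ := (h.cv n).real (h.r_mem_HI hz)
  have := hF.conj (h.le hk) (HE_le_HI hk).2
  rw [ek s sn] at this
  exact EG_le_of_full this hF (by rw [h.o.Q_r, hs0]) hs0 (h.o.B_r_self hs0 (hns hz e4) e4)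

theorem exists_vals {i : ι} {a : V} (hi : Φ.Q (h.dec.pr i a) ≠ 0) :
    ∃ S : Finset F, Fintype.card F ≤ 2 * S.card ∧
      ((∀ s ∈ D i, Φ.Q s = 0 → s = 0) → 0 ∉ S) ∧ ∀ y ∈ S, ∃ d ∈ D i, Φ.Q d = Φ.B d a ∧ Φ.Q d = y := by
  obtain ⟨S, h1, h2⟩ := h.o.exists_vals (h.dec.nd i) (h.good i).two_le (h.dec.pr_mem i a) hi
  refine ⟨S, h1, fun han h0 => ?_, fun y hy => ?_⟩
  · obtain ⟨b, hb, e1, e2⟩ := h2 0 h0
    simp [han b hb (inv_eq_zero.1 e2)] at e1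
  · obtain ⟨b, hb, e1, rfl⟩ := h2 y hy
    rw [h.dec.B_pr hb] at e1
    have : Φ.Q ((Φ.Q b)⁻¹ • b) = (Φ.Q b)⁻¹ := by
      rw [h.o.Q_smul]
      by_cases h0 : Φ.Q b = 0
      · simp [h0]
      · field_simp
    exact ⟨_, (D i).smul_mem _ hb, by rw [this, h.o.B_smul_left, e1, mul_one], this⟩

theorem exists_tor_val {i : ι} (h2 : finrank F (D i) = 2) {e : V} (he : e ∈ D i) (he0 : Φ.Q e = 0)
    (he1 : e ≠ 0) (a : V) {β : F} (hβ : β ≠ 0) :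
    ∃ d ∈ D i, Φ.Q d = Φ.B d a ∧ Φ.Q d = Φ.Q (h.dec.pr i a) * (2 - β - β⁻¹) := by
  obtain ⟨f, hf, hf0, hef⟩ := exists_partner he he0 ((h.dec.nd i).exists_ne he he1)
  have hfe : Φ.B f e = 1 := by rw [h.o.symm, hef]
  obtain ⟨x, y, e1⟩ := exists_pair_eq h2 he hf (fun s t e' => by
    have e1 := congrArg (Φ.B e) e'
    have e2 := congrArg (Φ.B f) e'
    simp only [Φ.bsimp, Φ.B_self he0, Φ.B_self hf0, hef, hfe] at e1 e2
    exact ⟨by simpa using e2, by simpa using e1⟩) (h.dec.pr_mem i a)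
  have h3 := (D i).add_mem ((D i).smul_mem ((1 - β) * x) he) ((D i).smul_mem ((1 - β⁻¹) * y) hf)
  refine ⟨_, h3, ?_, ?_⟩
  · rw [← h.dec.B_pr h3, ← e1]
    simp only [h.o.Q_add, h.o.Q_smul, Φ.bsimp, h.o.σ, Φ.B_self he0, Φ.B_self hf0, hef, hfe, he0, hf0]
    field_simp
    ring
  · rw [← e1]
    simp only [h.o.Q_add, h.o.Q_smul, Φ.bsimp, h.o.σ, hef, he0, hf0]
    field_simp
    ring

variable {c : F} (hc : c ≠ 0)
include hc

omit hc in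
theorem fl_mv₂ {a d d' : V} (ha : h.Fl c a) {i j : ι} (hij : i ≠ j) (hi : Φ.Q (h.dec.pr i a) ≠ 0)
    (hj : Φ.Q (h.dec.pr j a) ≠ 0) (hd : d ∈ D i) (hd' : d' ∈ D j) (e : Φ.Q d = Φ.B d a)
    (e' : Φ.Q d' = Φ.B d' a) : h.Fl c (a - d - d') := by
  refine (ha.mv hi hd e).mv (i := j) ?_ hd' ?_
  · rwa [map_sub, h.dec.pr_of_ne hij.symm hd, sub_zero]
  · rw [map_sub, h.dec.perp j i hij.symm d' hd' d hd, sub_zero, e']

theorem EG_le_of_aniso (h5 : 5 ≤ Fintype.card ι) (han : ∀ i, ∀ s ∈ D i, Φ.Q s = 0 → s = 0) {a : V}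
    (ha : h.Fl c a) {i j k : ι} (hij : i ≠ j) (hik : i ≠ k) (hjk : j ≠ k) (hi : h.dec.pr i a ≠ 0)
    (hj : h.dec.pr j a ≠ 0) (hk : h.dec.pr k a ≠ 0) : Φ.EG ≤ M := by
  classical
  have hi' : Φ.Q (h.dec.pr i a) ≠ 0 := fun e => hi (han i _ (h.dec.pr_mem i a) e)
  have hj' : Φ.Q (h.dec.pr j a) ≠ 0 := fun e => hj (han j _ (h.dec.pr_mem j a) e)
  obtain ⟨S, s1, s2, s3⟩ := h.exists_vals hi'
  obtain ⟨T, t1, t2, t3⟩ := h.exists_vals hj'
  obtain ⟨s, hs, t, ht, e⟩ := exists_add_eq_of_card (S := insert 0 S) (T := T)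
    (by rw [Finset.card_insert_of_notMem (s2 (han i))]; omega) one_ne_zero one_ne_zero 0
  rw [one_mul, one_mul] at e
  have hs0 : s ≠ 0 := fun e' => t2 (han j) (by rwa [← e, e', zero_add])
  obtain ⟨d, hd, e1, e2⟩ := s3 s ((Finset.mem_insert.1 hs).resolve_left hs0)
  obtain ⟨d', hd', e3, e4⟩ := t3 t ht
  have h0 : Φ.Q (d + d') = 0 := by rw [Φ.Q_add_perp (h.dec.perp i j hij d hd d' hd'), e2, e4, e]
  refine h.EG_le_of_inA_aniso h5 han hij hik.symm hjk.symm h0 (fun l l1 l2 =>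
    Submodule.add_mem _ (h.dec.le_perp l1 hd) (h.dec.le_perp l2 hd')) ?_
    (ha.cls.inA hc h0 (by rw [← sub_sub]; exact (h.fl_mv₂ ha hij hi' hj' hd hd' e1 e3).cls)) ?_
  · rw [map_add, h.dec.pr_of_mem hd, h.dec.pr_of_ne hij hd', add_zero]
    exact fun e' => hs0 (by rw [← e2, e', Φ.Q_zero])
  · rw [map_smul]
    exact smul_ne_zero (neg_ne_zero.2 (inv_ne_zero hc)) hk

section Plus

variable (h2 : ∀ i, finrank F (D i) = 2) {i₀ : ι} {e : V} (he : e ∈ D i₀) (he0 : Φ.Q e = 0)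
  (he1 : e ≠ 0)
include h2 he he0 he1

theorem EG_le_of_plus_two (hq : (2 : F) = 0) {a : V} (ha : h.Cls c a) {i j : ι} (hij : i ≠ j)
    (hi : Φ.Q (h.dec.pr i a) ≠ 0) (hj : Φ.Q (h.dec.pr j a) ≠ 0) : Φ.EG ≤ M := by
  have h7 := h.seven_le he he0 he1 (h2 i)
  have key : ∀ a, h.Cls c a → ∀ i, Φ.Q (h.dec.pr i a) ≠ 0 → Φ.Q (h.dec.pr i a) ≠ c → Φ.EG ≤ M :=
    fun a ha i hi hi' => by
      obtain ⟨s, hs, hs0, hs1⟩ := h.dec.exists_sing he he0 he1 i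
      have h1 := sub_ne_zero.2 hi'
      obtain ⟨β, hβ⟩ := exists_sq_of_two_eq_zero hq (Φ.Q (h.dec.pr i a) / (Φ.Q (h.dec.pr i a) - c))
      have h0 : β ≠ 0 := fun e => div_ne_zero hi h1 (by rw [← hβ, e, mul_zero])
      rw [eq_div_iff h1] at hβ
      obtain ⟨d, hd, e1, e2⟩ := h.exists_tor_val (h2 i) hs hs0 hs1 a h0
      refine h.EG_le_of_val hc (by omega) ha (d' := 0) (by
        rw [sub_zero]; exact ((ha.fl_of_two hc hq).mv hi hd e1).cls) hd (Submodule.zero_mem _) hi h0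
        (fun e => hc (by rw [e] at hβ; linear_combination -hβ)) e1 e2 ?_
      rw [e2, Φ.Q_zero]
      field_simp
      linear_combination -hβ + (β * Φ.Q (h.dec.pr i a) - Φ.Q (h.dec.pr i a) - β * c) * hq
  by_cases h1 : Φ.Q (h.dec.pr i a) = c
  swap
  · exact key a ha i hi h1
  by_cases h3 : Φ.Q (h.dec.pr j a) = c
  swap
  · exact key a ha j hj h3
  obtain ⟨s, hs, hs0, hs1⟩ := h.dec.exists_sing he he0 he1 i
  obtain ⟨ζ, hζ⟩ := exists_eval_ne_zero (Polynomial.X * (Polynomial.X + Polynomial.C 1) *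
    (Polynomial.X * (Polynomial.X + Polynomial.C 1) + Polynomial.C (1 : F)))
    (mul_ne_zero (mul_ne_zero Polynomial.X_ne_zero (Polynomial.X_add_C_ne_zero 1)) fun e => by
      simpa using congrArg (Polynomial.eval 0) e)
    (lt_of_le_of_lt (show _ ≤ 4 by compute_degree) (by omega))
  simp only [Polynomial.eval_mul, Polynomial.eval_X, Polynomial.eval_add, Polynomial.eval_C,
    mul_ne_zero_iff] at hζ
  obtain ⟨⟨z0, z1⟩, z2⟩ := hζ
  obtain ⟨d, hd, e1, e2⟩ := h.exists_tor_val (h2 i) hs hs0 hs1 a z0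
  have h4 := ((ha.fl_of_two hc hq).mv hi hd e1).cls.sub hc ha (β := ζ + ζ⁻¹) (by
    rw [sub_sub_cancel, e2, h1]; ring)
  have h5 : Φ.Q (h.dec.pr j (a - (ζ + ζ⁻¹) • (a - d))) = (1 - (ζ + ζ⁻¹)) * (1 - (ζ + ζ⁻¹)) * c := by
    rw [← h3, ← h.o.Q_smul, map_sub, map_smul, map_sub, h.dec.pr_of_ne hij.symm hd]
    congr 1
    module
  refine key _ h4 j ?_ ?_ <;> rw [h5]
  · refine mul_ne_zero (mul_self_ne_zero.2 fun e => z2 ?_) hc
    field_simp at e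
    linear_combination -e + ζ * hq
  · intro e
    have e3 := mul_right_cancel₀ hc (e.trans (one_mul c).symm)
    have e4 : ((ζ + 1) * (ζ + 1)) * ((ζ + 1) * (ζ + 1)) = 0 := by
      field_simp at e3
      linear_combination e3 + (3 * ζ ^ 3 + 2 * ζ ^ 2 + 3 * ζ) * hq
    exact z1 (mul_self_eq_zero.1 (mul_self_eq_zero.1 e4))

theorem EG_le_of_plus_odd (hq : (2 : F) ≠ 0) {a : V} (ha : h.Fl c a) {i j k : ι} (hij : i ≠ j)
    (hik : i ≠ k) (hjk : j ≠ k) (hi : Φ.Q (h.dec.pr i a) ≠ 0) (hj : Φ.Q (h.dec.pr j a) ≠ 0)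
    (hk : Φ.Q (h.dec.pr k a) ≠ 0) : Φ.EG ≤ M := by
  have h7 := h.seven_le he he0 he1 (h2 i)
  obtain ⟨s, hs, hs0, hs1⟩ := h.dec.exists_sing he he0 he1 i
  obtain ⟨β, h0, h1⟩ := exists_sq_ne_one' (F := F) (by omega)
  obtain ⟨d, hd, e1, e2⟩ := h.exists_tor_val (h2 i) hs hs0 hs1 a h0
  obtain ⟨S, s1, -, s3⟩ := h.exists_vals hj
  obtain ⟨T, t1, -, t3⟩ := h.exists_vals hk
  obtain ⟨r, hr⟩ := odd_card_of_two_ne_zero hq
  obtain ⟨s, hs, t, ht, e⟩ := exists_add_eq_of_card (S := S) (T := T) (by omega) one_ne_zero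
    one_ne_zero ((2 - β) * c - Φ.Q d)
  obtain ⟨d₁, hd₁, e3, e4⟩ := s3 s hs
  obtain ⟨d₂, hd₂, e5, e6⟩ := t3 t ht
  have h3 := (h.fl_mv₂ ha hjk hj hk hd₁ hd₂ e3 e5).mv (i := i) (by
    rwa [map_sub, map_sub, h.dec.pr_of_ne hij hd₁, h.dec.pr_of_ne hik hd₂, sub_zero, sub_zero]) hd
    (by rw [map_sub, map_sub, h.dec.perp i j hij d hd _ hd₁, h.dec.perp i k hik d hd _ hd₂, e1]; ring)
  refine h.EG_le_of_val hc (by omega) ha.cls (d' := d₁ + d₂) (by convert h3.cls using 1; abel) hd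
    (Submodule.add_mem _ (h.dec.le_perp hij hd₁) (h.dec.le_perp hik hd₂)) hi h0 h1 e1 e2 ?_
  rw [Φ.Q_add_perp (h.dec.perp j k hjk _ hd₁ _ hd₂), e4, e6]
  linear_combination e

end Plus

section Plane

variable (h2 : ∀ i, finrank F (D i) = 2)
include h2

theorem EG_le_of_comp {a : V} (ha : h.Cls c a) (H : (∀ i, h.dec.pr i a ≠ 0 →
    Φ.Q (h.dec.pr i a) ≠ 0) → Φ.EG ≤ M) : Φ.EG ≤ M := by
  by_cases h1 : ∀ i, h.dec.pr i a ≠ 0 → Φ.Q (h.dec.pr i a) ≠ 0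
  · exact H h1
  · push Not at h1
    obtain ⟨i, h3, h4⟩ := h1
    have := h.seven_le (h.dec.pr_mem i a) h4 h3 (h2 i)
    exact h.EG_le_of_sing hc (by omega) ha h4 h3

theorem EG_le_of_fl₃ {a : V} (ha : h.Fl c a) {i j k : ι} (hij : i ≠ j) (hik : i ≠ k) (hjk : j ≠ k)
    (hi : h.dec.pr i a ≠ 0) (hj : h.dec.pr j a ≠ 0) (hk : h.dec.pr k a ≠ 0) : Φ.EG ≤ M := by
  by_cases han : ∀ i, ∀ s ∈ D i, Φ.Q s = 0 → s = 0
  · exact h.EG_le_of_aniso hc (h.pl i (h2 i)) han ha hij hik hjk hi hj hk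
  push Not at han
  obtain ⟨i₀, e, he, he0, he1⟩ := han
  refine h.EG_le_of_comp hc h2 ha.cls fun H => ?_
  by_cases hq : (2 : F) = 0
  · exact h.EG_le_of_plus_two hc h2 he he0 he1 hq ha.cls hij (H i hi) (H j hj)
  · exact h.EG_le_of_plus_odd hc h2 he he0 he1 hq ha hij hik hjk (H i hi) (H j hj) (H k hk)

theorem EG_le_of_fl₂ {a : V} (ha : h.Fl c a) {i j : ι} (hij : i ≠ j) (hi : h.dec.pr i a ≠ 0)
    (hj : h.dec.pr j a ≠ 0) : Φ.EG ≤ M := by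
  by_cases h3 : ∃ k, i ≠ k ∧ j ≠ k ∧ h.dec.pr k a ≠ 0
  · obtain ⟨k, hik, hjk, hk⟩ := h3
    exact h.EG_le_of_fl₃ hc h2 ha hij hik hjk hi hj hk
  push Not at h3
  refine h.EG_le_of_comp hc h2 ha.cls fun H => ?_
  have h5 := h.pl i (h2 i)
  obtain ⟨k, k1, k2⟩ := exists_third (by omega) i j
  obtain ⟨m, m1, m2, m3⟩ := exists_fourth (by omega) i j k
  obtain ⟨y, hy, e1, e2, e3⟩ := h.o.exists_nbr (h.good j) (h.dec.pr_mem j a) (H j hj)
  obtain ⟨s, hs⟩ := h.dec.exists_isSwap k1.symm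
  have hd := (D j).sub_mem (h.dec.pr_mem j a) hy
  have h4 := ((ha.mv (H j hj) hd (by
    rw [← h.dec.B_pr hd, h.o.Q_sub, Φ.B_sub_left, h.o.B_self, e1, h.o.symm]; ring)).map hs.mem).cls
  have h6 : a = h.dec.pr i a + h.dec.pr j a := by
    rw [← sub_eq_zero]
    refine h.dec.eq_zero_of_pr fun l => ?_
    by_cases l1 : i = l
    · simp [← l1, h.dec.pr_pr, h.dec.pr_pr_of_ne hij]
    by_cases l2 : j = l
    · simp [← l2, h.dec.pr_pr, h.dec.pr_pr_of_ne hij.symm]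
    · simp [h3 l l1 l2, h.dec.pr_pr_of_ne (Ne.symm l1), h.dec.pr_pr_of_ne (Ne.symm l2)]
  have hx := h.dec.pr_mem i a
  have hx' := h.dec.pr_mem j a
  generalize h.dec.pr i a = x at *
  generalize h.dec.pr j a = x' at *
  subst h6
  have hz := hs.fst x hx
  have hz0 : s x ≠ 0 := s.map_ne_zero_iff.2 hi
  rw [show x + x' - (x' - y) = x + y by abel, map_add,
    hs.fix y (h.dec.le_perp hij hy) (h.dec.le_perp k2 hy)] at h4
  generalize s x = z at *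
  have h7 := h4.sub' hc ha.cls (β := Φ.B x' y / c) (by
    simp [h.dec.perp k i k1 z hz x hx, h.dec.perp k j k2 z hz x' hx',
      h.dec.perp j i hij.symm y hy x hx, h.o.symm x' y, hc])
  refine h.EG_le_of_fl₃ hc h2 (h.fl_of_zero hc h7 (m := m) ?_) hij k1.symm k2.symm ?_ ?_ ?_
  · simp [h.dec.pr_of_ne m1 hx, h.dec.pr_of_ne m2 hx', h.dec.pr_of_ne m3 hz, h.dec.pr_of_ne m2 hy]
  · simpa [h.dec.pr_of_mem hx, h.dec.pr_of_ne hij hx', h.dec.pr_of_ne k1.symm hz,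
      h.dec.pr_of_ne hij hy] using hi
  · simp only [map_sub, map_add, map_smul, h.dec.pr_of_ne hij.symm hx, h.dec.pr_of_mem hx',
      h.dec.pr_of_ne k2.symm hz, h.dec.pr_of_mem hy, zero_add, sub_ne_zero]
    intro e
    refine e3 (Φ.B x' y / c)⁻¹ ?_
    rw [eq_inv_smul_iff₀ (div_ne_zero e2 hc), ← e]
  · simp [h.dec.pr_of_ne k1 hx, h.dec.pr_of_ne k2 hx', h.dec.pr_of_mem hz, h.dec.pr_of_ne k2 hy,
      e2, hc, hz0]

theorem exists_pair_move {a : V} {i j : ι} (hij : i ≠ j) (hi : Φ.Q (h.dec.pr i a) ≠ 0)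
    (hj : Φ.Q (h.dec.pr j a) ≠ 0) (hs : Φ.Q (h.dec.pr i a) + Φ.Q (h.dec.pr j a) ≠ 0) {n n' : V}
    (hn : n ∈ D i) (hn' : n' ∈ D j) (h0 : Φ.Q n ≠ 0) (h0' : Φ.Q n' ≠ 0) (e : Φ.B n a = 0)
    (e' : Φ.B n' a = 0) (hsq : IsSquare (Φ.Q n * Φ.Q n')) :
    ∃ (S : Finset F) (l : F), l ≠ 0 ∧ Fintype.card F ≤ 2 * S.card ∧ ∀ y ∈ S, ∃ d ∈ D i, ∃ d' ∈ D j,
      Φ.Q d + Φ.Q d' = l * y ∧ (y ≠ 0 → d ≠ 0 ∧ d' ≠ 0) ∧ ∀ x, h.Cls c x →
        h.dec.pr i x = h.dec.pr i a → h.dec.pr j x = h.dec.pr j a → h.Cls c (x - d - d') := by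
  obtain ⟨t, ht⟩ := h.o.exists_smul_Q_eq h0' hsq
  have hn0 : n ≠ 0 := fun e => h0 (by rw [e, Φ.Q_zero])
  have hn1 : t • n' ≠ 0 := fun e => h0 (by rw [← ht, e, Φ.Q_zero])
  obtain ⟨s, hs', es⟩ := h.dec.exists_isSwap_eq hij hn ((D j).smul_mem t hn') hn0 hn1 ht
  have hI := hs'.mem.2
  have hx := h.dec.pr_mem i a
  obtain ⟨u, hu⟩ := (h.dec.nd j).plane_perp (h2 j) ((D j).smul_mem t hn') hn1 (hs'.fst _ hx)
    (s.map_ne_zero_iff.2 fun e => hi (by rw [e, Φ.Q_zero])) (h.dec.pr_mem j a)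
    (by rw [← es, Iso.B hI, h.dec.B_pr hn, e]) (by rw [h.o.B_smul_left, h.dec.B_pr hn', e', mul_zero])
  have hu0 : u ≠ 0 := fun e => hj (by rw [hu, e, zero_smul, Φ.Q_zero])
  rw [hu, h.o.Q_smul, Iso.Q hI] at hs
  obtain ⟨S, s1, s2⟩ := h.o.exists_vals (h.dec.nd i) (h.good i).two_le hx hi
  refine ⟨S, 1 + u * u, fun e => hs (by linear_combination Φ.Q (h.dec.pr i a) * e), s1,
    fun y hy => ?_⟩
  obtain ⟨b, hb, e1, rfl⟩ := s2 y hy
  have hb' := hs'.fst b hb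
  refine ⟨(Φ.Q b)⁻¹ • b, (D i).smul_mem _ hb, ((Φ.Q b)⁻¹ * u) • s b, (D j).smul_mem _ hb', ?_,
    fun h1 => ?_, fun x hx e2 e3 => ?_⟩
  · rw [h.o.Q_smul, h.o.Q_smul, Iso.Q hI]
    by_cases h1 : Φ.Q b = 0
    · simp [h1]
    · field_simp
  · have : b ≠ 0 := fun e => by simp [e] at e1
    exact ⟨smul_ne_zero h1 this, smul_ne_zero (mul_ne_zero h1 hu0) (s.map_ne_zero_iff.2 this)⟩
  · by_cases h1 : Φ.Q b = 0
    · simpa [h1] using hx
    have := hx.he hc (h.rr_mem hb hb' h1 (Iso.Q hI b))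
    rw [mul_app, h.o.r_apply (s b), map_sub, map_smul, h.o.r_of_perp (h.dec.perp i j hij b hb _ hb'),
      h.o.r_apply, ← h.dec.B_pr hb, ← h.dec.B_pr hb', e2, e3, e1, hu, Φ.B_smul_right, Iso.B hI, e1,
      Iso.Q hI, mul_one, mul_one] at this
    exact this

theorem EG_le_of_plane {a : V} (ha : h.Cls c a) (hb : ∀ i, a ∉ D i) : Φ.EG ≤ M := by
  obtain ⟨i₀, -⟩ := h.dec.exists_Q_pr_ne (ha.1 ▸ hc)
  have : Nonempty ι := ⟨i₀⟩
  obtain ⟨i, j, hij, hi, hj⟩ := h.dec.exists_two hb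
  by_cases hq : (2 : F) = 0
  · exact h.EG_le_of_fl₂ hc h2 (ha.fl_of_two hc hq) hij hi hj
  by_cases h0 : ∃ m, h.dec.pr m a = 0
  · obtain ⟨m, hm⟩ := h0
    exact h.EG_le_of_fl₂ hc h2 (h.fl_of_zero hc ha hm) hij hi hj
  push Not at h0
  refine h.EG_le_of_comp hc h2 ha fun H => ?_
  have H' := fun l => H l (h0 l)
  choose n hn hn0 hn1 using fun l =>
    h.o.exists_perp_nonsing (h.dec.nd l) (h.good l).two_le (h.dec.pr_mem l a) (H' l)
  have hn2 : ∀ l, Φ.B (n l) a = 0 := fun l => by rw [← h.dec.B_pr (hn l), hn1]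
  by_cases h1 : ∃ k l, ¬ IsSquare (Φ.Q (n k) * Φ.Q (n l))
  · obtain ⟨k, l, h1⟩ := h1
    exact h.EG_le_of_fl₂ hc h2 (ha.fl_of_classes hc (hn k) (hn l) (hn0 k) (hn0 l) (hn2 k) (hn2 l) h1)
      hij hi hj
  push Not at h1
  have h5 := h.pl i (h2 i)
  obtain ⟨k, k1, k2⟩ := exists_third (by omega) i j
  obtain ⟨x, y, z, a1, a2, a3, a4, -⟩ := exists_pair_add_ne hq _ H' hij k1.symm k2.symm
  obtain ⟨m, m1, m2, m3⟩ := exists_fourth (by omega) x y z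
  obtain ⟨m', n1, n2, n3, n4⟩ := exists_fifth h5 x y z m
  obtain ⟨x', y', z', b1, b2, b3, b4, b5⟩ := exists_pair_add_ne hq _ H' m3.symm n3.symm n4.symm
  obtain ⟨⟨c1, c2⟩, ⟨c3, c4⟩, c5, c6⟩ := b5 (fun l => l ≠ x ∧ l ≠ y) ⟨a2.symm, a3.symm⟩ ⟨m1, m2⟩
    ⟨n1, n2⟩
  obtain ⟨S, l, hl, s1, s2⟩ := h.exists_pair_move hc h2 a1 (H' x) (H' y) a4 (hn x) (hn y) (hn0 x)
    (hn0 y) (hn2 x) (hn2 y) (h1 x y)
  obtain ⟨T, l', hl', t1, t2⟩ := h.exists_pair_move hc h2 b1 (H' x') (H' y') b4 (hn x') (hn y')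
    (hn0 x') (hn0 y') (hn2 x') (hn2 y') (h1 x' y')
  obtain ⟨r, hr⟩ := odd_card_of_two_ne_zero hq
  obtain ⟨s, hs, t, ht, e⟩ := exists_add_eq_of_card (S := S) (T := T) (by omega) hl hl' c
  obtain ⟨d₁, hd₁, d₂, hd₂, e1, e2, e3⟩ := s2 s hs
  obtain ⟨d₃, hd₃, d₄, hd₄, e4, e5, e6⟩ := t2 t ht
  have h3 := e6 _ (e3 a ha rfl rfl) (by simp [h.dec.pr_of_ne c1 hd₁, h.dec.pr_of_ne c2 hd₂])
    (by simp [h.dec.pr_of_ne c3 hd₁, h.dec.pr_of_ne c4 hd₂])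
  have h4 := h3.sub hc ha (β := 1) (by
    rw [show a - (a - d₁ - d₂ - d₃ - d₄) = d₁ + d₂ + (d₃ + d₄) by abel, Φ.Q_add_perp (by
      simp [h.dec.perp x x' c1.symm _ hd₁ _ hd₃, h.dec.perp x y' c3.symm _ hd₁ _ hd₄,
        h.dec.perp y x' c2.symm _ hd₂ _ hd₃, h.dec.perp y y' c4.symm _ hd₂ _ hd₄]),
      Φ.Q_add_perp (h.dec.perp x y a1 _ hd₁ _ hd₂), Φ.Q_add_perp (h.dec.perp x' y' b1 _ hd₃ _ hd₄),
      e1, e4, e]
    ring)
  rw [one_smul, show a - (a - d₁ - d₂ - d₃ - d₄) = d₁ + d₂ + (d₃ + d₄) by abel] at h4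
  have h6 := h.fl_of_zero hc h4 (m := z') (by simp [h.dec.pr_of_ne c5 hd₁, h.dec.pr_of_ne c6 hd₂,
    h.dec.pr_of_ne b2.symm hd₃, h.dec.pr_of_ne b3.symm hd₄])
  by_cases hs0 : s = 0
  · have ht0 : t ≠ 0 := fun e' => hc (by rw [← e, hs0, e']; ring)
    refine h.EG_le_of_fl₂ hc h2 h6 b1 ?_ ?_
    · simpa [h.dec.pr_of_ne c1 hd₁, h.dec.pr_of_ne c2 hd₂, h.dec.pr_of_mem hd₃,
        h.dec.pr_of_ne b1 hd₄] using (e5 ht0).1
    · simpa [h.dec.pr_of_ne c3 hd₁, h.dec.pr_of_ne c4 hd₂, h.dec.pr_of_mem hd₄,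
        h.dec.pr_of_ne b1.symm hd₃] using (e5 ht0).2
  · refine h.EG_le_of_fl₂ hc h2 h6 a1 ?_ ?_
    · simpa [h.dec.pr_of_ne c1.symm hd₃, h.dec.pr_of_ne c3.symm hd₄, h.dec.pr_of_mem hd₁,
        h.dec.pr_of_ne a1 hd₂] using (e2 hs0).1
    · simpa [h.dec.pr_of_ne c2.symm hd₃, h.dec.pr_of_ne c4.symm hd₄, h.dec.pr_of_mem hd₂,
        h.dec.pr_of_ne a1.symm hd₁] using (e2 hs0).2

end Plane

/-- A reflection class containing a vector outside the blocks generates everything. -/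
theorem EG_le_of_cls {a : V} (ha : h.Cls c a) (hb : ∀ i, a ∉ D i) : Φ.EG ≤ M := by
  obtain ⟨i, -⟩ := h.dec.exists_Q_pr_ne (ha.1 ▸ hc)
  have h1 := (h.good i).two_le
  have h2 := h.dec.finrank_eq i
  by_cases h3 : finrank F (D i) = 2
  · exact h.EG_le_of_plane hc (fun j => h2 j ▸ h3) ha hb
  by_cases h4 : finrank F (D i) = 3
  · exact h.EG_le_of_three hc ha hb fun j => h2 j ▸ h4
  · exact h.EG_le_of_four hc ha hb fun j => by have := h2 j; omega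

end OSet

end Fm

end Cfsg.Agent.Class.Max
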