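import Mathlib
import Cfsg.Agent.Class.Max.C2O3

/-!
Class `C₂` for orthogonal groups: maximality for blocks of dimension at least two.
-/

set_option autoImplicit false

namespace Cfsg.Agent.Class.Max

open Module

variable {F V : Type*} [Field F] [AddCommGroup V] [Module F V] {ι : Type*}

theorem not_three_mem_span_pair [FiniteDimensional F V] {p q u v w : V} (hu : u ∈ Submodule.span F {p, q})
    (hv : v ∈ Submodule.span F {p, q}) (hw : w ∈ Submodule.span F {p, q})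
    (h : ∀ a b c : F, a • u + b • v + c • w = 0 → a = 0 ∧ b = 0 ∧ c = 0) : False := by
  have li : LinearIndependent F ![u, v, w] := by
    rw [Fintype.linearIndependent_iff]
    intro g hg i
    rw [Fin.sum_univ_three] at hg
    obtain ⟨h1, h2, h3⟩ := h _ _ _ hg
    fin_cases i
    exacts [h1, h2, h3]
  have := (finrank_span_eq_card li).symm.le.trans ((Submodule.finrank_mono
    (show _ ≤ Submodule.span F {p, q} from Submodule.span_le.2 (by
      rintro _ ⟨i, rfl⟩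
      fin_cases i
      exacts [hu, hv, hw]))).trans (finrank_span_pair_le_two p q))
  simp at this

namespace Fm

variable {Φ : Fm F V} {D : ι → Submodule F V} {M : Subgroup (V ≃ₗ[F] V)}

namespace ODec

variable [FiniteDimensional F V] (hD : Φ.ODec D)
include hD

theorem eq_add_of_pr {i j : ι} (hij : i ≠ j) {x : V} (h : ∀ l, l ≠ i → l ≠ j → hD.pr l x = 0) :
    x = hD.pr i x + hD.pr j x := by
  rw [← sub_eq_zero]
  refine hD.eq_zero_of_pr fun l => ?_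
  by_cases l1 : l = i
  · simp [l1, hD.pr_pr, hD.pr_pr_of_ne hij]
  by_cases l2 : l = j
  · simp [l2, hD.pr_pr, hD.pr_pr_of_ne hij.symm]
  · simp [h l l1 l2, hD.pr_pr_of_ne l1, hD.pr_pr_of_ne l2]

theorem pr_of_mem_sup {i j l : ι} (hi : l ≠ i) (hj : l ≠ j) {x : V} (hx : x ∈ D i ⊔ D j) :
    hD.pr l x = 0 :=
  hD.pr_eq_zero_iff.2 (sup_le (hD.le_perp hi) (hD.le_perp hj) hx)

theorem finrank_sup {i j : ι} (hij : i ≠ j) :
    finrank F ↥(D i ⊔ D j) = finrank F (D i) + finrank F (D j) := by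
  have := Submodule.finrank_sup_add_finrank_inf_eq (D i) (D j)
  rwa [show D i ⊓ D j = ⊥ from eq_bot_iff.2 fun x hx => by
    by_contra h0
    exact hij (hD.eq_of_mem hx.1 hx.2 h0), finrank_bot, add_zero] at this

theorem supp_of_rr (hO : Φ.IsO) (h2 : ∀ l, 2 ≤ finrank F (D l)) {v v' : V} (hv : Φ.Q v ≠ 0)
    (hv' : Φ.Q v' ≠ 0) (hi : ∀ t : F, v' ≠ t • v) (hx : hO.r v * hO.r v' ∈ dstab D) {i j : ι}
    (hij : i ≠ j) (h0 : hD.pr i v ≠ 0) (h0' : hD.pr j v ≠ 0) :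
    (v ∈ D i ⊔ D j ∧ v' ∈ D i ⊔ D j) ∧ ((∀ l, 3 ≤ finrank F (D l)) →
      v ∈ Submodule.span F {hD.pr i v, hD.pr j v} ∧ v' ∈ Submodule.span F {hD.pr i v, hD.pr j v}) := by
  have key : ∀ v v' : V, Φ.Q v ≠ 0 → ∀ l m, l ≠ m → (∀ y ∈ D l, (hO.r v * hO.r v') y ∈ D m) →
      v ∈ D l ⊔ D m ∧ ¬ 3 ≤ finrank F (D l) := fun v v' hv l m hlm h => by
    have h1 : ∀ y ∈ D l, y ≠ 0 → Φ.B v' y = 0 → Φ.B v y ≠ 0 := fun y hy hy0 e e' => by
      have := h y hy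
      rw [mul_app, hO.r_of_perp e, hO.r_of_perp e'] at this
      exact hlm (hD.eq_of_mem hy this hy0)
    refine ⟨?_, fun h3 => ?_⟩
    · obtain ⟨y, hy, hy0, e⟩ := exists_ne_zero_ker [Φ.B v'] (D l) (h2 l)
      have e' := e _ (List.mem_singleton_self _)
      have := (D l ⊔ D m).sub_mem (Submodule.mem_sup_left hy) (Submodule.mem_sup_right (h y hy))
      rwa [mul_app, hO.r_of_perp e', hO.r_apply, sub_sub_cancel, Submodule.smul_mem_iff _
        (mul_ne_zero (inv_ne_zero hv) (h1 y hy hy0 e'))] at this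
    · obtain ⟨y, hy, hy0, e⟩ := exists_ne_zero_ker [Φ.B v', Φ.B v] (D l) h3
      exact h1 y hy hy0 (e _ (by simp)) (e _ (by simp))
  by_cases hc : ∃ l m, l ≠ m ∧ ∀ y ∈ D l, (hO.r v * hO.r v') y ∈ D m
  · obtain ⟨l, m, hlm, h⟩ := hc
    obtain ⟨h3, h4⟩ := key v v' hv l m hlm h
    have h5 := (key v' v hv' m l hlm.symm fun y hy =>
      (mem_iff_of_mapsTo h (hD.finrank_eq _ _).le _).2 (by simpa [mul_app, hO.r_r] using hy)).1
    have h6 : ∀ n, hD.pr n v ≠ 0 → n = l ∨ n = m := fun n hn => by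
      by_contra hc
      push Not at hc
      exact hn (hD.pr_of_mem_sup hc.1 hc.2 h3)
    refine ⟨?_, fun h => absurd (h l) h4⟩
    rcases h6 i h0 with rfl | rfl <;> rcases h6 j h0' with rfl | rfl
    · exact absurd rfl hij
    · exact ⟨h3, sup_comm (D j) (D i) ▸ h5⟩
    · exact ⟨sup_comm (D j) (D i) ▸ h3, h5⟩
    · exact absurd rfl hij
  have hI := Φ.Iso.mul_mem (hO.r_mem_Iso v) (hO.r_mem_Iso v')
  have h1 : ∀ l, ∀ y ∈ D l, (hO.r v * hO.r v') y ∈ D l := fun l => by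
    obtain ⟨m, hm⟩ := dstab_apply hx l
    by_cases e : l = m
    · exact e ▸ hm
    · exact absurd ⟨l, m, e, hm⟩ hc
  obtain ⟨y, e1, e2⟩ : ∃ y, Φ.B v' y = 0 ∧ Φ.B v y ≠ 0 := by
    by_contra hc
    push Not at hc
    obtain ⟨t, rfl⟩ := Φ.exists_smul_of_perp hc
    have ht : t ≠ 0 := fun e => hv (by rw [e, zero_smul, Φ.Q_zero])
    exact hi t⁻¹ (by rw [smul_smul, inv_mul_cancel₀ ht, one_smul])
  have h3 : ∀ l, hD.pr l v ∈ Submodule.span F {v, v'} := fun l => by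
    have e3 := hD.pr_apply hI (h1 l) y
    rw [mul_app, hO.r_of_perp e1, hO.r_apply, map_sub, map_smul, mul_app, hO.r_apply, hO.r_apply,
      sub_sub, sub_right_inj] at e3
    rw [← Submodule.smul_mem_iff _ (mul_ne_zero (inv_ne_zero hv) e2), e3]
    exact Submodule.add_mem _ (Submodule.smul_mem _ _ (Submodule.subset_span (by simp)))
      (Submodule.smul_mem _ _ (Submodule.subset_span (by simp)))
  have li : LinearIndependent F ![hD.pr i v, hD.pr j v] := LinearIndependent.pair_iff.2 fun s t e => by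
    have e4 := congrArg (hD.pr i) e
    have e5 := congrArg (hD.pr j) e
    simp only [map_add, map_smul, hD.pr_pr, hD.pr_pr_of_ne hij, hD.pr_pr_of_ne hij.symm, smul_zero,
      add_zero, zero_add, map_zero, smul_eq_zero, h0, h0', or_false] at e4 e5
    exact ⟨e4, e5⟩
  have e3 := finrank_span_eq_card li
  rw [Matrix.range_cons, Matrix.range_cons, Matrix.range_empty, Set.union_empty,
    Set.singleton_union] at e3
  have e4 : Submodule.span F {hD.pr i v, hD.pr j v} = Submodule.span F {v, v'} :=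
    Submodule.eq_of_le_of_finrank_le (Submodule.span_le.2 (by rintro _ (rfl | rfl) <;> exact h3 _))
      (by rw [e3]; exact finrank_span_pair_le_two v v')
  have e5 : v ∈ Submodule.span F {hD.pr i v, hD.pr j v} ∧
      v' ∈ Submodule.span F {hD.pr i v, hD.pr j v} := by
    rw [e4]
    exact ⟨Submodule.subset_span (by simp), Submodule.subset_span (by simp)⟩
  have e6 : Submodule.span F {hD.pr i v, hD.pr j v} ≤ D i ⊔ D j := Submodule.span_le.2 (by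
    rintro _ (rfl | rfl)
    exacts [Submodule.mem_sup_left (hD.pr_mem i v), Submodule.mem_sup_right (hD.pr_mem j v)])
  exact ⟨⟨e6 e5.1, e6 e5.2⟩, fun _ => e5⟩

end ODec

variable (Φ D) in
/-- Two independent block vectors of the same norm perpendicular to `z`. -/
def BPair (z : V) : Prop := ∃ i j, ∃ u ∈ D i, ∃ u' ∈ D j, Φ.Q u ≠ 0 ∧ Φ.Q u' = Φ.Q u ∧
  (∀ t : F, u' ≠ t • u) ∧ Φ.B u z = 0 ∧ Φ.B u' z = 0

namespace OSet

variable [FiniteDimensional F V] [Fintype F] [Fintype ι] (h : Φ.OSet D M)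
include h

theorem bPair_of_zero {z : V} {l : ι} (hz : h.dec.pr l z = 0) : Φ.BPair D z := by
  obtain ⟨u, hu, h0⟩ := h.o.exists_nonsing (h.dec.nd l) (h.dec.ne l)
  obtain ⟨u', hu', e1, -, e2⟩ := h.o.exists_nbr (h.good l) hu h0
  exact ⟨l, l, u, hu, u', hu', h0, e1, e2, h.dec.pr_eq_zero_iff.1 hz u hu,
    h.dec.pr_eq_zero_iff.1 hz u' hu'⟩

theorem bPair_of_three {z : V} {i j k : ι} (hij : i ≠ j) (hik : i ≠ k) (hjk : j ≠ k)
    (hi : Φ.Q (h.dec.pr i z) ≠ 0) (hj : Φ.Q (h.dec.pr j z) ≠ 0) (hk : Φ.Q (h.dec.pr k z) ≠ 0) :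
    Φ.BPair D z := by
  have h1 : ∀ l, Φ.Q (h.dec.pr l z) ≠ 0 → ∃ n ∈ D l, Φ.Q n ≠ 0 ∧ Φ.B n z = 0 := fun l hl => by
    obtain ⟨n, hn, e1, e2⟩ :=
      h.o.exists_perp_nonsing (h.dec.nd l) (h.good l).two_le (h.dec.pr_mem l z) hl
    exact ⟨n, hn, e1, by rwa [h.dec.B_pr hn] at e2⟩
  have key : ∀ i j, i ≠ j → ∀ n ∈ D i, ∀ n' ∈ D j, Φ.Q n ≠ 0 → Φ.Q n' ≠ 0 → Φ.B n z = 0 →
      Φ.B n' z = 0 → IsSquare (Φ.Q n * Φ.Q n') → Φ.BPair D z :=
    fun i j hij n hn n' hn' h0 h0' e e' hs => by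
      obtain ⟨t, ht⟩ := h.o.exists_smul_Q_eq h0' hs
      refine ⟨i, j, n, hn, _, (D j).smul_mem t hn', h0, ht, fun s e => hij ?_, e,
        by rw [h.o.B_smul_left, e', mul_zero]⟩
      exact h.dec.eq_of_mem (e ▸ (D i).smul_mem s hn) ((D j).smul_mem t hn')
        fun e => h0 (by rw [← ht, e, Φ.Q_zero])
  obtain ⟨a, ha, a1, a2⟩ := h1 i hi
  obtain ⟨b, hb, b1, b2⟩ := h1 j hj
  obtain ⟨c, hc, c1, c2⟩ := h1 k hk
  rcases isSquare_mul_or a1 b1 c1 with e | e | e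
  exacts [key i j hij a ha b hb a1 b1 a2 b2 e, key i k hik a ha c hc a1 c1 a2 c2 e,
    key j k hjk b hb c hc b1 c1 b2 c2 e]

theorem exists_norm_perp (h3 : ∀ l, 3 ≤ finrank F (D l)) (i₀ : ι) :
    ∃ c : F, c ≠ 0 ∧ ∀ z l, ∃ u ∈ D l, Φ.Q u = c ∧ Φ.B u z = 0 := by
  obtain ⟨e, he, f, hf, he0, hf0, hef⟩ := (h.dec.nd i₀).exists_hyp (h.o.d ▸ h3 i₀)
  obtain ⟨n, hn, h0, e1, -⟩ := h.o.exists_nonsing_perp (h.dec.nd i₀) (h3 i₀) he hf he0 hf0 hef
  refine ⟨_, h0, fun z l => ?_⟩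
  suffices ∀ x ∈ D l, ∃ u ∈ D l, Φ.Q u = Φ.Q n ∧ Φ.B x u = 0 by
    obtain ⟨u, hu, e2, e3⟩ := this _ (h.dec.pr_mem l z)
    exact ⟨u, hu, e2, by rw [← h.dec.B_pr hu, Φ.perp_symm e3]⟩
  intro x hx
  have h4 := h3 l
  by_cases h1 : x = 0
  · obtain ⟨u, hu, e2⟩ := h.o.rep (h.dec.nd l) (h.good l).two_le (Φ.Q n)
    exact ⟨u, hu, e2, by simp [h1]⟩
  by_cases h2 : Φ.Q x = 0
  · obtain ⟨ψ, hψ, e2⟩ := h.dec.iso i₀ l
    obtain ⟨k, hk, e3⟩ := (h.dec.nd l).exists_supp_move ((e2 e).1 he) hx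
      (ψ.map_ne_zero_iff.2 fun e' => by simp [e'] at hef) h1 (by rw [h2, Iso.Q hψ, he0])
    exact ⟨k (ψ n), supp_apply hk ((e2 n).1 hn), by rw [Iso.Q hk.1, Iso.Q hψ],
      by rw [← e3, Iso.B hk.1, Iso.B hψ, e1]⟩
  by_cases h5 : Φ.B x x = 0
  · obtain ⟨y, hy, e2⟩ := (h.dec.nd l).exists_ne hx h1
    have h6 : finrank F (D l) ≠ 3 := fun e' => h2 (by
      rw [h.o.B_self] at h5
      exact (mul_eq_zero.1 h5).resolve_left (h.two_ne_zero_of_three e'))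
    have := finrank_le_inf_ker₂ (D l) (Φ.B x) (Φ.B y)
    obtain ⟨u, hu, e3⟩ := h.o.rep ((h.dec.nd l).inf_two hx hy h5 e2) (by omega) (Φ.Q n)
    exact ⟨u, hu.1.1, e3, hu.1.2⟩
  · have := finrank_le_inf_ker (D l) (Φ.B x)
    obtain ⟨u, hu, e3⟩ := h.o.rep ((h.dec.nd l).inf_one hx h5) (by omega) (Φ.Q n)
    exact ⟨u, hu.1, e3, hu.2⟩

variable (hN : ¬ Φ.EG ≤ M)
include hN

theorem mem_dstab_of_apply {g : V ≃ₗ[F] V} (hg : g ∈ M) {i j : ι} {u : V} (hu : u ∈ D i)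
    (hu0 : Φ.Q u ≠ 0) (hgu : g u ∈ D j) : g ∈ dstab D := by
  have hI := h.iso hg
  have h1 : ∀ l, ∀ w ∈ D l, Φ.Q w = Φ.Q u → ∃ m, g w ∈ D m := fun l w hw e => by
    by_contra hc
    push Not at hc
    exact hN (h.EG_le_of_cls hu0 (OBase.Cls.map hu0 hg (h.cls_of_mem hu)
      (Iso.Q hI u ▸ h.cls_of_mem hgu) (e ▸ h.cls_of_mem hw)) hc)
  refine h.dec.mem_dstab fun l => ?_
  obtain ⟨y, hy, e⟩ := h.o.rep (h.dec.nd l) (h.good l).two_le (Φ.Q u)
  obtain ⟨m, hm⟩ := h1 l y hy e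
  refine ⟨m, h.o.le_of_norm (h.good l) (X := (D m).comap g.toLinearMap)
    (Y := (Φ.perp (D m)).comap g.toLinearMap) (fun x hx y hy => Iso.B hI x y ▸ hy _ hx)
    (fun x hx hx' => g.map_eq_zero_iff.1 (Submodule.disjoint_def.1 (h.dec.nd m).isCompl.1 _ hx hx'))
    hy hm (e ▸ hu0) fun w hw e' => ?_⟩
  obtain ⟨n, hn⟩ := h1 l w hw (e'.trans e)
  by_cases e1 : m = n
  · exact Or.inl (e1 ▸ hn)
  · exact Or.inr (h.dec.le_perp e1 hn)

theorem fix_partner {i : ι} (h2 : finrank F (D i) = 2) {e f : V} (he : e ∈ D i) (hf : f ∈ D i)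
    (he0 : Φ.Q e = 0) (hf0 : Φ.Q f = 0) (hef : Φ.B e f = 1) {x : V ≃ₗ[F] V} (hx : x ∈ M)
    (hxe : x e = e) : x f = f := by
  by_contra hc
  have hI := h.iso hx
  have he1 : e ≠ 0 := fun e' => by simp [e'] at hef
  have hfe : Φ.B f e = 1 := by rw [h.o.symm, hef]
  obtain ⟨α, β, e1⟩ := exists_pair_eq h2 he hf (fun s t e' => by
    have e1 := congrArg (Φ.B e) e'
    have e2 := congrArg (Φ.B f) e'
    simp only [Φ.bsimp, Φ.B_self he0, Φ.B_self hf0, hef, hfe] at e1 e2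
    exact ⟨by simpa using e2, by simpa using e1⟩) (h.dec.pr_mem i (x f))
  obtain ⟨w, hw, e2⟩ : ∃ w ∈ Φ.perp (D i), x f = α • e + β • f + w :=
    ⟨_, h.dec.sub_pr_mem i (x f), by rw [e1]; abel⟩
  have e3 : β = 1 := by
    have := Iso.B hI e f
    rw [hxe, e2] at this
    simpa [Φ.B_self he0, hef, hw e he] using this
  have e4 : α = -Φ.Q w := by
    have := Iso.Q hI f
    rw [e2] at this
    simp only [h.o.Q_add, h.o.Q_smul, Φ.bsimp, h.o.σ, he0, hf0, hef, hw e he, hw f hf, e3] at this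
    linear_combination this
  have hv := h.o.valid he0 (hw e he)
  have e5 : hv.eich f = x f := by
    rw [hv.eich_apply, h.o.ef, e2, e3, e4, hef, Φ.perp_symm (hw f hf)]
    module
  have hw0 : w ≠ 0 := fun e' => hc (by rw [e2, e3, e4, e', Φ.Q_zero]; module)
  obtain ⟨s, hs, hs'⟩ := exists_sq_ne_one' (F := F)
    (le_trans (by norm_num) (h.seven_le he he0 he1 h2))
  obtain ⟨τ, hτ, ht⟩ := (h.o.comm h.five).exists_isTor he0 hf0 hef hs
  have hτM := h.le ⟨(h.dec.supp_le le_rfl (ht.mem_supp he hf)).1, hτ⟩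
  have hE := hv.mem_Iso hv.eich_apply
  have hy := Φ.Iso.mul_mem (Φ.Iso.inv_mem hE) hI
  have y1 : (hv.eich⁻¹ * x) e = e := by rw [mul_app, hxe, inv_app_of_eq hv.ef_self]
  have y2 : (hv.eich⁻¹ * x) f = f := by rw [mul_app, inv_app_of_eq e5]
  have e6 : hv.eich⁻¹ * x * τ = τ * (hv.eich⁻¹ * x) := hyp_ext he0 hf0 hef
    (by rw [mul_app, mul_app τ, ht.fst, map_smul, y1, ht.fst])
    (by rw [mul_app, mul_app τ, ht.snd, map_smul, y2, ht.snd]) fun z z1 z2 => by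
      rw [mul_app, mul_app τ, ht.fix z z1 z2, ht.fix _ (by rw [← z1, ← Iso.B hy e z, y1])
        (by rw [← z2, ← Iso.B hy f z, y2])]
  have e7 : x * τ * x⁻¹ * τ⁻¹ = hv.eich * (τ * hv.eich⁻¹ * τ⁻¹) := by
    have : x * τ = hv.eich * (τ * (hv.eich⁻¹ * x)) := by rw [← e6]; group
    rw [this]; group
  have h3 := M.mul_mem (M.mul_mem (M.mul_mem hx hτM) (M.inv_mem hx)) (M.inv_mem hτM)
  have v3 := hv.neg.smul (s * s)
  refine hN (h.EG_le_of_inA he he0 he1 ⟨_, hv.add v3, _, h3, fun z => ?_⟩ fun e' => hw0 ?_)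
  · rw [e7, ← hv.ef_ef v3, mul_app, hv.eich_apply, mul_app, mul_app]
    congr 1
    change τ (Φ.ef _ _ _ _) = _
    rw [Iso.ef ht.iso, app_inv_app, ht.fst, map_neg, ht.fix w (hw e he) (hw f hf), ef_smul_left]
    simp only [h.o.σ]
  · have : (1 - s * s) • w ∈ D i := by convert e' using 1; module
    rw [Submodule.smul_mem_iff _ (sub_ne_zero.2 hs'.symm)] at this
    exact Submodule.disjoint_def.1 (h.dec.nd i).isCompl.1 w this hw

variable {g : V ≃ₗ[F] V} (hg : g ∈ M) (hg' : g ∉ dstab D)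
include hg hg'

theorem exists_two_of {i : ι} {u : V} (hu : u ∈ D i) (hu0 : Φ.Q u ≠ 0) :
    ∃ i j, i ≠ j ∧ h.dec.pr i (g u) ≠ 0 ∧ h.dec.pr j (g u) ≠ 0 :=
  have : Nonempty ι := ⟨i⟩
  h.dec.exists_two fun _ hl => hg' (h.mem_dstab_of_apply hN hg hu hu0 hl)

omit hg' in
theorem supp_of_pair {l p p' : ι} {a u u' : V} (ha : a ∈ D l) (ha0 : Φ.Q a ≠ 0) (hu : u ∈ D p)
    (hu' : u' ∈ D p') (h0 : Φ.Q u ≠ 0) (e : Φ.Q u' = Φ.Q u) (hi : ∀ t : F, u' ≠ t • u)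
    (e1 : Φ.B (g u) a = 0) (e2 : Φ.B (g u') a = 0) {i j : ι} (hij : i ≠ j)
    (h1 : h.dec.pr i (g u) ≠ 0) (h2 : h.dec.pr j (g u) ≠ 0) :
    (g u ∈ D i ⊔ D j ∧ g u' ∈ D i ⊔ D j) ∧ ((∀ l, 3 ≤ finrank F (D l)) →
      g u ∈ Submodule.span F {h.dec.pr i (g u), h.dec.pr j (g u)} ∧
      g u' ∈ Submodule.span F {h.dec.pr i (g u), h.dec.pr j (g u)}) := by
  have hI := h.iso hg
  refine h.dec.supp_of_rr h.o (fun l => (h.good l).two_le) (by rwa [Iso.Q hI])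
    (by rwa [Iso.Q hI, e]) (fun t e => hi t (g.injective (by rw [e, map_smul])))
    (h.mem_dstab_of_apply hN ?_ ha ha0 (j := l) ?_) hij h1 h2
  · have := M.mul_mem (M.mul_mem hg (h.le (h.rr_mem hu hu' h0 e))) (M.inv_mem hg)
    rw [← h.o.conj_r hI, ← h.o.conj_r hI]
    convert this using 1
    group
  · rwa [mul_app, h.o.r_of_perp e2, h.o.r_of_perp e1]

theorem false_of_three (h3 : ∀ l, 3 ≤ finrank F (D l)) (i₀ : ι) : False := by
  have hI := h.iso hg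
  obtain ⟨a, ha, ha0⟩ := h.o.exists_nonsing (h.dec.nd i₀) (h.dec.ne i₀)
  obtain ⟨c, hc, H⟩ := h.exists_norm_perp h3 i₀
  obtain ⟨i, j, hij, -⟩ := h.exists_two_of hN hg hg' ha ha0
  obtain ⟨u, hu, u1, u2⟩ := H (g⁻¹ a) i
  obtain ⟨v, hv, v1, v2⟩ := H (g⁻¹ a) j
  have hu0 : u ≠ 0 := fun e => hc (by rw [← u1, e, Φ.Q_zero])
  have hv0 : v ≠ 0 := fun e => hc (by rw [← v1, e, Φ.Q_zero])
  obtain ⟨k, w, hw, w1, w2, li⟩ : ∃ k, ∃ w ∈ D k, Φ.Q w = c ∧ Φ.B w (g⁻¹ a) = 0 ∧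
      ∀ x y z : F, x • u + y • v + z • w = 0 → x = 0 ∧ y = 0 ∧ z = 0 := by
    rcases h.big with h1 | h1
    · obtain ⟨k, k1, k2⟩ := exists_third h1 i j
      obtain ⟨w, hw, w1, w2⟩ := H (g⁻¹ a) k
      have hw0 : w ≠ 0 := fun e => hc (by rw [← w1, e, Φ.Q_zero])
      refine ⟨k, w, hw, w1, w2, fun x y z e => ⟨?_, ?_, ?_⟩⟩
      · simpa [h.dec.pr_of_mem hu, h.dec.pr_of_ne hij hv, h.dec.pr_of_ne k1.symm hw, hu0] using
          congrArg (h.dec.pr i) e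
      · simpa [h.dec.pr_of_mem hv, h.dec.pr_of_ne hij.symm hu, h.dec.pr_of_ne k2.symm hw, hv0] using
          congrArg (h.dec.pr j) e
      · simpa [h.dec.pr_of_mem hw, h.dec.pr_of_ne k1 hu, h.dec.pr_of_ne k2 hv, hw0] using
          congrArg (h.dec.pr k) e
    · obtain ⟨s, hs, s0, s1, s2, y, -, s3⟩ := (h.dec.nd i).big (h.o.d ▸ h1 i) u (g⁻¹ a)
      have hs0 : s ≠ 0 := fun e => s3 (by simp [e])
      refine ⟨i, u + s, (D i).add_mem hu hs, by rw [Φ.Q_add_perp s1, s0, u1, add_zero],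
        by rw [Φ.B_add_left, u2, Φ.perp_symm s2, add_zero], fun x y z e => ?_⟩
      have e1 : y = 0 := by
        simpa [h.dec.pr_of_mem hv, h.dec.pr_of_ne hij.symm hu, h.dec.pr_of_ne hij.symm hs, hv0] using
          congrArg (h.dec.pr j) e
      have e2 : (x + z) • u = (-z) • s := by
        rw [← sub_eq_zero, ← e, e1]; module
      have e3 := congrArg Φ.Q e2
      rw [h.o.Q_smul, h.o.Q_smul, s0, u1, mul_zero, mul_eq_zero, mul_self_eq_zero] at e3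
      have e4 := e3.resolve_right hc
      rw [e4, zero_smul, eq_comm, smul_eq_zero, neg_eq_zero] at e2
      have e5 := e2.resolve_right hs0
      exact ⟨by rw [← e4, e5, add_zero], e1, e5⟩
  obtain ⟨p, p', hp, p1, p2⟩ := h.exists_two_of hN hg hg' hu (u1 ▸ hc)
  rw [Iso.B_inv hI] at u2 v2 w2
  have a1 := (h.supp_of_pair hN hg ha ha0 hu hv (u1 ▸ hc) (v1.trans u1.symm) (fun t e =>
    one_ne_zero (li (-t) 1 0 (by rw [e]; module)).2.1) u2 v2 hp p1 p2).2 h3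
  have a2 := (h.supp_of_pair hN hg ha ha0 hu hw (u1 ▸ hc) (w1.trans u1.symm) (fun t e =>
    one_ne_zero (li (-t) 0 1 (by rw [e]; module)).2.2) u2 w2 hp p1 p2).2 h3
  exact not_three_mem_span_pair a1.1 a1.2 a2.2 fun x y z e => li x y z (g.injective (by
    simpa using e))

theorem false_of_bPair (h2 : ∀ l, finrank F (D l) = 2) {l : ι} {a : V} (ha : a ∈ D l)
    (ha0 : Φ.Q a ≠ 0) (hp : Φ.BPair D (g⁻¹ a)) : False := by
  have hI := h.iso hg
  obtain ⟨p, p', u, hu, u', hu', h0, e1, e2, e3, e4⟩ := hp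
  obtain ⟨i, j, hij, h1, h3⟩ := h.exists_two_of hN hg hg' hu h0
  rw [Iso.B_inv hI] at e3 e4
  have h4 := (h.supp_of_pair hN hg ha ha0 hu hu' h0 e1 e2 e3 e4 hij h1 h3).1.1
  have h5 := h.pl l (h2 l)
  obtain ⟨k, k1, k2⟩ := exists_third (by omega) i j
  obtain ⟨m, m1, m2, m3⟩ := exists_fourth (by omega) i j k
  obtain ⟨n, n1, n2, n3, n4⟩ := exists_fifth h5 i j k m
  obtain ⟨b, hb, hb0⟩ := h.o.exists_nonsing (h.dec.nd k) (h.dec.ne k)
  have hg1 := M.inv_mem hg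
  have hg2 : g⁻¹ ∉ dstab D := fun e => hg' (by simpa using (dstab D).inv_mem e)
  obtain ⟨i', j', hij', h6, h7⟩ := h.exists_two_of hN hg1 hg2 hb hb0
  have h8 : ∀ r, r ≠ i → r ≠ j → ∀ x ∈ D r, Φ.B (g⁻¹ x) u = 0 := fun r r1 r2 x hx => by
    rw [Iso.B_inv_left hI]
    exact h.dec.pr_eq_zero_iff.1 (h.dec.pr_of_mem_sup r1 r2 h4) x hx
  have key : ∀ r, r ≠ i → r ≠ j → ∀ x ∈ D r, Φ.Q x = Φ.Q b → (∀ t : F, x ≠ t • b) →
      g⁻¹ b ∈ D i' ⊔ D j' ∧ g⁻¹ x ∈ D i' ⊔ D j' := fun r r1 r2 x hx e5 e6 =>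
    (h.supp_of_pair hN hg1 hu h0 hb hx hb0 e5 e6 (h8 k k1 k2 b hb) (h8 r r1 r2 x hx) hij' h6 h7).1
  have h9 : ∀ r, r ≠ i → r ≠ j → D r ≤ (D i' ⊔ D j').comap (g⁻¹).toLinearMap := fun r r1 r2 =>
    h.o.le_of_norm_mem (h.good r) hb0 fun x hx e5 => by
      by_cases e6 : ∀ t : F, x ≠ t • b
      · exact (key r r1 r2 x hx e5 e6).2
      · push Not at e6
        obtain ⟨t, rfl⟩ := e6
        obtain ⟨y, hy, e7, -, e8⟩ := h.o.exists_nbr (h.good k) hb hb0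
        exact Submodule.smul_mem _ t (key k k1 k2 y hy e7 e8).1
  obtain ⟨y, hy, hy0⟩ := h.dec.exists_ne_zero n
  have := (mem_iff_of_mapsTo (U := D k ⊔ D m) (U' := D i' ⊔ D j') (g := g⁻¹)
    (fun v hv => sup_le (h9 k k1 k2) (h9 m m1 m2) hv)
    (by rw [h.dec.finrank_sup hij', h.dec.finrank_sup m3.symm, h2, h2, h2, h2]) y).2 (h9 n n1 n2 hy)
  exact hy0 (h.dec.pr_of_mem hy ▸ h.dec.pr_of_mem_sup n3 n4 this)

theorem false_of_two (h2 : ∀ l, finrank F (D l) = 2) (i : ι) : False := by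
  classical
  have hI := h.iso hg
  have h5 := h.pl i (h2 i)
  have H0 : ∀ a ∈ D i, Φ.Q a ≠ 0 → ∀ l, h.dec.pr l (g⁻¹ a) ≠ 0 := fun a ha ha0 l e =>
    h.false_of_bPair hN hg hg' h2 ha ha0 (h.bPair_of_zero e)
  have H1 : ∀ a ∈ D i, Φ.Q a ≠ 0 → Fintype.card ι - 2 ≤
      (Finset.univ.filter fun l => Φ.Q (h.dec.pr l (g⁻¹ a)) = 0).card := fun a ha ha0 => by
    have e := Finset.card_filter_add_card_filter_not (s := Finset.univ)
      fun l => Φ.Q (h.dec.pr l (g⁻¹ a)) = 0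
    by_contra hc
    obtain ⟨x, y, z, hx, hy, hz, e1, e2, e3⟩ := Finset.two_lt_card_iff.1 (show 2 < (Finset.univ.filter
      fun l => ¬ Φ.Q (h.dec.pr l (g⁻¹ a)) = 0).card by rw [Finset.card_univ] at e; omega)
    exact h.false_of_bPair hN hg hg' h2 ha ha0 (h.bPair_of_three e1 e2 e3 (Finset.mem_filter.1 hx).2
      (Finset.mem_filter.1 hy).2 (Finset.mem_filter.1 hz).2)
  by_cases han : ∀ l, ∀ s ∈ D l, Φ.Q s = 0 → s = 0
  · obtain ⟨a, ha, ha0⟩ := h.o.exists_nonsing (h.dec.nd i) (h.dec.ne i)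
    obtain ⟨l, hl⟩ := Finset.card_pos.1 (lt_of_lt_of_le (by omega) (H1 a ha ha0))
    exact H0 a ha ha0 l (han l _ (h.dec.pr_mem l _) (Finset.mem_filter.1 hl).2)
  push Not at han
  obtain ⟨l₀, s₀, hs₀, s1, s2⟩ := han
  obtain ⟨e, he, he0, he1⟩ := h.dec.exists_sing hs₀ s1 s2 i
  have h7 := h.seven_le he he0 he1 (h2 i)
  obtain ⟨f, hf, hf0, hef⟩ := exists_partner he he0 ((h.dec.nd i).exists_ne he he1)
  have key : ∀ e ∈ D i, ∀ f ∈ D i, Φ.Q e = 0 → Φ.Q f = 0 → Φ.B e f = 1 → ∀ l,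
      Φ.Q (h.dec.pr l (g⁻¹ f)) = 0 → h.dec.pr l (g⁻¹ e) ≠ 0 := fun e he f hf he0 hf0 hef l h0 h1 => by
    have h3 : h.dec.pr l (g⁻¹ f) ≠ 0 := by
      have := H0 _ ((D i).add_mem he hf) (by simp [h.o.Q_add, he0, hf0, hef]) l
      rwa [map_add, map_add, h1, zero_add] at this
    have h4 := h.dec.pr_mem l (g⁻¹ f)
    obtain ⟨y, hy, hy0, e1⟩ := exists_partner h4 h0 ((h.dec.nd l).exists_ne h4 h3)
    obtain ⟨s, hs, hs'⟩ := exists_sq_ne_one' (F := F) (by omega)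
    obtain ⟨τ, hτ, ht⟩ := (h.o.comm h.five).exists_isTor h0 hy0 e1 hs
    have h6 := ht.mem_supp h4 hy
    have e2 := h.fix_partner hN (h2 i) he hf he0 hf0 hef (M.mul_mem (M.mul_mem hg
      (h.le ⟨(h.dec.supp_le le_rfl h6).1, hτ⟩)) (M.inv_mem hg))
      (by rw [mul_app, mul_app, supp_fix h6 (h.dec.pr_eq_zero_iff.1 h1), app_inv_app])
    rw [mul_app, mul_app] at e2
    have e3 := h.dec.pr_apply ht.iso (fun x hx => supp_apply h6 hx) (g⁻¹ f)
    rw [← inv_app_of_eq e2, ht.fst, h.o.σ, eq_comm, ← sub_eq_zero] at e3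
    exact smul_ne_zero (sub_ne_zero.2 hs') h3 (by rw [sub_smul, one_smul, e3])
  have := Finset.card_mul_le_card_mul (s := Finset.univ.erase (0 : F)) (t := (Finset.univ : Finset ι))
    (fun s l => Φ.Q (h.dec.pr l (g⁻¹ (e + s • f))) = 0) (m := Fintype.card ι - 2) (n := 2)
    (fun s hs => H1 _ ((D i).add_mem he ((D i).smul_mem s hf)) (by
      simpa [h.o.Q_add, h.o.Q_smul, he0, hf0, hef] using Finset.ne_of_mem_erase hs)) fun l _ => by
      set x := h.dec.pr l (g⁻¹ e) with hx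
      set y := h.dec.pr l (g⁻¹ f) with hy
      have h3 : Polynomial.C (Φ.Q y) * Polynomial.X ^ 2 + Polynomial.C (Φ.B x y) * Polynomial.X +
          Polynomial.C (Φ.Q x) ≠ 0 := fun e0 => by
        have c0 : Φ.Q x = 0 := by simpa using congrArg (Polynomial.coeff · 0) e0
        have c1 : Φ.B x y = 0 := by simpa using congrArg (Polynomial.coeff · 1) e0
        have c2 : Φ.Q y = 0 := by simpa using congrArg (Polynomial.coeff · 2) e0
        have x0 := key e he f hf he0 hf0 hef l c2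
        have y0 := key f hf e he hf0 he0 (by rw [h.o.symm, hef]) l c0
        obtain ⟨t, ht⟩ := (h.dec.nd l).plane_perp (h2 l) (h.dec.pr_mem l _) y0 (h.dec.pr_mem l _) y0
          (h.dec.pr_mem l (g⁻¹ e)) (Φ.B_self c2) (Φ.perp_symm c1)
        refine H0 _ ((D i).sub_mem he ((D i).smul_mem t hf)) ?_ l
          (by rw [map_sub, map_smul, map_sub, map_smul, ht, sub_self])
        have : t ≠ 0 := fun e' => x0 (by rw [ht, e', zero_smul])
        simpa [h.o.Q_sub, h.o.Q_smul, he0, hf0, hef] using this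
      refine (Polynomial.card_le_degree_of_subset_roots fun s hs => (Polynomial.mem_roots h3).2 ?_).trans
        Polynomial.natDegree_quadratic_le
      have h4 : Φ.Q (h.dec.pr l (g⁻¹ (e + s • f))) = 0 := (Finset.mem_filter.1 hs).2
      rw [map_add, map_smul, map_add, map_smul, h.o.Q_add, h.o.Q_smul, Φ.B_smul_right] at h4
      simp only [Polynomial.IsRoot, Polynomial.eval_add, Polynomial.eval_mul, Polynomial.eval_C,
        Polynomial.eval_pow, Polynomial.eval_X]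
      linear_combination h4
  rw [Finset.card_erase_of_mem (Finset.mem_univ _), Finset.card_univ, Finset.card_univ] at this
  have h8 : 6 * (Fintype.card ι - 2) ≤ (Fintype.card F - 1) * (Fintype.card ι - 2) :=
    Nat.mul_le_mul_right _ (by omega)
  omega

end OSet

theorem ODec.isMaximalIn_o [FiniteDimensional F V] [Fintype F] [Fintype ι] (hD : Φ.ODec D)
    (hO : Φ.IsO) (hG : ∀ i, Φ.Good (D i)) (h3 : 3 ≤ Fintype.card ι ∨ ∀ i, 5 ≤ finrank F (D i))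
    (h5 : ∀ i, finrank F (D i) = 2 → 5 ≤ Fintype.card ι) {i₀ : ι}
    (hd : finrank F (D i₀) + 3 ≤ finrank F V) : Geo.IsMaximalIn Φ.EG (Φ.HE D) := by
  have h2 := (hG i₀).two_le
  refine isMaximalIn_of inf_le_right (hD.exists_EG_not_dstab (by rw [hO.d]; omega) (hO.d ▸ hd))
    fun M h1 h4 g hg hg' => ?_
  have h : Φ.OSet D M := ⟨⟨hO, hD, by omega, h1, h4.trans Φ.EG_le_Iso⟩, hG, h3, h5⟩
  by_contra hN
  have hg1 : g ∉ dstab D := fun e => hg' ⟨e, h4 hg⟩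
  rcases h2.lt_or_eq with e | e
  · exact h.false_of_three hN hg hg1 (fun l => hD.finrank_eq i₀ l ▸ e) i₀
  · exact h.false_of_two hN hg hg1 (fun l => hD.finrank_eq i₀ l ▸ e.symm) i₀

end Fm

theorem o_dstab_isMaximalIn [Fintype F] {κ : Type} [Fintype κ] [DecidableEq κ] {Q : (κ → F) → F}
    (hQ : Geo.IsNondegenerateQuadraticForm Q) {t k : ℕ} {D : Fin t → Submodule F (κ → F)}
    (hD : Geo.IsOrthogonalMDecomposition Q k D) (hk : 2 ≤ k) (h3 : 3 ≤ t ∨ 5 ≤ k)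
    (h5 : k = 2 → 5 ≤ t ∧ Fintype.card F ≠ 3 ∧
      ((∀ i, ¬ Geo.IsPlusTypeOn Q (D i)) ∨ 7 ≤ Fintype.card F))
    (h6 : k = 3 → 5 ≤ Fintype.card F)
    (h7 : k = 4 → Fintype.card F = 2 → ∀ i, ¬ Geo.IsPlusTypeOn Q (D i)) :
    Geo.IsMaximalIn (Geo.omegaGL Q) (Geo.decompositionStabilizer D ⊓ Geo.omegaGL Q) := by
  have h1 := finrank_of_isMDecomposition hD.decomp.decomp
  have h2 := hD.decomp.decomp.two_le
  have h4 := hD.decomp.decomp.finrank_eq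
  have hO : (fmO hQ).ODec D := oDec_of (Or.inl fun _ _ => rfl) hD.decomp fun i j => by
    obtain ⟨e, he⟩ := hD.isometric i j
    refine ⟨e, fun x y => ?_, he⟩
    simp only [fmO_B, QuadraticMap.polar, ← Submodule.coe_add, ← map_add, he]
  have h8 : k + 3 ≤ t * k := by
    rcases h3 with h3 | h3
    · have := Nat.mul_le_mul_right k h3
      omega
    · have := Nat.mul_le_mul_right k h2
      omega
  refine dstab_isMaximalIn_of (mem_omegaGL_iff hQ (by omega)) (hO.isMaximalIn_o (isO_fmO hQ)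
    (fun i => ⟨hO.nd i, h4 i ▸ hk, fun e => ?_, fun e => h6 (h4 i ▸ e), fun e e' T hT hT' e2 => ?_⟩)
    (by simpa only [Fintype.card_fin, h4] using h3.imp_right fun h _ => h)
    (fun i e => by simpa using (h5 (h4 i ▸ e)).1) (i₀ := ⟨0, by omega⟩)
    (by rw [h4, finrank_fintype_fun_eq_card]; omega))
  · refine ⟨(h5 (h4 i ▸ e)).2.1, (h5 (h4 i ▸ e)).2.2.imp_left fun h s hs h0 => ?_⟩
    by_contra h9
    exact h i (isPlusTypeOn_of_sing hQ e hs h9 h0)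
  · exact h7 (h4 i ▸ e) e' i ⟨T, hT, hT'.1, by rw [e2, e]⟩

end Cfsg.Agent.Class.Max
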