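import Mathlib
import Cfsg.Agent.Class.Max.C2Pair

/-!
Class `C₂`, pairs of complementary totally singular subspaces of dimension three.
-/

set_option autoImplicit false

namespace Cfsg.Agent.Class.Max

open Module

variable {F V : Type*} [Field F] [AddCommGroup V] [Module F V] [FiniteDimensional F V]

theorem finrank_lt_sup_span {T : Submodule F V} {v : V} (hv : v ∉ T) :
    finrank F T < finrank F ↥(T ⊔ Submodule.span F {v}) :=
  Submodule.finrank_lt_finrank_of_lt (lt_of_le_of_ne le_sup_left fun h =>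
    hv (h ▸ Submodule.mem_sup_right (Submodule.mem_span_singleton_self v)))

omit [FiniteDimensional F V] in
theorem exists_mem_notMem_span {Z : Submodule F V} (h : 2 ≤ finrank F Z) (z : V) :
    ∃ z' ∈ Z, z' ∉ Submodule.span F {z} := by
  by_contra hc
  push Not at hc
  have := (Submodule.finrank_mono (show Z ≤ _ from hc)).trans (finrank_span_le_card ({z} : Set V))
  simp only [Set.toFinset_singleton, Finset.card_singleton] at this
  omega

namespace Fm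

variable {Φ : Fm F V} {M : Subgroup (V ≃ₗ[F] V)} {U U' : Submodule F V}

theorem TsPair.four_le (h : Φ.TsPair U U') {x₁ y₁ x₂ y₂ : V} (hx₁ : x₁ ∈ U') (hy₁ : y₁ ∈ U')
    (hx₂ : x₂ ∈ U) (hy₂ : y₂ ∈ U) (h1 : x₁ ≠ 0) (h2 : y₁ ∉ Submodule.span F {x₁}) (h3 : x₂ ≠ 0)
    (h4 : y₂ ∉ Submodule.span F {x₂}) (xx : Φ.B x₁ x₂ = 0) (xy : Φ.B x₁ y₂ = 0)
    (yx : Φ.B y₁ x₂ = 0) (yy : Φ.B y₁ y₂ = 0) : 4 ≤ finrank F U := by
  obtain ⟨f, hf, f1, f2⟩ := h.symm.exists_dual₁ hx₁ hy₁ h2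
  obtain ⟨f', hf', f3⟩ : ∃ f' ∈ U, Φ.B x₁ f' ≠ 0 := by
    by_contra hc
    push Not at hc
    exact h1 (h.symm.nd hx₁ hc)
  have sp : ∀ {W : Submodule F V} {v : V}, v ∈ W → Submodule.span F {v} ≤ W :=
    fun hv => (Submodule.span_singleton_le_iff_mem _ _).2 hv
  have e1 := finrank_span_singleton (K := F) h3
  have e2 := finrank_lt_sup_span h4
  have l1 : Submodule.span F {x₂} ⊔ Submodule.span F {y₂} ≤ LinearMap.ker (Φ.B y₁) :=
    sup_le (sp yx) (sp yy)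
  have l2 : Submodule.span F {x₂} ⊔ Submodule.span F {y₂} ⊔ Submodule.span F {f} ≤
      LinearMap.ker (Φ.B x₁) := sup_le (sup_le (sp xx) (sp xy)) (sp (Φ.perp_symm f1))
  have e3 := finrank_lt_sup_span (v := f) fun hc => Φ.ne_symm (f2.trans_ne one_ne_zero) (l1 hc)
  have e4 := finrank_lt_sup_span (v := f') fun hc => f3 (l2 hc)
  have e5 := Submodule.finrank_mono (sup_le (sup_le (sup_le (sp hx₂) (sp hy₂)) (sp hf)) (sp hf'))
  omega

theorem TsPair.exists_image' (h : Φ.TsPair U U') (hM : stabPair U U' ⊓ Φ.EG ≤ M) (hI : M ≤ Φ.EG)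
    {g : V ≃ₗ[F] V} (hg : g ∈ M) {v : V} (hv : v ∈ U ∨ v ∈ U') :
    ∃ Y : Submodule F V, finrank F U ≤ finrank F Y + 1 ∧ (g v ∈ Y → g v = 0) ∧ Φ.TS Y ∧
      ∀ b ∈ Y, Φ.Valid (g v) b 0 ∧ Φ.HasE M (g v) b 0 := by
  wlog hv' : v ∈ U generalizing U U'
  · rw [← h.finrank_eq]
    exact this h.symm (by rwa [stabPair_comm]) hv.symm (hv.resolve_left hv')
  have hgI := Φ.EG_le_Iso (hI hg)
  refine ⟨(U' ⊓ LinearMap.ker (Φ.B v)).map (g : V →ₗ[F] V), ?_, ?_, ⟨?_, ?_⟩, ?_⟩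
  · rw [LinearEquiv.finrank_map_eq, ← h.finrank_eq]
    exact finrank_le_inf_ker _ _
  · rintro ⟨f, ⟨hf, -⟩, e⟩
    rw [h.eq_zero hv' (g.injective e ▸ hf), map_zero]
  · rintro _ ⟨f, ⟨hf, -⟩, rfl⟩
    exact (Iso.Q hgI f).trans (h.ts'.1 f hf)
  · rintro _ ⟨f, ⟨hf, -⟩, rfl⟩ _ ⟨f', ⟨hf', -⟩, rfl⟩
    exact (Iso.B hgI f f').trans (h.ts'.2 f hf f' hf')
  · rintro _ ⟨f, ⟨hf, hf'⟩, rfl⟩
    exact ⟨(h.valid hv' hf hf').map hgI, (h.hasE hM hv' hf hf').conj hg hgI⟩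

theorem TsPair.step_three (h : Φ.TsPair U U') (hM : stabPair U U' ⊓ Φ.EG ≤ M)
    (hΛ : ∀ c, Φ.π c = 0 → ∃ t, c = Φ.σ t - Φ.ε * t) (h0 : ∃ c, c ≠ 0 ∧ Φ.π c = 0)
    (hk : 3 ≤ finrank F U) (hc : ¬ Φ.EG ≤ M) {a₁ a₂ b₁ b₂ : V} (ha₁ : a₁ ∈ U') (ha₂ : a₂ ∈ U)
    (hb₁ : b₁ ∈ U') (hb₂ : b₂ ∈ U) (ha0 : a₂ ≠ 0) (hv : Φ.Valid (a₁ + a₂) (b₁ + b₂) 0)
    (hab : ∀ s : F, Φ.HasE M (a₁ + a₂) (s • (b₁ + b₂)) 0) :
    (b₁ ∈ Submodule.span F {a₁} → b₂ ∈ Submodule.span F {a₂}) ∧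
      ∀ s t : F, Φ.B (s • a₁ + t • b₁) a₂ = 0 → Φ.B (s • a₁ + t • b₁) b₂ = 0 := by
  have hsw := h.dualPair.swap _ rfl (Or.inl h0)
  have key : ∀ e ∈ U', ∀ w ∈ U, w ≠ 0 → Φ.B e w = 0 → Φ.B e a₂ = 0 → Φ.B a₁ w = 0 →
      Φ.B b₁ w = 0 → Φ.B e b₂ = 0 := fun e he w hw hw0 h1 h2 h3 h4 => by
    by_contra h5
    refine hc (h.step hM hΛ hsw hk ha₁ ha₂ ha0 hv hab he hw hw0 h1 h2 (Φ.perp_symm h3) ?_ ?_
      (Or.inl h0))
    · rw [map_add, Φ.perp_symm h4, h.ts.2 w hw b₂ hb₂, add_zero]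
    · rwa [map_add, h.ts'.2 e he b₁ hb₁, zero_add]
  refine ⟨fun h1 => ?_, fun s t h1 => ?_⟩
  · by_contra h2
    obtain ⟨e, he, h3, h4⟩ := h.exists_dual₁ ha₂ hb₂ h2
    obtain ⟨w, hw, hw0, h5⟩ := exists_ne_zero_ker [Φ.B a₁, Φ.B e] U (by simp; omega)
    obtain ⟨t, rfl⟩ := Submodule.mem_span_singleton.1 h1
    have := key e he w hw hw0 (h5 _ (by simp)) h3 (h5 _ (by simp))
      (by rw [Φ.B_smul_left, h5 _ (by simp), mul_zero])
    exact one_ne_zero (h4.symm.trans this)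
  · obtain ⟨w, hw, hw0, h5⟩ := exists_ne_zero_ker [Φ.B a₁, Φ.B b₁] U (by simp; omega)
    have h6 := h5 (Φ.B a₁) (by simp)
    have h7 := h5 (Φ.B b₁) (by simp)
    exact key _ (U'.add_mem (U'.smul_mem s ha₁) (U'.smul_mem t hb₁)) w hw hw0
      (by simp only [Φ.bsimp, h6, h7]; ring) h1 h6 h7

theorem TsPair.isMaximalIn_three (h : Φ.TsPair U U')
    (hΛ : ∀ c, Φ.π c = 0 → ∃ t, c = Φ.σ t - Φ.ε * t) (h0 : ∃ c, c ≠ 0 ∧ Φ.π c = 0)
    (hk : 3 ≤ finrank F U) : Geo.IsMaximalIn Φ.EG (stabPair U U' ⊓ Φ.EG) := by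
  by_cases h4 : 4 ≤ finrank F U
  · exact h.isMaximalIn hΛ (Or.inl ⟨h0, h4⟩)
  refine h.isMaximalIn_of_key (by omega) fun M h1 h2 hc g hg v hv => ?_
  obtain ⟨Y, hY, hY0, hYs, hY'⟩ := h.exists_image' h1 h2 hg hv
  have hC : IsCompl U U' := ⟨Submodule.disjoint_def.2 fun x => h.eq_zero,
    codisjoint_iff.2 (eq_top_iff.2 fun x _ => by
      obtain ⟨a, ha, b, hb, rfl⟩ := h.sup x
      exact Submodule.add_mem_sup ha hb)⟩
  obtain ⟨P, P', hP, hP', hPP⟩ : ∃ P P' : V →ₗ[F] V, (∀ x, P x ∈ U) ∧ (∀ x, P' x ∈ U') ∧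
      ∀ x, P' x + P x = x :=
    ⟨U.projection U' hC, U'.projection U hC.symm, Submodule.projection_apply_mem hC,
      Submodule.projection_apply_mem hC.symm,
      fun x => by rw [add_comm]; exact Submodule.projection_add_projection_eq_self hC x⟩
  generalize g v = a at hY0 hY'
  by_contra h6
  have h7 : P a ≠ 0 := fun h7 => h6 (Or.inr (by rw [← hPP a, h7, add_zero]; exact hP' a))
  have h8 : P' a ≠ 0 := fun h8 => h6 (Or.inl (by rw [← hPP a, h8, zero_add]; exact hP a))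
  have ha : a ∉ Y := fun ha => h7 (by rw [hY0 ha, map_zero])
  have k1 := fun b (hb : b ∈ Y) => h.step_three h1 hΛ h0 hk hc (hP' a) (hP a) (hP' b) (hP b) h7
    (by rw [hPP, hPP]; exact (hY' b hb).1)
    fun s => by rw [hPP, hPP]; exact (hY' _ (Y.smul_mem s hb)).2
  have k2 := fun b (hb : b ∈ Y) => (h.symm.step_three (by rwa [stabPair_comm]) hΛ h0
    (by rwa [h.finrank_eq]) hc (hP a) (hP' a) (hP b) (hP' b) h8
    (by rw [add_comm, add_comm (P b), hPP, hPP]; exact (hY' b hb).1)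
    fun s => by rw [add_comm, add_comm (P b), hPP, hPP]; exact (hY' _ (Y.smul_mem s hb)).2).1
  have hB : ∀ x y, Φ.B x y = Φ.B (P' x) (P y) + Φ.B (P x) (P' y) := fun x y => by
    conv_lhs => rw [← hPP x, ← hPP y]
    simp only [Φ.bsimp, h.ts.2 _ (hP x) _ (hP y), h.ts'.2 _ (hP' x) _ (hP' y)]
    ring
  obtain ⟨y₀, hy₀, -⟩ := exists_mem_notMem_span (Z := Y) (by omega) 0
  have hQ := (hY' y₀ hy₀).1.sing
  have hX : ∀ x ∈ Y ⊔ Submodule.span F {a}, ∃ b ∈ Y, ∃ s : F, x = b + s • a := fun x hx => by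
    obtain ⟨b, hb, y, hy, rfl⟩ := Submodule.mem_sup.1 hx
    obtain ⟨s, rfl⟩ := Submodule.mem_span_singleton.1 hy
    exact ⟨b, hb, s, rfl⟩
  have hXs : ∀ x ∈ Y ⊔ Submodule.span F {a}, ∀ y ∈ Y ⊔ Submodule.span F {a}, Φ.B x y = 0 := by
    intro x hx y hy
    obtain ⟨b, hb, s, rfl⟩ := hX x hx
    obtain ⟨b', hb', s', rfl⟩ := hX y hy
    simp only [Φ.bsimp, hYs.2 b hb b' hb', (hY' b' hb').1.perp, Φ.perp_symm (hY' b hb).1.perp,
      Φ.B_self hQ]
    ring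
  have haX : a ∈ Y ⊔ Submodule.span F {a} :=
    Submodule.mem_sup_right (Submodule.mem_span_singleton_self a)
  have hα : Φ.B (P' a) (P a) ≠ 0 := fun hα => by
    obtain ⟨b, hb, hb'⟩ : ∃ b ∈ Y, P' b ∉ Submodule.span F {P' a} := by
      by_contra h9
      push Not at h9
      have h10 : Y ⊔ Submodule.span F {a} ≤ Submodule.span F {P' a, P a} := by
        refine sup_le (fun b hb => ?_) ((Submodule.span_singleton_le_iff_mem _ _).2 ?_)
        · rw [← hPP b]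
          exact Submodule.add_mem _ (Submodule.span_mono (by simp) (h9 b hb))
            (Submodule.span_mono (by simp) ((k1 b hb).1 (h9 b hb)))
        · exact Submodule.mem_span_pair.2 ⟨1, 1, by simp [hPP]⟩
      have := (Submodule.finrank_mono h10).trans (finrank_span_pair_le_two _ _)
      have := finrank_lt_sup_span ha
      omega
    have e1 : Φ.B (P' a) (P b) = 0 := by simpa using (k1 b hb).2 1 0 (by simpa using hα)
    have e2 : Φ.B (P' b) (P a) = 0 := by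
      have := (hY' b hb).1.perp
      rw [hB, e1, zero_add] at this
      exact Φ.perp_symm this
    have e3 : Φ.B (P' b) (P b) = 0 := by simpa using (k1 b hb).2 0 1 (by simpa using e2)
    exact h4 (h.four_le (hP' a) (hP' b) (hP a) (hP b) h8 hb' h7 (fun h9 => hb' (k2 b hb h9))
      hα e1 e2 e3)
  have inj1 : ∀ x ∈ Y ⊔ Submodule.span F {a}, P' x = 0 → x = 0 := fun x hx h9 => by
    have h10 := hXs a haX x hx
    obtain ⟨b, hb, s, rfl⟩ := hX x hx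
    obtain ⟨r, hr⟩ := Submodule.mem_span_singleton.1 ((k1 b hb).1
      (Submodule.mem_span_singleton.2 ⟨-s, by
        rw [map_add, map_smul] at h9
        rw [eq_neg_of_add_eq_zero_left h9, neg_smul]⟩))
    have h11 : P (b + s • a) = (r + s) • P a := by rw [map_add, map_smul, ← hr, add_smul]
    rw [hB, h9, h11, map_zero, add_zero, Φ.B_smul_right] at h10
    rw [← hPP (b + s • a), h9, h11, (mul_eq_zero.1 h10).resolve_right hα, zero_smul, add_zero]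
  have inj2 : ∀ x ∈ Y ⊔ Submodule.span F {a}, P x = 0 → x = 0 := fun x hx h9 => by
    have h10 := hXs a haX x hx
    obtain ⟨b, hb, s, rfl⟩ := hX x hx
    obtain ⟨r, hr⟩ := Submodule.mem_span_singleton.1 (k2 b hb
      (Submodule.mem_span_singleton.2 ⟨-s, by
        rw [map_add, map_smul] at h9
        rw [eq_neg_of_add_eq_zero_left h9, neg_smul]⟩))
    have h11 : P' (b + s • a) = (r + s) • P' a := by rw [map_add, map_smul, ← hr, add_smul]
    rw [hB, h9, h11, map_zero, zero_add, Φ.B_smul_right] at h10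
    rw [← hPP (b + s • a), h9, h11, (mul_eq_zero.1 h10).resolve_right (Φ.ne_symm hα), zero_smul,
      add_zero]
  set Z := (Y ⊔ Submodule.span F {a}) ⊓ LinearMap.ker (Φ.B (P a) ∘ₗ P') with hZ
  have z1 : ∀ z ∈ Z, Φ.B (P' z) (P z) = 0 := fun z hz => by
    have h9 : Φ.B (P' z) (P a) = 0 := Φ.perp_symm hz.2
    obtain ⟨b, hb, s, rfl⟩ := hX z hz.1
    have e : P' (b + s • a) = s • P' a + (1 : F) • P' b := by
      rw [map_add, map_smul, one_smul, add_comm]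
    rw [map_add P, map_smul P, map_add (Φ.B _), Φ.B_smul_right, h9, e, (k1 b hb).2 s 1 (e ▸ h9)]
    ring
  have z2 : ∀ z ∈ Z, ∀ z' ∈ Z, Φ.B (P' z) (P z') = Φ.ε * Φ.σ (Φ.B (P' z) (P z')) := by
    intro z hz z' hz'
    have h9 := z1 _ (Z.add_mem hz hz')
    have h10 := hXs z hz.1 z' hz'.1
    rw [hB, Φ.symm (P' z') (P z)] at h10
    simp only [map_add, LinearMap.add_apply, z1 z hz, z1 z' hz'] at h9
    rw [show Φ.B (P' z') (P z) = -Φ.B (P' z) (P z') by linear_combination h9, map_neg] at h10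
    linear_combination h10
  have z3 : ∀ z ∈ Z, ∀ z' ∈ Z, Φ.B (P' z) (P z') = 0 := fun z hz z' hz' => by
    by_contra h9
    obtain ⟨c, hc0, hc1⟩ := h0
    obtain ⟨t, rfl⟩ := hΛ c hc1
    have := z2 z hz _ (Z.smul_mem (t / Φ.B (P' z) (P z')) hz')
    rw [map_smul, Φ.B_smul_right, div_mul_cancel₀ _ h9] at this
    exact hc0 (by linear_combination -Φ.ε * this - Φ.σ t * Φ.eps_sq)
  have hZ2 : 2 ≤ finrank F Z := by
    have := finrank_le_inf_ker (Y ⊔ Submodule.span F {a}) (Φ.B (P a) ∘ₗ P')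
    have := finrank_lt_sup_span ha
    rw [hZ]
    omega
  obtain ⟨z, hz, hz0⟩ := exists_mem_notMem_span hZ2 0
  have hz0' : z ≠ 0 := fun h9 => hz0 (by rw [h9]; exact Submodule.zero_mem _)
  obtain ⟨z', hz', hz1⟩ := exists_mem_notMem_span hZ2 z
  have key : ∀ R : V →ₗ[F] V, (∀ x ∈ Y ⊔ Submodule.span F {a}, R x = 0 → x = 0) →
      R z' ∉ Submodule.span F {R z} := fun R hR h9 => by
    obtain ⟨r, hr⟩ := Submodule.mem_span_singleton.1 h9
    refine hz1 (Submodule.mem_span_singleton.2 ⟨r, sub_eq_zero.1 (hR _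
      (Submodule.sub_mem _ (Submodule.smul_mem _ r hz.1) hz'.1) ?_)⟩)
    rw [map_sub, map_smul, hr, sub_self]
  exact h4 (h.four_le (hP' z) (hP' z') (hP z) (hP z') (fun h9 => hz0' (inj1 z hz.1 h9)) (key P' inj1)
    (fun h9 => hz0' (inj2 z hz.1 h9)) (key P inj2) (z3 z hz z hz) (z3 z hz z' hz') (z3 z' hz' z hz)
    (z3 z' hz' z' hz'))

end Fm

theorem sp_pair_isMaximalIn_three [Fintype F] {m : ℕ} (hm : 3 ≤ m) (hodd : Odd (Fintype.card F))
    {D : Fin 2 → Submodule F (Fin m ⊕ Fin m → F)} (hD : Geo.IsMDecomposition m D)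
    (hts : ∀ i, Geo.IsTotallySingularFor (sympForm m F) (D i)) :
    Geo.IsMaximalIn (spGL m F) (Geo.decompositionStabilizer D ⊓ spGL m F) :=
  pair_isMaximalIn_of (mem_spGL_iff m) ((tsPair_of (Φ := fmSpStd F m) hD
    fun i => ⟨fun _ _ => rfl, hts i⟩).isMaximalIn_three
    (fun c _ => fmSpStd_lam_of_odd hodd m c) ⟨1, one_ne_zero, rfl⟩ (by rwa [hD.finrank_eq]))

theorem u_pair_isMaximalIn_three [Fintype F] {n q : ℕ} (hF : Fintype.card F = q ^ 2) {k : ℕ}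
    (hk : 3 ≤ k) {D : Fin 2 → Submodule F (Fin n → F)} (hD : Geo.IsMDecomposition k D)
    (hts : ∀ i, Geo.IsTotallySingularFor (hermForm n F q) (D i)) :
    Geo.IsMaximalIn (GU n F q ⊓ Geo.specialLinear (Fin n) F)
      (Geo.decompositionStabilizer D ⊓ (GU n F q ⊓ Geo.specialLinear (Fin n) F)) :=
  haveI := U.UF.of_card hF
  pair_isMaximalIn_of (mem_SU_iff n q) ((tsPair_of hD fun i =>
    ⟨fun x hx => hts i x hx x hx, fun x hx y hy => hts i y hy x hx⟩).isMaximalIn_three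
    (fmUStd_lam_eq n q) (fmUStd_lam n q) (by rwa [hD.finrank_eq]))

end Cfsg.Agent.Class.Max
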