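import Mathlib
import Cfsg.Agent.Class.Max.C3Z

/-!
Algebraic lemmas for extension field subgroups: Chevalley–Warning for quadratic maps, subrings of
`End_F(K)` containing `K`, semilinear maps on a point, maximal intersections.
-/

set_option autoImplicit false
set_option linter.unusedSectionVars false

namespace Cfsg.Agent.Class.Max

open Module

/-- Chevalley–Warning for a quadratic map without constant term. -/
theorem exists_root_quad {k W A : Type*} [Field k] [Finite k] [AddCommGroup W] [Module k W]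
    [AddCommGroup A] [Module k A] [FiniteDimensional k W] [FiniteDimensional k A]
    (β : W →ₗ[k] W →ₗ[k] A) (l : W →ₗ[k] A) (h : 2 * finrank k A < finrank k W) :
    ∃ v, v ≠ 0 ∧ β v v + l v = 0 := by
  classical
  have := Fintype.ofFinite k
  obtain ⟨p, hp⟩ := CharP.exists k
  have : Fact p.Prime := ⟨CharP.char_is_prime k p⟩
  let b := Module.finBasis k W
  let c := Module.finBasis k A
  let P : Fin (finrank k A) → MvPolynomial (Fin (finrank k W)) k := fun j =>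
    ∑ i, ∑ i', MvPolynomial.C (c.repr (β (b i) (b i')) j) * (MvPolynomial.X i * MvPolynomial.X i') +
      ∑ i, MvPolynomial.C (c.repr (l (b i)) j) * MvPolynomial.X i
  have hP : ∀ j, (P j).totalDegree ≤ 2 := fun j => by
    refine (MvPolynomial.totalDegree_add _ _).trans (max_le ?_ ?_)
    · refine MvPolynomial.totalDegree_finsetSum_le fun i _ =>
        MvPolynomial.totalDegree_finsetSum_le fun i' _ => (MvPolynomial.totalDegree_mul _ _).trans ?_
      rw [MvPolynomial.totalDegree_C, zero_add]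
      exact (MvPolynomial.totalDegree_mul _ _).trans (by simp)
    · refine MvPolynomial.totalDegree_finsetSum_le fun i _ =>
        (MvPolynomial.totalDegree_mul _ _).trans ?_
      simp
  have ev : ∀ x j, MvPolynomial.eval x (P j) =
      c.repr (β (∑ i, x i • b i) (∑ i, x i • b i) + l (∑ i, x i • b i)) j := fun x j => by
    simp only [P, map_add, map_sum, map_mul, MvPolynomial.eval_C, MvPolynomial.eval_X, map_smul,
      LinearMap.sum_apply, LinearMap.smul_apply, Finsupp.add_apply, Finsupp.finsetSum_apply,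
      Finsupp.smul_apply, smul_eq_mul, Finset.mul_sum]
    congr 1
    · rw [Finset.sum_comm]
      exact Finset.sum_congr rfl fun i _ => Finset.sum_congr rfl fun i' _ => by ring
    · exact Finset.sum_congr rfl fun i _ => by ring
  have h1 := char_dvd_card_solutions_of_fintype_sum_lt p (f := P) (by
    refine lt_of_le_of_lt (Finset.sum_le_sum fun j _ => hP j) ?_
    simpa [mul_comm] using h)
  by_contra hne
  push Not at hne
  have h2 : Fintype.card {x : Fin (finrank k W) → k // ∀ j, MvPolynomial.eval x (P j) = 0} = 1 := by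
    rw [Fintype.card_eq_one_iff]
    refine ⟨⟨0, fun j => by rw [ev]; simp⟩, ?_⟩
    rintro ⟨x, hx⟩
    refine Subtype.ext (funext fun i => ?_)
    by_contra hx0
    refine hne (∑ i, x i • b i) (fun e => hx0 ?_) (c.repr.injective (Finsupp.ext fun j => ?_))
    · exact Fintype.linearIndependent_iff.1 b.linearIndependent x e i
    · rw [← ev, hx, map_zero, Finsupp.zero_apply]
  exact (Fact.out : p.Prime).one_lt.ne' (Nat.dvd_one.1 (by convert h1 using 1; convert h2.symm))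

variable {F K : Type*} [Field F] [Field K] [Algebra F K]

/-- In prime degree, `K` is a maximal subring of `End_F(K)`. -/
theorem subring_eq_top_or [Finite K] (hr : (finrank F K).Prime) (R : Subring (Module.End F K))
    (hK : ∀ a : K, LinearMap.mulLeft F a ∈ R) :
    (∀ ρ ∈ R, ∃ a : K, ∀ k, ρ k = a * k) ∨ R = ⊤ := by
  let D : Subalgebra F K :=
    { carrier := {d | ∀ ρ ∈ R, ∀ k, ρ (d * k) = d * ρ k}
      mul_mem' := fun {a b} ha hb ρ hρ k => by rw [mul_assoc, ha ρ hρ, hb ρ hρ, mul_assoc]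
      add_mem' := fun {a b} ha hb ρ hρ k => by
        rw [add_mul, map_add, ha ρ hρ, hb ρ hρ, add_mul]
      algebraMap_mem' := fun c ρ _ k => by
        rw [← Algebra.smul_def, ← Algebra.smul_def, map_smul] }
  rcases (Subalgebra.isSimpleOrder_of_finrank_prime F K hr).eq_bot_or_eq_top D with h | h
  · right
    have : IsSimpleModule R K := by
      rw [isSimpleModule_iff]
      refine ⟨fun N => ?_⟩
      by_cases hN : N = ⊥
      · exact Or.inl hN
      · obtain ⟨x, hx, hx0⟩ := Submodule.exists_mem_ne_zero_of_ne_bot hN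
        refine Or.inr (eq_top_iff.2 fun y _ => ?_)
        have := N.smul_mem ⟨_, hK (y * x⁻¹)⟩ hx
        change y * x⁻¹ * x ∈ N at this
        rwa [inv_mul_cancel_right₀ hx0] at this
    have := Fintype.ofFinite K
    refine eq_top_iff.2 fun f _ => ?_
    have key : ∀ δ : Module.End R K, ∃ c : F, ∀ k, δ k = c • k := fun δ => by
      have e1 : ∀ k, δ k = δ 1 * k := fun k => by
        have := δ.map_smul ⟨_, hK k⟩ 1
        change δ (k * 1) = k * δ 1 at this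
        rw [← mul_comm k, ← this, mul_one]
      have : δ 1 ∈ D := fun ρ hρ k => by
        rw [← e1, ← e1]
        exact (δ.map_smul ⟨ρ, hρ⟩ k).symm
      obtain ⟨c, hc⟩ := Algebra.mem_bot.1 (h ▸ this)
      exact ⟨c, fun k => by rw [e1, ← hc, Algebra.smul_def]⟩
    obtain ⟨r, hr⟩ := jacobson_density (R := R) (M := K)
      ⟨⟨f, map_add f⟩, fun δ k => by
        obtain ⟨c, hc⟩ := key δ
        change f (δ k) = δ (f k)
        rw [hc, hc, map_smul]⟩ Finset.univ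
    rw [show f = r.1 from LinearMap.ext fun k => hr k (Finset.mem_univ k)]
    exact r.2
  · exact Or.inl fun ρ hρ => ⟨ρ 1, fun k => by
      rw [mul_comm, ← (h ▸ Algebra.mem_top : k ∈ D) ρ hρ, mul_one]⟩

variable {V : Type*} [AddCommGroup V] [Module F V] [Module K V] [IsScalarTower F K V]

variable (K) in
/-- `s` is semilinear on the point of `e`. -/
def Semi (s : V ≃ₗ[F] V) (e : V) : Prop :=
  ∀ a : K, ∃ b : K, ∀ y ∈ pt F K e, s (a • y) = b • s y

theorem Semi.exists_ringHom {s : V ≃ₗ[F] V} {e y : V} (h : Semi K s e) (hy : y ∈ pt F K e)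
    (h0 : y ≠ 0) (hs : s y = y) : ∃ τ : K →+* K, (∀ c : F, τ (algebraMap F K c) = algebraMap F K c) ∧
      ∀ a, s (a • y) = τ a • y := by
  choose τ hτ using h
  have e1 : ∀ a, s (a • y) = τ a • y := fun a => by rw [hτ a y hy, hs]
  have inj := smul_left_injective K h0
  refine ⟨⟨⟨⟨τ, inj ?_⟩, fun a b => inj ?_⟩, inj ?_, fun a b => inj ?_⟩, fun c => inj ?_, e1⟩
  all_goals dsimp only [RingHom.coe_mk, MonoidHom.coe_mk, OneHom.coe_mk]
  · rw [← e1, one_smul, hs]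
  · rw [← e1, mul_smul, hτ a _ (smul_mem_pt_of b hy), e1, mul_smul]
  · rw [← e1, zero_smul, map_zero]
  · rw [← e1, add_smul, map_add, e1, e1, add_smul]
  · rw [← e1, algebraMap_smul, map_smul, hs]

theorem exists_smul_of_mem_pt {e y z : V} (hy : y ∈ pt F K e) (h0 : y ≠ 0) (hz : z ∈ pt F K e) :
    ∃ a : K, a • y = z := by
  obtain ⟨a, rfl⟩ := mem_pt.1 hy
  obtain ⟨b, rfl⟩ := mem_pt.1 hz
  have ha : a ≠ 0 := fun e' => h0 (by rw [e', zero_smul])
  exact ⟨b * a⁻¹, by rw [smul_smul, inv_mul_cancel_right₀ ha]⟩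

theorem Semi.fix_of_two (hr : (finrank F K).Prime) {s : V ≃ₗ[F] V} {e y u : V} (h : Semi K s e)
    (hy : y ∈ pt F K e) (h0 : y ≠ 0) (hs : s y = y) (hu : u ∈ pt F K e) (hsu : s u = u)
    (hu' : ∀ c : F, c • y ≠ u) : ∀ z ∈ pt F K e, s z = z := by
  obtain ⟨τ, h1, h2⟩ := h.exists_ringHom hy h0 hs
  have : τ = RingHom.id K := by
    by_contra hne
    obtain ⟨a, rfl⟩ := exists_smul_of_mem_pt hy h0 hu
    obtain ⟨c, rfl⟩ := Fm.mem_range_of_fix hr h1 hne (a := a)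
      (smul_left_injective K h0 ((h2 a).symm.trans hsu))
    exact hu' c (algebraMap_smul K c y).symm
  intro z hz
  obtain ⟨a, rfl⟩ := exists_smul_of_mem_pt hy h0 hz
  rw [h2, this, RingHom.id_apply]

theorem Semi.fix_of_sq (hr : (finrank F K).Prime) (hne : (2 : F) ≠ 0 ∨ finrank F K ≠ 2)
    {s : V ≃ₗ[F] V} {e y : V} (h : Semi K s e) (hy : y ∈ pt F K e) (h0 : y ≠ 0) (hs : s y = y)
    (hsq : ∀ z ∈ pt F K e, s (s z - z) = s z - z) : ∀ z ∈ pt F K e, s z = z := by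
  obtain ⟨τ, h1, h2⟩ := h.exists_ringHom hy h0 hs
  have : FiniteDimensional F K := Module.finite_of_finrank_pos hr.pos
  have : τ = RingHom.id K := by
    by_contra hτ
    have e1 : ∀ a, ∃ c : F, algebraMap F K c = τ a - a := fun a =>
      Fm.mem_range_of_fix hr h1 hτ (smul_left_injective K h0 (by
        have := hsq _ (smul_mem_pt_of a hy)
        rwa [h2, ← sub_smul, h2] at this))
    obtain ⟨a, ha⟩ := DFunLike.ne_iff.1 hτ
    obtain ⟨c, hc⟩ := e1 a
    have hc0 : c ≠ 0 := fun e => ha (by rw [e, map_zero] at hc; exact sub_eq_zero.1 hc.symm)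
    have hc1 : algebraMap F K c ≠ 0 := (map_ne_zero _).2 hc0
    rcases hne with h2 | h2
    · obtain ⟨d, hd⟩ := e1 (a * a)
      have h3 : algebraMap F K (2 * c) ≠ 0 := (map_ne_zero _).2 (mul_ne_zero h2 hc0)
      have : a = algebraMap F K ((d - c * c) / (2 * c)) := by
        rw [map_div₀, eq_div_iff h3, map_sub, map_mul, map_mul, hd, hc, map_mul, map_ofNat]
        ring
      exact ha (by rw [this, h1]; rfl)
    · have e2 : (⊤ : Submodule F K) ≤ Submodule.span F {1, a} := fun x _ => by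
        obtain ⟨d, hd⟩ := e1 x
        obtain ⟨t, ht⟩ := Fm.mem_range_of_fix hr h1 hτ (a := x - (d / c) • a) (by
          rw [Algebra.smul_def, map_sub, map_mul, h1, map_div₀, eq_add_of_sub_eq hd.symm,
            eq_add_of_sub_eq hc.symm]
          field_simp
          ring)
        exact Submodule.mem_span_pair.2 ⟨t, d / c, by
          rw [← Algebra.algebraMap_eq_smul_one, ht, sub_add_cancel]⟩
      have e3 := (Submodule.finrank_mono e2).trans (finrank_span_pair_le 1 a)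
      rw [finrank_top] at e3
      have := hr.two_le
      omega
  intro z hz
  obtain ⟨a, rfl⟩ := exists_smul_of_mem_pt hy h0 hz
  rw [h2, this, RingHom.id_apply]

section MaxInt

omit [Module K V] [IsScalarTower F K V]

/-- `g Y₀ ≠ Y₀` meets `Y₀` in the largest possible dimension. -/
structure MaxI (X : Subgroup (V ≃ₗ[F] V)) (Y₀ : Submodule F V) (g : V ≃ₗ[F] V) : Prop where
  mem : g ∈ X
  ne : g ∉ stab Y₀
  max : ∀ h ∈ X, h ∉ stab Y₀ → finrank F ↥(Y₀.map (h : V →ₗ[F] V) ⊓ Y₀) ≤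
    finrank F ↥(Y₀.map (g : V →ₗ[F] V) ⊓ Y₀)

variable [FiniteDimensional F V] {X : Subgroup (V ≃ₗ[F] V)} {Y₀ : Submodule F V}

theorem exists_maxI {g₀ : V ≃ₗ[F] V} (hg₀ : g₀ ∈ X) (hn : g₀ ∉ stab Y₀) {v : V} (hv0 : v ≠ 0)
    (hv : v ∈ Y₀) (hv' : g₀ v ∈ Y₀) : ∃ g, MaxI X Y₀ g ∧ ∃ j ∈ Y₀, j ≠ 0 ∧ g j ∈ Y₀ := by
  obtain ⟨g, ⟨hg, hgn⟩, hmin⟩ := exists_minimalFor_of_wellFoundedLT
    (fun g : V ≃ₗ[F] V => g ∈ X ∧ g ∉ stab Y₀)
    (fun g : V ≃ₗ[F] V => finrank F V - finrank F ↥(Y₀.map (g : V →ₗ[F] V) ⊓ Y₀)) ⟨g₀, hg₀, hn⟩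
  have hmax : ∀ h ∈ X, h ∉ stab Y₀ → finrank F ↥(Y₀.map (h : V →ₗ[F] V) ⊓ Y₀) ≤
      finrank F ↥(Y₀.map (g : V →ₗ[F] V) ⊓ Y₀) := fun h h1 h2 => by
    have e1 := Submodule.finrank_le (Y₀.map (h : V →ₗ[F] V) ⊓ Y₀)
    have e2 := Submodule.finrank_le (Y₀.map (g : V →ₗ[F] V) ⊓ Y₀)
    by_contra hc
    have := hmin (j := h) ⟨h1, h2⟩ (by dsimp only; omega)
    dsimp only at this
    omega
  refine ⟨g, ⟨hg, hgn, hmax⟩, ?_⟩
  obtain ⟨_, ⟨⟨j, hj, rfl⟩, hw⟩, hw0⟩ := Submodule.exists_mem_ne_zero_of_ne_bot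
    (p := Y₀.map (g : V →ₗ[F] V) ⊓ Y₀) (by
      intro h
      have := hmax g₀ hg₀ hn
      rw [h, finrank_bot, Nat.le_zero, Submodule.finrank_eq_zero] at this
      have h2 : g₀ v ∈ Y₀.map (g₀ : V →ₗ[F] V) ⊓ Y₀ := ⟨⟨v, hv, rfl⟩, hv'⟩
      rw [this] at h2
      exact hv0 (g₀.map_eq_zero_iff.1 h2))
  exact ⟨j, hj, fun e => hw0 (by simp [e]), hw⟩

theorem MaxI.le_finrank {g t : V ≃ₗ[F] V} (h1 : ∀ w ∈ Y₀, t w = w) :
    (Y₀.map (g : V →ₗ[F] V) ⊓ Y₀).map ((g⁻¹ : V ≃ₗ[F] V) : V →ₗ[F] V) ≤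
      Y₀.map ((g⁻¹ * t * g : V ≃ₗ[F] V) : V →ₗ[F] V) ⊓ Y₀ := by
  rintro _ ⟨_, ⟨⟨z, hz, rfl⟩, hz'⟩, rfl⟩
  refine ⟨⟨z, hz, ?_⟩, by simpa using hz⟩
  change g⁻¹ (t (g z)) = g⁻¹ (g z)
  rw [h1 (g z) hz']

theorem MaxI.conj {g t : V ≃ₗ[F] V} (h : MaxI X Y₀ g) (ht : t ∈ X) (h1 : ∀ w ∈ Y₀, t w = w)
    (hn : g⁻¹ * t * g ∉ stab Y₀) : MaxI X Y₀ (g⁻¹ * t * g) :=
  ⟨X.mul_mem (X.mul_mem (X.inv_mem h.mem) ht) h.mem, hn, fun k hk hk' => (h.max k hk hk').trans (by
    have := Submodule.finrank_mono (MaxI.le_finrank (g := g) h1)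
    rwa [LinearEquiv.finrank_map_eq] at this)⟩

theorem MaxI.stab_of {g t : V ≃ₗ[F] V} (h : MaxI X Y₀ g) (ht : t ∈ X) (h1 : ∀ w ∈ Y₀, t w = w)
    {u : V} (hu : u ∈ Y₀) (hu' : g u ∉ Y₀) (h2 : g⁻¹ (t (g u)) ∈ Y₀) : g⁻¹ * t * g ∈ stab Y₀ := by
  by_contra hc
  have e1 := h.max _ (h.conj ht h1 hc).mem hc
  have e2 : (Y₀.map (g : V →ₗ[F] V) ⊓ Y₀).map ((g⁻¹ : V ≃ₗ[F] V) : V →ₗ[F] V) <
      Y₀.map ((g⁻¹ * t * g : V ≃ₗ[F] V) : V →ₗ[F] V) ⊓ Y₀ := by
    refine SetLike.lt_iff_le_and_exists.2 ⟨MaxI.le_finrank h1, g⁻¹ (t (g u)), ⟨⟨u, hu, rfl⟩, h2⟩, ?_⟩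
    rintro ⟨z, ⟨-, hz⟩, e⟩
    have : z = t (g u) := g⁻¹.injective e
    exact hu' (((mem_stab_of_mapsTo fun w hw => (h1 w hw).symm ▸ hw : t ∈ stab Y₀) _).2
      (this ▸ hz))
  have e3 := Submodule.finrank_lt_finrank_of_lt e2
  rw [LinearEquiv.finrank_map_eq] at e3
  omega

end MaxInt

end Cfsg.Agent.Class.Max
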