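import Mathlib
import Cfsg.Agent.Class.Max.C3Alg

/-!
Further algebraic lemmas for extension field subgroups in small dimension.
-/

set_option autoImplicit false
set_option linter.unusedSectionVars false

namespace Cfsg.Agent.Class.Max

open Module

/-- Burnside's theorem for an abelian self-normalising `p`-subgroup. -/
theorem exists_normal_compl {X : Type*} [Group X] [Finite X] {p : ℕ} [Fact p.Prime]
    {A : Subgroup X} (hp : IsPGroup p A) (hc : ∀ a ∈ A, ∀ b ∈ A, a * b = b * a)
    (hn : ∀ n, (∀ a ∈ A, n * a * n⁻¹ ∈ A) → n ∈ A) :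
    ∃ P : Subgroup X, P.Normal ∧ ¬ p ∣ Nat.card P ∧ ∀ x, ∃ y ∈ P, ∃ a ∈ A, x = y * a := by
  obtain ⟨S, hS⟩ := hp.exists_le_sylow
  have e1 : A = S := by
    have := S.isPGroup'.isNilpotent
    have h1 := normalizerCondition_iff_only_full_group_self_normalizing.1
      (Group.normalizerCondition_of_isNilpotent (G := S)) (A.subgroupOf S) (le_antisymm
        (fun (n : S) hn' => Subgroup.mem_subgroupOf.2 (hn n fun a ha =>
          Subgroup.mem_subgroupOf.1 ((hn' ⟨a, hS ha⟩).1 (Subgroup.mem_subgroupOf.2 ha))))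
        Subgroup.le_normalizer)
    exact le_antisymm hS (Subgroup.subgroupOf_eq_top.1 h1)
  have hP : Subgroup.normalizer (S : Set X) ≤ Subgroup.centralizer (S : Set X) := fun n hn' a ha =>
    hc a (e1 ▸ ha) n (hn n fun b hb => e1 ▸ (hn' b).1 (show b ∈ (S : Subgroup X) from e1 ▸ hb))
  refine ⟨_, inferInstance, MonoidHom.not_dvd_card_ker_transferSylow S hP, fun x => ?_⟩
  obtain ⟨⟨y, a⟩, h, -⟩ := (MonoidHom.ker_transferSylow_isComplement' S hP).existsUnique x
  exact ⟨y, y.2, a, e1 ▸ a.2, h.symm⟩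

theorem exists_root_quad_mem {k W A : Type*} [Field k] [Finite k] [AddCommGroup W] [Module k W]
    [AddCommGroup A] [Module k A] [FiniteDimensional k W] [FiniteDimensional k A]
    (β : W →ₗ[k] W →ₗ[k] A) (l : W →ₗ[k] A) {S N : Submodule k A} (hN : N ≤ S)
    (h1 : ∀ v w, β v w ∈ S) (h2 : ∀ v, l v ∈ S)
    (h : 2 * finrank k S < finrank k W + 2 * finrank k N) : ∃ v, v ≠ 0 ∧ β v v + l v ∈ N := by
  let π := (N.comap S.subtype).mkQ
  obtain ⟨v, h0, hv⟩ := exists_root_quad (A := S ⧸ N.comap S.subtype)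
    (LinearMap.mk₂ k (fun v w => π ⟨β v w, h1 v w⟩)
      (fun _ _ _ => by rw [← map_add]; congr 1; ext; simp)
      (fun _ _ _ => by rw [← map_smul]; congr 1; ext; simp)
      (fun _ _ _ => by rw [← map_add]; congr 1; ext; simp)
      (fun _ _ _ => by rw [← map_smul]; congr 1; ext; simp))
    (π ∘ₗ l.codRestrict S h2) (by
      have e1 := (N.comap S.subtype).finrank_quotient_add_finrank
      rw [(Submodule.comapSubtypeEquivOfLe hN).finrank_eq] at e1
      omega)
  refine ⟨v, h0, ?_⟩
  rw [LinearMap.mk₂_apply, LinearMap.comp_apply, ← map_add] at hv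
  exact (Submodule.Quotient.mk_eq_zero (N.comap S.subtype)).1 hv

variable {F K : Type*} [Field F] [Field K] [Algebra F K]
variable {V : Type*} [AddCommGroup V] [Module F V] [Module K V] [IsScalarTower F K V]

theorem mem_range_of_stab (hr : (finrank F K).Prime) {A : Submodule F V} [FiniteDimensional F A]
    {y : V} (hy : y ∈ A) (h0 : y ≠ 0) (hA : finrank F A < finrank F K) {a : K}
    (ha : ∀ x ∈ A, a • x ∈ A) : ∃ c : F, algebraMap F K c = a := by
  obtain ⟨u, hu, hu'⟩ : ∃ u ∈ pt F K y, u ∉ A := by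
    by_contra hc
    push Not at hc
    have := Submodule.finrank_mono (show pt F K y ≤ A from hc)
    rw [finrank_pt h0] at this
    omega
  exact mem_range_of_smul_mem hr h0 hy (self_mem_pt y) hu hu' fun x hx _ => ha x hx

theorem mem_range_of_sq (hr : (finrank F K).Prime) (h2 : finrank F K ≠ 2) {a : K} {c : F}
    (h : algebraMap F K c = a * a) : ∃ c : F, algebraMap F K c = a := by
  have : FiniteDimensional F K := Module.finite_of_finrank_pos hr.pos
  refine mem_range_of_stab (V := K) hr (A := Submodule.span F {1, a}) (y := 1)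
    (Submodule.subset_span (by simp)) one_ne_zero ?_ fun x hx => ?_
  · have := finrank_span_pair_le (K := F) (1 : K) a
    have := hr.two_le
    omega
  · obtain ⟨s, t, rfl⟩ := Submodule.mem_span_pair.1 hx
    refine Submodule.mem_span_pair.2 ⟨t * c, s, ?_⟩
    rw [smul_eq_mul]
    simp only [Algebra.smul_def, map_mul, h]
    ring

theorem exists_eq_smul_sq [Finite K] (hr : (finrank F K).Prime) (h2 : finrank F K ≠ 2)
    (hF : (2 : F) ≠ 0) {x : K} (hx : x ≠ 0) : ∃ (c : F) (m : K), m ≠ 0 ∧ x = c • (m * m) := by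
  classical
  have := Fintype.ofFinite K
  have := Finite.of_injective _ (algebraMap F K).injective
  by_cases hs : IsSquare x
  · obtain ⟨m, rfl⟩ := hs
    exact ⟨1, m, fun e => hx (by simp [e]), (one_smul _ _).symm⟩
  obtain ⟨c, hc⟩ := FiniteField.exists_nonsquare (F := F) fun e => hF (by
    have := ringChar.spec F 2
    rw [e] at this
    exact_mod_cast this.2 dvd_rfl)
  have hc0 : c ≠ 0 := by rintro rfl; exact hc IsSquare.zero
  have hc1 : algebraMap F K c ≠ 0 := (map_ne_zero _).2 hc0
  have hc' : ¬ IsSquare (algebraMap F K c) := by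
    rintro ⟨a, ha⟩
    obtain ⟨d, rfl⟩ := mem_range_of_sq hr h2 ha
    exact hc ⟨d, (algebraMap F K).injective (by rw [ha, map_mul])⟩
  obtain ⟨m, hm⟩ : IsSquare (x * algebraMap F K c) := by
    rw [← quadraticChar_one_iff_isSquare (mul_ne_zero hx hc1), map_mul,
      quadraticChar_neg_one_iff_not_isSquare.2 hs, quadraticChar_neg_one_iff_not_isSquare.2 hc']
    simp
  refine ⟨c⁻¹, m, fun e => mul_ne_zero hx hc1 (by simp [hm, e]), ?_⟩
  rw [← hm, Algebra.smul_def, map_inv₀]
  field_simp

theorem eq_id_of_cube (hr : (finrank F K).Prime) (h4 : 4 ≤ finrank F K) {τ : K →+* K}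
    (h1 : ∀ c : F, τ (algebraMap F K c) = algebraMap F K c)
    (h3 : ∀ a, τ (τ (τ a - a) - (τ a - a)) = τ (τ a - a) - (τ a - a)) : τ = RingHom.id K := by
  by_contra hτ
  have : FiniteDimensional F K := Module.finite_of_finrank_pos hr.pos
  let N : K →ₗ[F] K :=
    { toFun := fun a => τ a - a
      map_add' := fun a b => by rw [map_add]; ring
      map_smul' := fun c a => by simp only [Algebra.smul_def, map_mul, h1, RingHom.id_apply]; ring }
  have hk : finrank F (LinearMap.ker N) ≤ 1 := by
    refine (Submodule.finrank_mono (t := Submodule.span F {1}) fun a ha => ?_).trans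
      ((finrank_span_le_card ({1} : Set K)).trans (by simp))
    obtain ⟨c, rfl⟩ := Fm.mem_range_of_fix hr h1 hτ (sub_eq_zero.1 ha)
    exact Submodule.mem_span_singleton.2 ⟨c, (Algebra.algebraMap_eq_smul_one c).symm⟩
  have key : ∀ X : Submodule F K, finrank F X ≤ finrank F (X.map N) + 1 := fun X => by
    have e1 := LinearMap.finrank_range_add_finrank_ker (N.domRestrict X)
    rw [LinearMap.range_domRestrict, LinearMap.ker_domRestrict,
      ← Submodule.finrank_map_subtype_eq X, Submodule.map_comap_subtype] at e1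
    have := Submodule.finrank_mono (inf_le_right : X ⊓ LinearMap.ker N ≤ _)
    omega
  have e1 := key ⊤
  have e2 := key ((⊤ : Submodule F K).map N)
  have e3 := Submodule.finrank_mono (show ((⊤ : Submodule F K).map N).map N ≤ LinearMap.ker N by
    rintro _ ⟨_, ⟨a, -, rfl⟩, rfl⟩
    exact sub_eq_zero.2 (h3 a))
  rw [finrank_top] at e1
  omega

/-- A functional invariant under a non-trivial automorphism is invariant under all. -/
theorem invariant_of_invariant [Finite K] (hr : (finrank F K).Prime) {τ τ' : K →+* K}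
    (h1 : ∀ c : F, τ (algebraMap F K c) = algebraMap F K c)
    (h1' : ∀ c : F, τ' (algebraMap F K c) = algebraMap F K c) (hτ : τ ≠ RingHom.id K)
    {l : K → F} (hl : ∀ a, l (τ a) = l a) (a : K) : l (τ' a) = l a := by
  let S : Subgroup (K ≃ₐ[F] K) :=
    { carrier := {σ | ∀ a, l (σ a) = l a}
      mul_mem' := fun {x y} hx hy a => by rw [AlgEquiv.mul_apply, hx, hy]
      one_mem' := fun _ => rfl
      inv_mem' := fun {x} hx a => by rw [← hx]; exact congrArg l (x.apply_symm_apply a) }
  have mk : ∀ τ : K →+* K, (∀ c : F, τ (algebraMap F K c) = algebraMap F K c) →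
      ∃ σ : K ≃ₐ[F] K, ∀ a, σ a = τ a := fun τ h =>
    ⟨AlgEquiv.ofBijective ⟨τ, h⟩ (Finite.injective_iff_bijective.1 τ.injective), fun _ => rfl⟩
  have : FiniteDimensional F K := Module.finite_of_finrank_pos hr.pos
  have : Fact (Nat.card (K ≃ₐ[F] K)).Prime := ⟨by rwa [IsGalois.card_aut_eq_finrank]⟩
  obtain ⟨σ, hσ⟩ := mk τ h1
  obtain ⟨σ', hσ'⟩ := mk τ' h1'
  rcases S.eq_bot_or_eq_top_of_prime_card with h | h
  · have : σ ∈ S := fun a => by rw [hσ, hl]
    rw [h, Subgroup.mem_bot] at this
    exact absurd (RingHom.ext fun a => by rw [← hσ, this]; rfl) hτ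
  · rw [← hσ']
    exact (h ▸ Subgroup.mem_top σ' : σ' ∈ S) a

/-- An isotropic element for a trace form whose functional has no non-trivial symmetry. -/
theorem exists_good [Finite K] (hr : (finrank F K).Prime) (h2 : finrank F K ≠ 2) (hF : (2 : F) ≠ 0)
    {T : Dual F K} (hT : T ≠ 0) {b : K} (hb : b ≠ 0) :
    ∃ x : K, x ≠ 0 ∧ T (x * x * b) = 0 ∧ ∀ τ : K →+* K,
      (∀ c : F, τ (algebraMap F K c) = algebraMap F K c) →
        (∀ a, T (τ a * (x * x * b)) = T (a * (x * x * b))) → τ = RingHom.id K := by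
  have := Finite.of_injective _ (algebraMap F K).injective
  have : FiniteDimensional F K := Module.finite_of_finrank_pos hr.pos
  obtain ⟨x, x0, hx⟩ := exists_root_quad (k := F) (W := K) (A := F)
    ((LinearMap.mul F K).compr₂ (T ∘ₗ LinearMap.mulRight F b)) 0 (by
      have := hr.two_le
      rw [finrank_self]; omega)
  replace hx : T (x * x * b) = 0 := by simpa using hx
  obtain ⟨y, hy⟩ := exists_mul_eq_one hT (mul_ne_zero x0 hb) 1
  set z := y - (T (y * y * b) / 2) • x with hz
  have z1 : T (z * (x * b)) = 1 := by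
    rw [hz, sub_mul, smul_mul_assoc, map_sub, map_smul, hy, ← mul_assoc, hx, smul_zero, sub_zero]
  have z2 : T (z * z * b) = 0 := by
    have : z * z * b = y * y * b - (2 * (T (y * y * b) / 2)) • (y * (x * b)) +
        (T (y * y * b) / 2 * (T (y * y * b) / 2)) • (x * x * b) := by
      simp only [hz, Algebra.smul_def, map_mul, map_ofNat]; ring
    rw [this, map_add, map_sub, map_smul, map_smul, hy, hx]
    field_simp
    simp
  have z0 : z ≠ 0 := fun e => by simp [e] at z1
  by_contra hc
  push Not at hc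
  obtain ⟨τ, t1, t2, t3⟩ := hc x x0 hx
  obtain ⟨τ', t1', t2', t3'⟩ := hc z z0 z2
  have t4 := invariant_of_invariant hr t1' t1 t3' (l := fun a => T (a * (z * z * b))) t2'
  have hne : x * x * b ≠ 0 := mul_ne_zero (mul_ne_zero x0 x0) hb
  have e0 : (τ (z / x * (z / x)) - z / x * (z / x)) * (x * x * b) = 0 := by
    refine eq_zero_of_forall_mul hT fun a => ?_
    obtain ⟨a, rfl⟩ := Finite.surjective_of_injective τ.injective a
    have e1 := t2 (a * (z / x * (z / x)))
    have e2 := t4 a
    have e3 : ∀ a, a * (z * z * b) = a * (z / x * (z / x)) * (x * x * b) := fun a => by field_simp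
    rw [e3, e3, ← e1, map_mul τ] at e2
    rw [sub_mul, mul_sub, map_sub, ← mul_assoc, ← mul_assoc (τ a), e2, sub_self]
  obtain ⟨c, hc⟩ := Fm.mem_range_of_fix hr t1 t3
    (sub_eq_zero.1 ((mul_eq_zero.1 e0).resolve_right hne))
  obtain ⟨d, hd⟩ := mem_range_of_sq hr h2 hc
  rw [show z = d • x by rw [Algebra.smul_def, hd, div_mul_cancel₀ _ x0], smul_mul_assoc,
    map_smul, ← mul_assoc, hx, smul_zero] at z1
  exact zero_ne_one z1

end Cfsg.Agent.Class.Max
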