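import Mathlib
import Cfsg.Agent.Class.Max.C3Z

/-!
Maximality of `Sp_m(q^r).r` in `Sp_{mr}(q)`.
-/

set_option autoImplicit false
set_option linter.unusedSectionVars false

namespace Cfsg.Agent.Class.Max

open Module

namespace Fm

section Near

variable {F V : Type*} [Field F] [AddCommGroup V] [Module F V] {Φ : Fm F V}
  {M : Subgroup (V ≃ₗ[F] V)}

variable (Φ) in
/-- `u` agrees with an Eichler map `E(b, w, ·)` up to the centre of the unipotent radical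
attached to `E`. -/
structure Near (E : Submodule F V) (u : V ≃ₗ[F] V) (b w : V) : Prop where
  mem : b ∈ E
  perp : w ∈ Φ.perp E
  sub : ∀ x, u x - x - Φ.B b x • w ∈ E
  app : ∀ v ∈ Φ.perp E, u v = v - (Φ.ε * Φ.B w v) • b

theorem near_of_ef {E : Submodule F V} {u : V ≃ₗ[F] V} {b w : V} {c : F} (hb : b ∈ E)
    (hw : w ∈ Φ.perp E) (hu : ∀ x, u x = Φ.ef b w c x) : Φ.Near E u b w :=
  ⟨hb, hw, fun x => by
    convert E.neg_mem (E.smul_mem (Φ.ε * (Φ.B w x + c * Φ.B b x)) hb) using 1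
    rw [hu, ef]; abel, fun v hv => by rw [hu, ef_apply_of_perp' (hv b hb)]⟩

theorem Near.app_app {E : Submodule F V} (hE : E ≤ Φ.perp E) {u u' : V ≃ₗ[F] V} {b w b' w' : V}
    (h : Φ.Near E u b w) (h' : Φ.Near E u' b' w') (x : V) :
    u (u' x) = u x + u' x - x - (Φ.ε * (Φ.B b' x * Φ.B w w')) • b := by
  have e1 := h.app _ (hE (h'.sub x))
  rw [Φ.perp_symm (h.perp _ (h'.sub x)), mul_zero, zero_smul, sub_zero, map_sub, map_sub, map_smul,
    h.app _ h'.perp] at e1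
  linear_combination (norm := module) e1

theorem Near.hasE_comm {E : Submodule F V} (hE : E ≤ Φ.perp E) {u u' : V ≃ₗ[F] V} {b w b' w' : V}
    (h : Φ.Near E u b w) (h' : Φ.Near E u' b' w') (hu : u ∈ M) (hu' : u' ∈ M) :
    Φ.HasE M b (Φ.σ (Φ.B w w') • b') 0 := by
  refine ⟨u * u' * (u' * u)⁻¹, M.mul_mem (M.mul_mem hu hu') (M.inv_mem (M.mul_mem hu' hu)),
    fun y => ?_⟩
  obtain ⟨x, rfl⟩ := (u' * u).surjective y
  have key : ∀ {u : V ≃ₗ[F] V} {b w : V}, Φ.Near E u b w → ∀ z ∈ E, ∀ x, Φ.B z (u x) = Φ.B z x :=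
    fun {u b w} h z hz x => by
      have := hE (h.sub x) z hz
      rwa [map_sub, map_sub, map_smul, h.perp z hz, smul_zero, sub_zero, sub_eq_zero] at this
  rw [mul_app, inv_app_app, ef, Φ.B_smul_left, Φ.invol, mul_app, mul_app, key h' b h.mem,
    key h b h.mem, key h' b' h'.mem, key h b' h'.mem, h.app_app hE h', h'.app_app hE h,
    Φ.symm w w']
  have := Φ.eps_sq
  match_scalars
  · ring
  · ring
  · ring
  · ring
  · linear_combination (Φ.B b x * Φ.σ (Φ.B w w')) * this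

end Near

variable {F K V : Type*} [Field F] [Field K] [Algebra F K] [AddCommGroup V] [Module F V]
  [Module K V] [IsScalarTower F K V]
variable {Φ : Fm F V} {Ψ : Fm K V} {T : Dual F K} {M : Subgroup (V ≃ₗ[F] V)}

namespace Tr

variable [Finite V] [Finite K] (h : Tr Φ Ψ T) (hH : GamL F K V ⊓ Φ.EG ≤ M)
include h hH

theorem exists_conf (hk : Ψ.Rk) {g : V ≃ₗ[F] V} (hg : g ∈ M) {e : V} (he : Ψ.Q e = 0)
    (hge : Ψ.Q (g e) = 0) (hp : ¬ Pm K g e) :
    e ≠ 0 ∧ ∃ g₀ ∈ M, g₀ ∉ stab (pt F K e) ∧ g₀ e ∈ pt F K e := by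
  obtain ⟨k, hk'⟩ := not_forall.1 hp
  have h0 : e ≠ 0 := by
    rintro rfl
    exact hk' (by rw [smul_zero]; exact self_mem_pt _)
  obtain ⟨t, ht, a, ha, e1⟩ := hk.move_pt hge he (g.map_ne_zero_iff.2 h0) h0
  refine ⟨h0, res F t * g, M.mul_mem (hH (h.res_EG ht)) hg, fun hs => hk' ?_, ?_⟩
  · obtain ⟨c, hc⟩ := mem_pt.1 (stab_apply hs (smul_mem_pt k e))
    refine mem_pt.2 ⟨c * a⁻¹, t.injective ?_⟩
    rw [map_smul, e1, smul_smul, inv_mul_cancel_right₀ ha, hc]; rfl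
  · rw [mul_app, res_apply, e1]; exact smul_mem_pt _ _

section Sp

variable (hσ : ∀ a, Ψ.σ a = a) (hε : Ψ.ε = -1) (hπ : ∀ c, Ψ.π c = 0)
include hπ

omit h hH in
theorem sp_Q (x : V) : Ψ.Q x = 0 := by
  obtain ⟨a, ha⟩ := Ψ.range x
  rw [← ha, hπ]

omit h hH in
theorem sp_valid {e w : V} (hw : Ψ.B e w = 0) (c : K) : Ψ.Valid e w c :=
  ⟨sp_Q hπ e, hw, by rw [hπ, sp_Q hπ]⟩

include hε

/-- The configuration of maximal intersection: the intersection is a hyperplane and all its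
elations are induced. -/
theorem sp_conf {e : V} {Y : Submodule F V} (h1 : ∃ w, w ≠ 0 ∧ w ∈ Y ∧ w ∈ pt F K e)
    (h2 : ∃ u ∈ Y, u ∉ pt F K e) (h3 : ∃ u ∈ pt F K e, u ∉ Y)
    (h4 : ∀ t ∈ M, ∀ u ∈ Y, u ∉ pt F K e → (∀ w ∈ Y, w ∈ pt F K e → t w ∈ Y) → t u ∈ Y →
      ∀ y ∈ Y, t y ∈ Y) :
    ∃ v ∈ Y, v ∉ pt F K e ∧ (∀ x ∈ Y, ∃ c : F, x - c • v ∈ pt F K e) ∧
      ∀ y ∈ Y, y ∈ pt F K e → ∃ t ∈ M, (∀ j ∈ pt F K e, t j = j) ∧ t v = v + y := by
  obtain ⟨j, j0, j1, j2⟩ := h1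
  obtain ⟨u', u1', u2'⟩ := h3
  have key : ∀ w c, Ψ.B e w = 0 → ∃ t ∈ M, (∀ j ∈ pt F K e, t j = j) ∧
      (∀ x, t x = Ψ.ef e w c x) ∧ ∀ u ∈ Y, u ∉ pt F K e → t u ∈ Y → ∀ y ∈ Y, t y - y ∈ Y := by
    intro w c hw
    obtain ⟨t, ht, -, et⟩ := h.exists_eich hH (sp_valid hπ hw c)
    have e1 : ∀ j ∈ pt F K e, t j = j := fun j hj => by
      rw [et, ef_apply_of_perp (h.B_pt_self (sp_Q hπ e) hj) (Ψ.perp_symm (h.B_pt hj hw))]
    exact ⟨t, ht, e1, et, fun u hu hu' hu'' y hy =>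
      Y.sub_mem (h4 t ht u hu hu' (fun w h1 h2 => (e1 w h2).symm ▸ h1) hu'' y hy) hy⟩
  have notall : ¬ ∀ k : K, k • e ∈ Y := fun hc => by
    obtain ⟨k, rfl⟩ := mem_pt.1 u1'
    exact u2' (hc k)
  by_cases hY : ∃ v ∈ Y, Ψ.B e v ≠ 0
  · obtain ⟨v, hv, ha⟩ := hY
    have hv' : v ∉ pt F K e := fun hc => ha (h.B_pt_self (sp_Q hπ e) hc)
    have ef0 : ∀ c x, Ψ.ef e 0 c x = x + (c * Ψ.B e x) • e := fun c x => by simp [ef, hε]
    have e1 : ∀ x ∈ Y, Ψ.B e x = 0 → x ∈ pt F K e := fun x hx hx' => by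
      by_contra hc
      refine notall fun k => ?_
      obtain ⟨t, -, -, et, ht⟩ := key 0 (k / Ψ.B e v) (map_zero _)
      have := ht x hx hc (by rwa [et, ef0, hx', mul_zero, zero_smul, add_zero]) v hv
      rwa [et, ef0, div_mul_cancel₀ _ ha, add_sub_cancel_left] at this
    refine ⟨v, hv, hv', fun x hx => ?_, fun y hy hy' => ?_⟩
    · obtain ⟨c, hc⟩ := mem_range_of_smul_mem h.prime j0 j1 j2 u1' u2' (a := Ψ.B e x / Ψ.B e v)
        fun y hy hy' => by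
          obtain ⟨k, rfl⟩ := mem_pt.1 hy'
          obtain ⟨t, -, -, et, ht⟩ := key 0 (k / Ψ.B e v) (map_zero _)
          have := ht v hv hv' (by rw [et, ef0, div_mul_cancel₀ _ ha]; exact Y.add_mem hv hy) x hx
          rw [et, ef0, add_sub_cancel_left] at this
          convert this using 1
          rw [smul_smul]; congr 1; ring
      refine ⟨c, e1 _ (Y.sub_mem hx (Y.smul_mem c hv)) ?_⟩
      rw [map_sub, ← algebraMap_smul K c, map_smul, hc, smul_eq_mul, div_mul_cancel₀ _ ha, sub_self]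
    · obtain ⟨k, rfl⟩ := mem_pt.1 hy'
      obtain ⟨t, ht, e2, et, -⟩ := key 0 (k / Ψ.B e v) (map_zero _)
      exact ⟨t, ht, e2, by rw [et, ef0, div_mul_cancel₀ _ ha]⟩
  · push Not at hY
    obtain ⟨u, u1, u2⟩ := h2
    have ef1 : ∀ w, ∀ x ∈ Y, Ψ.ef e w 0 x = x + Ψ.B w x • e := fun w x hx => by
      simp [ef, hε, hY x hx]
    have ex : ∀ k : K, ∃ w, Ψ.B e w = 0 ∧ Ψ.B w u = k := fun k => by
      obtain ⟨w, hw, hw'⟩ := Ψ.exists_perp_not_perp (X := Submodule.span K {e}) u2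
      exact ⟨Ψ.σ k • w, by rw [map_smul, Ψ.mem_perp_span_singleton.1 hw, smul_zero],
        by rw [Ψ.B_smul_left, Ψ.invol, hw', mul_one]⟩
    refine ⟨u, u1, u2, fun x hx => ?_, fun y hy hy' => ?_⟩
    · have : x ∈ Submodule.span K {u, e} := by
        by_contra hc
        obtain ⟨w, hw, hw'⟩ := Ψ.exists_perp_not_perp hc
        have w1 := hw u (Submodule.subset_span (by simp))
        have w2 := hw e (Submodule.subset_span (by simp))
        refine notall fun k => ?_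
        obtain ⟨t, -, -, et, ht⟩ := key (Ψ.σ k • w) 0 (by rw [map_smul, w2, smul_zero])
        have := ht u u1 u2 (by
          rwa [et, ef1 _ _ u1, Ψ.B_smul_left, Ψ.perp_symm w1, mul_zero, zero_smul, add_zero]) x hx
        rwa [et, ef1 _ _ hx, Ψ.B_smul_left, Ψ.invol, hw', mul_one, add_sub_cancel_left] at this
      obtain ⟨a, b, rfl⟩ := Submodule.mem_span_pair.1 this
      obtain ⟨c, rfl⟩ := mem_range_of_smul_mem h.prime j0 j1 j2 u1' u2' (a := a)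
        fun y hy hy' => by
          obtain ⟨k, rfl⟩ := mem_pt.1 hy'
          obtain ⟨w, w1, w2⟩ := ex k
          obtain ⟨t, -, -, et, ht⟩ := key w 0 w1
          have := ht u u1 u2 (by rw [et, ef1 _ _ u1, w2]; exact Y.add_mem u1 hy) _ hx
          rwa [et, ef1 _ _ hx, add_sub_cancel_left, map_add, map_smul, map_smul, w2,
            Ψ.perp_symm w1, smul_zero, add_zero, smul_assoc] at this
      exact ⟨c, by rw [algebraMap_smul, add_sub_cancel_left]; exact smul_mem_pt _ _⟩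
    · obtain ⟨k, rfl⟩ := mem_pt.1 hy'
      obtain ⟨w, w1, w2⟩ := ex k
      obtain ⟨t, ht, e2, et, -⟩ := key w 0 w1
      exact ⟨t, ht, e2, by rw [et, ef1 _ _ u1, w2]⟩

include hσ

omit h hH in
theorem sp_move_smul {e : V} (h0 : e ≠ 0) {a : K} (ha : a ≠ 0) : ∃ g ∈ Ψ.EG, g e = a • e := by
  obtain ⟨f, hf, hef⟩ := exists_partner' (sp_Q hπ e) h0
  have hfe : Ψ.B f e = -1 := hε ▸ B_eq_eps hef
  obtain ⟨c, hv, hc⟩ := exists_ef_eq (e := f) (x := e) (y := e + f) hf (by simp [hfe])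
    (by simp [Ψ.B_self hf]) (by rw [sp_Q hπ, sp_Q hπ])
  obtain ⟨c', hv', hc'⟩ := exists_ef_eq (e := (1 - a) • e + f) (x := e + f) (y := a • e)
    (sp_Q hπ _) (by
      simp only [Ψ.bsimp, hσ, hef, hfe, Ψ.B_self hf, Ψ.B_self (sp_Q hπ e)]
      exact fun e' => ha (by linear_combination -e'))
    (by simp only [Ψ.bsimp, hσ, hef, hfe, Ψ.B_self hf, Ψ.B_self (sp_Q hπ e)]; ring)
    (by rw [sp_Q hπ, sp_Q hπ])
  exact ⟨hv'.eich * hv.eich, Ψ.EG.mul_mem hv'.eich_mem hv.eich_mem, by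
    rw [mul_app, hv.eich_apply, hc, hv'.eich_apply, hc']⟩

/-- All transvections of the point are induced. -/
theorem sp_induce {e : V} (h0 : e ≠ 0) {g₀ : V ≃ₗ[F] V} (hg₀ : g₀ ∈ M)
    (hn : g₀ ∉ stab (pt F K e)) (he : g₀ e ∈ pt F K e) (β : Dual F K) {y : K} (hy : β y = 0) :
    ∃ s ∈ M, ∀ k : K, s (k • e) = (k + β k • y) • e := by
  obtain ⟨g, hg, Y, hm, h1, h2, h3, h4⟩ := exists_maxInt M _ hg₀ hn h0 (self_mem_pt e) he
  obtain ⟨v, hv, hv', k1, k2⟩ := h.sp_conf hH hε hπ h1 h2 h3 h4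
  obtain ⟨φ, φ1, φ2⟩ := exists_dual_one _ hv'
  let α : Dual F K := φ ∘ₗ g.toLinearMap ∘ₗ (LinearMap.toSpanSingleton K V e).restrictScalars F
  have hα : ∀ k, α k = φ (g (k • e)) := fun _ => rfl
  have gY : ∀ k : K, g (k • e) ∈ Y := fun k => (hm _).2 (by simpa using smul_mem_pt k e)
  have dec : ∀ k : K, g (k • e) - α k • v ∈ pt F K e := fun k => by
    obtain ⟨c, hc⟩ := k1 _ (gY k)
    have := φ1 _ hc
    rw [map_sub, map_smul φ, φ2, smul_eq_mul, mul_one, sub_eq_zero] at this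
    rwa [hα, this]
  have hα0 : α ≠ 0 := by
    obtain ⟨k, hk⟩ := mem_pt.1 ((hm v).1 hv)
    exact fun e' => by simpa [e', hk, φ2] using hα k
  have step : ∀ y, α y = 0 → ∃ s ∈ M, ∀ k : K, s (k • e) = (k + α k • y) • e := fun y hy => by
    obtain ⟨t, ht, t1, t2⟩ := k2 _ (gY y) (by simpa [hy] using dec y)
    refine ⟨g⁻¹ * t * g, M.mul_mem (M.mul_mem (M.inv_mem hg) ht) hg, fun k => g.injective ?_⟩
    have := t1 _ (dec k)
    rw [map_sub, map_smul t, t2] at this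
    rw [mul_app, mul_app, app_inv_app, add_smul, smul_assoc, map_add, map_smul g (α k)]
    linear_combination (norm := module) this
  obtain ⟨l, hl⟩ := exists_mul_eq hα0 β
  by_cases hl0 : l = 0
  · exact ⟨1, M.one_mem, fun k => by simp [hl, hl0]⟩
  obtain ⟨d, hd, ed⟩ := sp_move_smul hσ hε hπ h0 hl0
  obtain ⟨s, hs, es⟩ := step (y * l) (by rw [← hl, hy])
  have hd' := hH (h.res_EG hd)
  refine ⟨(res F d)⁻¹ * s * res F d, M.mul_mem (M.mul_mem (M.inv_mem hd') hs) hd',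
    fun k => (res F d).injective ?_⟩
  rw [mul_app, mul_app, app_inv_app, res_apply, res_apply, map_smul d, map_smul d, ed, smul_smul, es,
    ← hl, smul_smul, add_mul, smul_mul_assoc]

theorem sp_hasE (hM : M ≤ Φ.Iso) (hε' : Φ.ε = -1) {e : V} {s : V ≃ₗ[F] V} (hs : s ∈ M)
    {β : Dual F K} (hβ : β ≠ 0) {y : K} (es : ∀ k : K, s (k • e) = (k + β k • y) • e) (z : K) :
    Φ.HasE M (y • e) (z • e) (β z) := by
  obtain ⟨b, hb⟩ := exists_mul_eq h.ne β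
  have hb0 : b ≠ 0 := fun e' => hβ (LinearMap.ext fun c => by simp [hb, e'])
  have ef0 : ∀ c x, Ψ.ef e 0 c x = x + (c * Ψ.B e x) • e := fun c x => by simp [ef, hε]
  obtain ⟨t, ht, -, et⟩ := h.exists_eich hH (sp_valid hπ (e := e) (map_zero _) (z / b))
  obtain ⟨t', ht', -, et'⟩ := h.exists_eich hH (sp_valid hπ (e := e) (map_zero _) (-(z / b)))
  have BF : ∀ (k : K) x, Φ.B (k • e) x = T (k * Ψ.B e x) := fun k x => by
    rw [h.B, Ψ.B_smul_left, hσ]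
  have e1 : ∀ x, Ψ.B e (s⁻¹ x) = Ψ.B e x + T (y * Ψ.B e x) • b := fun x =>
    sub_eq_zero.1 (eq_zero_of_forall_mul h.ne fun k => by
      rw [mul_sub, map_sub, ← BF, Iso.B_inv (hM hs), es, BF, hb]
      simp only [add_mul, mul_add, map_add, smul_mul_assoc, mul_smul_comm, map_smul, smul_eq_mul]
      ring)
  refine ⟨t' * (s * t * s⁻¹), M.mul_mem ht' (M.mul_mem (M.mul_mem hs ht) (M.inv_mem hs)),
    fun x => ?_⟩
  rw [mul_app, mul_app, mul_app, et, ef0, map_add, app_inv_app, es, e1, et', ef0, ef, hε', BF, BF]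
  have e2 : z / b * (Ψ.B e x + T (y * Ψ.B e x) • b) = z / b * Ψ.B e x + T (y * Ψ.B e x) • z := by
    rw [mul_add, mul_smul_comm, div_mul_cancel₀ _ hb0]
  have e3 : β (z / b * Ψ.B e x) = T (z * Ψ.B e x) := by
    rw [hb]; congr 1; field_simp
  rw [e2, map_add β, e3, map_smul, map_add, map_smul, Ψ.B_self (sp_Q hπ e)]
  simp only [add_smul, smul_assoc, smul_eq_mul]
  module

omit hH hσ hε hπ in
theorem exists_two_duals [Finite F] (hq : ¬ (Nat.card F = 2 ∧ finrank F K = 2)) {y : K}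
    (hy : y ≠ 0) : ∃ β β' : Dual F K, β ≠ 0 ∧ β' ≠ 0 ∧ β y = 0 ∧ β' y = 0 ∧ β - β' ≠ 0 := by
  obtain ⟨z, hz⟩ := exists_notMem_span h.two_le y
  obtain ⟨β, β1, β2⟩ := exists_dual_zero_one hz
  have hβ : β ≠ 0 := fun e => by simp [e] at β2
  by_cases h2 : Nat.card F = 2
  · obtain ⟨z', hz'⟩ := exists_notMem_span_pair (K := F) (V := K) (by
      have := h.two_le
      by_contra hc
      exact hq ⟨h2, by omega⟩) y z
    obtain ⟨γ, γ1, γ2, γ3⟩ := exists_dual_zero_zero_one hz'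
    refine ⟨β + γ, β, fun e => ?_, hβ, by simp [β1, γ1], β1, fun e => ?_⟩
    · simpa [β2, γ2] using LinearMap.congr_fun e z
    · simpa [γ3] using LinearMap.congr_fun e z'
  · obtain ⟨l, l0, l1⟩ := Max.exists_ne_zero_one h2
    refine ⟨l • β, β, smul_ne_zero l0 hβ, hβ, by simp [β1], β1, fun e => l1 ?_⟩
    simpa [β2, sub_eq_zero] using LinearMap.congr_fun e z

theorem sp_EG_le [Finite F] (hM : M ≤ Φ.Iso) (hε' : Φ.ε = -1) (hπ' : ∀ c, Φ.π c = 0)
    (hd : Ψ.d ≤ 1) (hm : 3 ≤ finrank K V ∨ ¬ (Nat.card F = 2 ∧ finrank F K = 2))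
    {g : V ≃ₗ[F] V} (hg : g ∈ M) {e : V} (hp : ¬ Pm K g e) : Φ.EG ≤ M := by
  have hk : Ψ.Rk := Or.inr ⟨1, one_ne_zero, hπ 1⟩
  obtain ⟨h0, g₀, hg₀, hn, he⟩ := h.exists_conf hH hk hg (sp_Q hπ e) (sp_Q hπ _) hp
  have k1 : ∀ x, x ≠ 0 → ∀ β : Dual F K, β ≠ 0 → ∀ y, β y = 0 → ∀ z : K,
      Φ.HasE M (y • x) (z • x) (β z) := fun x hx β hβ y hy z => by
    obtain ⟨d, hd, a, ha, ed⟩ := hk.move_pt (sp_Q hπ e) (sp_Q hπ x) h0 hx
    obtain ⟨d', hd', ed'⟩ := sp_move_smul hσ hε hπ h0 (inv_ne_zero ha)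
    obtain ⟨s, hs, es⟩ := h.sp_induce hH hσ hε hπ h0 hg₀ hn he β hy
    have hdd := Ψ.EG.mul_mem hd hd'
    have := (h.sp_hasE hH hσ hε hπ hM hε' hs hβ es z).conj (hH (h.res_EG hdd))
      (h.res_Iso (Ψ.EG_le_Iso hdd))
    rwa [res_apply, res_apply, map_smul, map_smul, mul_app, ed', map_smul, ed,
      inv_smul_smul₀ ha] at this
  have vz : ∀ (x : V) (z : K) c, Φ.Valid x (z • x) c := fun x z c =>
    sp_valid hπ' (h.B_zero (by rw [map_smul, Ψ.B_self (sp_Q hπ x), smul_zero])) c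
  by_cases hq : Nat.card F = 2 ∧ finrank F K = 2
  · have h3 := hm.resolve_right (not_not.2 hq)
    obtain ⟨z, hz⟩ := exists_notMem_span h.two_le (1 : K)
    obtain ⟨β, β1, β2⟩ := exists_dual_zero_one hz
    have hβ : β ≠ 0 := fun e => by simp [e] at β2
    have hP := h.PA_of_not_pm hH hM (by omega) (Or.inr hπ) (fun x _ => sp_Q hπ x) (fun s _ k => by
        by_cases hs : s = 0
        · rw [hs, smul_zero]; exact inA_zero Φ.Q_zero
        · exact ⟨β k, vz s k _, by simpa using k1 s hs β hβ 1 β1 k⟩) hg (sp_Q hπ e) hp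
    refine h.EG_le_of_PA h3 hM hP (sp_Q hπ e) h0 fun x hx hx0 c _ => ?_
    obtain ⟨f, hf, hxf⟩ := exists_partner' hx hx0
    obtain ⟨w, w', w1, -, w2, -, w3⟩ := h.exists_perp_pair_B h3 hx hf (hxf ▸ one_ne_zero) 1
    obtain ⟨c₁, -, u, hu, eu⟩ := hP x hx w w1
    obtain ⟨c₂, -, u', hu', eu'⟩ := hP ((c • z) • x) (sp_Q hπ _) w'
      (by rw [Ψ.B_smul_left, w2, mul_zero])
    have e1 := Near.hasE_comm (E := pt F K x) (fun b hb => h.mem_perp_pt.2 (h.B_pt_self hx hb))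
      (near_of_ef (self_mem_pt x) (h.mem_perp_pt.2 w1) eu)
      (near_of_ef (smul_mem_pt _ x) (h.mem_perp_pt.2 w2) eu') hu hu'
    rw [w3, map_one, one_smul] at e1
    have e2 := k1 x hx0 β hβ 1 β1 (c • z)
    rw [one_smul] at e2
    simpa [β2] using HasE.sub (vz x _ _) (vz x _ _) e2 e1
  · have k2 : ∀ x c, Φ.HasE M x 0 c := fun x c => by
      by_cases hx : x = 0
      · rw [hx]; exact full_zero _ _ (sp_valid hπ' (map_zero _) c)
      obtain ⟨β, β', b1, b2, b3, b4, b5⟩ := h.exists_two_duals hq (one_ne_zero (α := K))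
      obtain ⟨z, hz⟩ := exists_mul_eq_one b5 one_ne_zero c
      have e1 := k1 x hx β b1 1 b3 z
      have e2 := k1 x hx β' b2 1 b4 z
      rw [one_smul] at e1 e2
      simpa [← hz] using HasE.sub (vz x _ _) (vz x _ _) e1 e2
    refine EG_le fun x w c hv => InA.hasE ⟨0, sp_valid hπ' hv.perp 0, ?_⟩ (fun c _ => k2 x c) hv
    simpa [hε'] using (hasE_add_center (sp_Q hπ' x) (sp_Q hπ' w) hv.perp (hπ' 1) (k2 _ 1)
      (k2 _ 1)).1 (k2 _ 1)

end Sp

end Tr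

theorem mem_GamL_of_pm (hm : 2 ≤ finrank K V) (hp : ∀ g ∈ M, ∀ s, Pm K g s) : M ≤ GamL F K V := by
  have key : ∀ g ∈ M, ∀ x y, y ∈ pt F K x → g y ∈ pt F K (g x) := fun g hg x y hy => by
    obtain ⟨k, rfl⟩ := mem_pt.1 hy
    exact hp g hg x k
  exact fun g hg => mem_GamL_of_pt hm fun x y =>
    ⟨key g hg x y, fun hy => by simpa using key _ (M.inv_mem hg) _ _ hy⟩

theorem exists_dual_ne_zero : ∃ T : Dual F K, T ≠ 0 := by
  obtain ⟨T, hT⟩ := exists_dual_eq_one (F := F) (one_ne_zero (α := K))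
  exact ⟨T, fun e => by simp [e] at hT⟩

/-- The normaliser of an extension field over which the alternating form is the trace of an
alternating form is maximal in `Sp`. -/
theorem sp_isMaximalIn [Finite V] [Finite K] [Finite F] (hε : Φ.ε = -1) (hπ : ∀ c, Φ.π c = 0)
    (hr : (finrank F K).Prime) (h2 : 2 ≤ finrank K V)
    (hm : 3 ≤ finrank K V ∨ ¬ (Nat.card F = 2 ∧ finrank F K = 2))
    (hsa : ∀ (k : K) u v, Φ.B (k • u) v = Φ.B u (k • v)) (halt : ∀ (k : K) v, Φ.B (k • v) v = 0) :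
    Geo.IsMaximalIn Φ.EG (GamL F K V ⊓ Φ.EG) := by
  have : FiniteDimensional F K := Module.Finite.of_finite
  obtain ⟨T, hT⟩ := exists_dual_ne_zero (F := F) (K := K)
  obtain ⟨B, hB⟩ := Φ.exists_lift hT (RingHom.id K) hsa
  have hA : ∀ x, B x x = 0 := fun x => eq_zero_of_forall_mul hT fun k => by
    rw [← halt k x, hsa, hB, map_smul, smul_eq_mul]
  let Ψ := fmAlt B hA (lift_nondeg hB)
  have h : Tr Φ Ψ T :=
    { B := hB
      ne := hT
      Q := fun x y _ => by rw [Tr.sp_Q hπ, Tr.sp_Q hπ]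
      sing := fun _ _ => rfl
      prime := hr }
  obtain ⟨e, -, h0, he⟩ := Ψ.iso ⊤ (by rw [finrank_top]; exact le_trans (by decide : 1 ≤ 2) h2)
  refine isMaximalIn_of inf_le_right ?_ fun M h1 h3 g hg hg' => ?_
  · obtain ⟨g, h1, h2⟩ := h.exists_not_GamL (Or.inr ⟨1, one_ne_zero, hπ 1⟩) he h0
    exact ⟨g, h1, fun h => h2 h.1⟩
  · by_contra hc
    refine hg' ⟨mem_GamL_of_pm h2 (fun g hg s => ?_) hg, h3 hg⟩
    by_contra hp
    exact hc (h.sp_EG_le h1 (fun _ => rfl) rfl (fun _ => rfl) (h3.trans Φ.EG_le_Iso) hε hπ le_rfl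
      hm hg hp)

end Fm

open Matrix in
/-- `Sp_{2m/r}(q^r).r` in `Sp_{2m}(q)`, all cases but `Sp_2(4)` in `Sp_4(2)`. -/
theorem sp_normalizer_isMaximalIn {F : Type*} [Field F] [Fintype F] {m r : ℕ} (hm0 : 0 < m)
    (hr : r.Prime) (hm : 3 ≤ m ∨ Fintype.card F ≠ 2)
    {K : Subalgebra F (Matrix (Fin m ⊕ Fin m) (Fin m ⊕ Fin m) F)} (hK : Geo.IsFieldSubalgebra r K)
    (hsa : Geo.IsSelfAdjointFor (sympForm m F) K)
    (halt : ∀ k ∈ K, ∀ v, sympForm m F (k *ᵥ v) v = 0) :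
    Geo.IsMaximalIn (spGL m F) (Geo.subalgebraNormalizer K ⊓ spGL m F) := by
  have : Nonempty (Fin m ⊕ Fin m) := ⟨Sum.inl ⟨0, hm0⟩⟩
  refine normalizer_isMaximalIn_of (mem_spGL_iff m) hK ?_
  let := (isField_of hK).toField
  have h1 := mul_finrank_eq hK
  simp only [Fintype.card_sum, Fintype.card_fin] at h1
  have hr' : (finrank F K).Prime := hK.finrank_eq ▸ hr
  refine Fm.sp_isMaximalIn rfl (fun _ => rfl) hr' ?_ ?_ (fun k => hsa k k.2) fun k => halt k k.2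
  · by_contra hc
    obtain ⟨x, hx⟩ := exists_ne (0 : Fin m ⊕ Fin m → F)
    obtain ⟨y, hy⟩ := (fmSpStd F m).exists_B_ne hx
    have h2 : finrank K (Fin m ⊕ Fin m → F) = 1 := by
      have : 0 < finrank K (Fin m ⊕ Fin m → F) := finrank_pos
      omega
    obtain ⟨k, rfl⟩ := (finrank_eq_one_iff_of_nonzero' x hx).1 h2 y
    exact hy ((fmSpStd F m).perp_symm (halt k k.2 x))
  · rw [hK.finrank_eq, Nat.card_eq_fintype_card]
    by_contra hc
    push Not at hc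
    obtain ⟨h2, h3, rfl⟩ := hc
    omega

end Cfsg.Agent.Class.Max
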