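import Mathlib
import Cfsg.Agent.Class.Max.C3Alg
import Cfsg.Agent.Class.Max.C3Sp

/-!
Overgroups of extension field subgroups of formed spaces: the stabiliser of a singular point over
the extension field acts semilinearly on it, unless the overgroup is everything.
-/

set_option autoImplicit false
set_option linter.unusedSectionVars false

namespace Cfsg.Agent.Class.Max

open Module

namespace Fm

theorem near_of_app {F V : Type*} [Field F] [AddCommGroup V] [Module F V] [FiniteDimensional F V]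
    {Φ : Fm F V} {E : Submodule F V} (hE : E ≤ Φ.perp E) {u : V ≃ₗ[F] V} (hu : u ∈ Φ.Iso)
    {b w : V} (hb : b ∈ E) (hw : w ∈ Φ.perp E)
    (h : ∀ v ∈ Φ.perp E, u v = v - (Φ.ε * Φ.B w v) • b) : Φ.Near E u b w := by
  refine ⟨hb, hw, fun x => ?_, h⟩
  rw [← Φ.perp_perp E]
  intro y hy
  have e1 := Iso.B hu x y
  have e2 := Iso.B hu x b
  rw [h b (hE hb), Φ.perp_symm (hw b hb), mul_zero, zero_smul, sub_zero] at e2
  rw [h y hy, map_sub, map_smul, e2, Φ.symm b x, smul_eq_mul] at e1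
  refine Φ.perp_symm ?_
  simp only [Φ.bsimp]
  linear_combination e1 + Φ.B w y * Φ.σ (Φ.B b x) * Φ.eps_sq

variable {F K V : Type*} [Field F] [Field K] [Algebra F K] [AddCommGroup V] [Module F V]
  [Module K V] [IsScalarTower F K V]
variable {Φ : Fm F V} {Ψ : Fm K V} {T : Dual F K} {M : Subgroup (V ≃ₗ[F] V)}

variable (Ψ M) in
/-- Elements of `M` in the unipotent radical of the stabiliser of the point of `e`. -/
structure InU (e : V) (u : V ≃ₗ[F] V) : Prop where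
  mem : u ∈ M
  fix : ∀ k : K, u (k • e) = k • e
  app : ∀ v, Ψ.B e v = 0 → ∃ k : K, u v = v + k • e

variable (Ψ M) in
/-- The left order of the image of the unipotent radical. -/
def leftOrd (e : V) : Subring (Module.End F K) where
  carrier := {ρ | ∀ u, InU Ψ M e u → ∃ u', InU Ψ M e u' ∧
    ∀ v, Ψ.B e v = 0 → ∀ k : K, u v = v + k • e → u' v = v + ρ k • e}
  mul_mem' {a b} ha hb u hu := by
    obtain ⟨u₁, h1, e1⟩ := hb u hu
    obtain ⟨u₂, h2, e2⟩ := ha u₁ h1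
    exact ⟨u₂, h2, fun v hv k hk => e2 v hv _ (e1 v hv k hk)⟩
  one_mem' u hu := ⟨u, hu, fun _ _ _ hk => hk⟩
  add_mem' {a b} ha hb u hu := by
    obtain ⟨u₁, h1, e1⟩ := ha u hu
    obtain ⟨u₂, h2, e2⟩ := hb u hu
    refine ⟨u₁ * u₂, ⟨M.mul_mem h1.mem h2.mem, fun k => by rw [mul_app, h2.fix, h1.fix],
      fun v hv => ?_⟩, fun v hv k hk => ?_⟩
    · obtain ⟨k₁, q1⟩ := h1.app v hv
      obtain ⟨k₂, q2⟩ := h2.app v hv
      exact ⟨k₁ + k₂, by rw [mul_app, q2, map_add, q1, h1.fix, add_smul, add_assoc]⟩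
    · rw [mul_app, e2 v hv k hk, map_add, e1 v hv k hk, h1.fix, LinearMap.add_apply, add_smul,
        add_assoc]
  zero_mem' u _ := ⟨1, ⟨M.one_mem, fun _ => rfl, fun v _ => ⟨0, by simp⟩⟩, fun v _ k _ => by simp⟩
  neg_mem' {a} ha u hu := by
    obtain ⟨u₁, h1, e1⟩ := ha u hu
    have key : ∀ v (k : K), u₁ v = v + k • e → u₁⁻¹ v = v + (-k) • e := fun v k hk =>
      u₁.injective (by rw [app_inv_app, map_add, hk, h1.fix]; simp)
    refine ⟨u₁⁻¹, ⟨M.inv_mem h1.mem, fun k => u₁.injective (by rw [app_inv_app, h1.fix]),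
      fun v hv => ?_⟩, fun v hv k hk => key v _ (e1 v hv k hk)⟩
    obtain ⟨k, q⟩ := h1.app v hv
    exact ⟨-k, key v k q⟩

namespace Tr

variable [Finite V] [Finite K] (h : Tr Φ Ψ T)
include h

/-- The torus elements of norm one. -/
theorem exists_torus {e f : V} (he : Ψ.Q e = 0) (hf : Ψ.Q f = 0) (hef : Ψ.B e f = 1) {a : K}
    (ha : Algebra.norm F a = 1) : ∃ t ∈ GamL F K V ⊓ Φ.EG, (∀ k : K, t (k • e) = (a * k) • e) ∧
      ∀ w, Ψ.B e w = 0 → Ψ.B f w = 0 → t w = w := by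
  have hfe := B_eq_eps hef
  let S : Subgroup (K ≃ₗ[F] K) :=
    { carrier := {s | ∃ t ∈ Φ.EG, (∀ k : K, t (k • e) = s k • e) ∧
        (∀ w, Ψ.B e w = 0 → Ψ.B f w = 0 → t w = w) ∧ t ∈ stab (pt F K f)}
      mul_mem' := by
        rintro s s' ⟨t, h1, h2, h3, h4⟩ ⟨t', h1', h2', h3', h4'⟩
        exact ⟨t * t', Φ.EG.mul_mem h1 h1', fun k => by rw [mul_app, h2', h2, mul_app],
          fun w w1 w2 => by rw [mul_app, h3' w w1 w2, h3 w w1 w2], (stab _).mul_mem h4 h4'⟩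
      one_mem' := ⟨1, Φ.EG.one_mem, fun _ => rfl, fun _ _ _ => rfl, (stab _).one_mem⟩
      inv_mem' := by
        rintro s ⟨t, h1, h2, h3, h4⟩
        exact ⟨t⁻¹, Φ.EG.inv_mem h1, fun k => t.injective (by rw [app_inv_app, h2, app_inv_app]),
          fun w w1 w2 => t.injective (by rw [app_inv_app, h3 w w1 w2]), (stab _).inv_mem h4⟩ }
  have hS : SLV F K ≤ S := SLV_le_of_tv fun φ y hy => by
    obtain ⟨s, -, es⟩ := hasTv_SLV hy
    obtain ⟨k₀, hk₀⟩ := exists_mul_eq h.ne (-Φ.ε • φ)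
    have e1 : ∀ k : K, Φ.ε * Φ.B (Ψ.σ (k₀ * Ψ.ε) • f) (k • e) = -φ k := fun k => by
      rw [h.B, Ψ.B_smul_left, Ψ.invol, Ψ.B_smul_right, hfe, show k₀ * Ψ.ε * (k * Ψ.ε) = k * k₀ by
        linear_combination k * k₀ * Ψ.eps_sq, ← hk₀]
      simp [← mul_assoc, Φ.eps_sq]
    have hv : Φ.Valid (y • e) (Ψ.σ (k₀ * Ψ.ε) • f) 0 := valid_zero (h.Q_zero (Ψ.Q_smul_zero he y))
      (Φ.perp_symm (by simpa [hy, Φ.eps_ne] using e1 y)) (h.Q_zero (Ψ.Q_smul_zero hf _))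
    refine ⟨s, ⟨hv.eich, hv.eich_mem, fun k => ?_, fun w w1 w2 => ?_,
      mem_stab_of_mapsTo fun v hv' => ?_⟩, es⟩
    · rw [hv.eich_apply, ef_apply_of_perp' (h.B_zero (by simp [Ψ.B_self he])), e1, es, add_smul,
        smul_assoc, neg_smul, sub_neg_eq_add]
    · exact ef_apply_of_perp (h.B_zero (by simp [w1])) (h.B_zero (by simp [w2]))
    · rw [hv.eich_apply, ef, h.B_zero (x := _ • f) (by simp [h.B_pt_self hf hv'])]
      simpa using Submodule.add_mem _ hv' (Submodule.smul_mem _ _ (smul_mem_pt _ f))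
  have ha0 : a ≠ 0 := by rintro rfl; simp at ha
  obtain ⟨t, h1, h2, h3, h4⟩ := hS (show (LinearEquiv.smulOfNeZero K K a ha0).restrictScalars F ∈ _
    from mem_SLV.2 ha)
  replace h2 : ∀ k : K, t (k • e) = (a * k) • e := h2
  refine ⟨t, ⟨mem_GamL_of_linear fun k v => ?_, h1⟩, h2, h3⟩
  have e1 : ∀ k : K, t (k • f) = (k / Ψ.σ a) • f := fun k => by
    obtain ⟨c, hc⟩ := mem_pt.1 (stab_apply h4 (smul_mem_pt k f))
    suffices c * Ψ.σ a = k by rw [← hc, eq_div_of_mul_eq (Ψ.σ_ne ha0) this]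
    refine sub_eq_zero.1 (eq_zero_of_forall_mul h.ne fun b => ?_)
    have := Iso.B (Φ.EG_le_Iso h1) (Ψ.σ b • e) (k • f)
    rw [h2, ← hc, h.B, h.B] at this
    simp only [Ψ.bsimp, hef] at this
    rw [mul_sub, map_sub, sub_eq_zero]
    convert this using 2 <;> ring
  obtain ⟨p1, p2⟩ := sub_mem_ker_hyp he hf hef v
  set v' := v - Ψ.B e v • f - (Ψ.ε * Ψ.B f v) • e with hv'
  have : v = v' + Ψ.B e v • f + (Ψ.ε * Ψ.B f v) • e := by rw [hv']; abel
  rw [this, smul_add, smul_add, map_add, map_add, map_add, map_add, h3 v' p1 p2,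
    h3 (k • v') (by simp [p1]) (by simp [p2]), smul_smul, smul_smul, e1, e1, h2, h2]
  module

theorem perp_of_stab {s : V ≃ₗ[F] V} (hI : s ∈ Φ.Iso) {e v : V} (hs : s ∈ stab (pt F K e))
    (hv : Ψ.B e v = 0) : Ψ.B e (s v) = 0 :=
  h.mem_perp_pt.1 (stab_apply (Iso.stab_perp hI hs) (h.mem_perp_pt.2 hv))

theorem conj_mem_leftOrd (hM : M ≤ Φ.Iso) {e : V} {s : V ≃ₗ[F] V} (hs : s ∈ M)
    (hs' : s ∈ stab (pt F K e)) {ρ S S' : Module.End F K} (hρ : ρ ∈ leftOrd Ψ M e)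
    (h1 : ∀ k : K, s (k • e) = S k • e) (h2 : ∀ k : K, s⁻¹ (k • e) = S' k • e) :
    S * ρ * S' ∈ leftOrd Ψ M e := by
  have key : ∀ s ∈ M, s ∈ stab (pt F K e) → ∀ u, InU Ψ M e u → InU Ψ M e (s * u * s⁻¹) :=
    fun s hs hs' u hu => by
      have hi := (stab _).inv_mem hs'
      refine ⟨M.mul_mem (M.mul_mem hs hu.mem) (M.inv_mem hs), fun k => ?_, fun v hv => ?_⟩
      · obtain ⟨c, hc⟩ := mem_pt.1 (stab_apply hi (smul_mem_pt k e))
        rw [mul_app, mul_app, ← hc, hu.fix, hc, app_inv_app]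
      · obtain ⟨k, hk⟩ := hu.app _ (h.perp_of_stab (hM (M.inv_mem hs)) hi hv)
        obtain ⟨c, hc⟩ := mem_pt.1 (stab_apply hs' (smul_mem_pt k e))
        exact ⟨c, by rw [mul_app, mul_app, hk, map_add, app_inv_app, hc]⟩
  intro u hu
  obtain ⟨u', hu', e1⟩ := hρ _ (key _ (M.inv_mem hs) ((stab _).inv_mem hs') u hu)
  refine ⟨_, key s hs hs' u' hu', fun v hv k hk => ?_⟩
  rw [mul_app, mul_app, e1 _ (h.perp_of_stab (hM (M.inv_mem hs)) ((stab _).inv_mem hs') hv) (S' k)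
    (by rw [mul_app, mul_app, inv_inv, app_inv_app, hk, map_add, h2]), map_add, app_inv_app, h1]
  rfl

variable (hH : GamL F K V ⊓ Φ.EG ≤ M) (hM : M ≤ Φ.Iso)
include hH hM

theorem mulLeft_mem {e : V} (he : Ψ.Q e = 0) (h0 : e ≠ 0) (a : K) :
    LinearMap.mulLeft F a ∈ leftOrd Ψ M e := by
  obtain ⟨f, hf, hef⟩ := exists_partner' he h0
  have : (leftOrd Ψ M e).comap (Algebra.lmul F K).toRingHom = ⊤ :=
    subring_eq_top_of_norm h.two_le _ fun a ha u hu => by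
      obtain ⟨t, ht, t1, t2⟩ := h.exists_torus he hf hef ha
      have ha0 : a ≠ 0 := by rintro rfl; simp at ha
      have t3 : ∀ k : K, t⁻¹ (k • e) = (a⁻¹ * k) • e := fun k =>
        t.injective (by rw [app_inv_app, t1, mul_inv_cancel_left₀ ha0])
      have hs : t ∈ stab (pt F K e) := mem_stab_of_mapsTo fun v hv => by
        obtain ⟨k, rfl⟩ := mem_pt.1 hv
        exact t1 k ▸ smul_mem_pt _ _
      have dec : ∀ v, Ψ.B e v = 0 → ∃ w, ∃ c : K, Ψ.B e w = 0 ∧ Ψ.B f w = 0 ∧ v = w + c • e :=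
        fun v hv => ⟨v - (Ψ.ε * Ψ.B f v) • e, Ψ.ε * Ψ.B f v, by simp [hv, Ψ.B_self he], by
          simp [B_eq_eps hef, mul_right_comm, Ψ.eps_sq], by abel⟩
      have e1 : ∀ v, Ψ.B e v = 0 → ∀ k : K, u v = v + k • e →
          (t * u * t⁻¹) v = v + (a * k) • e := fun v hv k hk => by
        obtain ⟨w, c, w1, w2, rfl⟩ := dec v hv
        have : t⁻¹ w = w := t.injective (by rw [app_inv_app, t2 w w1 w2])
        rw [map_add, hu.fix, add_right_comm, add_left_inj] at hk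
        rw [mul_app, mul_app, map_add, this, t3, map_add, hu.fix, hk, map_add, map_add,
          t2 w w1 w2, t1, t1, mul_inv_cancel_left₀ ha0, add_right_comm]
      refine ⟨t * u * t⁻¹, ⟨M.mul_mem (M.mul_mem (hH ht) hu.mem) (M.inv_mem (hH ht)), fun k => by
        rw [mul_app, mul_app, t3, hu.fix, t1, mul_inv_cancel_left₀ ha0], fun v hv => ?_⟩, e1⟩
      obtain ⟨k, hk⟩ := hu.app v hv
      exact ⟨_, e1 v hv k hk⟩
  exact (this ▸ Subring.mem_top a : a ∈ (leftOrd Ψ M e).comap (Algebra.lmul F K).toRingHom)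

variable (h3 : 3 ≤ finrank K V) (hΛ : ∀ c, Φ.π c = 0 → ∃ t, c = Φ.σ t - Φ.ε * t)
include h3 hΛ

theorem EG_le_of_leftOrd {e : V} (he : Ψ.Q e = 0) (h0 : e ≠ 0) (hR : leftOrd Ψ M e = ⊤) :
    Φ.EG ≤ M := by
  have hE : pt F K e ≤ Φ.perp (pt F K e) := fun b hb => h.mem_perp_pt.2 (h.B_pt_self he hb)
  have k1 : ∀ b ∈ pt F K e, ∀ w, Ψ.B e w = 0 → ∃ u ∈ M, Φ.Near (pt F K e) u b w := by
    intro b hb w hw
    obtain ⟨y, rfl⟩ := mem_pt.1 hb
    obtain ⟨c, hv⟩ := exists_valid he hw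
    obtain ⟨u, hu, -, eu⟩ := h.exists_eich hH hv
    have e1 : ∀ v, Ψ.B e v = 0 → u v = v + (-(Ψ.ε * Ψ.B w v)) • e := fun v hv => by
      rw [eu, ef_apply_of_perp' hv, neg_smul, sub_eq_add_neg]
    obtain ⟨u', hu', eu'⟩ := (hR ▸ Subring.mem_top
      ((Φ.ε • T ∘ₗ LinearMap.mulLeft F Ψ.ε).smulRight y) : _ ∈ leftOrd Ψ M e) u
      ⟨hu, fun k => by simp [e1, Ψ.B_self he, Ψ.perp_symm hw], fun v hv => ⟨_, e1 v hv⟩⟩
    refine ⟨u', hu'.mem, near_of_app hE (hM hu'.mem) hb (h.mem_perp_pt.2 hw) fun v hv => ?_⟩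
    have hv' := h.mem_perp_pt.1 hv
    rw [eu' v hv' _ (e1 v hv'), h.B]
    simp [← mul_assoc, Ψ.eps_sq, sub_eq_add_neg]
  obtain ⟨f, hf, hef⟩ := exists_partner' he h0
  obtain ⟨w, w', w1, -, w2, -, w3⟩ := h.exists_perp_pair_B h3 he hf (hef ▸ one_ne_zero) 1
  have k2 : ∀ b ∈ pt F K e, ∀ b' ∈ pt F K e, Φ.HasE M b b' 0 := fun b hb b' hb' => by
    obtain ⟨u, hu, hn⟩ := k1 b hb w w1
    obtain ⟨u', hu', hn'⟩ := k1 b' hb' w' w2
    simpa [w3] using hn.hasE_comm hE hn' hu hu'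
  have qb : ∀ b ∈ pt F K e, Φ.Q b = 0 := fun b hb => h.Q_zero (h.Q_pt he hb)
  have k3 : ∀ b ∈ pt F K e, ∀ b' ∈ pt F K e, ∀ c, Φ.Valid b b' c → Φ.HasE M b b' c :=
    fun b hb b' hb' c hv => InA.hasE ⟨0, valid_zero hv.sing hv.perp (qb b' hb'), k2 b hb b' hb'⟩
      (fun c hc => by
        obtain ⟨t, rfl⟩ := hΛ c hc
        obtain ⟨g, hg, eg⟩ := k2 b hb (0 + t • b) (by simpa using Submodule.smul_mem _ t hb)
        exact ⟨g, hg, fun x => by rw [eg, ef_add_smul, zero_add]⟩) hv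
  have k4 : ∀ b ∈ pt F K e, PA Φ Ψ M b := fun b hb w hw => by
    by_cases hb0 : b = 0
    · rw [hb0]; exact PA_zero (Ψ := Ψ) w (by simp)
    obtain ⟨a, ha⟩ := exists_smul_of_mem_pt (K := K) hb hb0 (self_mem_pt e)
    have hw' : Ψ.B e w = 0 := by rw [← ha, Ψ.B_smul_left, hw, mul_zero]
    obtain ⟨u, hu, hn⟩ := k1 b hb w hw'
    obtain ⟨c, hv⟩ := exists_valid (qb b hb) (h.B_zero hw)
    have hn' := near_of_ef hb hn.perp hv.eich_apply
    have e1 : ∀ x, (hv.eich * u⁻¹) x - x ∈ pt F K e := fun x => by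
      obtain ⟨x, rfl⟩ := u.surjective x
      rw [mul_app, inv_app_app]
      convert Submodule.sub_mem _ (hn'.sub x) (hn.sub x) using 1
      abel
    have := mem_of_unip le_rfl qb (fun b hb w hw => hE hw b hb) k3 _ _ rfl le_rfl _
      (Φ.Iso.mul_mem (hv.mem_Iso hv.eich_apply) (Φ.Iso.inv_mem (hM hu))) e1 fun x _ => e1 x
    exact ⟨c, hv, hv.eich, by simpa using M.mul_mem this hu, hv.eich_apply⟩
  refine h.EG_le_of_PA' h3 hM (fun s hs => ?_) he h0 hΛ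
  by_cases hs0 : s = 0
  · rw [hs0]; exact PA_zero
  obtain ⟨g, hg, a, ha, e1⟩ := Rk.move_pt (Or.inl h3) he hs h0 hs0
  have := h.PA_conj hH (k4 _ (smul_mem_pt a⁻¹ e)) hg
  rwa [map_smul, e1, inv_smul_smul₀ ha] at this

/-- The stabiliser of a singular point acts semilinearly on it. -/
theorem semi_of_stab (hn : ¬ Φ.EG ≤ M) {e : V} (he : Ψ.Q e = 0) (h0 : e ≠ 0) {s : V ≃ₗ[F] V}
    (hs : s ∈ M) (hs' : s ∈ stab (pt F K e)) : Semi K s e := by
  have hR := (subring_eq_top_or h.prime _ (h.mulLeft_mem hH hM he h0)).resolve_right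
    fun hR => hn (h.EG_le_of_leftOrd hH hM h3 hΛ he h0 hR)
  obtain ⟨φ, hφ⟩ := exists_dual_eq_one (F := K) h0
  have key : ∀ s : V ≃ₗ[F] V, s ∈ stab (pt F K e) → ∃ S : Module.End F K,
      ∀ k : K, s (k • e) = S k • e := fun s hs =>
    ⟨φ.restrictScalars F ∘ₗ s.toLinearMap ∘ₗ (LinearMap.toSpanSingleton K V e).restrictScalars F,
      fun k => by
        obtain ⟨c, hc⟩ := mem_pt.1 (stab_apply hs (smul_mem_pt k e))
        change _ = φ (s (k • e)) • e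
        rw [← hc, map_smul, hφ, smul_eq_mul, mul_one]⟩
  obtain ⟨S, hS⟩ := key s hs'
  obtain ⟨S', hS'⟩ := key _ ((stab _).inv_mem hs')
  intro a
  obtain ⟨b, hb⟩ := hR _ (h.conj_mem_leftOrd hM hs hs' (h.mulLeft_mem hH hM he h0 a) hS hS')
  refine ⟨b, fun y hy => ?_⟩
  obtain ⟨k, rfl⟩ := mem_pt.1 hy
  have e1 : S' (S k) = k := smul_left_injective K h0 (by
    dsimp only
    rw [← hS', ← hS, inv_app_app])
  have := hb (S k)
  rw [Module.End.mul_apply, Module.End.mul_apply, e1, LinearMap.mulLeft_apply] at this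
  rw [smul_smul, hS, hS, this, smul_smul]

end Tr

end Fm

end Cfsg.Agent.Class.Max
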