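import Mathlib
import Cfsg.Agent.Class.Max.C3DL
import Cfsg.Agent.Class.Max.C1Sing

/-!
The maximal intersection argument for extension field subgroups of formed spaces:
`GU_m(q)` in `Sp_{2m}(q)` and `O_m(q^r)` in `Ω_{mr}(q)`.
-/

set_option autoImplicit false
set_option linter.unusedSectionVars false

namespace Cfsg.Agent.Class.Max

open Module

namespace Fm

variable {F K V : Type*} [Field F] [Field K] [Algebra F K] [AddCommGroup V] [Module F V]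
  [Module K V] [IsScalarTower F K V]
variable {Φ : Fm F V} {Ψ : Fm K V} {T : Dual F K} {M : Subgroup (V ≃ₗ[F] V)}

namespace Tr

variable [Finite V] [Finite K] (h : Tr Φ Ψ T) (hH : GamL F K V ⊓ Φ.EG ≤ M) (hM : M ≤ Φ.Iso)
  (hS : ∀ e, Ψ.Q e = 0 → e ≠ 0 → ∀ s ∈ M, s ∈ stab (pt F K e) → Semi K s e)
  (hne : (2 : F) ≠ 0 ∨ finrank F K ≠ 2)
include h hH hM hS hne

section Conf

variable {e j : V} {g : V ≃ₗ[F] V} (he : Ψ.Q e = 0) (C : MaxI M (pt F K e) g)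
  (hj : j ∈ pt F K e) (hj0 : j ≠ 0) (hgj : g j ∈ pt F K e)
include he C hj hj0 hgj

omit hne in
theorem fix_of_fix {w : V} {c : K} (hv : Ψ.Valid e w c) {u : V} (hu : u ∈ pt F K e)
    (hu' : g u ∉ pt F K e) (h1 : Ψ.ef e w c (g u) = g u) :
    ∀ y ∈ pt F K e, Ψ.ef e w c (g y) = g y := by
  obtain ⟨t, ht, -, et⟩ := h.exists_eich hH hv
  have h0 : e ≠ 0 := by
    rintro rfl
    obtain ⟨k, rfl⟩ := mem_pt.1 hj
    exact hj0 (smul_zero k)
  have e1 : ∀ b ∈ pt F K e, t b = b := fun b hb => by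
    rw [et, ef_apply_of_perp (h.B_pt_self he hb) (Ψ.perp_symm (h.B_pt hb hv.perp))]
  have hs := C.stab_of ht e1 hu hu' (by rwa [et, h1, inv_app_app])
  have := (hS e he h0 _ (M.mul_mem (M.mul_mem (M.inv_mem C.mem) ht) C.mem) hs).fix_of_two h.prime
    hj hj0 (by rw [mul_app, mul_app, e1 _ hgj, inv_app_app]) hu
    (by rw [mul_app, mul_app, et, h1, inv_app_app]) fun c hc => hu' (by
      rw [← hc, map_smul]; exact Submodule.smul_mem _ _ hgj)
  intro y hy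
  rw [← et, ← app_inv_app g (t (g y))]
  exact congrArg g (this y hy)

theorem fix_of_sq {w : V} {c : K} (hv : Ψ.Valid e w c) {u : V} (hu : u ∈ pt F K e)
    (hu' : g u ∉ pt F K e) (h1 : g⁻¹ (Ψ.ef e w c (g u)) ∈ pt F K e)
    (h2 : ∀ y ∈ pt F K e, Ψ.ef e w c (g y) - g y ∈ pt F K e) :
    ∀ y ∈ pt F K e, Ψ.ef e w c (g y) = g y := by
  obtain ⟨t, ht, -, et⟩ := h.exists_eich hH hv
  have h0 : e ≠ 0 := by
    rintro rfl
    obtain ⟨k, rfl⟩ := mem_pt.1 hj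
    exact hj0 (smul_zero k)
  have e1 : ∀ b ∈ pt F K e, t b = b := fun b hb => by
    rw [et, ef_apply_of_perp (h.B_pt_self he hb) (Ψ.perp_symm (h.B_pt hb hv.perp))]
  have hs := C.stab_of ht e1 hu hu' (by rwa [et])
  have := (hS e he h0 _ (M.mul_mem (M.mul_mem (M.inv_mem C.mem) ht) C.mem) hs).fix_of_sq h.prime hne
    hj hj0 (by rw [mul_app, mul_app, e1 _ hgj, inv_app_app]) fun z hz => g.injective (by
      have := e1 _ (h2 z hz)
      rw [← et] at this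
      simpa using this)
  intro y hy
  rw [← et, ← app_inv_app g (t (g y))]
  exact congrArg g (this y hy)

theorem conf_perp (h4 : 4 ≤ finrank K V ∨ ∃ c, c ≠ 0 ∧ Ψ.π c = 0) {u : V} (hu : u ∈ pt F K e)
    (h1 : Ψ.B e (g u) = 0) : g u ∈ pt F K e := by
  by_contra hu'
  have h0 : e ≠ 0 := by
    rintro rfl
    obtain ⟨k, rfl⟩ := mem_pt.1 hj
    exact hj0 (smul_zero k)
  by_cases hY : ∃ v ∈ pt F K e, Ψ.B e (g v) ≠ 0
  · obtain ⟨v, hv, ha⟩ := hY
    rcases h4 with h4 | ⟨c, hc, hc'⟩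
    · obtain ⟨f, hf, hef⟩ := exists_partner' he h0
      obtain ⟨w, -, w0, w1⟩ := exists_ne_zero_ker [Ψ.B e, Ψ.B f, Ψ.B (g u)] (⊤ : Submodule K V)
        (by simp; omega)
      obtain ⟨c, hc⟩ := exists_valid he (w1 (Ψ.B e) (by simp))
      have e1 := h.fix_of_fix hH hM hS he C hj hj0 hgj hc hu hu'
        (ef_apply_of_perp h1 (Ψ.perp_symm (w1 (Ψ.B (g u)) (by simp)))) v hv
      rw [ef, add_sub_assoc, add_eq_left, sub_eq_zero] at e1
      have e2 := congrArg (Ψ.B f) e1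
      rw [map_smul, map_smul, w1 (Ψ.B f) (by simp), B_eq_eps hef, smul_zero, smul_eq_mul, eq_comm,
        mul_eq_zero, or_iff_left Ψ.eps_ne] at e2
      rw [e2, zero_smul, smul_eq_zero] at e1
      exact w0 (e1.resolve_left ha)
    · have hv' : Ψ.Valid e 0 c := ⟨he, map_zero _, by rw [hc', Ψ.Q_zero]⟩
      have e1 := h.fix_of_fix hH hM hS he C hj hj0 hgj hv' hu hu' (ef_apply_of_perp h1 (by simp)) v hv
      simp [ef, h0, hc, ha, Ψ.eps_ne] at e1
  · push Not at hY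
    obtain ⟨k, hk⟩ := mem_pt.1 hgj
    obtain ⟨w, hw, hw'⟩ := Ψ.exists_perp_not_perp (X := Submodule.span K {e}) hu'
    obtain ⟨c, hc⟩ := exists_valid he (w := Ψ.σ (-(Ψ.ε * k)) • w)
      (by rw [map_smul, Ψ.mem_perp_span_singleton.1 hw, smul_zero])
    have e1 : Ψ.ef e (Ψ.σ (-(Ψ.ε * k)) • w) c (g u) = g u + g j := by
      rw [ef_apply_of_perp' h1, Ψ.B_smul_left, Ψ.invol, hw', ← hk, mul_one, mul_neg, ← mul_assoc,
        Ψ.eps_sq, one_mul, neg_smul, sub_neg_eq_add]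
    have e2 := h.fix_of_sq hH hM hS hne he C hj hj0 hgj hc hu hu'
      (by rw [e1, ← map_add, inv_app_app]; exact Submodule.add_mem _ hu hj) (fun y hy => by
        rw [ef_apply_of_perp' (hY y hy), sub_sub_cancel_left, ← neg_smul]
        exact smul_mem_pt _ _) u hu
    rw [e1, add_eq_left, g.map_eq_zero_iff] at e2
    exact hj0 e2

theorem conf_false (h4 : 4 ≤ finrank K V ∨ ∃ c, c ≠ 0 ∧ Ψ.π c = 0)
    (hCW : ∀ Z : Submodule F V, finrank F V + 1 ≤ finrank F Z + 2 * finrank F K → ∀ v,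
      ∃ z ∈ Z, z ≠ 0 ∧ Ψ.Q (v + z) = Ψ.Q v) : False := by
  have h0 : e ≠ 0 := by
    rintro rfl
    obtain ⟨k, rfl⟩ := mem_pt.1 hj
    exact hj0 (smul_zero k)
  have k1 := fun u => h.conf_perp hH hM hS hne he C hj hj0 hgj h4 (u := u)
  obtain ⟨u, hu, hu'⟩ := exists_notMem_of_notMem_stab C.ne
  have ha : Ψ.B e (g u) ≠ 0 := fun e' => hu' (k1 u hu e')
  obtain ⟨z, hz, z0, hQ⟩ := hCW (Φ.perp ((pt F K e).map (g : V →ₗ[F] V) ⊔ pt F K e)) (by
    have e1 := Φ.finrank_add_perp ((pt F K e).map (g : V →ₗ[F] V) ⊔ pt F K e)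
    have e2 := Submodule.finrank_sup_add_finrank_inf_eq ((pt F K e).map (g : V →ₗ[F] V)) (pt F K e)
    rw [LinearEquiv.finrank_map_eq, finrank_pt h0] at e2
    have e3 : finrank F ↥((pt F K e).map (g : V →ₗ[F] V) ⊓ pt F K e) ≠ 0 := fun e' => by
      have : g j ∈ (pt F K e).map (g : V →ₗ[F] V) ⊓ pt F K e := ⟨⟨j, hj, rfl⟩, hgj⟩
      rw [Submodule.finrank_eq_zero.1 e'] at this
      exact hj0 (g.map_eq_zero_iff.1 this)
    omega) (g u)
  have z1 : Ψ.B e z = 0 := h.mem_perp_pt.1 (Φ.perp_anti le_sup_right hz)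
  have z2 : ∀ b ∈ pt F K e, Φ.B (g b) z = 0 := fun b hb =>
    hz _ (Submodule.mem_sup_left ⟨b, hb, rfl⟩)
  obtain ⟨c, hv, hc⟩ := exists_ef_eq he ha (y := g u + z) (by rw [map_add, z1, add_zero]) hQ
  rw [add_sub_cancel_left] at hv hc
  by_cases hin : g⁻¹ (g u + z) ∈ pt F K e
  · have z3 : z ∈ pt F K e := by
      have := k1 (g⁻¹ (g u + z) - u) (Submodule.sub_mem _ hin hu) (by simpa using z1)
      simpa using this
    obtain ⟨k, rfl⟩ := mem_pt.1 z3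
    have := h.fix_of_sq hH hM hS hne he C hj hj0 hgj hv hu hu' (by rwa [hc]) (fun y _ => by
      rw [ef, add_sub_assoc, add_sub_cancel_left, smul_smul, smul_smul, ← sub_smul]
      exact smul_mem_pt _ _) u hu
    rw [hc, add_eq_left] at this
    exact z0 this
  · obtain ⟨t, ht, -, et⟩ := h.exists_eich hH hv
    have e1 : ∀ b ∈ pt F K e, t b = b := fun b hb => by
      rw [et, ef_apply_of_perp (h.B_pt_self he hb) (Ψ.perp_symm (h.B_pt hb hv.perp))]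
    have e2 : (g⁻¹ * t * g) u = g⁻¹ (g u + z) := by rw [mul_app, mul_app, et, hc]
    have e3 : (g⁻¹ * t * g) j = j := by rw [mul_app, mul_app, e1 _ hgj, inv_app_app]
    refine hin (e2 ▸ h.conf_perp hH hM hS hne he (C.conj ht e1 fun hs => hin (e2 ▸ stab_apply hs hu))
      hj hj0 (e3.symm ▸ hj) h4 hu (h.perp_of' fun k => ?_))
    rw [e2, Iso.B_inv (hM C.mem), map_add, z2 _ (smul_mem_pt k e), Iso.B (hM C.mem),
      h.B_zero (h.B_pt (smul_mem_pt k e) (h.B_pt_self he hu)), add_zero]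

end Conf

variable (hk : Ψ.Rk) (h4 : 4 ≤ finrank K V ∨ ∃ c, c ≠ 0 ∧ Ψ.π c = 0)
  (hCW : ∀ Z : Submodule F V, finrank F V + 1 ≤ finrank F Z + 2 * finrank F K → ∀ v,
    ∃ z ∈ Z, z ≠ 0 ∧ Ψ.Q (v + z) = Ψ.Q v)
include hk h4 hCW

theorem pm_of_sing {g : V ≃ₗ[F] V} (hg : g ∈ M) {e : V} (he : Ψ.Q e = 0) (hge : Ψ.Q (g e) = 0) :
    Pm K g e := by
  by_contra hp
  obtain ⟨h0, g₀, hg₀, hn, h1⟩ := h.exists_conf hH hk hg he hge hp
  obtain ⟨g₁, C, j, hj, hj0, hgj⟩ := exists_maxI hg₀ hn h0 (self_mem_pt e) h1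
  exact h.conf_false hH hM hS hne he C hj hj0 hgj h4 hCW

theorem pm_all (hd : Ψ.d + 1 ≤ finrank K V) {g : V ≃ₗ[F] V} (hg : g ∈ M) {e : V}
    (he : Ψ.Q e = 0) : Pm K g e := by
  have k1 := fun g hg e => h.pm_of_sing hH hM hS hne hk h4 hCW (g := g) hg (e := e)
  by_contra hp
  have hq : Ψ.Q (g e) ≠ 0 := fun e' => hp (k1 g hg e he e')
  have hvv : Ψ.B (g e) (g e) ≠ 0 := fun e' => hq (h.sing _ e')
  obtain ⟨k, hu⟩ := not_forall.1 hp
  let A : AddSubgroup V := ((pt F K e).map (g : V →ₗ[F] V)).toAddSubgroup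
  have hA : ∀ s ∈ LinearMap.ker (Ψ.B (g e)), ∀ w ∈ LinearMap.ker (Ψ.B (g e)), ∀ c, Ψ.Valid s w c →
      ∀ a ∈ A, Ψ.ef s w c a ∈ A := by
    rintro s hs w hw c hv _ ⟨b, hb, rfl⟩
    obtain ⟨t, ht, -, et⟩ := h.exists_eich hH hv
    obtain ⟨a, rfl⟩ := mem_pt.1 hb
    have e1 : (g⁻¹ * t * g) e = e := by
      rw [mul_app, mul_app, et, ef_apply_of_perp (Ψ.perp_symm hs) (Ψ.perp_symm hw), inv_app_app]
    have := k1 _ (M.mul_mem (M.mul_mem (M.inv_mem hg) ht) hg) e he (by rwa [e1]) a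
    rw [e1] at this
    exact ⟨_, this, by simp [← et]⟩
  have nd : ∀ s, s ∉ pt F K (g e) → ∃ y ∈ LinearMap.ker (Ψ.B (g e)), Ψ.B s y ≠ 0 := fun s hs => by
    by_contra hc
    push Not at hc
    obtain ⟨c, rfl⟩ := Ψ.exists_smul_of_perp hc
    exact hs (smul_mem_pt _ _)
  have nd' : ∀ s, Ψ.B (g e) s = 0 → s ≠ 0 → s ∉ pt F K (g e) := fun s h1 h2 h3 => by
    obtain ⟨c, rfl⟩ := mem_pt.1 h3
    rw [map_smul, smul_eq_mul, mul_eq_zero, or_iff_left hvv] at h1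
    exact h2 (by rw [h1, zero_smul])
  obtain ⟨z, -, z0, z1, z2⟩ := Ψ.exists_sing_ker [Ψ.B (g e)] ⊤ (by simpa using hd)
  have z3 := z2 (Ψ.B (g e)) (by simp)
  obtain ⟨s, hs, s0, s1⟩ := exists_sing_not_perp (LinearMap.ker (Ψ.B (g e))) z3 z1
    (nd z (nd' z z3 z0)) (nd _ hu)
  have s2 := Ψ.ne_symm s1
  have hs0 : s ≠ 0 := fun e' => s1 (by rw [e', map_zero])
  have huA : g (k • e) ∈ A := ⟨_, smul_mem_pt k e, rfl⟩
  obtain ⟨a, ha, b, hb, e1⟩ : ∃ a : K, a ≠ 0 ∧ a • s ∈ A := by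
    rcases h4 with h4 | ⟨c, hc, hc'⟩
    · obtain ⟨w, -, w0, w1⟩ := exists_ne_zero_ker [Ψ.B (g e), Ψ.B s, Ψ.B (g (k • e))]
        (⊤ : Submodule K V) (by simp; omega)
      have w2 := w1 (Ψ.B (g e)) (by simp)
      obtain ⟨y, hy, hy'⟩ := nd w (nd' w w2 w0)
      set u' := g (k • e) - (Ψ.B (g e) (g (k • e)) / Ψ.B (g e) (g e)) • g e with hu'
      have u1 : Ψ.B (g e) u' = 0 := by simp [hu', hvv]
      have u2 : Ψ.B s u' ≠ 0 := by simpa [hu', Ψ.perp_symm hs] using s2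
      refine ⟨1, one_ne_zero, smul_mem_of_invariant A hA huA hs s0 s2 (Or.inl
        ⟨y - (Ψ.B s y / Ψ.B s u') • u', Submodule.sub_mem _ hy (Submodule.smul_mem _ _ u1), w, w2,
          by simp [u2], w1 (Ψ.B s) (by simp), ?_⟩) 1⟩
      simpa [hu', Ψ.perp_symm w2, Ψ.perp_symm (w1 (Ψ.B (g (k • e))) (by simp))] using hy'
    · refine ⟨-(Ψ.ε * (c * Ψ.B s (g (k • e)))), by simp [Ψ.eps_ne, hc, s2], ?_⟩
      convert A.sub_mem (hA s hs 0 (zero_mem _) c ⟨s0, map_zero _, by rw [hc', Ψ.Q_zero]⟩ _ huA)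
        huA using 1
      simp [ef]
  have e2 : g b = a • s := e1
  have b0 : b ≠ 0 := fun e' => smul_ne_zero ha hs0 (by rw [← e2, e', map_zero])
  obtain ⟨c, hc⟩ := exists_smul_of_mem_pt (K := K) hb b0 (self_mem_pt e)
  have := k1 g hg b (h.Q_pt he hb) (e2 ▸ Ψ.Q_smul_zero s0 a) c
  rw [hc] at this
  exact hq (h.Q_pt (e2 ▸ Ψ.Q_smul_zero s0 a) this)

end Tr

theorem Tr.isMaximalIn [Finite V] [Finite K] (h : Tr Φ Ψ T) (h3 : 3 ≤ finrank K V)
    (hd : Ψ.d + 1 ≤ finrank K V) (hΛ : ∀ c, Φ.π c = 0 → ∃ t, c = Φ.σ t - Φ.ε * t)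
    (hne : (2 : F) ≠ 0 ∨ finrank F K ≠ 2) (h4 : 4 ≤ finrank K V ∨ ∃ c, c ≠ 0 ∧ Ψ.π c = 0)
    (hCW : ∀ Z : Submodule F V, finrank F V + 1 ≤ finrank F Z + 2 * finrank F K → ∀ v,
      ∃ z ∈ Z, z ≠ 0 ∧ Ψ.Q (v + z) = Ψ.Q v) :
    Geo.IsMaximalIn Φ.EG (GamL F K V ⊓ Φ.EG) := by
  obtain ⟨e, -, h0, he⟩ := Ψ.iso ⊤ (by rw [finrank_top]; omega)
  refine h.isMaximalIn_of_pm h3 he h0 fun M h1 h2 hn g hg x hx => ?_
  have hM := h2.trans Φ.EG_le_Iso
  exact h.pm_all h1 hM (fun e he h0 s => h.semi_of_stab h1 hM h3 hΛ hn he h0) hne (Or.inl h3) h4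
    hCW hd hg hx

/-- `GU_m(q).2` in `Sp_{2m}(q)`. -/
theorem usp_isMaximalIn [Finite V] [Finite K] [Finite F] (hσ : ∀ a, Φ.σ a = a) (hε : Φ.ε = -1)
    (hπ : ∀ c, Φ.π c = 0) (h2 : (2 : F) ≠ 0) (hr : finrank F K = 2) (h3 : 3 ≤ finrank K V)
    (hac : ∀ k : K, ∃ k' : K, ∀ u v, Φ.B (k • u) v = Φ.B u (k' • v))
    (hnsa : ¬ ∀ (k : K) u v, Φ.B (k • u) v = Φ.B u (k • v)) :
    Geo.IsMaximalIn Φ.EG (GamL F K V ⊓ Φ.EG) := by
  have : Nontrivial V := Module.nontrivial_of_finrank_pos (R := K) (by omega)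
  have hr' : (finrank F K).Prime := hr ▸ Nat.prime_two
  obtain ⟨s, hs2, hs⟩ := Φ.exists_adjoint hac
  have hne : s ≠ RingHom.id K := fun e => hnsa (by simpa [e] using hs)
  have hsF : ∀ c : F, s (algebraMap F K c) = algebraMap F K c := fun c => by
    rw [adjoint_algebraMap hs, hσ]
  obtain ⟨T₀, hT₀, eT⟩ := exists_trace hr' hs2 hsF hne
  obtain ⟨k, hk⟩ := DFunLike.ne_iff.1 hne
  have hζ : s k - k ≠ 0 := sub_ne_zero.2 hk
  have hT : T₀ ∘ₗ LinearMap.mulLeft F (s k - k) ≠ 0 := fun e =>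
    hζ (eq_zero_of_forall_mul hT₀ fun c => by simpa [mul_comm] using LinearMap.congr_fun e c)
  obtain ⟨B, hB⟩ := Φ.exists_lift hT s hs
  have hS : ∀ x y, B y x = s (B x y) := fun x y => by
    rw [lift_symm hT hs2 hB (η := 1) (fun b => (algebraMap F K).injective (by
      simp only [hε, hσ, one_mul, neg_mul, map_neg, LinearMap.comp_apply, LinearMap.mulLeft_apply,
        eT, map_mul, map_sub, hs2]
      ring)), one_mul]
  let Ψ := fmHerm hne hs2 B hS (lift_nondeg hB)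
  have h : Tr Φ Ψ (T₀ ∘ₗ LinearMap.mulLeft F (s k - k)) :=
    { B := hB
      ne := hT
      Q := fun x y _ => by rw [Tr.sp_Q hπ, Tr.sp_Q hπ]
      sing := fun x e => e
      prime := hr' }
  refine h.isMaximalIn h3 h3 (fun c _ => ⟨c / 2, by rw [hσ, hε]; field_simp; ring⟩) (Or.inl h2)
    (Or.inr ⟨s k - k, hζ, ?_⟩) fun Z hZ v => ?_
  · change s k - k + s (s k - k) = 0
    rw [map_sub, hs2]; ring
  · have e1 := Module.finrank_mul_finrank F K V
    obtain ⟨z, z0, hz⟩ := exists_root_quad (k := F) (W := Z) (A := F)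
      (LinearMap.mk₂ F (fun z z' => T₀ (B z.1 z'.1)) (fun _ _ _ => by simp)
        (fun c z z' => by
          rw [Submodule.coe_smul, ← algebraMap_smul K c, map_smulₛₗ, hsF, LinearMap.smul_apply,
            algebraMap_smul, map_smul])
        (fun _ _ _ => by simp)
        (fun c z z' => by
          rw [Submodule.coe_smul, ← algebraMap_smul K c, map_smul, algebraMap_smul, map_smul]))
      ((2 : F) • T₀ ∘ₗ (B v).restrictScalars F ∘ₗ Z.subtype)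
      (by rw [finrank_self]; rw [hr] at e1 hZ; omega)
    refine ⟨z, z.2, fun e => z0 (Subtype.ext e), ?_⟩
    have e2 := congrArg (algebraMap F K) hz
    simp only [LinearMap.mk₂_apply, LinearMap.smul_apply, LinearMap.comp_apply, smul_eq_mul,
      map_add, map_mul, eT, LinearMap.restrictScalars_apply, Submodule.subtype_apply, map_zero,
      map_ofNat, ← hS] at e2
    have h2' : (2 : K) ≠ 0 := map_ofNat (algebraMap F K) 2 ▸ (map_ne_zero (algebraMap F K)).2 h2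
    change B (v + z) (v + z) = B v v
    refine mul_left_cancel₀ h2' ?_
    simp only [map_add, LinearMap.add_apply]
    linear_combination e2

theorem exists_tr_orth [Finite V] [Finite K] (hσ : ∀ a, Φ.σ a = a) (hε : Φ.ε = 1)
    (hπ : ∀ c, Φ.π c = c) (h2 : (2 : F) ≠ 0) (hr : (finrank F K).Prime)
    (hsa : ∀ (k : K) u v, Φ.B (k • u) v = Φ.B u (k • v)) :
    ∃ (Ψ : Fm K V) (T : Dual F K), Tr Φ Ψ T ∧ (∀ a, Ψ.σ a = a) ∧ Ψ.ε = 1 ∧ (∀ c, Ψ.π c = c) ∧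
      Ψ.d = 3 := by
  obtain ⟨T, hT⟩ := exists_dual_ne_zero (F := F) (K := K)
  obtain ⟨B, hB⟩ := Φ.exists_lift hT (RingHom.id K) hsa
  have hS : ∀ x y, B y x = B x y := fun x y => by
    simpa using lift_symm hT (fun _ => rfl) hB (η := 1) (fun b => by simp [hε, hσ]) x y
  have h2' : (2 : K) ≠ 0 := map_ofNat (algebraMap F K) 2 ▸ (map_ne_zero (algebraMap F K)).2 h2
  let Q : QuadraticForm K V := (2 : K)⁻¹ • LinearMap.BilinMap.toQuadraticMap B
  have hQ : ∀ x, Q x = 2⁻¹ * B x x := fun _ => rfl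
  have hP : ∀ x y, QuadraticMap.polar Q x y = B x y := fun x y => by
    simp only [QuadraticMap.polar, hQ, map_add, LinearMap.add_apply, hS x y]
    field_simp
    ring
  refine ⟨fmQuad Q fun x hx => lift_nondeg hB x fun y => by rw [← hP, hx], T,
    ⟨fun x y => (hB x y).trans (congrArg T (hP x y).symm), hT, fun x y e => ?_, fun x e => ?_, hr⟩,
    fun _ => rfl, rfl, fun _ => rfl, rfl⟩
  · have e1 := Φ.trace _ x (hπ _)
    have e2 := Φ.trace _ y (hπ _)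
    rw [hε, hσ, hB] at e1 e2
    have e3 : B x x = B y y := mul_left_cancel₀ (inv_ne_zero h2') e
    refine mul_left_cancel₀ h2 ?_
    rw [e3] at e1
    linear_combination e1 - e2
  · change 2⁻¹ * B x x = 0
    rw [← hP, show QuadraticMap.polar Q x x = 0 from e, mul_zero]

/-- `O_m(q^r).r` in `Ω_{mr}(q)`, `m ≥ 4`, `q` odd. -/
theorem oo_isMaximalIn [Finite V] [Finite K] [Finite F] (hσ : ∀ a, Φ.σ a = a) (hε : Φ.ε = 1)
    (hπ : ∀ c, Φ.π c = c) (h2 : (2 : F) ≠ 0) (hr : (finrank F K).Prime) (h4 : 4 ≤ finrank K V)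
    (hsa : ∀ (k : K) u v, Φ.B (k • u) v = Φ.B u (k • v)) :
    Geo.IsMaximalIn Φ.EG (GamL F K V ⊓ Φ.EG) := by
  obtain ⟨Ψ, T, h, hσ', hε', hπ', hd⟩ := exists_tr_orth hσ hε hπ h2 hr hsa
  have h2' : (2 : K) ≠ 0 := map_ofNat (algebraMap F K) 2 ▸ (map_ne_zero (algebraMap F K)).2 h2
  refine h.isMaximalIn (by omega) (by omega) (fun c hc => ⟨0, by rw [← hπ c, hc]; simp⟩)
    (Or.inl h2) (Or.inl h4) fun Z hZ v => ?_
  have e1 := Module.finrank_mul_finrank F K V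
  obtain ⟨z, z0, hz⟩ := exists_root_quad (k := F) (W := Z) (A := K)
    (LinearMap.mk₂ F (fun z z' => Ψ.B z.1 z'.1) (fun _ _ _ => by simp)
      (fun c z z' => by
        rw [Submodule.coe_smul, ← algebraMap_smul K c, Ψ.B_smul_left, hσ', Algebra.smul_def])
      (fun _ _ _ => by simp)
      (fun c z z' => by
        rw [Submodule.coe_smul, ← algebraMap_smul K c, Ψ.B_smul_right, Algebra.smul_def]))
    ((2 : F) • (Ψ.B v).restrictScalars F ∘ₗ Z.subtype) (by nlinarith)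
  refine ⟨z, z.2, fun e => z0 (Subtype.ext e), ?_⟩
  have e2 := Ψ.trace _ z.1 (hπ' _)
  rw [hε', hσ'] at e2
  simp only [LinearMap.mk₂_apply, LinearMap.smul_apply, LinearMap.comp_apply, two_smul,
    LinearMap.add_apply, LinearMap.restrictScalars_apply, Submodule.subtype_apply] at hz
  rw [Ψ.add, hπ']
  refine mul_left_cancel₀ h2' ?_
  linear_combination hz + e2

end Fm

section Bridge

open Matrix

variable {F : Type*} [Field F] [Fintype F]

/-- `GU_m(q).2` in `Sp_{2m}(q)`, `q` odd, `m ≥ 3`. -/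
theorem usp_normalizer_isMaximalIn {m : ℕ} (hm : 3 ≤ m) (hodd : Odd (Fintype.card F))
    {K : Subalgebra F (Matrix (Fin m ⊕ Fin m) (Fin m ⊕ Fin m) F)} (hK : Geo.IsFieldSubalgebra 2 K)
    (hac : Geo.IsAdjointClosedFor (sympForm m F) K)
    (hnsa : ¬ Geo.IsSelfAdjointFor (sympForm m F) K) :
    Geo.IsMaximalIn (spGL m F) (Geo.subalgebraNormalizer K ⊓ spGL m F) := by
  have : Nonempty (Fin m ⊕ Fin m) := ⟨Sum.inl ⟨0, by omega⟩⟩
  refine normalizer_isMaximalIn_of (mem_spGL_iff m) hK ?_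
  let := (isField_of hK).toField
  have h1 := mul_finrank_eq hK
  simp only [Fintype.card_sum, Fintype.card_fin] at h1
  refine Fm.usp_isMaximalIn (fun _ => rfl) rfl (fun _ => rfl) (two_ne_zero_of_odd hodd)
    hK.finrank_eq (by omega) (fun k => ?_) fun h => hnsa fun k hk => h ⟨k, hk⟩
  obtain ⟨k', h2, h3⟩ := hac k k.2
  exact ⟨⟨k', h2⟩, h3⟩

/-- `O_m(q^r).r` in `Ω_{mr}(q)`, `q` odd, `m ≥ 4`. -/
theorem oo_normalizer_isMaximalIn {ι : Type} [Fintype ι] [DecidableEq ι]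
    (hodd : Odd (Fintype.card F)) {r : ℕ} (hr : r.Prime) (hn : 3 * r < Fintype.card ι)
    {Q : (ι → F) → F} (hQ : Geo.IsNondegenerateQuadraticForm Q) {K : Subalgebra F (Matrix ι ι F)}
    (hK : Geo.IsFieldSubalgebra r K) (hsa : Geo.IsSelfAdjointFor (QuadraticMap.polar Q) K) :
    Geo.IsMaximalIn (Geo.omegaGL Q) (Geo.subalgebraNormalizer K ⊓ Geo.omegaGL Q) := by
  have := hr.two_le
  have : Nonempty ι := Fintype.card_pos_iff.1 (by omega)
  refine normalizer_isMaximalIn_of (mem_omegaGL_iff hQ (by omega)) hK ?_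
  let := (isField_of hK).toField
  have h1 := mul_finrank_eq hK
  have hr' : (finrank F K).Prime := hK.finrank_eq ▸ hr
  refine Fm.oo_isMaximalIn (fun _ => rfl) rfl (fun _ => rfl) (two_ne_zero_of_odd hodd) hr' ?_
    fun k => hsa k k.2
  by_contra hc
  have : r * finrank K (ι → F) ≤ r * 3 := Nat.mul_le_mul_left _ (by omega)
  omega

end Bridge

end Cfsg.Agent.Class.Max
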