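import Mathlib
import Cfsg.Agent.Class.Max.C3J
import Cfsg.Agent.Class.Max.C3Alg2
import Cfsg.Agent.Class.FormBasis

/-!
Maximality of `O_3(q^r).r` in `Ω_{3r}(q)`.
-/

set_option autoImplicit false
set_option linter.unusedSectionVars false

namespace Cfsg.Agent.Class.Max

open Module

theorem finrank_le_map_add {F V W : Type*} [Field F] [AddCommGroup V] [Module F V]
    [AddCommGroup W] [Module F W] [FiniteDimensional F V] [FiniteDimensional F W] (φ : V →ₗ[F] W)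
    {X N : Submodule F V} {R : Submodule F W} (h1 : ∀ x ∈ X, φ x = 0 → x ∈ N)
    (h2 : ∀ x ∈ X, φ x ∈ R) : finrank F X ≤ finrank F R + finrank F N := by
  have e1 := LinearMap.finrank_range_add_finrank_ker (φ.domRestrict X)
  rw [LinearMap.range_domRestrict, LinearMap.ker_domRestrict,
    ← Submodule.finrank_map_subtype_eq X, Submodule.map_comap_subtype] at e1
  have := Submodule.finrank_mono (show X ⊓ LinearMap.ker φ ≤ N from fun x hx => h1 x hx.1 hx.2)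
  have := Submodule.finrank_mono (show X.map φ ≤ R from Submodule.map_le_iff_le_comap.2 h2)
  omega

namespace Fm

section Frame

variable {K V : Type*} [Field K] [AddCommGroup V] [Module K V] [FiniteDimensional K V]
  {Ψ : Fm K V}

variable (Ψ) in
/-- A three-dimensional orthogonal space in odd characteristic. -/
structure O3 : Prop where
  σ : ∀ a, Ψ.σ a = a
  ε : Ψ.ε = 1
  π : ∀ c, Ψ.π c = c
  two : (2 : K) ≠ 0
  dim : finrank K V = 3

theorem O3.symm (o : Ψ.O3) (x y : V) : Ψ.B y x = Ψ.B x y := by rw [Ψ.symm, o.ε, o.σ, one_mul]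

theorem O3.B_self (o : Ψ.O3) (x : V) : Ψ.B x x = 2 * Ψ.Q x := by
  rw [← Ψ.trace _ x (o.π _), o.ε, o.σ]; ring

theorem span_three (h3 : finrank K V = 3) {x y z : V}
    (h : ∀ a b c : K, a • x + b • y + c • z = 0 → a = 0 ∧ b = 0 ∧ c = 0) (v : V) :
    ∃ a b c : K, v = a • x + b • y + c • z := by
  have li : LinearIndependent K ![x, y, z] := Fintype.linearIndependent_iff.2 fun g hg i => by
    obtain ⟨h1, h2, h3⟩ := h (g 0) (g 1) (g 2) (by simpa [Fin.sum_univ_three] using hg)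
    fin_cases i <;> assumption
  have := li.span_eq_top_of_card_eq_finrank' (by simp [h3])
  obtain ⟨c, hc⟩ := (Submodule.mem_span_range_iff_exists_fun K).1 (this ▸ Submodule.mem_top (x := v))
  exact ⟨c 0, c 1, c 2, by simpa [Fin.sum_univ_three] using hc.symm⟩

variable (Ψ) in
/-- A hyperbolic pair with a perpendicular vector. -/
structure Frame (e f w : V) : Prop extends Ψ.O3 where
  qe : Ψ.Q e = 0
  qf : Ψ.Q f = 0
  ef : Ψ.B e f = 1
  ew : Ψ.B e w = 0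
  fw : Ψ.B f w = 0
  qw : Ψ.Q w ≠ 0

theorem O3.exists_frame (o : Ψ.O3) {e : V} (he : Ψ.Q e = 0) (h0 : e ≠ 0) :
    ∃ f w, Ψ.Frame e f w := by
  obtain ⟨f, hf, hef⟩ := exists_partner' he h0
  obtain ⟨w, w0, w1, w2⟩ := exists_perp_pair (Ψ := Ψ) o.dim.ge e f
  refine ⟨f, w, o, he, hf, hef, w1, w2, fun hq => w0 (Ψ.nondeg w fun v => ?_)⟩
  obtain ⟨a, b, c, rfl⟩ := span_three o.dim (x := e) (y := f) (z := w) (fun a b c h => by
    have h1 : b = 0 := by simpa [Ψ.B_self he, hef, w1] using congrArg (Ψ.B e) h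
    have h2 : a = 0 := by simpa [Ψ.B_self hf, o.symm e f, hef, w2] using congrArg (Ψ.B f) h
    exact ⟨h2, h1, by simpa [h1, h2, w0] using h⟩) v
  simp [Ψ.perp_symm w1, Ψ.perp_symm w2, Ψ.B_self hq]

theorem O3.exists_basis (o : Ψ.O3) {v : V} (hv : Ψ.Q v ≠ 0) :
    ∃ a c, Ψ.Q a ≠ 0 ∧ Ψ.Q c ≠ 0 ∧ Ψ.B v a = 0 ∧ Ψ.B v c = 0 ∧ Ψ.B a c = 0 ∧
      ∀ y, Ψ.B v y = 0 → ∃ s t : K, y = s • a + t • c := by
  have vv : Ψ.B v v ≠ 0 := by rw [o.B_self]; exact mul_ne_zero o.two hv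
  obtain ⟨a, a1, a2⟩ : ∃ a, Ψ.Q a ≠ 0 ∧ Ψ.B v a = 0 := by
    obtain ⟨w, w0, w1, -⟩ := exists_perp_pair (Ψ := Ψ) o.dim.ge v v
    obtain ⟨y, hy⟩ := Ψ.exists_B_ne w0
    by_contra hc
    push Not at hc
    have y1 : Ψ.B v (y - (Ψ.B v y / Ψ.B v v) • v) = 0 := by simp [vv]
    have h1 := not_imp_not.1 (hc w) w1
    have h2 := not_imp_not.1 (hc _) y1
    have h3 := not_imp_not.1 (hc (w + (y - (Ψ.B v y / Ψ.B v v) • v))) (by
      rw [map_add, w1, y1, add_zero])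
    rw [Ψ.add, h1, h2, o.π] at h3
    exact hy (by simpa [Ψ.perp_symm w1] using h3)
  have aa : Ψ.B a a ≠ 0 := by rw [o.B_self]; exact mul_ne_zero o.two a1
  obtain ⟨c, c0, c1, c2⟩ := exists_perp_pair (Ψ := Ψ) o.dim.ge v a
  have sp := span_three o.dim (x := v) (y := a) (z := c) fun r s t h => by
    have h1 : r = 0 := by simpa [vv, a2, c1] using congrArg (Ψ.B v) h
    have h2 : s = 0 := by simpa [aa, Ψ.perp_symm a2, c2] using congrArg (Ψ.B a) h
    exact ⟨h1, h2, by simpa [h1, h2, c0] using h⟩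
  refine ⟨a, c, a1, fun hq => c0 (Ψ.nondeg c fun y => ?_), a2, c1, c2, fun y hy => ?_⟩
  · obtain ⟨r, s, t, rfl⟩ := sp y
    simp [Ψ.perp_symm c1, Ψ.perp_symm c2, Ψ.B_self hq]
  · obtain ⟨r, s, t, rfl⟩ := sp y
    exact ⟨s, t, by simp [show r = 0 by simpa [vv, a2, c1] using hy]⟩

/-- Rotations about a non-singular vector. -/
theorem O3.exists_rot (o : Ψ.O3) {v : V} (hv : Ψ.Q v ≠ 0) :
    ∃ s : K, s ≠ 0 ∧ ∀ t : K, 1 + t * t * s ≠ 0 → ∃ a ∈ Ψ.Iso, ∃ b ∈ Ψ.Iso,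
      (a * b * a⁻¹ * b⁻¹) v = v ∧ ∀ y, Ψ.B v y = 0 → (a * b * a⁻¹ * b⁻¹) y +
        (a * b * a⁻¹ * b⁻¹)⁻¹ y = ((4 / (1 + t * t * s) - 2) * (4 / (1 + t * t * s) - 2) - 2) • y := by
  obtain ⟨a, c, a1, c1, a2, c2, ac, sp⟩ := o.exists_basis hv
  refine ⟨Ψ.Q c / Ψ.Q a, div_ne_zero c1 a1, fun t ht => ?_⟩
  have hN : Ψ.Q a + t * t * Ψ.Q c ≠ 0 := fun e => ht (by field_simp; linear_combination e)
  have hb : Ψ.π (Ψ.Q a + t * t * Ψ.Q c) = Ψ.Q (a + t • c) := by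
    rw [Ψ.Q_add_perp (by simp [ac]), Ψ.smul, o.π, o.σ]
  have inv : ∀ {a : V} {c : K} (hc : c ≠ 0) (h : Ψ.π c = Ψ.Q a), (refl hc h)⁻¹ = refl hc h :=
    fun hc h => LinearEquiv.ext fun x => by rw [refl_inv_apply, refl_apply, o.ε, o.σ, one_mul]
  refine ⟨_, refl_mem_Iso a1 (o.π _), _, refl_mem_Iso hN hb, ?_, fun y hy => ?_⟩
  · simp [inv, mul_app, refl_apply, Ψ.perp_symm a2, Ψ.perp_symm c2]
  set ρ := refl a1 (o.π _) * refl hN hb with hρ
  have e1 : ∀ y, Ψ.B v y = 0 → ρ y + ρ⁻¹ y = (4 / (1 + t * t * (Ψ.Q c / Ψ.Q a)) - 2) • y :=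
    fun y hy => by
      obtain ⟨r, s, rfl⟩ := sp y hy
      rw [show 4 / (1 + t * t * (Ψ.Q c / Ψ.Q a)) = 4 * Ψ.Q a / (Ψ.Q a + t * t * Ψ.Q c) by field_simp]
      simp only [hρ, mul_inv_rev, inv, mul_app, refl_apply, Ψ.bsimp, o.B_self, ac, o.σ,
        Ψ.perp_symm ac]
      have hN' : Ψ.Q a + t ^ 2 * Ψ.Q c ≠ 0 := by rwa [sq]
      match_scalars <;> field_simp <;> ring
  have e2 : ∀ y, Ψ.B v y = 0 → Ψ.B v (ρ y) = 0 := fun y hy => by
    simp [hρ, mul_app, refl_apply, hy, a2, c2]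
  have e3 : Ψ.B v (ρ⁻¹ y) = 0 := by simp [hρ, inv, mul_app, refl_apply, hy, a2, c2]
  have e4 := e1 _ (e2 y hy)
  have e5 := e1 _ e3
  rw [inv_app_app] at e4
  rw [app_inv_app] at e5
  rw [inv, inv, mul_assoc ρ, ← hρ, mul_inv_rev, mul_app ρ ρ, mul_app ρ⁻¹ ρ⁻¹]
  linear_combination (norm := module) e4 + e5 +
    (4 / (1 + t * t * (Ψ.Q c / Ψ.Q a)) - 2) • e1 y hy

namespace Frame

variable {e f w : V} (fr : Ψ.Frame e f w)
include fr

theorem simp : Ψ.B e e = 0 ∧ Ψ.B e f = 1 ∧ Ψ.B e w = 0 ∧ Ψ.B f e = 1 ∧ Ψ.B f f = 0 ∧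
    Ψ.B f w = 0 ∧ Ψ.B w e = 0 ∧ Ψ.B w f = 0 ∧ Ψ.B w w = 2 * Ψ.Q w ∧ (∀ a, Ψ.σ a = a) ∧ Ψ.ε = 1 :=
  ⟨Ψ.B_self fr.qe, fr.ef, fr.ew, by rw [fr.toO3.symm, fr.ef], Ψ.B_self fr.qf, fr.fw,
    Ψ.perp_symm fr.ew, Ψ.perp_symm fr.fw, fr.toO3.B_self w, fr.σ, fr.ε⟩

theorem ww : Ψ.B w w ≠ 0 := by rw [fr.toO3.B_self]; exact mul_ne_zero fr.two fr.qw

theorem ne : e ≠ 0 := fun h => by simpa [h] using fr.ef

theorem eq_smul {v : V} (h1 : Ψ.B e v = 0) (h2 : Ψ.B w v = 0) : v = Ψ.B f v • e := by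
  obtain ⟨a, b, c, rfl⟩ := span_three fr.dim (x := e) (y := f) (z := w) (fun a b c h => by
    have h1 : b = 0 := by simpa [fr.simp] using congrArg (Ψ.B e) h
    have h2 : a = 0 := by simpa [fr.simp] using congrArg (Ψ.B f) h
    exact ⟨h2, h1, by simpa [h1, h2, fr.simp, fr.two, fr.qw] using congrArg (Ψ.B w) h⟩) v
  have h3 : b = 0 := by simpa [fr.simp] using h1
  have h4 : c = 0 := by simpa [fr.simp, fr.two, fr.qw] using h2
  simp [h3, h4, fr.simp]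

theorem valid (a : K) : Ψ.Valid e (a • w) (a * a * Ψ.Q w) :=
  ⟨fr.qe, by simp [fr.ew], by rw [fr.π, Ψ.smul, fr.σ]⟩

/-- The root elements. -/
def t (a : K) : V ≃ₗ[K] V := (fr.valid a).eich

theorem t_apply (a : K) (v : V) : fr.t a v =
    v + (a * Ψ.B e v) • w - (a * Ψ.B w v + a * a * Ψ.Q w * Ψ.B e v) • e := by
  change Ψ.ef _ _ _ _ = _
  simp only [Fm.ef, Ψ.bsimp, fr.simp]
  module

theorem t_perp (a : K) {v : V} (h : Ψ.B e v = 0) : fr.t a v = v - (a * Ψ.B w v) • e := by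
  simp [fr.t_apply, h]

theorem t_mem (a : K) : fr.t a ∈ Ψ.EG := (fr.valid a).eich_mem

theorem B_t (a : K) (v : V) : Ψ.B e (fr.t a v) = Ψ.B e v := (fr.valid a).B_ef v

theorem t_t (a b : K) (v : V) : fr.t a (fr.t b v) = fr.t (a + b) v := by
  rw [fr.t_apply a, fr.B_t, fr.t_apply b, fr.t_apply]
  simp only [Ψ.bsimp, fr.simp]
  module

theorem t_zero (v : V) : fr.t 0 v = v := by simp [fr.t_apply]

theorem t_pow (a : K) (n : ℕ) (v : V) : (fr.t a ^ n) v = fr.t (n * a) v := by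
  induction n generalizing v with
  | zero => simp [fr.t_zero]
  | succ n ih => rw [pow_succ, mul_app, ih, fr.t_t]; congr 2; push_cast; ring

theorem eq_smul_of_t {a : K} (ha : a ≠ 0) {v : V} (h : fr.t a v = v) : v = Ψ.B f v • e := by
  rw [fr.t_apply] at h
  have h1 : Ψ.B e v = 0 := by simpa [fr.simp, ha, fr.two, fr.qw] using congrArg (Ψ.B w) h
  exact fr.eq_smul h1 (by simpa [h1, ha, fr.ne] using h)

theorem B_t_perp (a : K) {v : V} (h : Ψ.B e v = 0) : Ψ.B w (fr.t a v) = Ψ.B w v := by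
  simp [fr.t_perp a h, fr.simp]

theorem exists_add {v v' : V} (h : Ψ.B e v = 0) (h' : Ψ.B e v' = 0) (h1 : Ψ.B w v = Ψ.B w v') :
    ∃ k : K, v = v' + k • e :=
  ⟨_, eq_add_of_sub_eq' (fr.eq_smul (by rw [map_sub, h, h', sub_zero])
    (by rw [map_sub, h1, sub_self]))⟩

theorem B_perp {v y : V} {x : K} (h : Ψ.B e v = 0) (hy : Ψ.B e y = 0)
    (h1 : Ψ.B w v = x * Ψ.B w w) : Ψ.B v y = x * Ψ.B w y := by
  obtain ⟨k, rfl⟩ := fr.exists_add (v' := x • w) h (by simp [fr.simp]) (by simp [h1])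
  simp [hy, fr.σ]

theorem exists_scale {m : K} (hm : m ≠ 0) :
    ∃ a ∈ Ψ.Iso, ∃ b ∈ Ψ.Iso, (a * b * a⁻¹ * b⁻¹) e = (m * m) • e := by
  have key : ∀ x : K, Ψ.π (-x) = Ψ.Q (e - x • f) := fun x => by
    rw [Ψ.Q_sub, fr.qe, Ψ.Q_smul_zero fr.qf, fr.π, fr.π]; simp [fr.simp]
  refine ⟨_, refl_mem_Iso (neg_ne_zero.2 one_ne_zero) (key 1), _,
    refl_mem_Iso (neg_ne_zero.2 hm) (key m), ?_⟩
  simp only [mul_app, refl_apply, refl_inv_apply, Ψ.bsimp, fr.simp]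
  match_scalars <;> field_simp <;> ring

end Frame

end Frame

variable {F K V : Type*} [Field F] [Field K] [Algebra F K] [AddCommGroup V] [Module F V]
  [Module K V] [IsScalarTower F K V]
variable {Φ : Fm F V} {Ψ : Fm K V} {T : Dual F K} {M : Subgroup (V ≃ₗ[F] V)}

variable (M) in
/-- Elements fixing `J` pointwise and `d` modulo `J`. -/
def fixMod (J : Submodule F V) (d : V) : Subgroup (V ≃ₗ[F] V) where
  carrier := {s | s ∈ M ∧ (∀ y ∈ J, s y = y) ∧ s d - d ∈ J}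
  mul_mem' := by
    rintro s t ⟨h1, h2, h3⟩ ⟨h4, h5, h6⟩
    refine ⟨M.mul_mem h1 h4, fun y hy => by rw [mul_app, h5 y hy, h2 y hy], ?_⟩
    have := h2 _ h6
    rw [map_sub] at this
    convert J.add_mem h3 h6 using 1
    rw [mul_app]
    linear_combination (norm := module) this
  one_mem' := ⟨M.one_mem, fun _ _ => rfl, by simp⟩
  inv_mem' := by
    rintro s ⟨h1, h2, h3⟩
    refine ⟨M.inv_mem h1, fun y hy => s.injective (by rw [app_inv_app, h2 y hy]), ?_⟩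
    rwa [show s⁻¹ d - d = -(s d - d) from s.injective (by
      rw [map_neg, h2 _ h3, map_sub, app_inv_app, neg_sub]), neg_mem_iff]

variable (Φ Ψ T M) in
/-- The data of a configuration contradicting maximality. -/
structure Cf3 (e f w j : V) (g : V ≃ₗ[F] V) : Prop where
  h : Tr Φ Ψ T
  hH : GamL F K V ⊓ Φ.EG ≤ M
  hM : M ≤ Φ.Iso
  hS : ∀ e, Ψ.Q e = 0 → e ≠ 0 → ∀ s ∈ M, s ∈ stab (pt F K e) → Semi K s e
  two : (2 : F) ≠ 0
  odd : finrank F K ≠ 2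
  qr : 4 ≤ finrank F K ∨ finrank F K < Nat.card F
  comm : ∀ a ∈ Φ.Iso, ∀ b ∈ Φ.Iso, a * b * a⁻¹ * b⁻¹ ∈ Φ.EG
  fr : Ψ.Frame e f w
  max : MaxI M (pt F K e) g
  hj : j ∈ pt F K e
  hj0 : j ≠ 0
  hgj : g j ∈ pt F K e

namespace Cf3

variable [Finite V] [Finite K] [Finite F] {e f w j : V} {g : V ≃ₗ[F] V}
  (C : Cf3 Φ Ψ T M e f w j g)
include C

theorem t_mem (a : K) : res F (C.fr.t a) ∈ M := C.hH (C.h.res_EG (C.fr.t_mem a))

theorem t_fix (a : K) : ∀ b ∈ pt F K e, res F (C.fr.t a) b = b := fun b hb => by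
  obtain ⟨k, rfl⟩ := mem_pt.1 hb
  simp [res_apply, C.fr.t_apply, C.fr.simp]

theorem conj_mem {t : V ≃ₗ[F] V} (ht : t ∈ M) : g⁻¹ * t * g ∈ M :=
  M.mul_mem (M.mul_mem (M.inv_mem C.max.mem) ht) C.max.mem

theorem fix_gen {t : V ≃ₗ[F] V} (ht : t ∈ M) (e1 : ∀ b ∈ pt F K e, t b = b) {u : V}
    (hu : u ∈ pt F K e) (hu' : g u ∉ pt F K e) (h1 : t (g u) = g u) :
    ∀ y ∈ pt F K e, t (g y) = g y := by
  have hs := C.max.stab_of ht e1 hu hu' (by rwa [h1, inv_app_app])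
  have := (C.hS e C.fr.qe C.fr.ne _ (C.conj_mem ht) hs).fix_of_two C.h.prime
    C.hj C.hj0 (by rw [mul_app, mul_app, e1 _ C.hgj, inv_app_app]) hu
    (by rw [mul_app, mul_app, h1, inv_app_app]) fun c hc => hu' (by
      rw [← hc, map_smul]; exact Submodule.smul_mem _ _ C.hgj)
  intro y hy
  rw [← app_inv_app g (t (g y))]
  exact congrArg g (this y hy)

theorem perp {u : V} (hu : u ∈ pt F K e) (h1 : Ψ.B e (g u) = 0) : g u ∈ pt F K e := by
  by_contra hu'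
  have hb : Ψ.B w (g u) ≠ 0 := fun e' => hu' (C.fr.eq_smul h1 e' ▸ smul_mem_pt _ _)
  obtain ⟨k, hk⟩ := mem_pt.1 C.hgj
  obtain ⟨x, rfl⟩ := exists_smul_of_mem_pt (K := K) C.hj C.hj0 hu
  have key : ∀ c : F, ∃ τ : K →+* K, (∀ c : F, τ (algebraMap F K c) = algebraMap F K c) ∧
      τ x = x + algebraMap F K c ∧
      ∀ a, τ (τ (τ a - a) - (τ a - a)) = τ (τ a - a) - (τ a - a) := fun c => by
    set t := res F (C.fr.t (-(c • k) / Ψ.B w (g (x • j)))) with ht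
    have e1 : (g⁻¹ * t * g) (x • j) = (x + algebraMap F K c) • j := g.injective (by
      rw [mul_app, mul_app, app_inv_app, ht, res_apply, C.fr.t_perp _ h1, div_mul_cancel₀ _ hb,
        add_smul, algebraMap_smul, map_add, map_smul g c, ← hk, neg_smul, sub_neg_eq_add,
        smul_assoc])
    have hs := C.max.stab_of (C.t_mem _) (C.t_fix _) hu hu' (by
      rw [← ht, ← mul_app t, ← mul_app, ← mul_assoc, e1]; exact smul_mem_pt_of _ C.hj)
    obtain ⟨τ, t1, t2⟩ := (C.hS e C.fr.qe C.fr.ne _ (C.conj_mem (C.t_mem _)) hs).exists_ringHom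
      C.hj C.hj0 (by rw [mul_app, mul_app, C.t_fix _ _ C.hgj, inv_app_app])
    rw [← ht] at t2
    have inj := smul_left_injective K C.hj0
    have t3 : ∀ a, g (τ a • j) = t (g (a • j)) := fun a => by rw [← t2]; simp
    refine ⟨τ, t1, inj ((t2 x).symm.trans e1), fun a => inj (g.injective ?_)⟩
    dsimp only
    rw [t3]
    refine C.t_fix _ _ ?_
    rw [sub_smul, map_sub, t3, sub_smul, map_sub, t3, ht, res_apply, res_apply,
      C.fr.t_perp _ (by rw [map_sub, C.fr.B_t, sub_self]), sub_sub_cancel_left, ← neg_smul]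
    exact smul_mem_pt _ _
  choose τ t1 t2 t3 using key
  rcases C.qr with h4 | h4
  · have := t2 1
    rw [eq_id_of_cube C.h.prime h4 (t1 1) (t3 1)] at this
    simp at this
  · have : Finite (K →ₐ[F] K) := Finite.of_injective _ DFunLike.coe_injective
    have := Nat.card_le_card_of_injective (fun c => (⟨τ c, t1 c⟩ : K →ₐ[F] K)) fun c c' e' => by
      have : τ c x = τ c' x := congrArg (fun σ : K →ₐ[F] K => σ x) e'
      rw [t2, t2, add_right_inj] at this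
      exact (algebraMap F K).injective this
    have := card_algHom_le_finrank F K K
    omega

theorem exists_u : ∃ u ∈ pt F K e, g u ∉ pt F K e ∧ Ψ.B e (g u) ≠ 0 := by
  obtain ⟨u, hu, hu'⟩ := exists_notMem_of_notMem_stab C.max.ne
  exact ⟨u, hu, hu', fun e' => hu' (C.perp hu e')⟩

theorem not_perp {u : V} (hu : u ∈ pt F K e) (hu' : g u ∉ pt F K e) {a : K} (ha : a ≠ 0)
    (h1 : ∀ b ∈ pt F K e, Φ.B (g b) (C.fr.t a (g u)) = 0) : False := by
  have hb : Ψ.B e (g u) ≠ 0 := fun e' => hu' (C.perp hu e')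
  have e2 : (g⁻¹ * res F (C.fr.t a) * g) u = g⁻¹ (C.fr.t a (g u)) := rfl
  have hin : g⁻¹ (C.fr.t a (g u)) ∉ pt F K e := fun hin => by
    have := C.perp (Submodule.sub_mem _ hin hu) (by
      rw [map_sub, app_inv_app, map_sub, C.fr.B_t, sub_self])
    rw [map_sub, app_inv_app] at this
    have := C.h.B_pt this C.fr.ew
    simp [C.fr.t_apply, C.fr.simp, ha, hb, C.fr.two, C.fr.qw, add_sub_right_comm] at this
  have e3 : (g⁻¹ * res F (C.fr.t a) * g) j = j := by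
    rw [mul_app, mul_app, C.t_fix _ _ C.hgj, inv_app_app]
  have C' : Cf3 Φ Ψ T M e f w j (g⁻¹ * res F (C.fr.t a) * g) :=
    { C with
      max := C.max.conj (C.t_mem a) (C.t_fix a) fun hs => hin (e2 ▸ stab_apply hs hu)
      hgj := e3.symm ▸ C.hj }
  refine hin (e2 ▸ C'.perp hu (C.h.perp_of' fun k => ?_))
  rw [e2, Iso.B_inv (C.hM C.max.mem), h1 _ (smul_mem_pt k e)]

theorem two_mul_le : 2 * finrank F ↥((pt F K e).map (g : V →ₗ[F] V) ⊓ pt F K e) ≤ finrank F K := by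
  by_contra hc
  obtain ⟨u, hu, hu', hb⟩ := C.exists_u
  have hS : ∀ v, Ψ.B e v = 0 → v ∈ Φ.perp ((pt F K e).map (g : V →ₗ[F] V) ⊓ pt F K e) :=
    fun v hv => Φ.perp_anti inf_le_right (C.h.mem_perp_pt.2 hv)
  obtain ⟨a, ha, h1⟩ := exists_root_quad_mem (k := F) (W := K) (A := V)
    ((LinearMap.mul F K).compr₂
      ((LinearMap.toSpanSingleton K V (-(Ψ.Q w * Ψ.B e (g u)) • e)).restrictScalars F))
    ((LinearMap.toSpanSingleton K V (Ψ.B e (g u) • w - Ψ.B w (g u) • e)).restrictScalars F)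
    (Φ.perp_anti (inf_le_left : (pt F K e).map (g : V →ₗ[F] V) ⊓ pt F K e ≤ _))
    (fun _ _ => hS _ (by simp [C.fr.simp])) (fun _ => hS _ (by simp [C.fr.simp])) (by
      have e1 := Φ.finrank_add_perp ((pt F K e).map (g : V →ₗ[F] V) ⊓ pt F K e)
      have e2 := Φ.finrank_add_perp ((pt F K e).map (g : V →ₗ[F] V))
      have e3 := Module.finrank_mul_finrank F K V
      rw [LinearEquiv.finrank_map_eq, finrank_pt C.fr.ne] at e2
      rw [C.fr.dim] at e3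
      omega)
  refine C.not_perp hu hu' ha fun b hb' => ?_
  have e1 := h1 _ ⟨b, hb', rfl⟩
  have e2 : Φ.B (g b) (g u) = 0 := by
    rw [Iso.B (C.hM C.max.mem), C.h.B_zero (C.h.B_pt hb' (C.h.B_pt_self C.fr.qe hu))]
  refine Eq.trans ?_ ((map_add (Φ.B (g b)) (g u) _).trans
    ((congrArg₂ (· + ·) e2 e1).trans (add_zero 0)))
  congr 1
  simp only [C.fr.t_apply, LinearMap.compr₂_apply, LinearMap.mul_apply',
    LinearMap.restrictScalars_apply, LinearMap.toSpanSingleton_apply]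
  module

theorem two_mul_lt : 2 * finrank F ↥((pt F K e).map (g : V →ₗ[F] V) ⊓ pt F K e) < finrank F K :=
  lt_of_le_of_ne C.two_mul_le fun e' =>
    C.odd ((Nat.Prime.eq_one_or_self_of_dvd C.h.prime 2 ⟨_, e'.symm⟩).resolve_left (by simp)).symm

theorem rk : Ψ.Rk := Or.inl C.fr.dim.ge

theorem BF (x y : V) : Φ.B x y = T (Ψ.B x y) := C.h.B x y

section Z

variable {z : V ≃ₗ[F] V} (hz : z ∈ M) (h1 : ∀ v, Ψ.B e v = 0 → z v = v)
include hz h1

theorem z_app (v : V) : z v = v + Ψ.B f (z (Ψ.B e v • f)) • e := by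
  obtain ⟨k, hk⟩ := mem_pt.1 (C.h.mem_pt_of_perp (e := e)
    (v := z (Ψ.B e v • f) - Ψ.B e v • f) fun y hy => by
      rw [Φ.B_sub_left, sub_eq_zero]
      conv_lhs => rw [← h1 y hy]
      exact Iso.B (C.hM hz) _ _)
  have e1 := h1 (v - Ψ.B e v • f) (by simp [C.fr.simp])
  rw [map_sub] at e1
  rw [eq_add_of_sub_eq hk.symm] at e1 ⊢
  simp only [Ψ.bsimp, C.fr.simp]
  linear_combination (norm := module) e1

theorem z_eq_one_of_fix {u : V} (hu : u ∈ pt F K e) (hu' : g u ∉ pt F K e) (h2 : z (g u) = g u) :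
    z = 1 := by
  have e1 := C.fix_gen hz (fun b hb => h1 b (C.h.B_pt_self C.fr.qe hb)) hu hu' h2
  have hf0 : f ≠ 0 := fun e' => by simpa [e'] using C.fr.ef
  obtain ⟨d, hd, a, ha, ed⟩ := C.rk.move_pt C.fr.qf C.fr.qe hf0 C.fr.ne
  have hdM := C.hH (C.h.res_EG hd)
  have di : ∀ k : K, (res F d)⁻¹ (k • e) = (k / a) • f := fun k => (res F d).injective (by
    rw [app_inv_app, res_apply, map_smul, ed, smul_smul, div_mul_cancel₀ _ ha])
  by_cases hs : res F d * z * (res F d)⁻¹ ∈ stab (pt F K e)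
  · refine LinearEquiv.ext fun v => ?_
    obtain ⟨k, hk⟩ := mem_pt.1 (stab_apply hs (smul_mem_pt (Ψ.B e v * a) e))
    have e2 : z (Ψ.B e v • f) = (k / a) • f := by
      rw [← di, hk, mul_app, mul_app, inv_app_app, di, mul_div_cancel_right₀ _ ha]
    rw [C.z_app hz h1, e2]
    simp [C.fr.simp]
  · have e2 := C.max.max _ (M.mul_mem (M.mul_mem hdM hz) (M.inv_mem hdM)) hs
    have e3 := finrank_le_map_add ((LinearMap.toSpanSingleton K V (a • e)).restrictScalars F ∘ₗ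
      (Ψ.B e).restrictScalars F) (X := (pt F K e).map (g : V →ₗ[F] V))
      (N := (pt F K e).map (g : V →ₗ[F] V) ⊓ pt F K e)
      (R := (pt F K e).map ((res F d * z * (res F d)⁻¹ : V ≃ₗ[F] V) : V →ₗ[F] V) ⊓ pt F K e)
      (by
        rintro _ ⟨y, hy, rfl⟩ h0
        exact ⟨⟨y, hy, rfl⟩, C.perp hy (by simpa [ha, C.fr.ne] using h0)⟩)
      (by
        rintro _ ⟨y, hy, rfl⟩
        have e4 : Ψ.B e (g y) • a • e ∈ pt F K e := smul_mem_pt_of _ (smul_mem_pt _ _)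
        refine ⟨⟨_, e4, ?_⟩, e4⟩
        have e5 := h1 (g y - Ψ.B e (g y) • f) (by simp [C.fr.simp])
        rw [map_sub, e1 y hy, sub_right_inj] at e5
        change (res F d) (z ((res F d)⁻¹ (_ • a • e))) = Ψ.B e (g y) • a • e
        rw [smul_smul, di, mul_div_cancel_right₀ _ ha, e5, res_apply, map_smul, ed, smul_smul])
    rw [LinearEquiv.finrank_map_eq, finrank_pt C.fr.ne] at e3
    have := C.two_mul_lt
    omega

theorem z_eq_one : z = 1 := by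
  obtain ⟨u, hu, hu', hb⟩ := C.exists_u
  let ζ : K →ₗ[F] K := (Ψ.B f).restrictScalars F ∘ₗ z.toLinearMap ∘ₗ
    (LinearMap.toSpanSingleton K V f).restrictScalars F
  have hζ : ∀ v, z v = v + ζ (Ψ.B e v) • e := C.z_app hz h1
  obtain ⟨b, b0, hb'⟩ : ∃ b, b ≠ 0 ∧ ζ b = 0 := by
    by_contra hc
    push Not at hc
    obtain ⟨m, -, hm, -⟩ := exists_symplectic_basis
      (((LinearMap.mul F K).compr₂ T) ∘ₗ ζ) (fun b => by
        have e1 := Iso.B (C.hM hz) (b • f) (b • f)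
        rw [hζ, C.BF, C.BF] at e1
        simp only [Ψ.bsimp, C.fr.simp] at e1
        simpa [C.two, mul_comm b, ← two_mul (T _)] using e1) fun b hb => by
      by_contra b0
      exact hc b b0 (eq_zero_of_forall_mul C.h.ne fun k => by simpa [mul_comm] using hb k)
    exact C.odd ((Nat.Prime.eq_one_or_self_of_dvd C.h.prime 2 ⟨_, hm⟩).resolve_left (by simp)).symm
  obtain ⟨c, m, hm, e1⟩ := exists_eq_smul_sq C.h.prime C.odd C.two (div_ne_zero hb b0)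
  obtain ⟨a₁, h₁, a₂, h₂, e2⟩ := C.fr.exists_scale (inv_ne_zero hm)
  set d := a₁ * a₂ * a₁⁻¹ * a₂⁻¹ with hd
  have dI : d ∈ Ψ.Iso := Ψ.Iso.mul_mem (Ψ.Iso.mul_mem (Ψ.Iso.mul_mem h₁ h₂) (Ψ.Iso.inv_mem h₁))
    (Ψ.Iso.inv_mem h₂)
  have dM : res F d ∈ M := C.hH (Subgroup.mem_inf.2 ⟨res_mem_GamL _, by
    simpa only [hd, map_mul, map_inv] using C.comm _ (C.h.res_Iso h₁) _ (C.h.res_Iso h₂)⟩)
  have e3 : ∀ v, Ψ.B e ((res F d)⁻¹ v) = m⁻¹ * m⁻¹ * Ψ.B e v := fun v => by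
    rw [← map_inv, res_apply, ← Iso.B dI, app_inv_app, e2, Ψ.B_smul_left, C.fr.σ]
  have := C.z_eq_one_of_fix (M.mul_mem (M.mul_mem dM hz) (M.inv_mem dM)) (fun v hv => by
    rw [mul_app, mul_app, h1 _ (by rw [e3, hv, mul_zero]), app_inv_app]) hu hu' (by
    rw [mul_app, mul_app, hζ, e3, show m⁻¹ * m⁻¹ * Ψ.B e (g u) = c • b by
      rw [(div_eq_iff b0).1 e1, Algebra.smul_def, Algebra.smul_def]; field_simp, map_smul ζ, hb', smul_zero,
      zero_smul, add_zero, app_inv_app])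
  simpa using this

end Z

theorem eq_of_perp {s t : V ≃ₗ[F] V} (hs : s ∈ M) (ht : t ∈ M)
    (h1 : ∀ v, Ψ.B e v = 0 → s v = t v) : s = t :=
  (inv_mul_eq_one.1 (C.z_eq_one (M.mul_mem (M.inv_mem ht) hs) fun v hv => by
    rw [mul_app, h1 v hv, inv_app_app])).symm

theorem eq_t {u : V ≃ₗ[F] V} (hu : InU Ψ M e u) : ∃ a, u = res F (C.fr.t a) := by
  have e1 : ∀ v, Ψ.B e (u v) = Ψ.B e v := fun v =>
    sub_eq_zero.1 (eq_zero_of_forall_mul C.h.ne fun k => by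
      have := Iso.B (C.hM hu.mem) (k • e) v
      rw [hu.fix, C.BF, C.BF, Ψ.B_smul_left, Ψ.B_smul_left, C.fr.σ] at this
      rw [mul_sub, map_sub, this, sub_self])
  have e2 : ∀ a : K, u (a • w) = a • w - (a * Ψ.B w (u f)) • e := fun a => by
    have := congrArg (fun s : V ≃ₗ[F] V => s f) (C.eq_of_perp (M.mul_mem hu.mem (C.t_mem a))
      (M.mul_mem (C.t_mem a) hu.mem) fun v hv => by
        obtain ⟨k, hk⟩ := hu.app v hv
        rw [mul_app, mul_app, res_apply, res_apply, C.fr.t_perp _ hv, map_sub, hu.fix,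
          C.fr.t_perp _ (by rw [e1, hv]), hk]
        simp [C.fr.simp])
    simp only [mul_app, res_apply, C.fr.t_apply, map_add, map_sub, hu.fix, e1, C.fr.simp,
      mul_one] at this
    linear_combination (norm := module) this
  refine ⟨Ψ.B w (u f) / Ψ.B w w, C.eq_of_perp hu.mem (C.t_mem _) fun v hv => ?_⟩
  obtain ⟨k, hk⟩ := C.fr.exists_add (v' := (Ψ.B w v / Ψ.B w w) • w) hv (by simp [C.fr.simp])
    (by simp [C.fr.ww])
  rw [res_apply, C.fr.t_perp _ hv]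
  conv_lhs => rw [hk, map_add, e2, hu.fix]
  rw [sub_add_eq_add_sub, ← hk]
  congr 2
  ring

theorem exists_d (x : K) : ∃ d, Ψ.B e d = 0 ∧ Ψ.B w d = x * Ψ.B w w ∧
    ∀ y ∈ pt F K e, Φ.B (g y) d = 0 := by
  have : x • w ∈ Φ.perp ((pt F K e).map (g : V →ₗ[F] V)) ⊔ pt F K e := by
    rw [← Φ.perp_perp (_ ⊔ _)]
    intro y hy
    have e1 := Φ.perp_anti le_sup_left hy
    rw [Φ.perp_perp] at e1
    obtain ⟨u, hu, rfl⟩ := e1
    exact C.h.B_zero (C.h.B_pt (C.perp hu (C.h.mem_perp_pt.1 (Φ.perp_anti le_sup_right hy)))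
      (by simp [C.fr.simp]))
  obtain ⟨d, hd, b, hb, e1⟩ := Submodule.mem_sup.1 this
  obtain ⟨k, rfl⟩ := mem_pt.1 hb
  refine ⟨d, ?_, ?_, fun y hy => hd _ ⟨y, hy, rfl⟩⟩
  · simpa [C.fr.simp] using congrArg (Ψ.B e) e1
  · simpa [C.fr.simp] using congrArg (Ψ.B w) e1

theorem inU_of_good {x : K} (hx : x ≠ 0) (hτ : ∀ τ : K →+* K,
      (∀ c : F, τ (algebraMap F K c) = algebraMap F K c) →
        (∀ a, T (τ a * (x * x * Ψ.B w w)) = T (a * (x * x * Ψ.B w w))) → τ = RingHom.id K)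
    {d : V} (d1 : Ψ.B e d = 0) (d2 : Ψ.B w d = x * Ψ.B w w) {s : V ≃ₗ[F] V} (hs : s ∈ M)
    (hs' : s ∈ stab (pt F K e)) (h1 : s (g j) = g j) (h2 : s d - d ∈ pt F K e) : InU Ψ M e s := by
  have hj0 : g j ≠ 0 := g.map_ne_zero_iff.2 C.hj0
  obtain ⟨τ, t1, t2⟩ := (C.hS e C.fr.qe C.fr.ne s hs hs').exists_ringHom C.hgj hj0 h1
  have t3 : ∀ (a : K), ∀ y ∈ pt F K e, s (a • y) = τ a • s y := fun a y hy => by
    obtain ⟨c, rfl⟩ := exists_smul_of_mem_pt (K := K) C.hgj hj0 hy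
    rw [smul_smul, t2, t2, map_mul, smul_smul]
  have p1 : ∀ v, Ψ.B e v = 0 → Ψ.B e (s v) = 0 := fun v => C.h.perp_of_stab (C.hM hs) hs'
  have hi := (stab _).inv_mem hs'
  obtain ⟨a, ha⟩ := C.eq_t (u := s * res F (C.fr.t 1) * s⁻¹)
    ⟨M.mul_mem (M.mul_mem hs (C.t_mem 1)) (M.inv_mem hs), fun k => by
      rw [mul_app, mul_app, C.t_fix _ _ (stab_apply hi (smul_mem_pt k e)), app_inv_app],
      fun v hv => by
        obtain ⟨k, hk⟩ := mem_pt.1 (stab_apply hs' (smul_mem_pt (-(1 * Ψ.B w (s⁻¹ v))) e))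
        exact ⟨k, by rw [mul_app, mul_app, res_apply, C.fr.t_perp _
          (C.h.perp_of_stab (C.hM (M.inv_mem hs)) hi hv), hk, sub_eq_add_neg, ← neg_smul, map_add,
          app_inv_app]⟩⟩
  have e1 : ∀ v, Ψ.B e v = 0 → s (Ψ.B w v • e) = (a * Ψ.B w (s v)) • e := fun v hv => by
    have := congrArg (fun t : V ≃ₗ[F] V => t (s v)) ha
    simpa [mul_app, res_apply, C.fr.t_perp _ hv, C.fr.t_perp _ (p1 v hv)] using this
  obtain ⟨k, hk⟩ := mem_pt.1 h2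
  have e2 : Ψ.B w (s d) = x * Ψ.B w w := by
    rw [eq_add_of_sub_eq hk.symm, map_add, d2, map_smul, C.fr.simp.2.2.2.2.2.2.1, smul_zero,
      zero_add]
  have hxb : x * Ψ.B w w ≠ 0 := mul_ne_zero hx C.fr.ww
  have a0 : a ≠ 0 := fun e' => by simpa [e', d2, hxb, C.fr.ne] using e1 d d1
  have e3 : ∀ c : K, Ψ.B w (s (c • d)) = τ c * (x * Ψ.B w w) := fun c => by
    have := e1 (c • d) (by simp [d1])
    rw [Ψ.B_smul_right, mul_smul, t3 _ _ (smul_mem_pt _ _), e1 d d1, e2, smul_smul] at this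
    refine mul_left_cancel₀ a0 ?_
    rw [← smul_left_injective K C.fr.ne this]; ring
  have e4 := hτ τ t1 fun c => by
    have := Iso.B (C.hM hs) d (c • d)
    rw [C.BF, C.BF, C.fr.B_perp (p1 d d1) (p1 _ (by simp [d1])) e2, e3,
      C.fr.B_perp d1 (by simp [d1]) d2, Ψ.B_smul_right, d2] at this
    convert this using 2 <;> ring
  have e5 : ∀ k : K, s (k • e) = k • e := fun k => by
    obtain ⟨c, hc⟩ := exists_smul_of_mem_pt (K := K) C.hgj hj0 (smul_mem_pt k e)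
    rw [← hc, t2, e4, RingHom.id_apply]
  have e6 : a = 1 := by
    have := e1 d d1
    rw [e5, e2, d2] at this
    exact (mul_eq_right₀ hxb).1 (smul_left_injective K C.fr.ne this).symm
  refine ⟨hs, e5, fun v hv => C.fr.exists_add (p1 v hv) hv ?_⟩
  have := e1 v hv
  rw [e5, e6, one_mul] at this
  exact (smul_left_injective K C.fr.ne this).symm

theorem false : False := by
  classical
  obtain ⟨x, x0, x1, hτ⟩ := exists_good C.h.prime C.odd C.two C.h.ne C.fr.ww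
  obtain ⟨d, d1, d2, d3⟩ := C.exists_d x
  set J := (pt F K e).map (g : V →ₗ[F] V) ⊓ pt F K e with hJ
  set X := fixMod M J d with hX
  have hj : g j ∈ J := ⟨⟨j, C.hj, rfl⟩, C.hgj⟩
  have hj0 : g j ≠ 0 := g.map_ne_zero_iff.2 C.hj0
  have hxb : x * Ψ.B w w ≠ 0 := mul_ne_zero x0 C.fr.ww
  have : Finite (V ≃ₗ[F] V) := Finite.of_injective _ DFunLike.coe_injective
  have hA : ∀ s : X, s ∈ (stab (pt F K e)).subgroupOf X → ∃ a, s.1 = res F (C.fr.t a) := fun s hs =>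
    C.eq_t (C.inU_of_good x0 hτ d1 d2 s.2.1 hs (s.2.2.1 _ hj) s.2.2.2.2)
  have tX : ∀ k : K, k • e ∈ J → res F (C.fr.t (k / (x * Ψ.B w w))) ∈ X := fun k hk =>
    ⟨C.t_mem _, fun y hy => C.t_fix _ y hy.2, by
      rwa [res_apply, C.fr.t_perp _ d1, d2, div_mul_cancel₀ _ hxb, sub_sub_cancel_left, neg_mem_iff]⟩
  have tS : ∀ a, res F (C.fr.t a) ∈ stab (pt F K e) := fun a =>
    mem_stab_of_mapsTo fun y hy => (C.t_fix a y hy).symm ▸ hy
  obtain ⟨k, hk⟩ := mem_pt.1 C.hgj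
  have k0 : k ≠ 0 := fun e' => hj0 (by rw [← hk, e', zero_smul])
  obtain ⟨p, hp⟩ := CharP.exists F
  have : Fact p.Prime := ⟨CharP.char_is_prime F p⟩
  have : CharP K p := charP_of_injective_algebraMap (algebraMap F K).injective p
  obtain ⟨P, hP, hc, dec⟩ := exists_normal_compl (p := p) (A := (stab (pt F K e)).subgroupOf X)
    (fun s => ⟨1, Subtype.ext (Subtype.ext (by
      obtain ⟨a, ha⟩ := hA s s.2
      refine LinearEquiv.ext fun v => ?_
      simp [ha, ← map_pow, res_apply, C.fr.t_pow, C.fr.t_zero]))⟩)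
    (fun s hs t ht => Subtype.ext (by
      obtain ⟨a, ha⟩ := hA s hs
      obtain ⟨b, hb⟩ := hA t ht
      refine LinearEquiv.ext fun v => ?_
      simp [ha, hb, mul_app, res_apply, C.fr.t_t, add_comm]))
    (fun n hn => by
      obtain ⟨a, ha⟩ := hA _ (hn ⟨_, tX k (hk ▸ hj)⟩ (tS _))
      have e1 : ∀ v, n.1 (C.fr.t (k / (x * Ψ.B w w)) v) = C.fr.t a (n.1 v) := fun v => by
        simpa [mul_app, res_apply] using congrArg (fun s : V ≃ₗ[F] V => s (n.1 v)) ha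
      have a0 : a ≠ 0 := fun e' => by
        have := C.fr.eq_smul_of_t (div_ne_zero k0 hxb) (n.1.injective (by
          rw [e1 f, e', C.fr.t_zero]))
        simpa [C.fr.simp] using congrArg (Ψ.B e) this
      refine mem_stab_of_mapsTo (g := n.1) fun y hy => ?_
      rw [C.fr.eq_smul_of_t a0 (v := n.1 y) (by rw [← e1]; exact congrArg _ (C.t_fix _ y hy))]
      exact smul_mem_pt _ _)
  -- the fixed space of `P` meets the point inside `J`
  have gd : Ψ.B e (g⁻¹ d) = 0 := C.h.perp_of' fun k => by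
    rw [Iso.B_inv (C.hM C.max.mem), d3 _ (smul_mem_pt k e)]
  obtain ⟨a, a0, ha⟩ : ∃ a : K, a ≠ 0 ∧ g ((a * Ψ.B w (g⁻¹ d)) • e) ∈ J := by
    by_cases h0 : Ψ.B w (g⁻¹ d) = 0
    · exact ⟨1, one_ne_zero, by rw [h0]; simp⟩
    · obtain ⟨c, hc⟩ := mem_pt.1 C.hj
      refine ⟨c / Ψ.B w (g⁻¹ d), div_ne_zero (fun e' => C.hj0 (by rw [← hc, e', zero_smul])) h0, ?_⟩
      rwa [div_mul_cancel₀ _ h0, hc]
  obtain ⟨y, hy, s, hs, e1⟩ := dec ⟨g * res F (C.fr.t a) * g⁻¹,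
    M.mul_mem (M.mul_mem C.max.mem (C.t_mem a)) (M.inv_mem C.max.mem), by
      rintro _ ⟨⟨y, hy, rfl⟩, -⟩
      rw [LinearEquiv.coe_coe, mul_app, mul_app, inv_app_app, C.t_fix _ y hy], by
      rwa [mul_app, mul_app, res_apply, C.fr.t_perp _ gd, map_sub, app_inv_app, sub_sub_cancel_left,
        neg_mem_iff]⟩
  have key : ∀ z ∈ pt F K e, (∀ y ∈ P, y.1 z = z) → z ∈ J := fun z hz hz' => by
    obtain ⟨b, hb⟩ := hA s hs
    have e2 := congrArg (fun s : X => s.1 z) e1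
    simp only [Subgroup.coe_mul, mul_app, hb, C.t_fix b z hz, hz' y hy] at e2
    refine ⟨⟨g⁻¹ z, ?_, app_inv_app _ _⟩, hz⟩
    rw [C.fr.eq_smul_of_t a0 (v := g⁻¹ z) (g.injective (by rw [app_inv_app]; exact e2))]
    exact smul_mem_pt _ _
  have inv : ∀ s : X, ∀ v, (∀ y ∈ P, y.1 v = v) → ∀ y ∈ P, y.1 (s.1 v - v) = s.1 v - v :=
    fun s v hv y hy => by
      have := hv _ (hP.conj_mem' y hy s)
      rw [map_sub, hv y hy, sub_left_inj]
      exact s.1⁻¹.injective (by rw [inv_app_app]; exact this)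
  obtain ⟨v₀, hv₀⟩ := Φ.exists_B_ne hj0
  have := Fintype.ofFinite P
  set v := ∑ y : P, y.1.1 v₀ with hv
  have v1 : ∀ y ∈ P, y.1 v = v := fun y hy => by
    rw [hv, map_sum]
    exact Fintype.sum_equiv (Equiv.mulLeft (⟨y, hy⟩ : P)) _ _ fun _ => rfl
  have v2 : Φ.B (g j) v ≠ 0 := by
    rw [hv, map_sum, Finset.sum_congr rfl (g := fun _ => Φ.B (g j) v₀) fun y _ => by
      conv_lhs => rw [← y.1.2.2.1 _ hj]
      exact Iso.B (C.hM y.1.2.1) _ _, Finset.sum_const, nsmul_eq_mul, Finset.card_univ,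
      ← Nat.card_eq_fintype_card]
    exact mul_ne_zero (by rwa [Ne, CharP.cast_eq_zero_iff F p]) hv₀
  obtain ⟨u, hu, hu'⟩ := exists_notMem_of_notMem_stab ((stab _).inv_mem_iff.not.2 C.max.ne)
  obtain ⟨c, hc⟩ := mem_range_of_smul_mem C.h.prime hj0 hj C.hgj hu (Y := J) (fun h => by
      obtain ⟨⟨y, hy, rfl⟩, -⟩ := h
      exact hu' (by simpa using hy))
    (a := k * Ψ.B e v / (x * x * Ψ.B w w)) fun y hy hy' => by
      obtain ⟨m, rfl⟩ := mem_pt.1 hy'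
      refine key _ (smul_mem_pt_of _ hy') fun y hy'' => ?_
      have := inv ⟨_, tX m hy⟩ _ (inv ⟨_, tX k (hk ▸ hj)⟩ v v1) y hy''
      simp only [res_apply] at this
      rw [C.fr.t_perp _ (by rw [map_sub, C.fr.B_t, sub_self]), sub_sub_cancel_left, map_neg,
        neg_inj] at this
      have e3 : Ψ.B w (C.fr.t (k / (x * Ψ.B w w)) v - v) = k * Ψ.B e v / x := by
        simp only [C.fr.t_apply, Ψ.bsimp, C.fr.simp.2.2.2.2.2.2.1]
        have := C.fr.ww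
        field_simp
        ring
      rwa [e3, show m / (x * Ψ.B w w) * (k * Ψ.B e v / x) = k * Ψ.B e v / (x * x * Ψ.B w w) * m by
        have := C.fr.ww
        field_simp, mul_smul] at this
  refine v2 ?_
  rw [← hk, C.BF, Ψ.B_smul_left, C.fr.σ, (div_eq_iff (mul_ne_zero (mul_ne_zero x0 x0) C.fr.ww)).1
    hc.symm, ← Algebra.smul_def, map_smul, x1, smul_zero]

end Cf3

namespace Tr

variable [Finite V] [Finite K] [Finite F] (h : Tr Φ Ψ T) (o : Ψ.O3) (two : (2 : F) ≠ 0)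
  (odd : finrank F K ≠ 2) (qr : 4 ≤ finrank F K ∨ finrank F K < Nat.card F)
  (comm : ∀ a ∈ Φ.Iso, ∀ b ∈ Φ.Iso, a * b * a⁻¹ * b⁻¹ ∈ Φ.EG)
include h o two odd qr comm

section
variable (hH : GamL F K V ⊓ Φ.EG ≤ M) (hM : M ≤ Φ.Iso)
  (hS : ∀ e, Ψ.Q e = 0 → e ≠ 0 → ∀ s ∈ M, s ∈ stab (pt F K e) → Semi K s e)
include hH hM hS

theorem o3_pm_of_sing {g : V ≃ₗ[F] V} (hg : g ∈ M) {e : V} (he : Ψ.Q e = 0)
    (hge : Ψ.Q (g e) = 0) : Pm K g e := by
  by_contra hp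
  obtain ⟨h0, g₀, hg₀, hn, h1⟩ := h.exists_conf hH (Or.inl o.dim.ge) hg he hge hp
  obtain ⟨g₁, C, j, hj, hj0, hgj⟩ := exists_maxI hg₀ hn h0 (self_mem_pt e) h1
  obtain ⟨f, w, fr⟩ := o.exists_frame he h0
  exact Cf3.false ⟨h, hH, hM, hS, two, odd, qr, comm, fr, C, hj, hj0, hgj⟩

theorem o3_pm {g : V ≃ₗ[F] V} (hg : g ∈ M) {e : V} (he : Ψ.Q e = 0) : Pm K g e := by
  have k1 := fun g hg e => h.o3_pm_of_sing o two odd qr comm hH hM hS (g := g) hg (e := e)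
  by_contra hp
  have hq : Ψ.Q (g e) ≠ 0 := fun e' => hp (k1 g hg e he e')
  have hvv : Ψ.B (g e) (g e) ≠ 0 := fun e' => hq (h.sing _ e')
  have h0 : e ≠ 0 := fun e' => hq (by rw [e', map_zero, Ψ.Q_zero])
  obtain ⟨k, hu⟩ := not_forall.1 hp
  set A := (pt F K e).map (g : V →ₗ[F] V) ⊓ (LinearMap.ker (Ψ.B (g e))).restrictScalars F with hA
  have dA : finrank F A < finrank F K := by
    rw [← finrank_pt h0, ← LinearEquiv.finrank_map_eq g (pt F K e)]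
    exact Submodule.finrank_lt_finrank_of_lt (SetLike.lt_iff_le_and_exists.2
      ⟨inf_le_left, g e, ⟨e, self_mem_pt e, rfl⟩, fun h => hvv h.2⟩)
  have st : ∀ d ∈ Ψ.Iso, res F d ∈ M → d (g e) = g e →
      ∀ y ∈ (pt F K e).map (g : V →ₗ[F] V), d y ∈ (pt F K e).map (g : V →ₗ[F] V) := by
    rintro d hd hd' h1 _ ⟨b, hb, rfl⟩
    obtain ⟨a, rfl⟩ := mem_pt.1 hb
    have e1 : (g⁻¹ * res F d * g) e = e := by rw [mul_app, mul_app, res_apply, h1, inv_app_app]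
    have := k1 _ (M.mul_mem (M.mul_mem (M.inv_mem hg) hd') hg) e he (by rwa [e1]) a
    rw [e1] at this
    exact ⟨_, this, app_inv_app _ _⟩
  obtain ⟨s, s0, hs⟩ := o.exists_rot hq
  have key : ∀ t : K, ∃ c : F, algebraMap F K c = t * t * s := fun t => by
    by_cases ht : 1 + t * t * s = 0
    · exact ⟨-1, by rw [map_neg, map_one]; linear_combination -ht⟩
    obtain ⟨a, ha, b, hb, e1, e2⟩ := hs t ht
    set d := a * b * a⁻¹ * b⁻¹ with hd
    have dI : d ∈ Ψ.Iso := Ψ.Iso.mul_mem (Ψ.Iso.mul_mem (Ψ.Iso.mul_mem ha hb) (Ψ.Iso.inv_mem ha))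
      (Ψ.Iso.inv_mem hb)
    have dM : res F d ∈ M := hH (Subgroup.mem_inf.2 ⟨res_mem_GamL _, by
      simpa only [hd, map_mul, map_inv] using comm _ (h.res_Iso ha) _ (h.res_Iso hb)⟩)
    have e3 : d⁻¹ (g e) = g e := d.injective (by rw [app_inv_app, e1])
    have p1 : ∀ d ∈ Ψ.Iso, d (g e) = g e → ∀ y, Ψ.B (g e) (d y) = Ψ.B (g e) y := fun d hd h1 y => by
      conv_lhs => rw [← h1]
      exact Iso.B hd _ _
    obtain ⟨c, hc⟩ : ∃ c : F, algebraMap F K c =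
        (4 / (1 + t * t * s) - 2) * (4 / (1 + t * t * s) - 2) - 2 := by
      by_cases h1 : d (g (k • e)) - g (k • e) = 0
      · set u := g (k • e) - (Ψ.B (g e) (g (k • e)) / Ψ.B (g e) (g e)) • g e with hu'
        have u0 : u ≠ 0 := fun e' => hu (sub_eq_zero.1 e' ▸ smul_mem_pt _ _)
        have u1 : d u = u := by rw [hu', map_sub, map_smul d, e1, sub_eq_zero.1 h1]
        have u2 : d⁻¹ u = u := d.injective (by rw [app_inv_app, u1])
        have := e2 u (by simp [hu', hvv])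
        rw [u1, u2, ← two_smul K] at this
        exact ⟨2, (map_ofNat _ 2).trans (smul_left_injective K u0 this)⟩
      · have m1 : g (k • e) ∈ (pt F K e).map (g : V →ₗ[F] V) := ⟨_, smul_mem_pt k e, rfl⟩
        refine mem_range_of_stab h.prime (A := A) ⟨Submodule.sub_mem _ (st d dI dM e1 _ m1) m1, by
          change Ψ.B _ _ = 0
          rw [map_sub, p1 d dI e1, sub_self]⟩ h1 dA fun y hy => ?_
        rw [← e2 y hy.2]
        exact A.add_mem ⟨st d dI dM e1 y hy.1, (p1 d dI e1 y).trans hy.2⟩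
          ⟨st _ (Ψ.Iso.inv_mem dI) (map_inv (res F) d ▸ M.inv_mem dM) e3 y hy.1,
            (p1 _ (Ψ.Iso.inv_mem dI) e3 y).trans hy.2⟩
    obtain ⟨c', hc'⟩ := mem_range_of_sq h.prime odd (c := c + 2)
      (a := 4 / (1 + t * t * s) - 2) (by rw [map_add, hc, map_ofNat]; ring)
    have h4 : (4 : K) ≠ 0 := by
      rw [show (4 : K) = 2 * 2 by norm_num]; exact mul_ne_zero o.two o.two
    refine ⟨4 / (c' + 2) - 1, ?_⟩
    rw [map_sub, map_div₀, map_add, hc', map_ofNat, map_ofNat, map_one, sub_add_cancel,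
      div_div_cancel₀ h4, add_sub_cancel_left]
  obtain ⟨c, hc⟩ := key 1
  obtain ⟨t, ht⟩ := exists_notMem_range h.two_le
  obtain ⟨c', hc'⟩ := key t
  obtain ⟨c'', hc''⟩ := mem_range_of_sq h.prime odd (c := c' / c) (a := t) (by
    rw [map_div₀, hc, hc']; field_simp)
  exact ht _ hc''

end

theorem o3_isMaximalIn (hd : Ψ.d = 3) (hΛ : ∀ c, Φ.π c = 0 → ∃ t, c = Φ.σ t - Φ.ε * t) :
    Geo.IsMaximalIn Φ.EG (GamL F K V ⊓ Φ.EG) := by
  obtain ⟨e, -, h0, he⟩ := Ψ.iso ⊤ (by rw [finrank_top, hd, o.dim])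
  refine h.isMaximalIn_of_pm o.dim.ge he h0 fun M h1 h2 hn g hg x hx => ?_
  have hM := h2.trans Φ.EG_le_Iso
  exact h.o3_pm o two odd qr comm h1 hM
    (fun e he h0 s => h.semi_of_stab h1 hM o.dim.ge hΛ hn he h0) hg hx

end Tr

end Fm

section Bridge

open Matrix

variable {F : Type*} [Field F] [Fintype F]

/-- `O_3(q^r).r` in `Ω_{3r}(q)`, `q` odd, `r` odd, `(q, r) ≠ (3, 3)`. -/
theorem o3_normalizer_isMaximalIn {ι : Type} [Fintype ι] [DecidableEq ι]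
    (hodd : Odd (Fintype.card F)) {r : ℕ} (hr : r.Prime) (h2 : r ≠ 2)
    (hn : 3 * r = Fintype.card ι) (hqr : 4 ≤ r ∨ r < Fintype.card F)
    {Q : (ι → F) → F} (hQ : Geo.IsNondegenerateQuadraticForm Q) {K : Subalgebra F (Matrix ι ι F)}
    (hK : Geo.IsFieldSubalgebra r K) (hsa : Geo.IsSelfAdjointFor (QuadraticMap.polar Q) K) :
    Geo.IsMaximalIn (Geo.omegaGL Q) (Geo.subalgebraNormalizer K ⊓ Geo.omegaGL Q) := by
  have := hr.two_le
  have : Nonempty ι := Fintype.card_pos_iff.1 (by omega)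
  refine normalizer_isMaximalIn_of (mem_omegaGL_iff hQ (by omega)) hK ?_
  let := (isField_of hK).toField
  have h1 := mul_finrank_eq hK
  have hr' : (finrank F K).Prime := hK.finrank_eq ▸ hr
  have h2' := two_ne_zero_of_odd hodd
  obtain ⟨Ψ, T, h, hσ, hε, hπ, hd⟩ := Fm.exists_tr_orth (Φ := fmO hQ) (fun _ => rfl) rfl
    (fun _ => rfl) h2' hr' fun k => hsa k k.2
  refine h.o3_isMaximalIn ⟨hσ, hε, hπ,
    map_ofNat (algebraMap F K) 2 ▸ (map_ne_zero (algebraMap F K)).2 h2',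
    Nat.eq_of_mul_eq_mul_left hr.pos (by omega)⟩ h2' (hK.finrank_eq ▸ h2)
    (by rwa [hK.finrank_eq, Nat.card_eq_fintype_card]) (fun a ha b hb => ?_) hd
    fun c (hc : c = 0) => ⟨0, by simp [hc]⟩
  rw [fmO, EG_fmQuad, ← (nd_qfOf hQ).commutator_eq_EG_of_five_le (by simp; omega)]
  exact ⟨_, Subgroup.commutator_mem_commutator (Subgroup.mem_top ⟨a, mem_Iso_fmQuad.1 ha⟩)
    (Subgroup.mem_top ⟨b, mem_Iso_fmQuad.1 hb⟩), rfl⟩

end Bridge

end Cfsg.Agent.Class.Max
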