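import Mathlib
import Cfsg.Agent.Class.Max.C3Alg2

/-!
Skew-hermitian operators on an extension field of odd prime degree.
-/

set_option autoImplicit false
set_option linter.unusedSectionVars false

namespace Cfsg.Agent.Class.Max

open Module

theorem ringHom_comm {K : Type*} [Field K] [Finite K] (f g : K →+* K) (x : K) :
    f (g x) = g (f x) := by
  obtain ⟨γ, hγ⟩ := IsCyclic.exists_monoid_generator (α := Kˣ)
  have key : ∀ y : K, y ≠ 0 → ∃ n : ℕ, y = γ.1 ^ n := fun y hy =>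
    let ⟨n, hn⟩ := hγ (Units.mk0 y hy); ⟨n, (congrArg Units.val hn).symm⟩
  by_cases hx : x = 0
  · simp [hx]
  obtain ⟨n, rfl⟩ := key x hx
  obtain ⟨i, hi⟩ := key (f γ) (by simp)
  obtain ⟨j, hj⟩ := key (g γ) (by simp)
  simp only [map_pow, hi, hj, ← pow_mul]
  ring

theorem exists_fix_add {K : Type*} [Field K] {s : K →+* K} (ss : ∀ x, s (s x) = x) {m : K}
    (hm : s m ≠ m) (y : K) : ∃ a b, s a = a ∧ s b = b ∧ y = a + m * b := by
  have h1 : m - s m ≠ 0 := sub_ne_zero.2 hm.symm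
  have h2 : s m - m ≠ 0 := sub_ne_zero.2 hm
  refine ⟨y - m * ((y - s y) / (m - s m)), (y - s y) / (m - s m), ?_, ?_, by ring⟩ <;>
  · simp only [map_sub, map_mul, map_div₀, ss]
    field_simp
    ring

variable {F K : Type*} [Field F] [Field K] [Algebra F K] [Finite K]

theorem eq_zero_of_sum_eq_zero {c : (K ≃ₐ[F] K) → K} [Fintype (K ≃ₐ[F] K)]
    (h : ∀ x, ∑ τ, c τ * τ x = 0) (τ : K ≃ₐ[F] K) : c τ = 0 :=
  Fintype.linearIndependent_iff.1 ((linearIndependent_algHom_toLinearMap F K K).comp _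
    AlgEquiv.coe_toAlgHom_injective) c (LinearMap.ext fun x => by simpa using h x) τ

theorem exists_coeff [Fintype (K ≃ₐ[F] K)] (ζ : K →ₗ[F] K) :
    ∃ c : (K ≃ₐ[F] K) → K, ∀ x, ζ x = ∑ τ, c τ * τ x := by
  have := ((linearIndependent_algHom_toLinearMap F K K).comp _
    AlgEquiv.coe_toAlgHom_injective).span_eq_top_of_card_eq_finrank' (by
      rw [Module.finrank_linearMap_self, ← Nat.card_eq_fintype_card, IsGalois.card_aut_eq_finrank])
  obtain ⟨c, hc⟩ := (Submodule.mem_span_range_iff_exists_fun K).1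
    (this ▸ Submodule.mem_top (x := ζ))
  exact ⟨c, fun x => by simp [← hc]⟩

/-- An extension of odd prime degree with compatible involutions and the trace. -/
structure Cj (σ : F →+* F) (s : K →+* K) (T : Dual F K) : Prop where
  prime : (finrank F K).Prime
  odd : finrank F K ≠ 2
  σσ : ∀ c, σ (σ c) = c
  ss : ∀ x, s (s x) = x
  sF : ∀ c, s (algebraMap F K c) = algebraMap F K (σ c)
  ne : σ ≠ RingHom.id F
  T_ne : T ≠ 0
  Ts : ∀ x, T (s x) = σ (T x)
  Tτ : ∀ (τ : K ≃ₐ[F] K) x, T (τ x) = T x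

namespace Cj

variable {σ : F →+* F} {s : K →+* K} {T : Dual F K} (h : Cj σ s T)
include h

theorem three_le : 3 ≤ finrank F K := by
  have := h.prime.two_le
  have := h.odd
  omega

theorem s_smul (c : F) (x : K) : s (c • x) = σ c • s x := by
  rw [Algebra.smul_def, map_mul, h.sF, Algebra.smul_def]

theorem exists_omega : ∃ ω : F, σ ω ≠ ω ∧ s (algebraMap F K ω) ≠ algebraMap F K ω := by
  obtain ⟨ω, hω⟩ := DFunLike.ne_iff.1 h.ne
  exact ⟨ω, hω, by rwa [h.sF, Ne, (algebraMap F K).injective.eq_iff]⟩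

theorem exists_iota : ∃ ι : F, ι ≠ 0 ∧ σ ι = -ι := by
  obtain ⟨ω, hω, -⟩ := h.exists_omega
  exact ⟨σ ω - ω, sub_ne_zero.2 hω, by rw [map_sub, h.σσ, neg_sub]⟩

/-- Every element is an `F`-combination of two fixed elements. -/
theorem exists_add_smul (y : K) : ∃ (ω : F) (a b : K), s a = a ∧ s b = b ∧ y = a + ω • b ∧
    ∀ W : Submodule F K, y ∈ W → s y ∈ W → a ∈ W ∧ b ∈ W := by
  obtain ⟨ω, h1, h2⟩ := h.exists_omega
  obtain ⟨a, b, ha, hb, rfl⟩ := exists_fix_add h.ss h2 y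
  refine ⟨ω, a, b, ha, hb, by rw [Algebra.smul_def], fun W w1 w2 => ?_⟩
  rw [map_add, ← Algebra.smul_def, h.s_smul, ha, hb] at w2
  rw [← Algebra.smul_def] at w1
  have : b ∈ W := by
    have := W.smul_mem (σ ω - ω)⁻¹ (W.sub_mem w2 w1)
    rwa [add_sub_add_left_eq_sub, ← sub_smul, inv_smul_smul₀ (sub_ne_zero.2 h1)] at this
  exact ⟨by simpa using W.sub_mem w1 (W.smul_mem ω this), this⟩

theorem fix {τ : K ≃ₐ[F] K} (hτ : τ ≠ 1) {a : K} (ha : τ a = a) : ∃ c : F, algebraMap F K c = a :=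
  Fm.mem_range_of_fix h.prime (s := (τ : K →+* K)) τ.commutes
    (fun e => hτ (AlgEquiv.ext fun x => RingHom.congr_fun e x)) ha

theorem sq_ne {τ : K ≃ₐ[F] K} (hτ : τ ≠ 1) : τ * τ ≠ 1 := fun e => by
  have := orderOf_dvd_natCard τ
  rw [IsGalois.card_aut_eq_finrank, orderOf_eq_prime (p := 2) (by rwa [sq]) hτ] at this
  exact h.odd ((h.prime.eq_one_or_self_of_dvd 2 this).resolve_left (by simp)).symm

omit h in
theorem comm (τ : K ≃ₐ[F] K) (x : K) : s (τ x) = τ (s x) := ringHom_comm s (τ : K →+* K) x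

theorem exists_fix_notMem : ∃ x, s x = x ∧ ∀ c : F, algebraMap F K c ≠ x := by
  obtain ⟨y, hy⟩ := exists_notMem_range h.prime.two_le
  obtain ⟨ω, a, b, ha, hb, rfl, -⟩ := h.exists_add_smul y
  by_contra hc
  push Not at hc
  obtain ⟨c, rfl⟩ := hc a ha
  obtain ⟨d, rfl⟩ := hc b hb
  exact hy (c + ω * d) (by rw [map_add, map_mul, Algebra.smul_def])

/-- A subring containing the twisted norms is everything. -/
theorem subring_eq_top {τ : K ≃ₐ[F] K} (hτ : τ ≠ 1) (S : Subring K)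
    (h1 : ∀ a, s a = a → a * τ a ∈ S) {a₀ : K} (ha : a₀ * s a₀ = 1)
    (ha' : ∀ c : F, algebraMap F K c ≠ a₀) (h2 : a₀ * τ (s a₀) ∈ S) (y : K) : y ∈ S := by
  have k1 : ∀ a, s a = a → a + τ a ∈ S := fun a ha => by
    convert S.sub_mem (S.sub_mem (h1 (a + 1) (by simp [ha])) (h1 a ha)) S.one_mem using 1
    simp only [map_add, map_one]; ring
  obtain ⟨x, hx, hx'⟩ : ∃ x, s x = x ∧ ∀ c : F, algebraMap F K c ≠ x + τ x := by
    by_contra hc
    push Not at hc
    refine h.sq_ne hτ (AlgEquiv.ext fun y => ?_)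
    obtain ⟨ω, a, b, ha, hb, rfl, -⟩ := h.exists_add_smul y
    have key : ∀ a, s a = a → τ (τ a) = a := fun a ha => by
      obtain ⟨c, hc⟩ := hc a ha
      have := τ.commutes c
      rw [hc, map_add] at this
      linear_combination this
    simp [key a ha, key b hb]
  set u := x + τ x with hu
  have u0 : u ≠ 0 := fun e => hx' 0 (by rw [e, map_zero])
  have us : s u = u := by rw [hu, map_add, comm, hx]
  have k2 : ∀ c : F, σ c = c → algebraMap F K c ∈ S := fun c hc => by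
    have := Fintype.ofFinite K
    have e1 := S.mul_mem (k1 (c • x) (by rw [h.s_smul, hc, hx]))
      (S.pow_mem (k1 x hx) (Fintype.card K - 2))
    have e2 := FiniteField.pow_card_sub_one_eq_one u u0
    rw [show Fintype.card K - 1 = Fintype.card K - 2 + 1 by
      have := Fintype.one_lt_card (α := K); omega, pow_succ'] at e2
    rwa [map_smul, ← smul_add, ← hu, smul_mul_assoc, e2, ← Algebra.algebraMap_eq_smul_one] at e1
  have k3 : ∀ y, s y = y → y ∈ S := fun y hy => by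
    have : y ∈ Algebra.adjoin F {u} := by
      rcases (Subalgebra.isSimpleOrder_of_finrank_prime F K h.prime).eq_bot_or_eq_top
        (Algebra.adjoin F {u}) with e | e
      · obtain ⟨c, hc⟩ := Algebra.mem_bot.1 (e ▸ Algebra.self_mem_adjoin_singleton F u)
        exact absurd hc (hx' c)
      · exact e ▸ Algebra.mem_top
    rw [Algebra.adjoin_singleton_eq_range_aeval] at this
    obtain ⟨p, hp⟩ := this
    obtain ⟨t, ht⟩ := exists_add_conj_eq h.ne h.σσ (map_one σ)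
    have e1 : y = ∑ i ∈ Finset.range (p.natDegree + 1), p.coeff i • u ^ i := by
      rw [← hp, ← Polynomial.aeval_eq_sum_range]; rfl
    have e2 : y = t • y + s (t • y) := by rw [h.s_smul, hy, ← add_smul, ht, one_smul]
    rw [e2, e1, Finset.smul_sum, map_sum, ← Finset.sum_add_distrib]
    refine S.sum_mem fun i _ => ?_
    rw [smul_smul, h.s_smul, map_pow, us, ← add_smul, Algebra.smul_def]
    exact S.mul_mem (k2 _ (by rw [map_add, h.σσ, add_comm])) (S.pow_mem (k1 x hx) i)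
  obtain ⟨a, b, e1, e2, rfl⟩ := exists_fix_add h.ss (m := a₀ * τ (s a₀)) (fun e => by
    rw [map_mul, comm, h.ss] at e
    have e3 := congrArg τ ha
    rw [map_mul, map_one] at e3
    have e4 : (τ a₀ - a₀) * (τ a₀ + a₀) = 0 := by
      linear_combination a₀ * τ a₀ * e - τ a₀ * τ a₀ * ha + a₀ * a₀ * e3
    obtain ⟨c, hc⟩ := h.fix (h.sq_ne hτ) (a := a₀) (by
      rcases mul_eq_zero.1 e4 with e5 | e5
      · rw [AlgEquiv.mul_apply, sub_eq_zero.1 e5, sub_eq_zero.1 e5]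
      · rw [AlgEquiv.mul_apply, eq_neg_of_add_eq_zero_left e5, map_neg,
          eq_neg_of_add_eq_zero_left e5, neg_neg])
    exact ha' c hc) y
  exact S.add_mem (k3 a e1) (S.mul_mem h2 (k3 b e2))

/-- A group of skew operators stable under the torus and containing a non-scalar operator
contains a full Galois component. -/
theorem exists_comp (A : AddSubgroup (K →ₗ[F] K))
    (h1 : ∀ a, s a = a → ∀ ζ ∈ A, ∃ ζ' ∈ A, ∀ x, ζ' x = a * ζ (s a * x))
    {a₀ : K} (ha : a₀ * s a₀ = 1) (ha' : ∀ c : F, algebraMap F K c ≠ a₀)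
    (h2 : ∀ ζ ∈ A, ∃ ζ' ∈ A, ∀ x, ζ' x = a₀ * ζ (s a₀ * x))
    (h3 : ∀ ζ ∈ A, ∀ x y, T (s x * ζ y) + T (s (ζ x) * y) = 0)
    {ζ₀ : K →ₗ[F] K} (h4 : ζ₀ ∈ A) (h5 : ¬ ∃ c, ∀ x, ζ₀ x = c * x) :
    ∃ τ : K ≃ₐ[F] K, τ ≠ 1 ∧ ∀ c, ∃ ζ ∈ A, ∀ x, ζ x = c * τ x - τ⁻¹ (s c * x) := by
  classical
  let B : AddSubgroup ((K ≃ₐ[F] K) → K) :=
    { carrier := {c | ∃ ζ ∈ A, ∀ x, ζ x = ∑ τ, c τ * τ x}
      add_mem' := by
        rintro c c' ⟨ζ, e1, e2⟩ ⟨ζ', e3, e4⟩
        exact ⟨ζ + ζ', A.add_mem e1 e3, fun x => by simp [e2, e4, add_mul, Finset.sum_add_distrib]⟩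
      zero_mem' := ⟨0, A.zero_mem, by simp⟩
      neg_mem' := by
        rintro c ⟨ζ, e1, e2⟩
        exact ⟨-ζ, A.neg_mem e1, fun x => by simp [e2]⟩ }
  let R : Subring ((K ≃ₐ[F] K) → K) :=
    { carrier := {m | ∀ c ∈ B, m * c ∈ B}
      mul_mem' := fun {a b} ha hb c hc => by rw [mul_assoc]; exact ha _ (hb c hc)
      one_mem' := fun c hc => by rwa [one_mul]
      add_mem' := fun {a b} ha hb c hc => by rw [add_mul]; exact B.add_mem (ha c hc) (hb c hc)
      zero_mem' := fun c _ => by rw [zero_mul]; exact B.zero_mem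
      neg_mem' := fun {a} ha c hc => by rw [neg_mul]; exact B.neg_mem (ha c hc) }
  have key : ∀ a, (∀ ζ ∈ A, ∃ ζ' ∈ A, ∀ x, ζ' x = a * ζ (s a * x)) →
      (fun τ => a * τ (s a)) ∈ R := by
    rintro a ha c ⟨ζ, e1, e2⟩
    obtain ⟨ζ', e3, e4⟩ := ha ζ e1
    refine ⟨ζ', e3, fun x => ?_⟩
    rw [e4, e2, Finset.mul_sum]
    exact Finset.sum_congr rfl fun τ _ => by simp only [map_mul, Pi.mul_apply]; ring
  have k1 : ∀ a, s a = a → (fun τ => a * τ a) ∈ R := fun a ha => by simpa [ha] using key a (h1 a ha)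
  obtain ⟨c, hc⟩ := exists_coeff ζ₀
  obtain ⟨τ, hτ, cτ⟩ : ∃ τ, τ ≠ 1 ∧ c τ ≠ 0 := by
    by_contra hcon
    push Not at hcon
    exact h5 ⟨c 1, fun x => by
      rw [hc, Finset.sum_eq_single 1 (fun τ _ e => by rw [hcon τ e, zero_mul]) (by simp)]; rfl⟩
  have hττ : τ⁻¹ ≠ τ := fun e => h.sq_ne hτ (by rw [← inv_eq_iff_mul_eq_one, e])
  obtain ⟨x, hx, hx'⟩ := h.exists_fix_notMem
  have inj : ∀ ρ ρ' : K ≃ₐ[F] K, ρ x = ρ' x → ρ = ρ' := fun ρ ρ' e => by
    by_contra hne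
    obtain ⟨c, hc⟩ := h.fix (τ := ρ'⁻¹ * ρ) (fun e => hne (inv_mul_eq_one.1 e).symm) (a := x)
      (by rw [AlgEquiv.mul_apply, e]; exact ρ'.symm_apply_apply x)
    exact hx' c hc
  have k2 : ∀ ρ : K ≃ₐ[F] K, (fun τ' => (ρ x - τ' x) * (τ' (ρ x) - x)) ∈ R := fun ρ => by
    have e1 : s (x * ρ x) = x * ρ x := by rw [map_mul, comm, hx]
    convert R.sub_mem (R.add_mem (k1 (ρ x) (by rw [comm, hx])) (k1 x hx)) (R.sub_mem (R.sub_mem
      (k1 (x * ρ x + 1) (by rw [map_add, e1, map_one])) (k1 _ e1)) R.one_mem) using 1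
    ext τ'
    simp only [map_add, map_mul, map_one, Pi.sub_apply, Pi.add_apply, Pi.one_apply]
    ring
  have k3 := R.prod_mem (t := Finset.univ \ {τ, τ⁻¹}) fun ρ _ => k2 ρ
  set m := ∏ ρ ∈ Finset.univ \ {τ, τ⁻¹}, fun τ' : K ≃ₐ[F] K => (ρ x - τ' x) * (τ' (ρ x) - x)
    with hm
  have m1 : m τ ≠ 0 := by
    rw [hm, Finset.prod_apply, Finset.prod_ne_zero_iff]
    intro ρ hρ
    simp only [Finset.mem_sdiff, Finset.mem_univ, Finset.mem_insert, Finset.mem_singleton, true_and,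
      not_or] at hρ
    exact mul_ne_zero (sub_ne_zero.2 fun e => hρ.1 (inj _ _ e)) (sub_ne_zero.2 fun e =>
      hρ.2 (eq_inv_of_mul_eq_one_right (inj (τ * ρ) 1 e)))
  have m2 : ∀ ρ, ρ ≠ τ → ρ ≠ τ⁻¹ → m ρ = 0 := fun ρ e1 e2 => by
    rw [hm, Finset.prod_apply]
    exact Finset.prod_eq_zero (i := ρ) (by simp [e1, e2]) (by simp)
  refine ⟨τ, hτ, fun y => ?_⟩
  obtain ⟨n, hn, e1⟩ := h.subring_eq_top hτ (R.map (Pi.evalRingHom _ τ))
    (fun a ha => ⟨_, k1 a ha, rfl⟩) ha ha' ⟨_, key a₀ h2, rfl⟩ (y / (m τ * c τ))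
  obtain ⟨ζ, e2, e3⟩ := hn _ (k3 c ⟨ζ₀, h4, hc⟩)
  have e4 : ∀ z, ζ z = y * τ z + (n * (m * c)) τ⁻¹ * τ⁻¹ z := fun z => by
    rw [e3, Finset.sum_eq_add τ τ⁻¹ hττ.symm (fun ρ _ e => by simp [m2 ρ e.1 e.2]) (by simp)
      (by simp), Pi.mul_apply, Pi.mul_apply, show n τ = _ from e1,
      div_mul_cancel₀ _ (mul_ne_zero m1 cτ)]
  refine ⟨ζ, e2, fun z => ?_⟩
  generalize (n * (m * c)) τ⁻¹ = y' at e4
  have e5 : ∀ z, (τ⁻¹ y + s y') * τ⁻¹ z + (τ y' + s y) * τ z = 0 := fun z =>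
    eq_zero_of_forall_mul h.T_ne fun w => by
      have := h3 ζ e2 (s z) w
      rw [e4, e4, h.ss, mul_add, map_add T, ← h.Tτ τ⁻¹ (z * _), ← h.Tτ τ (z * (y' * _))] at this
      simp only [map_mul, map_add s, comm, h.ss, ← AlgEquiv.mul_apply, inv_mul_cancel,
        mul_inv_cancel, AlgEquiv.one_apply] at this
      rw [← this, ← map_add, ← map_add]
      congr 1; ring
  have e6 := eq_zero_of_sum_eq_zero (F := F) (c := Pi.single τ⁻¹ (τ⁻¹ y + s y') + Pi.single τ (τ y' + s y))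
    (fun z => by simpa [add_mul, Finset.sum_add_distrib, Pi.single_apply] using e5 z) τ
  rw [Pi.add_apply, Pi.single_eq_of_ne hττ.symm, Pi.single_eq_same, zero_add] at e6
  rw [e4, map_mul, eq_neg_of_add_eq_zero_right e6, map_neg, ← AlgEquiv.mul_apply, inv_mul_cancel]
  simp

section Comp

variable {A : AddSubgroup (K →ₗ[F] K)} {τ : K ≃ₐ[F] K} (hτ : τ ≠ 1)
  (h1 : ∀ c, s c = -c → ∃ ζ ∈ A, ∀ x, ζ x = c * x)
  (h2 : ∀ c, ∃ ζ ∈ A, ∀ x, ζ x = c * τ x - τ⁻¹ (s c * x))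
include hτ h1 h2

omit hτ in
theorem exists_of_skew {β d c : K} (hβ : β ≠ 0) (hc : s c = -c) : ∃ ζ ∈ A, ∀ y,
    s β * ζ (y * β) = c * y + d * τ y - τ⁻¹ (s d * y) := by
  have hs : s β ≠ 0 := (map_ne_zero s).2 hβ
  obtain ⟨ζ, e1, e2⟩ := h1 (c / (β * s β)) (by rw [map_div₀, map_mul, h.ss, hc, mul_comm, neg_div])
  obtain ⟨ζ', e3, e4⟩ := h2 (d / (τ β * s β))
  refine ⟨ζ + ζ', A.add_mem e1 e3, fun y => ?_⟩
  have : τ (s β) ≠ 0 := (map_ne_zero τ).2 hs
  have : τ β ≠ 0 := (map_ne_zero τ).2 hβ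
  rw [LinearMap.add_apply, e2, e4, show s (d / (τ β * s β)) * (y * β) = s d * y / τ (s β) by
    rw [map_div₀, map_mul, comm, h.ss]; field_simp, map_div₀, ← AlgEquiv.mul_apply, inv_mul_cancel,
    AlgEquiv.one_apply, map_mul τ]
  field_simp
  ring

/-- Local transitivity. -/
theorem exists_apply_eq {β y : K} (hβ : β ≠ 0) (hy : T (s β * y) = 0) : ∃ ζ ∈ A, ζ β = y := by
  let N : K →ₗ[F] K := LinearMap.id - (τ⁻¹).toLinearMap
  have e1 : LinearMap.range N = LinearMap.ker T := by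
    refine Submodule.eq_of_le_of_finrank_le (by rintro _ ⟨x, rfl⟩; simp [N, h.Tτ]) ?_
    have e1 := N.finrank_range_add_finrank_ker
    have e2 : finrank F (LinearMap.ker N) ≤ 1 := by
      refine (Submodule.finrank_mono (t := Submodule.span F {1}) fun a ha => ?_).trans
        ((finrank_span_le_card ({1} : Set K)).trans (by simp))
      obtain ⟨c, rfl⟩ := h.fix (inv_ne_one.2 hτ) (sub_eq_zero.1 ha).symm
      exact Submodule.mem_span_singleton.2 ⟨c, (Algebra.algebraMap_eq_smul_one c).symm⟩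
    have e3 := Submodule.finrank_lt (LinearMap.ker_eq_top.not.2 h.T_ne)
    omega
  obtain ⟨g, hg⟩ : s β * y ∈ LinearMap.range N := e1 ▸ hy
  replace hg : g - τ⁻¹ g = s β * y := hg
  obtain ⟨ζ, e2, e3⟩ := h.exists_of_skew h1 h2 (d := g) (c := τ⁻¹ (s g) - τ⁻¹ g) hβ
    (by rw [map_sub, comm, comm, h.ss, neg_sub])
  refine ⟨ζ, e2, mul_left_cancel₀ ((map_ne_zero s).2 hβ) ?_⟩
  have := e3 1
  simp only [one_mul, mul_one, map_one] at this
  linear_combination this + hg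

theorem exists_second {β y : K} (hβ : β ≠ 0) (hy : ∀ c : F, algebraMap F K c ≠ y) :
    ∃ ζ ∈ A, ζ β = 0 ∧ T (s (y * β) * ζ (y * β)) ≠ 0 := by
  obtain ⟨ι, ι0, ι1⟩ := h.exists_iota
  obtain ⟨g, g1, g2⟩ : ∃ g, s g = g ∧ T g ≠ 0 := by
    obtain ⟨x, hx⟩ := DFunLike.ne_iff.1 h.T_ne
    obtain ⟨ω, a, b, ha, hb, rfl, -⟩ := h.exists_add_smul x
    by_contra hc
    push Not at hc
    exact hx (by simp [hc a ha, hc b hb])
  have n0 : y - τ y ≠ 0 := fun e => let ⟨c, hc⟩ := h.fix hτ (sub_eq_zero.1 e).symm; hy c hc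
  have n1 : s y - τ (s y) ≠ 0 := by rwa [← comm, ← map_sub, map_ne_zero]
  set d := (ι • g) / ((y - τ y) * (s y - τ (s y))) with hd
  have d1 : s d = -d := by
    simp only [hd, map_div₀, map_mul, map_sub, comm, h.ss, h.s_smul, ι1, g1, neg_smul, neg_div,
      mul_comm]
  obtain ⟨ζ, e2, e3⟩ := h.exists_of_skew h1 h2 (d := d) (c := -(d + τ⁻¹ d)) hβ
    (by rw [map_neg, map_add, comm, d1, map_neg]; ring)
  refine ⟨ζ, e2, mul_left_cancel₀ ((map_ne_zero s).2 hβ) ?_, ?_⟩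
  · simpa [d1] using e3 1
  · have e4 : T (s (y * β) * ζ (y * β)) = -T (d * ((y - τ y) * (s y - τ (s y)))) := by
      have e5 := h.Tτ τ (τ⁻¹ d * (y * s y))
      have e6 := h.Tτ τ (s y * τ⁻¹ (d * y))
      simp only [map_mul τ, ← AlgEquiv.mul_apply, mul_inv_cancel, AlgEquiv.one_apply] at e5 e6
      rw [map_mul s, mul_assoc, e3, d1, neg_mul d, map_neg, map_mul τ⁻¹,
        show s y * (-(d + τ⁻¹ d) * y + d * τ y - -(τ⁻¹ d * τ⁻¹ y)) =
          -(d * ((y - τ y) * (s y - τ (s y)))) + (d * (τ y * τ (s y)) - τ⁻¹ d * (y * s y)) +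
            (s y * (τ⁻¹ d * τ⁻¹ y) - τ (s y) * (d * y)) by ring, map_add, map_add, map_sub,
        map_sub, e5, e6, map_neg, map_mul τ⁻¹]
      ring
    rw [e4, hd, div_mul_cancel₀ _ (mul_ne_zero n0 n1), map_smul]
    simp [ι0, g2]

end Comp

theorem exists_fix_ker (m : K) : ∃ a, a ≠ 0 ∧ s a = a ∧ T (a * m) = 0 := by
  obtain ⟨x, -, x0, hx⟩ := exists_ne_zero_ker [T ∘ₗ LinearMap.mulRight F m,
    T ∘ₗ LinearMap.mulRight F (s m)] (⊤ : Submodule F K) (by have := h.three_le; simp; omega)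
  obtain ⟨ω, a, b, ha, hb, rfl, hW⟩ := h.exists_add_smul x
  obtain ⟨e1, e2⟩ := hW (LinearMap.ker (T ∘ₗ LinearMap.mulRight F m)) (hx _ (by simp)) (by
    have : T ((a + ω • b) * s m) = 0 := hx (T ∘ₗ LinearMap.mulRight F (s m)) (by simp)
    change T (_ * m) = 0
    rw [← h.ss m, ← map_mul, h.Ts, this, map_zero])
  by_cases a0 : a = 0
  · exact ⟨b, fun e => x0 (by simp [a0, e]), hb, e2⟩
  · exact ⟨a, a0, ha, e1⟩

theorem exists_good : ∃ a, s a = a ∧ T a = 0 ∧ ∀ c : F, algebraMap F K c ≠ a := by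
  obtain ⟨x, hx, hx'⟩ : ∃ x ∈ LinearMap.ker T, x ∉ Submodule.span F {(1 : K)} := by
    by_contra hc
    push Not at hc
    have e1 := (Submodule.finrank_mono (show LinearMap.ker T ≤ _ from hc)).trans
      ((finrank_span_le_card ({1} : Set K)).trans (by simp : _ ≤ 1))
    have e2 := finrank_le_inf_ker ⊤ T
    rw [top_inf_eq, finrank_top] at e2
    have := h.three_le
    omega
  obtain ⟨ω, a, b, ha, hb, rfl, hW⟩ := h.exists_add_smul x
  obtain ⟨e1, e2⟩ := hW _ hx (by rw [LinearMap.mem_ker, h.Ts, LinearMap.mem_ker.1 hx, map_zero])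
  by_contra hc
  push Not at hc
  obtain ⟨c, rfl⟩ := hc a ha e1
  obtain ⟨d, rfl⟩ := hc b hb e2
  exact hx' (Submodule.mem_span_singleton.2 ⟨c + ω * d, by
    simp [Algebra.smul_def]⟩)

omit h in
theorem mul_lt_pow {q r : ℕ} (hq : 2 ≤ q) (hr : 3 ≤ r) (h : 3 ≤ q ∨ 4 ≤ r) :
    r * (q + 1) < q ^ r + 1 := by
  have step : ∀ r, 2 ≤ r → r * (q + 1) < q ^ r + 1 → (r + 1) * (q + 1) < q ^ (r + 1) + 1 :=
    fun r h1 h2 => by
      rw [pow_succ]
      nlinarith [Nat.mul_le_mul_left (q ^ r) hq, Nat.mul_le_mul_right (q + 1) h1]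
  rcases h with h | h
  · induction r, hr using Nat.le_induction with
    | base => nlinarith [Nat.mul_le_mul h h]
    | succ r h1 ih => exact step r (by omega) ih
  · induction r, h using Nat.le_induction with
    | base => nlinarith [Nat.mul_le_mul hq hq, Nat.mul_le_mul (Nat.mul_le_mul hq hq) hq]
    | succ r h1 ih => exact step r (by omega) (ih (by omega))

/-- An element of norm one for both norms outside the ground field. -/
theorem exists_a₀ {q : ℕ} (hF : Nat.card F = q ^ 2) (hσ : ∀ c, σ c = c ^ q)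
    (hq : 3 ≤ q ∨ 4 ≤ finrank F K) :
    ∃ a, a * s a = 1 ∧ Algebra.norm F a = 1 ∧ ∀ c : F, algebraMap F K c ≠ a := by
  have := Finite.of_injective _ (algebraMap F K).injective
  have := Fintype.ofFinite K
  obtain ⟨γ, hγ⟩ := IsCyclic.exists_ofOrder_eq_natCard (α := Kˣ)
  obtain ⟨τ, hτ⟩ : ∃ τ : K ≃ₐ[F] K, τ ≠ 1 := by
    have : Nontrivial (K ≃ₐ[F] K) := Finite.one_lt_card_iff_nontrivial.1 (by
      rw [IsGalois.card_aut_eq_finrank]; exact h.prime.one_lt)
    exact exists_ne 1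
  have g0 : s γ ≠ 0 := (map_ne_zero s).2 γ.ne_zero
  set y := γ.1 / s γ with hy
  have y0 : y ≠ 0 := div_ne_zero γ.ne_zero g0
  have y1 : y * s y = 1 := by rw [hy, map_div₀, h.ss]; field_simp
  have n1 : Algebra.norm F (τ y / y) = 1 := mul_right_cancel₀ (Algebra.norm_ne_zero_iff.2 y0) (by
    rw [← map_mul, div_mul_cancel₀ _ y0, Algebra.norm_eq_of_algEquiv, one_mul])
  refine ⟨τ y / y, ?_, n1, fun c hc => ?_⟩
  · rw [map_div₀ s, comm, div_mul_div_comm, ← map_mul, y1, map_one, div_one]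
  rw [← hc, Algebra.norm_algebraMap] at n1
  obtain ⟨d, hd⟩ := h.fix hτ (a := y ^ finrank F K) (by
    rw [map_pow, ← div_mul_cancel₀ (τ y) y0, ← hc, mul_pow, ← map_pow, n1, map_one, one_mul])
  have e1 : y ^ (finrank F K * (q + 1)) = 1 := by
    rw [pow_mul, pow_succ', ← hd, ← map_pow, ← hσ, ← h.sF, hd, map_pow, ← mul_pow, y1, one_pow]
  let L := s.eqLocusField (RingHom.id K)
  have := Fintype.ofFinite L
  have e2 := FiniteField.pow_card_sub_one_eq_one (K := L) ⟨γ.1 ^ (finrank F K * (q + 1)), by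
      change s _ = γ.1 ^ _
      rw [hy, div_pow, div_eq_one_iff_eq (pow_ne_zero _ g0)] at e1
      rw [map_pow, e1]⟩ fun e => pow_ne_zero _ γ.ne_zero (congrArg Subtype.val e)
  have e3 : γ ^ (finrank F K * (q + 1) * (Fintype.card L - 1)) = 1 :=
    Units.ext (by simpa [pow_mul] using congrArg Subtype.val e2)
  have q2 : 2 ≤ q := by
    have := Finite.one_lt_card (α := F)
    by_contra hc
    interval_cases q <;> omega
  have c1 : Nat.card K = (q ^ finrank F K) ^ 2 := by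
    rw [Module.natCard_eq_pow_finrank (K := F), hF, ← pow_mul, ← pow_mul, mul_comm]
  have c2 : Fintype.card L ≤ q ^ finrank F K := by
    obtain ⟨ω, -, hω⟩ := h.exists_omega
    have := Nat.card_le_card_of_injective (fun p : L × L => p.1.1 + algebraMap F K ω * p.2.1)
      fun p p' e => by
        have e4 := congrArg s e
        simp only [map_add, map_mul, show s p.1.1 = _ from p.1.2, show s p.2.1 = _ from p.2.2,
          show s p'.1.1 = _ from p'.1.2, show s p'.2.1 = _ from p'.2.2, RingHom.id_apply] at e e4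
        have e5 : p.2.1 = p'.2.1 := mul_left_cancel₀ (sub_ne_zero.2 hω) (by
          linear_combination e4 - e)
        exact Prod.ext (Subtype.ext (by rw [e5] at e; simpa using e)) (Subtype.ext e5)
    rw [Nat.card_prod, c1, Nat.card_eq_fintype_card, ← sq] at this
    exact (Nat.pow_le_pow_iff_left two_ne_zero).1 this
  have c3 := Fintype.one_lt_card (α := L)
  have c4 := Nat.le_of_dvd (Nat.mul_pos (Nat.mul_pos h.prime.pos q.succ_pos) (by omega))
    (orderOf_dvd_of_pow_eq_one e3)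
  rw [hγ, Nat.card_units, c1] at c4
  have c5 := mul_lt_pow q2 h.three_le hq
  generalize q ^ finrank F K = N at *
  generalize finrank F K * (q + 1) = m at *
  obtain ⟨l, hl⟩ : ∃ l, Fintype.card L = l + 1 := ⟨_, (Nat.sub_add_cancel c3.le).symm⟩
  obtain ⟨n, rfl⟩ : ∃ n, N = n + 1 := ⟨N - 1, by omega⟩
  rw [hl, Nat.add_sub_cancel, show (n + 1) ^ 2 - 1 = (n + 2) * n from
    Nat.sub_eq_of_eq_add (by ring)] at c4
  have : m * l ≤ (n + 1) * n := Nat.mul_le_mul (by omega) (by omega)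
  nlinarith

end Cj

end Cfsg.Agent.Class.Max
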