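import Mathlib
import Cfsg.Agent.Class.Max.C3O3
import Cfsg.Agent.Class.Max.C3UAlg

/-!
Maximality of `O_3(27).3` in `Ω_9(3)`.
-/

set_option autoImplicit false
set_option linter.unusedSectionVars false

namespace Cfsg.Agent.Class.Max

open Module

theorem exists_inverting {G : Type*} [Group G] {M : Subgroup G} {g t t' α β : G} (hg : g ∈ M)
    (hα : α ∈ M) (hβ : β ∈ M) (c : g * t' * g⁻¹ * t * (g * t' * g⁻¹)⁻¹ = t) (α1 : α * t * α⁻¹ = t)
    (α2 : α * (g * t' * g⁻¹) * α⁻¹ = t * (g * t' * g⁻¹)) (β1 : β * t' * β⁻¹ = t')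
    (β2 : β * (g⁻¹ * t * g) * β⁻¹ = t' * (g⁻¹ * t * g)) :
    ∃ n ∈ M, t * n * t = n ∧ g * t' * g⁻¹ * n * (g * t' * g⁻¹) = n := by
  set γ := g * β⁻¹ * g⁻¹ with hγ
  have γ1 : MulAut.conj γ (g * t' * g⁻¹) = g * t' * g⁻¹ := by
    conv_lhs => rw [← β1]
    rw [MulAut.conj_apply, hγ]; group
  have γ2 : MulAut.conj γ t = (g * t' * g⁻¹)⁻¹ * t := by
    calc _ = g * β⁻¹ * (t'⁻¹ * (t' * (g⁻¹ * t * g))) * β * g⁻¹ := by
          rw [MulAut.conj_apply, hγ]; group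
      _ = _ := by
          rw [← β2]
          conv_lhs => enter [1, 1, 2, 1]; rw [← β1]
          group
  generalize g * t' * g⁻¹ = s at *
  rw [← MulAut.conj_apply] at α1 α2
  have w1 : MulAut.conj (α * γ * α) t = s⁻¹ := by
    simp only [map_mul, MulAut.mul_apply, α1, γ2, map_inv, α2]; group
  have w2 : MulAut.conj (α * γ * α) s = t := by
    simp only [map_mul, MulAut.mul_apply, α2, γ1, γ2, map_inv, α1]
    rw [show (t * s)⁻¹ * t * (t * s) = s⁻¹ * (t * s) by group, ← mul_inv_eq_iff_eq_mul.1 c,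
      inv_mul_cancel_left]
  have ωM : α * γ * α ∈ M :=
    M.mul_mem (M.mul_mem hα (M.mul_mem (M.mul_mem hg (M.inv_mem hβ)) (M.inv_mem hg))) hα
  generalize α * γ * α = ω at w1 w2 ωM
  have n1 : MulAut.conj (ω * ω) t = t⁻¹ := by rw [map_mul, MulAut.mul_apply, w1, map_inv, w2]
  have n2 : MulAut.conj (ω * ω) s = s⁻¹ := by rw [map_mul, MulAut.mul_apply, w2, w1]
  refine ⟨ω * ω, M.mul_mem ωM ωM, ?_, ?_⟩
  · rw [mul_assoc, eq_mul_of_mul_inv_eq n1, mul_inv_cancel_left]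
  · rw [mul_assoc, eq_mul_of_mul_inv_eq n2, mul_inv_cancel_left]

variable {F K V : Type*} [Field F] [Field K] [Algebra F K] [AddCommGroup V] [Module F V]
  [Module K V] [IsScalarTower F K V]

theorem Semi.exists_ringHom' {s : V ≃ₗ[F] V} {e : V} (h : Semi K s e) (h0 : e ≠ 0) :
    ∃ τ : K →+* K, ∀ a, ∀ y ∈ pt F K e, s (a • y) = τ a • s y := by
  choose τ hτ using h
  have e1 : ∀ a, s (a • e) = τ a • s e := fun a => hτ a e (self_mem_pt e)
  have inj := smul_left_injective K (s.map_ne_zero_iff.2 h0)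
  refine ⟨⟨⟨⟨τ, inj ?_⟩, fun a b => inj ?_⟩, inj ?_, fun a b => inj ?_⟩, hτ⟩
  all_goals dsimp only [RingHom.coe_mk, MonoidHom.coe_mk, OneHom.coe_mk]
  · rw [← e1, one_smul, one_smul]
  · rw [← e1, mul_smul, hτ a _ (smul_mem_pt b e), e1, mul_smul]
  · rw [← e1, zero_smul, map_zero, zero_smul]
  · rw [← e1, add_smul, map_add, e1, e1, add_smul]

omit [Module K V] [IsScalarTower F K V] in
theorem MaxI.inv [FiniteDimensional F V] {X : Subgroup (V ≃ₗ[F] V)} {Y : Submodule F V}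
    {g : V ≃ₗ[F] V} (h : MaxI X Y g) : MaxI X Y g⁻¹ :=
  ⟨X.inv_mem h.mem, (stab _).inv_mem_iff.not.2 h.ne, fun k h1 h2 => (h.max k h1 h2).trans (by
    rw [← LinearEquiv.finrank_map_eq g⁻¹]
    refine Submodule.finrank_mono ?_
    rintro _ ⟨_, ⟨⟨z, hz, rfl⟩, hz'⟩, rfl⟩
    exact ⟨⟨_, hz', rfl⟩, by simpa using hz⟩)⟩

namespace Fm

variable {Φ : Fm F V} {Ψ : Fm K V} {T : Dual F K} {M : Subgroup (V ≃ₗ[F] V)}

omit [Module K V] [IsScalarTower F K V] in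
theorem finrank_inf_perp_le [FiniteDimensional F V] {X Y : Submodule F V}
    (h : finrank F X = finrank F Y) :
    finrank F ↥(Φ.perp X ⊓ Y) ≤ finrank F ↥(X ⊓ Φ.perp Y) := by
  have e1 := Submodule.finrank_mono (show Φ.perp (Φ.perp X ⊔ Y) ≤ X ⊓ Φ.perp Y from
    le_inf ((Φ.perp_anti le_sup_left).trans (Φ.perp_perp X).le) (Φ.perp_anti le_sup_right))
  have e2 := Φ.finrank_add_perp (Φ.perp X ⊔ Y)
  have e3 := Φ.finrank_add_perp X
  have e4 := Submodule.finrank_sup_add_finrank_inf_eq (Φ.perp X) Y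
  omega

variable (Φ Ψ T M) in
/-- The data of a configuration contradicting maximality. -/
structure Cf9 (e f w j : V) (g : V ≃ₗ[F] V) : Prop where
  h : Tr Φ Ψ T
  hH : GamL F K V ⊓ Φ.EG ≤ M
  hM : M ≤ Φ.Iso
  hS : ∀ e, Ψ.Q e = 0 → e ≠ 0 → ∀ s ∈ M, s ∈ stab (pt F K e) → Semi K s e
  two : (2 : F) ≠ 0
  odd : finrank F K ≠ 2
  fr : Ψ.Frame e f w
  z_eq_one : ∀ {z}, z ∈ M → (∀ v, Ψ.B e v = 0 → z v = v) → z = 1
  max : MaxI M (pt F K e) g
  hj : j ∈ pt F K e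
  hj0 : j ≠ 0
  hgj : g j ∈ pt F K e

namespace Cf9

variable [Finite V] [Finite K] [Finite F] {e f w j : V} {g : V ≃ₗ[F] V}
  (C : Cf9 Φ Ψ T M e f w j g)
include C

theorem t_mem (a : K) : res F (C.fr.t a) ∈ M := C.hH (C.h.res_EG (C.fr.t_mem a))

theorem t_fix (a : K) : ∀ b ∈ pt F K e, res F (C.fr.t a) b = b := fun b hb => by
  obtain ⟨k, rfl⟩ := mem_pt.1 hb
  simp [res_apply, C.fr.t_apply, C.fr.simp]

theorem t_mul (a b : K) : res F (C.fr.t a) * res F (C.fr.t b) = res F (C.fr.t (a + b)) :=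
  LinearEquiv.ext fun v => C.fr.t_t a b v

theorem t_inv (a : K) : (res F (C.fr.t a))⁻¹ = res F (C.fr.t (-a)) :=
  inv_eq_of_mul_eq_one_right (LinearEquiv.ext fun v => by
    rw [C.t_mul, add_neg_cancel]; exact C.fr.t_zero v)

theorem mem_of_t {a : K} (ha : a ≠ 0) {v : V} (h : res F (C.fr.t a) v = v) : v ∈ pt F K e :=
  C.fr.eq_smul_of_t ha h ▸ smul_mem_pt _ _

theorem BF (x y : V) : Φ.B x y = T (Ψ.B x y) := C.h.B x y

theorem inv : Cf9 Φ Ψ T M e f w (g j) g⁻¹ :=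
  { C with
    max := C.max.inv
    hj := C.hgj
    hj0 := g.map_ne_zero_iff.2 C.hj0
    hgj := by simpa using C.hj }

theorem eq_of_perp {s t : V ≃ₗ[F] V} (hs : s ∈ M) (ht : t ∈ M)
    (h1 : ∀ v, Ψ.B e v = 0 → s v = t v) : s = t :=
  (inv_mul_eq_one.1 (C.z_eq_one (M.mul_mem (M.inv_mem ht) hs) fun v hv => by
    rw [mul_app, h1 v hv, inv_app_app])).symm

theorem eq_t {u : V ≃ₗ[F] V} (hu : InU Ψ M e u) : ∃ a, u = res F (C.fr.t a) := by
  have e1 : ∀ v, Ψ.B e (u v) = Ψ.B e v := fun v =>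
    sub_eq_zero.1 (eq_zero_of_forall_mul C.h.ne fun k => by
      have := Iso.B (C.hM hu.mem) (k • e) v
      rw [hu.fix, C.BF, C.BF, Ψ.B_smul_left, Ψ.B_smul_left, C.fr.σ] at this
      rw [mul_sub, map_sub, this, sub_self])
  have e2 : ∀ a : K, u (a • w) = a • w - (a * Ψ.B w (u f)) • e := fun a => by
    have := congrArg (fun s : V ≃ₗ[F] V => s f) (C.eq_of_perp (M.mul_mem hu.mem (C.t_mem a))
      (M.mul_mem (C.t_mem a) hu.mem) fun v hv => by
        obtain ⟨k, hk⟩ := hu.app v hv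
        rw [mul_app, mul_app, res_apply, res_apply, C.fr.t_perp _ hv, map_sub, hu.fix,
          C.fr.t_perp _ (by rw [e1, hv]), hk]
        simp [C.fr.simp])
    simp only [mul_app, res_apply, C.fr.t_apply, map_add, map_sub, hu.fix, e1, C.fr.simp,
      mul_one] at this
    linear_combination (norm := module) this
  refine ⟨Ψ.B w (u f) / Ψ.B w w, C.eq_of_perp hu.mem (C.t_mem _) fun v hv => ?_⟩
  obtain ⟨k, hk⟩ := C.fr.exists_add (v' := (Ψ.B w v / Ψ.B w w) • w) hv (by simp [C.fr.simp])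
    (by simp [C.fr.ww])
  rw [res_apply, C.fr.t_perp _ hv]
  conv_lhs => rw [hk, map_add, e2, hu.fix]
  rw [sub_add_eq_add_sub, ← hk]
  congr 2
  ring

theorem conj_t {s : V ≃ₗ[F] V} (hs : s ∈ M) (hs' : s ∈ stab (pt F K e)) (c : K) :
    ∃ a, s * res F (C.fr.t c) * s⁻¹ = res F (C.fr.t a) ∧
      ∀ v, Ψ.B e v = 0 → s ((c * Ψ.B w v) • e) = (a * Ψ.B w (s v)) • e := by
  have hi := (stab _).inv_mem hs'
  obtain ⟨a, ha⟩ := C.eq_t (u := s * res F (C.fr.t c) * s⁻¹)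
    ⟨M.mul_mem (M.mul_mem hs (C.t_mem c)) (M.inv_mem hs), fun k => by
      rw [mul_app, mul_app, C.t_fix _ _ (stab_apply hi (smul_mem_pt k e)), app_inv_app],
      fun v hv => by
        obtain ⟨k, hk⟩ := mem_pt.1 (stab_apply hs' (smul_mem_pt (-(c * Ψ.B w (s⁻¹ v))) e))
        exact ⟨k, by rw [mul_app, mul_app, res_apply, C.fr.t_perp _
          (C.h.perp_of_stab (C.hM (M.inv_mem hs)) hi hv), hk, sub_eq_add_neg, ← neg_smul, map_add,
          app_inv_app]⟩⟩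
  refine ⟨a, ha, fun v hv => ?_⟩
  have := congrArg (fun t : V ≃ₗ[F] V => t (s v)) ha
  simpa [mul_app, res_apply, C.fr.t_perp _ hv,
    C.fr.t_perp _ (C.h.perp_of_stab (C.hM hs) hs' hv)] using this

/-- A conjugate of a root element acting on the point as a field automorphism. -/
theorem exists_gal {u : V} (hu : u ∈ pt F K e) (h1 : Ψ.B e (g u) = 0) (hu' : g u ∉ pt F K e) :
    ∃ a : K, a ≠ 0 ∧ g⁻¹ * res F (C.fr.t a) * g ∈ stab (pt F K e) ∧ ∃ x : K, ∀ y ∈ pt F K e,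
      (g⁻¹ * res F (C.fr.t a) * g) (x • y) = (x + 1) • (g⁻¹ * res F (C.fr.t a) * g) y := by
  have hb : Ψ.B w (g u) ≠ 0 := fun e' => hu' (C.fr.eq_smul h1 e' ▸ smul_mem_pt _ _)
  obtain ⟨k, hk⟩ := mem_pt.1 C.hgj
  obtain ⟨x, rfl⟩ := exists_smul_of_mem_pt (K := K) C.hj C.hj0 hu
  have k0 : k ≠ 0 := fun e' => C.hj0 (g.map_eq_zero_iff.1 (by rw [← hk, e', zero_smul]))
  set t := res F (C.fr.t (-k / Ψ.B w (g (x • j)))) with ht
  have e1 : (g⁻¹ * t * g) (x • j) = (x + 1) • j := g.injective (by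
    rw [mul_app, mul_app, app_inv_app, ht, res_apply, C.fr.t_perp _ h1, div_mul_cancel₀ _ hb,
      add_smul, one_smul, map_add, ← hk, neg_smul, sub_neg_eq_add])
  have hs := C.max.stab_of (C.t_mem _) (C.t_fix _) hu hu' (by
    rw [← ht, ← mul_app t, ← mul_app, ← mul_assoc, e1]; exact smul_mem_pt_of _ C.hj)
  refine ⟨_, div_ne_zero (neg_ne_zero.2 k0) hb, hs, x, fun y hy => ?_⟩
  obtain ⟨b, hb⟩ := C.hS e C.fr.qe C.fr.ne _
    (M.mul_mem (M.mul_mem (M.inv_mem C.max.mem) (C.t_mem _)) C.max.mem) hs x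
  have := hb j C.hj
  rw [← ht, e1, mul_app, mul_app, ht, C.t_fix _ _ C.hgj, inv_app_app] at this
  rw [hb y hy, smul_left_injective K C.hj0 this]

theorem exists_conj {s : V ≃ₗ[F] V} (hs : s ∈ M) (hs' : s ∈ stab (pt F K e)) {x : K}
    (hx : ∀ y ∈ pt F K e, s (x • y) = (x + 1) • s y) {a : K}
    (h1 : s * res F (C.fr.t a) * s⁻¹ = res F (C.fr.t a)) :
    ∃ α ∈ M, α * res F (C.fr.t a) * α⁻¹ = res F (C.fr.t a) ∧
      α * s * α⁻¹ = res F (C.fr.t a) * s := by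
  obtain ⟨c, e1, e2⟩ := C.conj_t hs hs' (x * a)
  obtain ⟨a', e3, e4⟩ := C.conj_t hs hs' a
  have p1 := C.h.perp_of_stab (C.hM (M.inv_mem hs)) ((stab _).inv_mem hs') C.fr.ew
  have e5 : a' = a := by
    have := congrArg (fun t : V ≃ₗ[F] V => Ψ.B f (t w)) (e3.symm.trans h1)
    simpa [res_apply, C.fr.t_perp _ C.fr.ew, C.fr.simp, C.fr.two, C.fr.qw] using this
  have e6 : c = x * a + a := by
    have := e2 _ p1
    rw [mul_assoc, mul_smul, hx _ (smul_mem_pt _ _), e4 _ p1, e5, app_inv_app, smul_smul] at this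
    refine mul_right_cancel₀ C.fr.ww ?_
    rw [← smul_left_injective K C.fr.ne this]; ring
  refine ⟨res F (C.fr.t (-(x * a))), C.t_mem _, ?_, ?_⟩
  · rw [C.t_inv, C.t_mul, C.t_mul]; congr 2; ring
  · rw [C.t_inv, neg_neg, mul_assoc, eq_mul_of_mul_inv_eq e1, ← mul_assoc, C.t_mul, e6]
    congr 3; ring

theorem perp {u : V} (hu : u ∈ pt F K e) (h1 : Ψ.B e (g u) = 0) : g u ∈ pt F K e := by
  by_contra hu'
  obtain ⟨u', v1, v2, v3⟩ : ∃ u' ∈ pt F K e, Ψ.B e (g⁻¹ u') = 0 ∧ g⁻¹ u' ∉ pt F K e := by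
    by_contra hc
    push Not at hc
    have e1 := finrank_inf_perp_le (Φ := Φ) (LinearEquiv.finrank_map_eq g (pt F K e)).symm
    have e2 := Submodule.finrank_mono (show pt F K e ⊓ Φ.perp ((pt F K e).map (g : V →ₗ[F] V)) ≤
        pt F K e ⊓ (pt F K e).map (g : V →ₗ[F] V) from fun y hy => ⟨hy.1, g⁻¹ y, hc y hy.1
      (C.h.perp_of' fun k => by
        rw [Iso.B_inv (C.hM C.max.mem)]; exact hy.2 _ ⟨_, smul_mem_pt k e, rfl⟩), app_inv_app _ _⟩)
    have e3 := Submodule.finrank_lt_finrank_of_lt (show pt F K e ⊓ (pt F K e).map (g : V →ₗ[F] V) <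
        Φ.perp (pt F K e) ⊓ (pt F K e).map (g : V →ₗ[F] V) from SetLike.lt_iff_le_and_exists.2
      ⟨inf_le_inf_right _ fun b hb => C.h.mem_perp_pt.2 (C.h.B_pt_self C.fr.qe hb), g u,
        ⟨C.h.mem_perp_pt.2 h1, u, hu, rfl⟩, fun h => hu' h.1⟩)
    omega
  obtain ⟨a, a0, s1, x, hx⟩ := C.exists_gal hu h1 hu'
  obtain ⟨b, b0, s2, y, hy⟩ := C.inv.exists_gal v1 v2 v3
  rw [inv_inv] at s2 hy
  have gM := C.max.mem
  set t := res F (C.fr.t a) with ht
  set t' := res F (C.fr.t b) with ht'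
  have sM : g * t' * g⁻¹ ∈ M := M.mul_mem (M.mul_mem gM (C.t_mem b)) (M.inv_mem gM)
  have sM' : g⁻¹ * t * g ∈ M := M.mul_mem (M.mul_mem (M.inv_mem gM) (C.t_mem a)) gM
  obtain ⟨a', e1, -⟩ := C.conj_t sM s2 a
  obtain ⟨b', e2, -⟩ := C.conj_t sM' s1 b
  have e3 : a' = a := by
    by_contra hne
    refine hu' (C.mem_of_t (sub_ne_zero.2 hne) ?_)
    rw [sub_eq_add_neg, ← C.t_mul, ← e1, ← C.t_inv, ← ht, show g * t' * g⁻¹ * t * (g * t' * g⁻¹)⁻¹ *
      t⁻¹ = g * (t' * (g⁻¹ * t * g * t' * (g⁻¹ * t * g)⁻¹)⁻¹) * g⁻¹ by group, e2, C.t_inv, ht',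
      C.t_mul, mul_app, mul_app, inv_app_app, C.t_fix _ _ hu]
  rw [e3, ← ht] at e1
  obtain ⟨α, α1, α2, α3⟩ := C.exists_conj sM s2 hy e1
  obtain ⟨β, β1, β2, β3⟩ := C.exists_conj sM' s1 hx (a := b) (by
    rw [← ht']
    calc _ = g⁻¹ * (t * (g * t' * g⁻¹)) * t⁻¹ * g := by group
      _ = g⁻¹ * (g * t' * g⁻¹ * t) * t⁻¹ * g := by rw [mul_inv_eq_iff_eq_mul.1 e1]
      _ = _ := by group)
  obtain ⟨n, nM, n1, n2⟩ := exists_inverting gM α1 β1 e1 α2 α3 β2 β3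
  set s := g * t' * g⁻¹ with hs
  have nS : n ∈ stab (pt F K e) := mem_stab_of_mapsTo fun z hz => C.mem_of_t a0 (by
    rw [← ht]
    conv_rhs => rw [← n1]
    rw [mul_app _ t, ht, C.t_fix _ _ hz]; rfl)
  obtain ⟨ρ, hρ⟩ := (C.hS e C.fr.qe C.fr.ne _ nM nS).exists_ringHom' C.fr.ne
  obtain ⟨τ, hτ⟩ := (C.hS e C.fr.qe C.fr.ne _ sM s2).exists_ringHom' C.fr.ne
  have m0 := self_mem_pt (F := F) (K := K) e
  have e4 : τ y = y + 1 :=
    smul_left_injective K (s.map_ne_zero_iff.2 C.fr.ne) ((hτ y e m0).symm.trans (hy e m0))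
  have e5 := hρ y e m0
  conv_lhs at e5 => rw [← n2, mul_app, mul_app s, hτ _ _ m0, hρ _ _ (stab_apply s2 m0),
    hτ _ _ (stab_apply nS (stab_apply s2 m0)), ← mul_app, ← mul_app, mul_assoc, ← mul_assoc s, n2]
  have e6 := smul_left_injective K (n.map_ne_zero_iff.2 C.fr.ne) e5
  rw [ringHom_comm τ ρ, e4, map_add, e4, map_one] at e6
  exact C.fr.two (by linear_combination ρ.injective e6)

theorem exists_d (x : K) : ∃ d, Ψ.B e d = 0 ∧ Ψ.B w d = x * Ψ.B w w ∧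
    ∀ y ∈ pt F K e, Φ.B (g y) d = 0 := by
  have : x • w ∈ Φ.perp ((pt F K e).map (g : V →ₗ[F] V)) ⊔ pt F K e := by
    rw [← Φ.perp_perp (_ ⊔ _)]
    intro y hy
    have e1 := Φ.perp_anti le_sup_left hy
    rw [Φ.perp_perp] at e1
    obtain ⟨u, hu, rfl⟩ := e1
    exact C.h.B_zero (C.h.B_pt (C.perp hu (C.h.mem_perp_pt.1 (Φ.perp_anti le_sup_right hy)))
      (by simp [C.fr.simp]))
  obtain ⟨d, hd, b, hb, e1⟩ := Submodule.mem_sup.1 this
  obtain ⟨k, rfl⟩ := mem_pt.1 hb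
  refine ⟨d, ?_, ?_, fun y hy => hd _ ⟨y, hy, rfl⟩⟩
  · simpa [C.fr.simp] using congrArg (Ψ.B e) e1
  · simpa [C.fr.simp] using congrArg (Ψ.B w) e1

theorem inU_of_good {x : K} (hx : x ≠ 0) (hτ : ∀ τ : K →+* K,
      (∀ c : F, τ (algebraMap F K c) = algebraMap F K c) →
        (∀ a, T (τ a * (x * x * Ψ.B w w)) = T (a * (x * x * Ψ.B w w))) → τ = RingHom.id K)
    {d : V} (d1 : Ψ.B e d = 0) (d2 : Ψ.B w d = x * Ψ.B w w) {s : V ≃ₗ[F] V} (hs : s ∈ M)
    (hs' : s ∈ stab (pt F K e)) (h1 : s (g j) = g j) (h2 : s d - d ∈ pt F K e) : InU Ψ M e s := by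
  have hj0 : g j ≠ 0 := g.map_ne_zero_iff.2 C.hj0
  obtain ⟨τ, t1, t2⟩ := (C.hS e C.fr.qe C.fr.ne s hs hs').exists_ringHom C.hgj hj0 h1
  have t3 : ∀ (a : K), ∀ y ∈ pt F K e, s (a • y) = τ a • s y := fun a y hy => by
    obtain ⟨c, rfl⟩ := exists_smul_of_mem_pt (K := K) C.hgj hj0 hy
    rw [smul_smul, t2, t2, map_mul, smul_smul]
  have p1 : ∀ v, Ψ.B e v = 0 → Ψ.B e (s v) = 0 := fun v => C.h.perp_of_stab (C.hM hs) hs'
  have hi := (stab _).inv_mem hs'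
  obtain ⟨a, ha⟩ := C.eq_t (u := s * res F (C.fr.t 1) * s⁻¹)
    ⟨M.mul_mem (M.mul_mem hs (C.t_mem 1)) (M.inv_mem hs), fun k => by
      rw [mul_app, mul_app, C.t_fix _ _ (stab_apply hi (smul_mem_pt k e)), app_inv_app],
      fun v hv => by
        obtain ⟨k, hk⟩ := mem_pt.1 (stab_apply hs' (smul_mem_pt (-(1 * Ψ.B w (s⁻¹ v))) e))
        exact ⟨k, by rw [mul_app, mul_app, res_apply, C.fr.t_perp _
          (C.h.perp_of_stab (C.hM (M.inv_mem hs)) hi hv), hk, sub_eq_add_neg, ← neg_smul, map_add,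
          app_inv_app]⟩⟩
  have e1 : ∀ v, Ψ.B e v = 0 → s (Ψ.B w v • e) = (a * Ψ.B w (s v)) • e := fun v hv => by
    have := congrArg (fun t : V ≃ₗ[F] V => t (s v)) ha
    simpa [mul_app, res_apply, C.fr.t_perp _ hv, C.fr.t_perp _ (p1 v hv)] using this
  obtain ⟨k, hk⟩ := mem_pt.1 h2
  have e2 : Ψ.B w (s d) = x * Ψ.B w w := by
    rw [eq_add_of_sub_eq hk.symm, map_add, d2, map_smul, C.fr.simp.2.2.2.2.2.2.1, smul_zero,
      zero_add]
  have hxb : x * Ψ.B w w ≠ 0 := mul_ne_zero hx C.fr.ww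
  have a0 : a ≠ 0 := fun e' => by simpa [e', d2, hxb, C.fr.ne] using e1 d d1
  have e3 : ∀ c : K, Ψ.B w (s (c • d)) = τ c * (x * Ψ.B w w) := fun c => by
    have := e1 (c • d) (by simp [d1])
    rw [Ψ.B_smul_right, mul_smul, t3 _ _ (smul_mem_pt _ _), e1 d d1, e2, smul_smul] at this
    refine mul_left_cancel₀ a0 ?_
    rw [← smul_left_injective K C.fr.ne this]; ring
  have e4 := hτ τ t1 fun c => by
    have := Iso.B (C.hM hs) d (c • d)
    rw [C.BF, C.BF, C.fr.B_perp (p1 d d1) (p1 _ (by simp [d1])) e2, e3,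
      C.fr.B_perp d1 (by simp [d1]) d2, Ψ.B_smul_right, d2] at this
    convert this using 2 <;> ring
  have e5 : ∀ k : K, s (k • e) = k • e := fun k => by
    obtain ⟨c, hc⟩ := exists_smul_of_mem_pt (K := K) C.hgj hj0 (smul_mem_pt k e)
    rw [← hc, t2, e4, RingHom.id_apply]
  have e6 : a = 1 := by
    have := e1 d d1
    rw [e5, e2, d2] at this
    exact (mul_eq_right₀ hxb).1 (smul_left_injective K C.fr.ne this).symm
  refine ⟨hs, e5, fun v hv => C.fr.exists_add (p1 v hv) hv ?_⟩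
  have := e1 v hv
  rw [e5, e6, one_mul] at this
  exact (smul_left_injective K C.fr.ne this).symm

theorem false : False := by
  classical
  obtain ⟨x, x0, x1, hτ⟩ := exists_good C.h.prime C.odd C.two C.h.ne C.fr.ww
  obtain ⟨d, d1, d2, d3⟩ := C.exists_d x
  set J := (pt F K e).map (g : V →ₗ[F] V) ⊓ pt F K e with hJ
  set X := fixMod M J d with hX
  have hj : g j ∈ J := ⟨⟨j, C.hj, rfl⟩, C.hgj⟩
  have hj0 : g j ≠ 0 := g.map_ne_zero_iff.2 C.hj0
  have hxb : x * Ψ.B w w ≠ 0 := mul_ne_zero x0 C.fr.ww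
  have : Finite (V ≃ₗ[F] V) := Finite.of_injective _ DFunLike.coe_injective
  have hA : ∀ s : X, s ∈ (stab (pt F K e)).subgroupOf X → ∃ a, s.1 = res F (C.fr.t a) := fun s hs =>
    C.eq_t (C.inU_of_good x0 hτ d1 d2 s.2.1 hs (s.2.2.1 _ hj) s.2.2.2.2)
  have tX : ∀ k : K, k • e ∈ J → res F (C.fr.t (k / (x * Ψ.B w w))) ∈ X := fun k hk =>
    ⟨C.t_mem _, fun y hy => C.t_fix _ y hy.2, by
      rwa [res_apply, C.fr.t_perp _ d1, d2, div_mul_cancel₀ _ hxb, sub_sub_cancel_left, neg_mem_iff]⟩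
  have tS : ∀ a, res F (C.fr.t a) ∈ stab (pt F K e) := fun a =>
    mem_stab_of_mapsTo fun y hy => (C.t_fix a y hy).symm ▸ hy
  obtain ⟨k, hk⟩ := mem_pt.1 C.hgj
  have k0 : k ≠ 0 := fun e' => hj0 (by rw [← hk, e', zero_smul])
  obtain ⟨p, hp⟩ := CharP.exists F
  have : Fact p.Prime := ⟨CharP.char_is_prime F p⟩
  have : CharP K p := charP_of_injective_algebraMap (algebraMap F K).injective p
  obtain ⟨P, hP, hc, dec⟩ := exists_normal_compl (p := p) (A := (stab (pt F K e)).subgroupOf X)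
    (fun s => ⟨1, Subtype.ext (Subtype.ext (by
      obtain ⟨a, ha⟩ := hA s s.2
      refine LinearEquiv.ext fun v => ?_
      simp [ha, ← map_pow, res_apply, C.fr.t_pow, C.fr.t_zero]))⟩)
    (fun s hs t ht => Subtype.ext (by
      obtain ⟨a, ha⟩ := hA s hs
      obtain ⟨b, hb⟩ := hA t ht
      refine LinearEquiv.ext fun v => ?_
      simp [ha, hb, mul_app, res_apply, C.fr.t_t, add_comm]))
    (fun n hn => by
      obtain ⟨a, ha⟩ := hA _ (hn ⟨_, tX k (hk ▸ hj)⟩ (tS _))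
      have e1 : ∀ v, n.1 (C.fr.t (k / (x * Ψ.B w w)) v) = C.fr.t a (n.1 v) := fun v => by
        simpa [mul_app, res_apply] using congrArg (fun s : V ≃ₗ[F] V => s (n.1 v)) ha
      have a0 : a ≠ 0 := fun e' => by
        have := C.fr.eq_smul_of_t (div_ne_zero k0 hxb) (n.1.injective (by
          rw [e1 f, e', C.fr.t_zero]))
        simpa [C.fr.simp] using congrArg (Ψ.B e) this
      refine mem_stab_of_mapsTo (g := n.1) fun y hy => ?_
      rw [C.fr.eq_smul_of_t a0 (v := n.1 y) (by rw [← e1]; exact congrArg _ (C.t_fix _ y hy))]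
      exact smul_mem_pt _ _)
  -- the fixed space of `P` meets the point inside `J`
  have gd : Ψ.B e (g⁻¹ d) = 0 := C.h.perp_of' fun k => by
    rw [Iso.B_inv (C.hM C.max.mem), d3 _ (smul_mem_pt k e)]
  obtain ⟨a, a0, ha⟩ : ∃ a : K, a ≠ 0 ∧ g ((a * Ψ.B w (g⁻¹ d)) • e) ∈ J := by
    by_cases h0 : Ψ.B w (g⁻¹ d) = 0
    · exact ⟨1, one_ne_zero, by rw [h0]; simp⟩
    · obtain ⟨c, hc⟩ := mem_pt.1 C.hj
      refine ⟨c / Ψ.B w (g⁻¹ d), div_ne_zero (fun e' => C.hj0 (by rw [← hc, e', zero_smul])) h0, ?_⟩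
      rwa [div_mul_cancel₀ _ h0, hc]
  obtain ⟨y, hy, s, hs, e1⟩ := dec ⟨g * res F (C.fr.t a) * g⁻¹,
    M.mul_mem (M.mul_mem C.max.mem (C.t_mem a)) (M.inv_mem C.max.mem), by
      rintro _ ⟨⟨y, hy, rfl⟩, -⟩
      rw [LinearEquiv.coe_coe, mul_app, mul_app, inv_app_app, C.t_fix _ y hy], by
      rwa [mul_app, mul_app, res_apply, C.fr.t_perp _ gd, map_sub, app_inv_app, sub_sub_cancel_left,
        neg_mem_iff]⟩
  have key : ∀ z ∈ pt F K e, (∀ y ∈ P, y.1 z = z) → z ∈ J := fun z hz hz' => by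
    obtain ⟨b, hb⟩ := hA s hs
    have e2 := congrArg (fun s : X => s.1 z) e1
    simp only [Subgroup.coe_mul, mul_app, hb, C.t_fix b z hz, hz' y hy] at e2
    refine ⟨⟨g⁻¹ z, ?_, app_inv_app _ _⟩, hz⟩
    rw [C.fr.eq_smul_of_t a0 (v := g⁻¹ z) (g.injective (by rw [app_inv_app]; exact e2))]
    exact smul_mem_pt _ _
  have inv : ∀ s : X, ∀ v, (∀ y ∈ P, y.1 v = v) → ∀ y ∈ P, y.1 (s.1 v - v) = s.1 v - v :=
    fun s v hv y hy => by
      have := hv _ (hP.conj_mem' y hy s)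
      rw [map_sub, hv y hy, sub_left_inj]
      exact s.1⁻¹.injective (by rw [inv_app_app]; exact this)
  obtain ⟨v₀, hv₀⟩ := Φ.exists_B_ne hj0
  have := Fintype.ofFinite P
  set v := ∑ y : P, y.1.1 v₀ with hv
  have v1 : ∀ y ∈ P, y.1 v = v := fun y hy => by
    rw [hv, map_sum]
    exact Fintype.sum_equiv (Equiv.mulLeft (⟨y, hy⟩ : P)) _ _ fun _ => rfl
  have v2 : Φ.B (g j) v ≠ 0 := by
    rw [hv, map_sum, Finset.sum_congr rfl (g := fun _ => Φ.B (g j) v₀) fun y _ => by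
      conv_lhs => rw [← y.1.2.2.1 _ hj]
      exact Iso.B (C.hM y.1.2.1) _ _, Finset.sum_const, nsmul_eq_mul, Finset.card_univ,
      ← Nat.card_eq_fintype_card]
    exact mul_ne_zero (by rwa [Ne, CharP.cast_eq_zero_iff F p]) hv₀
  obtain ⟨u, hu, hu'⟩ := exists_notMem_of_notMem_stab ((stab _).inv_mem_iff.not.2 C.max.ne)
  obtain ⟨c, hc⟩ := mem_range_of_smul_mem C.h.prime hj0 hj C.hgj hu (Y := J) (fun h => by
      obtain ⟨⟨y, hy, rfl⟩, -⟩ := h
      exact hu' (by simpa using hy))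
    (a := k * Ψ.B e v / (x * x * Ψ.B w w)) fun y hy hy' => by
      obtain ⟨m, rfl⟩ := mem_pt.1 hy'
      refine key _ (smul_mem_pt_of _ hy') fun y hy'' => ?_
      have := inv ⟨_, tX m hy⟩ _ (inv ⟨_, tX k (hk ▸ hj)⟩ v v1) y hy''
      simp only [res_apply] at this
      rw [C.fr.t_perp _ (by rw [map_sub, C.fr.B_t, sub_self]), sub_sub_cancel_left, map_neg,
        neg_inj] at this
      have e3 : Ψ.B w (C.fr.t (k / (x * Ψ.B w w)) v - v) = k * Ψ.B e v / x := by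
        simp only [C.fr.t_apply, Ψ.bsimp, C.fr.simp.2.2.2.2.2.2.1]
        have := C.fr.ww
        field_simp
        ring
      rwa [e3, show m / (x * Ψ.B w w) * (k * Ψ.B e v / x) = k * Ψ.B e v / (x * x * Ψ.B w w) * m by
        have := C.fr.ww
        field_simp, mul_smul] at this
  refine v2 ?_
  rw [← hk, C.BF, Ψ.B_smul_left, C.fr.σ, (div_eq_iff (mul_ne_zero (mul_ne_zero x0 x0) C.fr.ww)).1
    hc.symm, ← Algebra.smul_def, map_smul, x1, smul_zero]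

end Cf9

namespace Tr

variable [Finite V] [Finite K] [Finite F] (h : Tr Φ Ψ T) (o : Ψ.O3) (two : (2 : F) ≠ 0)
  (odd : finrank F K ≠ 2) (comm : ∀ a ∈ Φ.Iso, ∀ b ∈ Φ.Iso, a * b * a⁻¹ * b⁻¹ ∈ Φ.EG)
  (hH : GamL F K V ⊓ Φ.EG ≤ M) (hM : M ≤ Φ.Iso)
include h o two odd comm hH hM

theorem o3_pm_of (k1 : ∀ g ∈ M, ∀ e, Ψ.Q e = 0 → Ψ.Q (g e) = 0 → Pm K g e) {g : V ≃ₗ[F] V}
    (hg : g ∈ M) {e : V} (he : Ψ.Q e = 0) : Pm K g e := by
  by_contra hp
  have hq : Ψ.Q (g e) ≠ 0 := fun e' => hp (k1 g hg e he e')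
  have hvv : Ψ.B (g e) (g e) ≠ 0 := fun e' => hq (h.sing _ e')
  have h0 : e ≠ 0 := fun e' => hq (by rw [e', map_zero, Ψ.Q_zero])
  obtain ⟨k, hu⟩ := not_forall.1 hp
  set A := (pt F K e).map (g : V →ₗ[F] V) ⊓ (LinearMap.ker (Ψ.B (g e))).restrictScalars F with hA
  have dA : finrank F A < finrank F K := by
    rw [← finrank_pt h0, ← LinearEquiv.finrank_map_eq g (pt F K e)]
    exact Submodule.finrank_lt_finrank_of_lt (SetLike.lt_iff_le_and_exists.2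
      ⟨inf_le_left, g e, ⟨e, self_mem_pt e, rfl⟩, fun h => hvv h.2⟩)
  have st : ∀ d ∈ Ψ.Iso, res F d ∈ M → d (g e) = g e →
      ∀ y ∈ (pt F K e).map (g : V →ₗ[F] V), d y ∈ (pt F K e).map (g : V →ₗ[F] V) := by
    rintro d hd hd' h1 _ ⟨b, hb, rfl⟩
    obtain ⟨a, rfl⟩ := mem_pt.1 hb
    have e1 : (g⁻¹ * res F d * g) e = e := by rw [mul_app, mul_app, res_apply, h1, inv_app_app]
    have := k1 _ (M.mul_mem (M.mul_mem (M.inv_mem hg) hd') hg) e he (by rwa [e1]) a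
    rw [e1] at this
    exact ⟨_, this, app_inv_app _ _⟩
  obtain ⟨s, s0, hs⟩ := o.exists_rot hq
  have key : ∀ t : K, ∃ c : F, algebraMap F K c = t * t * s := fun t => by
    by_cases ht : 1 + t * t * s = 0
    · exact ⟨-1, by rw [map_neg, map_one]; linear_combination -ht⟩
    obtain ⟨a, ha, b, hb, e1, e2⟩ := hs t ht
    set d := a * b * a⁻¹ * b⁻¹ with hd
    have dI : d ∈ Ψ.Iso := Ψ.Iso.mul_mem (Ψ.Iso.mul_mem (Ψ.Iso.mul_mem ha hb) (Ψ.Iso.inv_mem ha))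
      (Ψ.Iso.inv_mem hb)
    have dM : res F d ∈ M := hH (Subgroup.mem_inf.2 ⟨res_mem_GamL _, by
      simpa only [hd, map_mul, map_inv] using comm _ (h.res_Iso ha) _ (h.res_Iso hb)⟩)
    have e3 : d⁻¹ (g e) = g e := d.injective (by rw [app_inv_app, e1])
    have p1 : ∀ d ∈ Ψ.Iso, d (g e) = g e → ∀ y, Ψ.B (g e) (d y) = Ψ.B (g e) y := fun d hd h1 y => by
      conv_lhs => rw [← h1]
      exact Iso.B hd _ _
    obtain ⟨c, hc⟩ : ∃ c : F, algebraMap F K c =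
        (4 / (1 + t * t * s) - 2) * (4 / (1 + t * t * s) - 2) - 2 := by
      by_cases h1 : d (g (k • e)) - g (k • e) = 0
      · set u := g (k • e) - (Ψ.B (g e) (g (k • e)) / Ψ.B (g e) (g e)) • g e with hu'
        have u0 : u ≠ 0 := fun e' => hu (sub_eq_zero.1 e' ▸ smul_mem_pt _ _)
        have u1 : d u = u := by rw [hu', map_sub, map_smul d, e1, sub_eq_zero.1 h1]
        have u2 : d⁻¹ u = u := d.injective (by rw [app_inv_app, u1])
        have := e2 u (by simp [hu', hvv])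
        rw [u1, u2, ← two_smul K] at this
        exact ⟨2, (map_ofNat _ 2).trans (smul_left_injective K u0 this)⟩
      · have m1 : g (k • e) ∈ (pt F K e).map (g : V →ₗ[F] V) := ⟨_, smul_mem_pt k e, rfl⟩
        refine mem_range_of_stab h.prime (A := A) ⟨Submodule.sub_mem _ (st d dI dM e1 _ m1) m1, by
          change Ψ.B _ _ = 0
          rw [map_sub, p1 d dI e1, sub_self]⟩ h1 dA fun y hy => ?_
        rw [← e2 y hy.2]
        exact A.add_mem ⟨st d dI dM e1 y hy.1, (p1 d dI e1 y).trans hy.2⟩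
          ⟨st _ (Ψ.Iso.inv_mem dI) (map_inv (res F) d ▸ M.inv_mem dM) e3 y hy.1,
            (p1 _ (Ψ.Iso.inv_mem dI) e3 y).trans hy.2⟩
    obtain ⟨c', hc'⟩ := mem_range_of_sq h.prime odd (c := c + 2)
      (a := 4 / (1 + t * t * s) - 2) (by rw [map_add, hc, map_ofNat]; ring)
    have h4 : (4 : K) ≠ 0 := by
      rw [show (4 : K) = 2 * 2 by norm_num]; exact mul_ne_zero o.two o.two
    refine ⟨4 / (c' + 2) - 1, ?_⟩
    rw [map_sub, map_div₀, map_add, hc', map_ofNat, map_ofNat, map_one, sub_add_cancel,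
      div_div_cancel₀ h4, add_sub_cancel_left]
  obtain ⟨c, hc⟩ := key 1
  obtain ⟨t, ht⟩ := exists_notMem_range h.two_le
  obtain ⟨c', hc'⟩ := key t
  obtain ⟨c'', hc''⟩ := mem_range_of_sq h.prime odd (c := c' / c) (a := t) (by
    rw [map_div₀, hc, hc']; field_simp)
  exact ht _ hc''

variable (hσ : ∀ a, Φ.σ a = a) (hε : Φ.ε = 1) (hπ : ∀ c, Φ.π c = c) (h3 : finrank F K = 3)
include hσ hε hπ h3

omit two odd comm in
theorem EG_le_of_siegel (k1 : ∀ x, Ψ.Q x = 0 → ∀ a b : K, Φ.HasE M (a • x) (b • x) 0) {e : V}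
    (he : Ψ.Q e = 0) (h0 : e ≠ 0) : Φ.EG ≤ M := by
  have va : ∀ x, Ψ.Q x = 0 → ∀ a b : K, Φ.Valid (a • x) (b • x) 0 := fun x hx a b =>
    valid_zero (h.Q_zero (Ψ.Q_smul_zero hx a)) (h.B_zero (by simp [Ψ.B_self hx]))
      (h.Q_zero (Ψ.Q_smul_zero hx b))
  have k2 : ∀ e, Ψ.Q e = 0 → e ≠ 0 → Φ.Full M e := fun e he h0 v c hv => by
    refine InA.hasE ?_ (fun c hc => by rw [← hπ c, hc]; exact hasE_zero e) hv
    obtain ⟨f, w, fr⟩ := o.exists_frame he h0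
    have i1 : ∀ a : K, Φ.InA M e (a • e) := fun a =>
      ⟨0, by simpa using va e he 1 a, by simpa using k1 e he 1 a⟩
    have ex : ∀ k : K, ∃ a, T (k * a) = 0 ∧ a ∉ Submodule.span F {(1 : K)} := fun k => by
      by_contra hc
      push Not at hc
      have e1 := (Submodule.finrank_mono (show LinearMap.ker (T ∘ₗ LinearMap.mulLeft F k) ≤ _ from
        hc)).trans ((finrank_span_le_card ({1} : Set K)).trans (by simp : _ ≤ 1))
      have e2 := finrank_le_inf_ker ⊤ (T ∘ₗ LinearMap.mulLeft F k)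
      rw [top_inf_eq, finrank_top] at e2
      omega
    have i2 : ∀ f, Ψ.Q f = 0 → Ψ.B f e = 1 → ∀ k, T k = 0 → Φ.InA M e (k • f) :=
      fun f hf hfe k hk => by
        obtain ⟨a, a1, a2⟩ := ex k
        obtain ⟨φ, φ1, φ2⟩ := exists_dual_zero_one a2
        obtain ⟨m, hm⟩ := exists_mul_eq h.ne φ
        obtain ⟨t, ht, et⟩ := k1 f hf m k
        have e1 : ∀ a : K, t (a • e) = a • e + T (a * m) • k • f - T (k * a) • m • f := fun a => by
          simp [et, ef, h.B, hfe, hε, o.σ, mul_comm]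
        have e2 := (i1 a).conj ht (hM ht)
        rw [e1, ← hm, φ2, a1, ← one_smul K e, e1, ← hm, φ1, mul_one, hk] at e2
        have e3 : Φ.InA M e (a • e + k • f - a • e) := InA.sub (by simpa using e2) (i1 a)
        rwa [add_sub_cancel_left] at e3
    obtain ⟨k, hk, k1⟩ := ex 1
    have k0 : k ≠ 0 := fun e' => k1 (e' ▸ zero_mem _)
    rw [one_mul] at hk
    obtain ⟨m, hm⟩ := fr.exists_add (v := v - Ψ.B e v • f) (v' := (Ψ.B w v / Ψ.B w w) • w)
      (by simp [fr.simp]) (by simp [fr.simp]) (by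
        rw [map_sub, map_smul, map_smul, Ψ.perp_symm fr.fw, smul_zero, sub_zero, smul_eq_mul,
          div_mul_cancel₀ _ fr.ww])
    set c := Ψ.B w v / Ψ.B w w / k with hc
    have := (((i2 _ (by rw [Iso.Q (Ψ.EG_le_Iso (fr.t_mem c)), fr.qf])
      (by rw [o.symm, fr.B_t, fr.ef]) k hk).sub (i2 f fr.qf fr.simp.2.2.2.1 k hk)).add
      (i2 f fr.qf fr.simp.2.2.2.1 _ ((h.B e v).symm.trans hv.perp))).add
      (i1 (m + k * (c * c * Ψ.Q w)))
    convert this using 1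
    rw [eq_add_of_sub_eq hm, ← mul_div_cancel₀ (Ψ.B w v / Ψ.B w w) k0, ← hc, fr.t_apply]
    simp only [Ψ.bsimp, fr.simp]
    module
  obtain ⟨f, hf, hef⟩ := exists_partner' he h0
  obtain ⟨a, ha⟩ := h.exists_T 1
  have e0 : Φ.B e (a • f) ≠ 0 := by simp [h.B, hef, ha]
  have e2 := Ψ.Q_smul_zero hf a
  exact EG_le_of_full (k2 e he h0) (k2 _ e2 fun e => e0 (by rw [e, map_zero]))
    (h.Q_zero he) (h.Q_zero e2) e0

theorem z_eq_one (hq : Nat.card F = 3) (hn : ¬ Φ.EG ≤ M) {e f w : V} (fr : Ψ.Frame e f w)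
    {z : V ≃ₗ[F] V} (hz : z ∈ M) (h1 : ∀ v, Ψ.B e v = 0 → z v = v) : z = 1 := by
  by_contra hne
  let ζ : K →ₗ[F] K := (Ψ.B f).restrictScalars F ∘ₗ z.toLinearMap ∘ₗ
    (LinearMap.toSpanSingleton K V f).restrictScalars F
  have hζ : ∀ v, z v = v + ζ (Ψ.B e v) • e := fun v => by
    obtain ⟨k, hk⟩ := mem_pt.1 (h.mem_pt_of_perp (e := e)
      (v := z (Ψ.B e v • f) - Ψ.B e v • f) fun y hy => by
        rw [Φ.B_sub_left, sub_eq_zero]
        conv_lhs => rw [← h1 y hy]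
        exact Iso.B (hM hz) _ _)
    have e1 := h1 (v - Ψ.B e v • f) (by simp [fr.simp])
    change _ = v + Ψ.B f (z (Ψ.B e v • f)) • e
    rw [map_sub] at e1
    rw [eq_add_of_sub_eq hk.symm] at e1 ⊢
    simp only [Ψ.bsimp, fr.simp]
    linear_combination (norm := module) e1
  have sk : ∀ x y, T (ζ x * y) = -T (ζ y * x) := fun x y => by
    have e1 := Iso.B (hM hz) (x • f) (y • f)
    rw [hζ, hζ, h.B, h.B] at e1
    simp only [Ψ.bsimp, fr.simp] at e1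
    rw [eq_neg_iff_add_eq_zero, ← map_add]
    simpa [mul_comm, add_comm] using e1
  have al : ∀ x, T (ζ x * x) = 0 := fun x => by
    have := sk x x
    rwa [eq_neg_iff_add_eq_zero, ← two_mul, mul_eq_zero, or_iff_right two] at this
  obtain ⟨b, b0, hb⟩ : ∃ b, b ≠ 0 ∧ ζ b = 0 := by
    by_contra hc
    push Not at hc
    obtain ⟨m, -, hm, -⟩ := exists_symplectic_basis (((LinearMap.mul F K).compr₂ T) ∘ₗ ζ) al
      fun b hb => by
        by_contra b0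
        exact hc b b0 (eq_zero_of_forall_mul h.ne fun k => by simpa [mul_comm] using hb k)
    omega
  obtain ⟨x, hx⟩ : ∃ x, ζ x ≠ 0 := by
    by_contra hc
    push Not at hc
    exact hne (LinearEquiv.ext fun v => by simp [hζ, hc])
  obtain ⟨y, hy⟩ := exists_mul_eq_one h.ne hx 1
  rw [mul_comm] at hy
  have sp := span_three (K := F) h3 (x := b) (y := x) (z := y) fun r s t e' => by
    have e1 : t = 0 := by
      simpa [mul_add, sk x b, hb, al, hy] using congrArg (fun u => T (ζ x * u)) e'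
    have e2 : s = 0 := by
      simpa [mul_add, sk y b, hb, al, sk y x, hy] using congrArg (fun u => T (ζ y * u)) e'
    exact ⟨by simpa [e1, e2, b0] using e', e2, e1⟩
  have pw : ∀ n : ℕ, ∀ v, (z ^ n) v = v + (n : F) • ζ (Ψ.B e v) • e := fun n v => by
    induction n with
    | zero => simp
    | succ n ih =>
      rw [pow_succ', mul_app, ih, hζ, map_add, ← algebraMap_smul K (n : F), Ψ.B_smul_right,
        Ψ.B_smul_right, Ψ.B_self fr.qe, algebraMap_smul, Nat.cast_succ]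
      simp only [mul_zero, add_zero]
      module
  have key : ∀ p q : K, T (p * b) = 0 → T (q * b) = 0 → Φ.HasE M (p • e) (q • e) 0 :=
    fun p q hp hq' => by
      have : Fact (Nat.Prime 3) := ⟨Nat.prime_three⟩
      have := Fintype.ofFinite F
      have hc : Fintype.card F = 3 := by rw [← hq, Nat.card_eq_fintype_card]
      obtain ⟨n, hn⟩ := ZMod.natCast_zmod_surjective ((ZMod.ringEquivOfPrime F Nat.prime_three
        hc).symm (T (p * x) * T (q * y) - T (q * x) * T (p * y)))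
      replace hn : (n : F) = T (p * x) * T (q * y) - T (q * x) * T (p * y) := by
        rw [← map_natCast (ZMod.ringEquivOfPrime F Nat.prime_three hc), hn,
          RingEquiv.apply_symm_apply]
      refine ⟨z ^ n, M.pow_mem hz n, fun v => ?_⟩
      have e1 : (n : F) • ζ (Ψ.B e v) = T (p * Ψ.B e v) • q - T (q * Ψ.B e v) • p :=
        sub_eq_zero.1 (eq_zero_of_forall_mul h.ne fun u => by
          obtain ⟨r, s, t, rfl⟩ := sp u
          obtain ⟨r', s', t', e'⟩ := sp (Ψ.B e v)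
          rw [e', hn, mul_comm]
          simp only [mul_add, add_mul, sub_mul, map_add, map_sub, map_smul, smul_mul_assoc,
            mul_smul_comm, smul_eq_mul, hb, sk x b, sk y b, sk y x, al, hy, hp, hq', zero_mul,
            map_zero]
          ring)
      rw [pw, ← smul_assoc, e1, ef, h.B, h.B, Ψ.B_smul_left, Ψ.B_smul_left, o.σ, o.σ, hε]
      simp only [sub_smul, smul_assoc]
      module
  refine hn (h.EG_le_of_siegel o hH hM hσ hε hπ h3 (fun v hv p q => ?_) fr.qe fr.ne)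
  by_cases v0 : v = 0
  · simpa [v0] using hasE_zero (0 : V)
  obtain ⟨d, hd, a, ha, e1⟩ := Rk.move_pt (Or.inl o.dim.ge) fr.qe hv fr.ne v0
  obtain ⟨u, -, u0, hu⟩ := exists_ne_zero_ker [T ∘ₗ LinearMap.mulLeft F (p / a),
    T ∘ₗ LinearMap.mulLeft F (q / a)] (⊤ : Submodule F K) (by simp [h3])
  obtain ⟨c, m, hm, e2⟩ := exists_eq_smul_sq h.prime odd two (div_ne_zero b0 u0)
  obtain ⟨a₁, h₁, a₂, h₂, e3⟩ := fr.exists_scale hm
  have dM := hH (Subgroup.mem_inf.2 ⟨res_mem_GamL (a₁ * a₂ * a₁⁻¹ * a₂⁻¹), by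
    simpa only [map_mul, map_inv] using comm _ (h.res_Iso h₁) _ (h.res_Iso h₂)⟩)
  have e4 : ∀ r : K, T (r * u) = 0 → T (r / (m * m) * b) = 0 := fun r hr => by
    rw [(div_eq_iff u0).1 e2, show r / (m * m) * (c • (m * m) * u) = c • (r * u) by
      simp only [Algebra.smul_def]; field_simp, map_smul, hr, smul_zero]
  have dM' := hH (h.res_EG hd)
  have := ((key _ _ (e4 _ (hu (T ∘ₗ LinearMap.mulLeft F (p / a)) (by simp)))
    (e4 _ (hu (T ∘ₗ LinearMap.mulLeft F (q / a)) (by simp)))).conj dM (hM dM)).conj dM' (hM dM')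
  simpa only [res_apply, map_smul, e3, e1, smul_smul, div_mul_cancel₀ _ (mul_ne_zero hm hm),
    ← mul_assoc, div_mul_cancel₀ _ ha] using this

end Tr

theorem Tr.o9_isMaximalIn [Finite V] [Finite K] [Finite F] (h : Tr Φ Ψ T) (o : Ψ.O3)
    (comm : ∀ a ∈ Φ.Iso, ∀ b ∈ Φ.Iso, a * b * a⁻¹ * b⁻¹ ∈ Φ.EG) (two : (2 : F) ≠ 0)
    (hσ : ∀ a, Φ.σ a = a) (hε : Φ.ε = 1) (hπ : ∀ c, Φ.π c = c) (h3 : finrank F K = 3)
    (hq : Nat.card F = 3) (hd : Ψ.d = 3) : Geo.IsMaximalIn Φ.EG (GamL F K V ⊓ Φ.EG) := by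
  obtain ⟨e, -, h0, he⟩ := Ψ.iso ⊤ (by rw [finrank_top, hd, o.dim])
  refine h.isMaximalIn_of_pm o.dim.ge he h0 fun M h1 h2 hn g hg x hx => ?_
  have hM := h2.trans Φ.EG_le_Iso
  refine h.o3_pm_of o two (by omega) comm h1 hM (fun g hg e he hge => ?_) hg hx
  by_contra hp
  obtain ⟨h0, g₀, hg₀, hn', h4⟩ := h.exists_conf h1 (Or.inl o.dim.ge) hg he hge hp
  obtain ⟨g₁, C, j, hj, hj0, hgj⟩ := exists_maxI hg₀ hn' h0 (self_mem_pt e) h4
  obtain ⟨f, w, fr⟩ := o.exists_frame he h0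
  exact Cf9.false ⟨h, h1, hM, fun e he h0 s => h.semi_of_stab h1 hM o.dim.ge
    (fun c hc => ⟨0, by rw [← hπ c, hc]; simp⟩) hn he h0, two, by omega, fr,
    h.z_eq_one o two (by omega) comm h1 hM hσ hε hπ h3 hq hn fr, C, hj, hj0, hgj⟩

end Fm

section Bridge

open Matrix

variable {F : Type*} [Field F] [Fintype F]

/-- `O_3(q^r).r` in `Ω_{3r}(q)`, `q` odd, `r` odd. -/
theorem o3_normalizer_isMaximalIn' {ι : Type} [Fintype ι] [DecidableEq ι]
    (hodd : Odd (Fintype.card F)) {r : ℕ} (hr : r.Prime) (h2 : r ≠ 2)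
    (hn : 3 * r = Fintype.card ι)
    {Q : (ι → F) → F} (hQ : Geo.IsNondegenerateQuadraticForm Q) {K : Subalgebra F (Matrix ι ι F)}
    (hK : Geo.IsFieldSubalgebra r K) (hsa : Geo.IsSelfAdjointFor (QuadraticMap.polar Q) K) :
    Geo.IsMaximalIn (Geo.omegaGL Q) (Geo.subalgebraNormalizer K ⊓ Geo.omegaGL Q) := by
  by_cases hqr : 4 ≤ r ∨ r < Fintype.card F
  · exact o3_normalizer_isMaximalIn hodd hr h2 hn hqr hQ hK hsa
  have := hr.two_le
  have : Nonempty ι := Fintype.card_pos_iff.1 (by omega)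
  refine normalizer_isMaximalIn_of (mem_omegaGL_iff hQ (by omega)) hK ?_
  let := (isField_of hK).toField
  have h1 := mul_finrank_eq hK
  have hr' : (finrank F K).Prime := hK.finrank_eq ▸ hr
  have h2' := two_ne_zero_of_odd hodd
  obtain ⟨Ψ, T, h, hσ, hε, hπ, hd⟩ := Fm.exists_tr_orth (Φ := fmO hQ) (fun _ => rfl) rfl
    (fun _ => rfl) h2' hr' fun k => hsa k k.2
  refine h.o9_isMaximalIn ⟨hσ, hε, hπ,
    map_ofNat (algebraMap F K) 2 ▸ (map_ne_zero (algebraMap F K)).2 h2',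
    Nat.eq_of_mul_eq_mul_left hr.pos (by omega)⟩ (fun a ha b hb => ?_) h2' (fun _ => rfl) rfl
    (fun _ => rfl) (by rw [hK.finrank_eq]; omega) ?_ hd
  · rw [fmO, EG_fmQuad, ← (nd_qfOf hQ).commutator_eq_EG_of_five_le (by simp; omega)]
    exact ⟨_, Subgroup.commutator_mem_commutator (Subgroup.mem_top ⟨a, mem_Iso_fmQuad.1 ha⟩)
      (Subgroup.mem_top ⟨b, mem_Iso_fmQuad.1 hb⟩), rfl⟩
  · have := Fintype.one_lt_card (α := F)
    obtain ⟨k, hk⟩ := hodd
    rw [Nat.card_eq_fintype_card]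
    omega

end Bridge

end Cfsg.Agent.Class.Max
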