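import Mathlib
import Cfsg.Agent.Class.Max.C3J
import Cfsg.Agent.Class.Max.C3UAlg

/-!
Maximality of `GU_m(q^r).r ∩ SU_{mr}(q)` in `SU_{mr}(q)`, `r` an odd prime, `m ≥ 3`.
-/

set_option autoImplicit false
set_option linter.unusedSectionVars false

namespace Cfsg.Agent.Class.Max

open Module

namespace Fm

variable {F K V : Type*} [Field F] [Field K] [Algebra F K] [AddCommGroup V] [Module F V]
  [Module K V] [IsScalarTower F K V]
variable {Φ : Fm F V} {Ψ : Fm K V} {T : Dual F K} {M : Subgroup (V ≃ₗ[F] V)}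

theorem Q_eq_B (hε : Φ.ε = 1) (hπ : ∀ c, Φ.π c = c + Φ.σ c) (x : V) : Φ.Q x = Φ.B x x := by
  obtain ⟨a, ha⟩ := Φ.range x
  rw [← Φ.trace a x ha, ← ha, hπ, hε, one_mul]

variable (Φ Ψ T) in
/-- A hermitian form which is the trace of a hermitian form over an extension of odd degree. -/
structure UU : Prop extends Tr Φ Ψ T where
  cj : Cj Φ.σ Ψ.σ T
  ε : Φ.ε = 1
  ε' : Ψ.ε = 1
  π : ∀ c, Φ.π c = c + Φ.σ c
  π' : ∀ c, Ψ.π c = c + Ψ.σ c
  d : Ψ.d = 2

variable [Finite V] [Finite K]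

theorem exists_uu [Nontrivial V] (hε : Φ.ε = 1) (hπ : ∀ c, Φ.π c = c + Φ.σ c)
    (hσ : Φ.σ ≠ RingHom.id F) (hr : (finrank F K).Prime) (h2 : finrank F K ≠ 2)
    (hac : ∀ k : K, ∃ k' : K, ∀ u v, Φ.B (k • u) v = Φ.B u (k' • v)) :
    ∃ (Ψ : Fm K V) (T : Dual F K), UU Φ Ψ T := by
  obtain ⟨s, hs2, hs⟩ := Φ.exists_adjoint hac
  have hsF := adjoint_algebraMap hs
  have hT := Algebra.trace_ne_zero F K
  have hTs : ∀ x, Algebra.trace F K (s x) = Φ.σ (Algebra.trace F K x) := fun x =>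
    (algebraMap F K).injective (by
      rw [← hsF, trace_eq_sum_automorphisms, trace_eq_sum_automorphisms, map_sum]
      exact Finset.sum_congr rfl fun τ _ => (Cj.comm τ x).symm)
  have hne : s ≠ RingHom.id K := fun e => hσ (RingHom.ext fun c => (algebraMap F K).injective (by
    rw [← hsF, e]; rfl))
  obtain ⟨B, hB⟩ := Φ.exists_lift hT s hs
  have hS : ∀ x y, B y x = s (B x y) := fun x y => by
    rw [lift_symm hT hs2 hB (η := 1) (fun b => by rw [one_mul, hε, one_mul, hTs]), one_mul]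
  refine ⟨fmHerm hne hs2 B hS (lift_nondeg hB), _, ⟨hB, hT, fun x y e => ?_, fun x e => e, hr⟩,
    ⟨hr, h2, Φ.invol, hs2, hsF, hσ, hT, hTs, fun τ x => Algebra.trace_eq_of_algEquiv τ x⟩,
    hε, rfl, hπ, fun _ => rfl, rfl⟩
  rw [Q_eq_B hε hπ, Q_eq_B hε hπ, hB, hB, show B x x = B y y from e]

namespace UU

variable (h : UU Φ Ψ T)
include h

theorem lam (c : F) (hc : Φ.π c = 0) : ∃ t, c = Φ.σ t - Φ.ε * t := by
  obtain ⟨a, ha, -⟩ := h.cj.exists_omega
  rw [h.π] at hc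
  have h2 : Φ.σ a - a ≠ 0 := sub_ne_zero.2 ha
  have h3 : a - Φ.σ a ≠ 0 := sub_ne_zero.2 ha.symm
  refine ⟨c * a / (Φ.σ a - a), ?_⟩
  rw [h.ε, map_div₀, map_mul, map_sub, Φ.invol, show Φ.σ c = -c by linear_combination hc]
  field_simp
  ring

theorem exists_skew : ∃ ι : F, ι ≠ 0 ∧ Φ.σ ι = -ι ∧ algebraMap F K ι ≠ 0 ∧
    Ψ.σ (algebraMap F K ι) = -algebraMap F K ι := by
  obtain ⟨ι, h1, h2⟩ := h.cj.exists_iota
  exact ⟨ι, h1, h2, (map_ne_zero _).2 h1, by rw [h.cj.sF, h2, map_neg]⟩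

theorem rk : ∃ c, c ≠ 0 ∧ Ψ.π c = 0 := by
  obtain ⟨ι, -, -, h1, h2⟩ := h.exists_skew
  exact ⟨_, h1, by rw [h.π', h2, add_neg_cancel]⟩

theorem isMaximalIn_three (h3 : 3 ≤ finrank K V) : Geo.IsMaximalIn Φ.EG (GamL F K V ⊓ Φ.EG) := by
  refine h.toTr.isMaximalIn h3 (h.d ▸ h3) h.lam (Or.inr h.cj.odd) (Or.inr h.rk) fun Z hZ v => ?_
  have := Finite.of_injective _ (algebraMap F K).injective
  let k := Φ.σ.eqLocusField (RingHom.id F)
  have sk : ∀ (c : k) (x : K), Ψ.σ (c • x) = c • Ψ.σ x := fun c x => by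
    rw [Subfield.smul_def, h.cj.s_smul, show Φ.σ c = c from c.2]; rfl
  let L : Submodule k K :=
    { carrier := {x | Ψ.σ x = x}
      add_mem' := fun {a b} ha hb => by
        change Ψ.σ _ = _
        rw [map_add, ha, hb]
      zero_mem' := map_zero _
      smul_mem' := fun c x hx => by
        change Ψ.σ _ = _
        rw [sk, hx] }
  obtain ⟨p, hp⟩ := L.subtype.exists_leftInverse_of_injective L.ker_subtype
  have hp' : ∀ x, Ψ.σ x = x → p x = 0 → x = 0 := fun x hx e =>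
    congrArg Subtype.val ((LinearMap.congr_fun hp ⟨x, hx⟩).symm.trans e)
  have b1 : ∀ (c : k) x y, Ψ.B (c • x) y = c • Ψ.B x y := fun c x y => by
    rw [Subfield.smul_def, ← algebraMap_smul K, Ψ.B_smul_left, h.cj.sF, show Φ.σ c = c from c.2,
      Subfield.smul_def, Algebra.smul_def]
  have b2 : ∀ (c : k) x y, Ψ.B x (c • y) = c • Ψ.B x y := fun c x y => by
    rw [Subfield.smul_def, ← algebraMap_smul K, Ψ.B_smul_right, Subfield.smul_def, Algebra.smul_def]
  obtain ⟨z, z0, hz⟩ := exists_root_quad (k := k) (W := Z) (A := L)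
    (LinearMap.mk₂ k (fun z z' => p (Ψ.B z.1 z'.1)) (fun _ _ _ => by simp)
      (fun c z z' => by rw [← map_smul, ← b1]; rfl) (fun _ _ _ => by simp)
      (fun c z z' => by rw [← map_smul, ← b2]; rfl))
    ⟨⟨fun z => p (Ψ.B v z.1 + Ψ.B z.1 v), fun _ _ => by
        rw [← map_add, Submodule.coe_add, map_add (Ψ.B v), Ψ.B_add_left, add_add_add_comm]⟩,
      fun c z => by rw [RingHom.id_apply, ← map_smul, smul_add, ← b2, ← b1]; rfl⟩ (by
      obtain ⟨ω, h1, -⟩ := h.cj.exists_omega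
      have e1 := LinearMap.finrank_le_finrank_of_injective
        (f := L.subtype.coprod ((LinearMap.lsmul F K ω).restrictScalars k ∘ₗ L.subtype)) ((injective_iff_map_eq_zero _).2 fun x hx => by
          have e1 : x.1.1 + ω • x.2.1 = 0 := hx
          have e2 := congrArg Ψ.σ e1
          rw [map_add, h.cj.s_smul, x.1.2, x.2.2, map_zero] at e2
          have e3 : x.2.1 = 0 := (smul_eq_zero.1 (show (Φ.σ ω - ω) • x.2.1 = 0 by
            linear_combination (norm := module) e2 - e1)).resolve_left (sub_ne_zero.2 h1)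
          exact Prod.ext (Subtype.ext (by simpa [e3] using e1)) (Subtype.ext e3))
      rw [finrank_prod, ← Module.finrank_mul_finrank k F K] at e1
      have e2 := Module.finrank_mul_finrank F K V
      have e3 := Module.finrank_pos (R := k) (M := F)
      rw [← Module.finrank_mul_finrank k F Z]
      have e4 : finrank F K * 3 ≤ finrank F K * finrank K V := Nat.mul_le_mul_left _ h3
      nlinarith [Nat.mul_le_mul_left (finrank k F) (show finrank F K + 1 ≤ finrank F Z by omega)])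
  refine ⟨z, z.2, fun e => z0 (Subtype.ext e), ?_⟩
  have e1 := hp' _ (by
    have e1 := Ψ.symm z.1 z.1
    have e2 := Ψ.symm z.1 v
    rw [h.ε', one_mul] at e1 e2
    rw [map_add, map_add, ← e1, ← e2, e2, Ψ.invol, add_comm (Ψ.B z.1 v)])
    ((map_add p (Ψ.B z.1 z.1) (Ψ.B v z.1 + Ψ.B z.1 v)).trans hz)
  rw [Q_eq_B h.ε' h.π', Q_eq_B h.ε' h.π', Ψ.B_add_left, map_add, map_add]
  linear_combination e1

end UU

end Fm

section Bridge

open Matrix

variable {F : Type*} [Field F] [Fintype F]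

theorem exists_uu_std {n q : ℕ} [U.UF F q] [NeZero n] {r : ℕ} (hr : r.Prime) (h2 : r ≠ 2)
    {K : Subalgebra F (Matrix (Fin n) (Fin n) F)} (hK : Geo.IsFieldSubalgebra r K)
    (hac : Geo.IsAdjointClosedFor (hermForm n F q) K) :
    letI := (isField_of hK).toField
    ∃ (Ψ : Fm K (Fin n → F)) (T : Dual F K), Fm.UU (fmUStd F n q) Ψ T := by
  let := (isField_of hK).toField
  refine Fm.exists_uu rfl (fun _ => rfl) (U.conj_ne_id F q) (hK.finrank_eq ▸ hr)
    (hK.finrank_eq ▸ h2) fun k => ?_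
  obtain ⟨k', h2, h3⟩ := hac k k.2
  refine ⟨⟨k', h2⟩, fun u v => ?_⟩
  change hermForm n F q v (k.1 *ᵥ u) = hermForm n F q (k' *ᵥ v) u
  rw [← U.herm_conj, h3, U.herm_conj]

/-- `GU_m(q^r).r` in `SU_{mr}(q)`, `r` odd, `m ≥ 3`. -/
theorem uu_normalizer_isMaximalIn_three {n q : ℕ} (hF : Fintype.card F = q ^ 2) {r : ℕ}
    (hr : r.Prime) (h2 : r ≠ 2) (hn : 2 * r < n) {K : Subalgebra F (Matrix (Fin n) (Fin n) F)}
    (hK : Geo.IsFieldSubalgebra r K) (hac : Geo.IsAdjointClosedFor (hermForm n F q) K) :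
    Geo.IsMaximalIn (GU n F q ⊓ Geo.specialLinear (Fin n) F)
      (Geo.subalgebraNormalizer K ⊓ (GU n F q ⊓ Geo.specialLinear (Fin n) F)) := by
  have := U.UF.of_card hF
  have : NeZero n := ⟨by omega⟩
  refine normalizer_isMaximalIn_of (mem_SU_iff n q) hK ?_
  let := (isField_of hK).toField
  have h1 := mul_finrank_eq hK
  obtain ⟨Ψ, T, h⟩ := exists_uu_std hr h2 hK hac
  refine h.isMaximalIn_three ?_
  by_contra hc
  have : r * finrank K (Fin n → F) ≤ r * 2 := Nat.mul_le_mul_left _ (by omega)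
  rw [Fintype.card_fin] at h1
  omega

end Bridge

end Cfsg.Agent.Class.Max
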