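import Mathlib
import Cfsg.Agent.Class.Max.C3U
import Cfsg.Agent.Class.Max.C3O3

/-!
Maximality of `GU_2(q^r).r ∩ SU_{2r}(q)` in `SU_{2r}(q)`, `r` an odd prime, `(q, r) ≠ (2, 3)`.
-/

set_option autoImplicit false
set_option linter.unusedSectionVars false

namespace Cfsg.Agent.Class.Max

open Module

namespace Fm

section Hp

variable {K V : Type*} [Field K] [AddCommGroup V] [Module K V] [FiniteDimensional K V]
  {Ψ : Fm K V}

variable (Ψ) in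
/-- A hyperbolic basis of a two-dimensional space. -/
structure Hp (e f : V) : Prop where
  dim : finrank K V = 2
  ε : Ψ.ε = 1
  qe : Ψ.Q e = 0
  qf : Ψ.Q f = 0
  ef : Ψ.B e f = 1

namespace Hp

variable {e f : V} (p : Ψ.Hp e f)
include p

theorem simp : Ψ.B e e = 0 ∧ Ψ.B e f = 1 ∧ Ψ.B f e = 1 ∧ Ψ.B f f = 0 :=
  ⟨Ψ.B_self p.qe, p.ef, by rw [B_eq_eps p.ef, p.ε], Ψ.B_self p.qf⟩

theorem symm : Ψ.Hp f e := ⟨p.dim, p.ε, p.qf, p.qe, p.simp.2.2.1⟩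

theorem ne : e ≠ 0 := fun h => by simpa [h] using p.ef

theorem eq (v : V) : v = Ψ.B f v • e + Ψ.B e v • f := by
  have li : LinearIndependent K ![e, f] := LinearIndependent.pair_iff.2 fun a b h =>
    ⟨by simpa [p.simp] using congrArg (Ψ.B f) h, by simpa [p.simp] using congrArg (Ψ.B e) h⟩
  obtain ⟨c, rfl⟩ := (Submodule.mem_span_range_iff_exists_fun K).1
    (li.span_eq_top_of_card_eq_finrank' (by simp [p.dim]) ▸ Submodule.mem_top (x := v))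
  simp [p.simp]

theorem eq_smul {v : V} (h : Ψ.B e v = 0) : v = Ψ.B f v • e := by simpa [h] using p.eq v

end Hp

end Hp

variable {F K V : Type*} [Field F] [Field K] [Algebra F K] [AddCommGroup V] [Module F V]
  [Module K V] [IsScalarTower F K V] [Finite V] [Finite K]
variable {Φ : Fm F V} {Ψ : Fm K V} {T : Dual F K} {M : Subgroup (V ≃ₗ[F] V)} {a₀ : K}

variable (Ψ M) in
/-- The operators describing the elements of `M` that centralise the point of `e`. -/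
def ZA {e : V} (he : Ψ.Q e = 0) : AddSubgroup (K →ₗ[F] K) where
  carrier := {ζ | ∃ z ∈ M, ∀ v, z v = v + ζ (Ψ.B e v) • e}
  add_mem' := by
    rintro ζ ζ' ⟨z, h1, h2⟩ ⟨z', h3, h4⟩
    exact ⟨z * z', M.mul_mem h1 h3, fun v => by
      simp [h2, h4, Ψ.B_self he, add_smul, add_assoc, add_comm (ζ _ • e)]⟩
  zero_mem' := ⟨1, M.one_mem, by simp⟩
  neg_mem' := by
    rintro ζ ⟨z, h1, h2⟩
    exact ⟨z⁻¹, M.inv_mem h1, fun v => z.injective (by
      rw [app_inv_app]; simp [h2, Ψ.B_self he])⟩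

variable (Φ Ψ T M a₀) in
/-- An overgroup of the extension field subgroup in the two-dimensional case. -/
structure U2 : Prop extends UU Φ Ψ T where
  dim : finrank K V = 2
  hH : GamL F K V ⊓ Φ.EG ≤ M
  hM : M ≤ Φ.Iso
  det : Φ.Iso ⊓ SLV F V ≤ Φ.EG
  a1 : a₀ * Ψ.σ a₀ = 1
  a2 : Algebra.norm F a₀ = 1
  a3 : ∀ c : F, algebraMap F K c ≠ a₀

namespace U2

variable (C : U2 Φ Ψ T M a₀)
include C

theorem exists_hp {e : V} (he : Ψ.Q e = 0) (h0 : e ≠ 0) : ∃ f, Ψ.Hp e f :=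
  let ⟨f, h1, h2⟩ := exists_partner' he h0; ⟨f, C.dim, C.ε', he, h1, h2⟩

theorem BF (x y : V) : Φ.B x y = T (Ψ.B x y) := C.toTr.B x y

theorem mem_Iso {g : V ≃ₗ[F] V} (h : ∀ x y, Ψ.B (g x) (g y) = Ψ.B x y) : g ∈ Φ.Iso :=
  ⟨fun x y => by rw [C.BF, C.BF, h], fun x => by
    rw [Q_eq_B C.ε C.π, Q_eq_B C.ε C.π, C.BF, C.BF, h]⟩

theorem exists_refl {w : V} (hw : Ψ.B w w ≠ 0) : ∃ t ∈ M, ∀ v,
    t v = v + ((a₀ - 1) / Ψ.B w w * Ψ.B w v) • w := by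
  have e1 : 1 + (((a₀ - 1) / Ψ.B w w) • Ψ.B w) w = a₀ := by simp [hw]
  obtain ⟨t, t1, t2, t3⟩ := exists_dil (F := F) (((a₀ - 1) / Ψ.B w w) • Ψ.B w) w (by
    rw [e1]; exact fun e => C.a3 0 (by simp [e]))
  refine ⟨t, C.hH ⟨t1, C.det ⟨C.mem_Iso fun x y => ?_, mem_SLV.2 (by rw [t2, e1, C.a2])⟩⟩, t3⟩
  have e2 := Ψ.symm w w
  have e3 := Ψ.symm w x
  rw [C.ε', one_mul] at e2 e3
  simp only [t3, LinearMap.smul_apply, smul_eq_mul, Ψ.bsimp, map_div₀, ← e2, ← e3]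
  field_simp
  linear_combination Ψ.B x w * Ψ.B w y * C.a1

section Pair

variable {e f : V} (p : Ψ.Hp e f)
include p

theorem mem_pt_iff {v : V} : v ∈ pt F K e ↔ Ψ.B e v = 0 :=
  ⟨C.toTr.B_pt_self p.qe, fun h => p.eq_smul h ▸ smul_mem_pt _ _⟩

theorem exists_diag {a b : K} (hab : a * Ψ.σ b = 1)
    (hN : Algebra.norm F a * Algebra.norm F b = 1) :
    ∃ t ∈ M, ∀ v, t v = (a * Ψ.B f v) • e + (b * Ψ.B e v) • f := by
  have hab' : b * Ψ.σ a = 1 := by simpa [Ψ.invol, mul_comm] using congrArg Ψ.σ hab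
  obtain ⟨t, t1, t2, t3⟩ := exists_dil (F := F) ((a - 1) • Ψ.B f) e (by
    simpa [p.simp] using left_ne_zero_of_mul_eq_one hab)
  obtain ⟨u, u1, u2, u3⟩ := exists_dil (F := F) ((b - 1) • Ψ.B e) f (by
    simpa [p.simp] using left_ne_zero_of_mul_eq_one hab')
  have e1 : ∀ v, (t * u) v = (a * Ψ.B f v) • e + (b * Ψ.B e v) • f := fun v => by
    rw [mul_app, t3, u3]
    simp only [LinearMap.smul_apply, smul_eq_mul, Ψ.bsimp, p.simp]
    linear_combination (norm := module) p.eq v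
  refine ⟨t * u, C.hH ⟨Subgroup.mul_mem _ t1 u1, C.det ⟨C.mem_Iso fun x y => ?_,
    mem_SLV.2 ?_⟩⟩, e1⟩
  · conv_rhs => rw [p.eq x, p.eq y]
    simp only [e1, Ψ.bsimp, p.simp]
    linear_combination Ψ.σ (Ψ.B f x) * Ψ.B e y * hab' + Ψ.σ (Ψ.B e x) * Ψ.B f y * hab
  · rw [show ((t * u : V ≃ₗ[F] V) : V →ₗ[F] V) = (t : V →ₗ[F] V) * u from rfl, map_mul, t2, u2]
    simpa [p.simp] using hN

theorem exists_torus {a : K} (ha : Ψ.σ a = a) (h0 : a ≠ 0) :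
    ∃ t ∈ M, ∀ k : K, t (k • e) = (a * k) • e := by
  obtain ⟨t, h1, h2⟩ := C.exists_diag p (a := a) (b := a⁻¹) (by simp [ha, h0])
    (by rw [← map_mul, mul_inv_cancel₀ h0, map_one])
  exact ⟨t, h1, fun k => by simp [h2, p.simp]⟩

theorem exists_scalar {a : K} (h1 : a * Ψ.σ a = 1) (h2 : Algebra.norm F a = 1) :
    ∃ t ∈ M, ∀ v, t v = a • v := by
  obtain ⟨t, h3, h4⟩ := C.exists_diag p h1 (by rw [h2, one_mul])
  exact ⟨t, h3, fun v => by rw [h4, mul_smul, mul_smul, ← smul_add, ← p.eq v]⟩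

theorem scalar_mem (c : K) (hc : Ψ.σ c = -c) : ∃ ζ ∈ ZA Ψ M p.qe, ∀ x, ζ x = c * x := by
  obtain ⟨t, h1, -, h2⟩ := C.toTr.exists_eich C.hH (e := e) (w := 0) (c := -c)
    ⟨p.qe, map_zero _, by rw [C.π', map_neg, hc, Ψ.Q_zero]; ring⟩
  exact ⟨LinearMap.mulLeft F c, ⟨t, h1, fun v => by simp [h2, ef, C.ε']⟩, fun _ => rfl⟩

theorem skew {ζ : K →ₗ[F] K} (hζ : ζ ∈ ZA Ψ M p.qe) (x y : K) :
    T (Ψ.σ x * ζ y) + T (Ψ.σ (ζ x) * y) = 0 := by
  obtain ⟨z, h1, h2⟩ := hζ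
  have := Iso.B (C.hM h1) (x • f) (y • f)
  rw [h2, h2, C.BF, C.BF] at this
  simpa [Ψ.bsimp, p.simp, add_comm, mul_comm] using this

theorem B_inv {s : V ≃ₗ[F] V} (hs : s ∈ M) {v : V} {b : K}
    (h : ∀ k : K, T (Ψ.B (s (k • e)) v) = T (Ψ.σ k * b)) : Ψ.B e (s⁻¹ v) = b :=
  sub_eq_zero.1 (eq_zero_of_forall_mul C.cj.T_ne fun k => by
    rw [mul_sub, map_sub, ← Ψ.invol k, ← h, ← Ψ.B_smul_left, ← C.BF, ← C.BF, Iso.B_inv (C.hM hs),
      sub_self])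

theorem conj_mem {t : V ≃ₗ[F] V} (ht : t ∈ M) {a : K} (h1 : ∀ k : K, t (k • e) = (a * k) • e)
    (ζ : K →ₗ[F] K) (hζ : ζ ∈ ZA Ψ M p.qe) :
    ∃ ζ' ∈ ZA Ψ M p.qe, ∀ x, ζ' x = a * ζ (Ψ.σ a * x) := by
  obtain ⟨z, z1, z2⟩ := hζ
  refine ⟨LinearMap.mulLeft F a ∘ₗ ζ ∘ₗ LinearMap.mulLeft F (Ψ.σ a), ⟨t * z * t⁻¹,
    M.mul_mem (M.mul_mem ht z1) (M.inv_mem ht), fun v => ?_⟩, fun _ => rfl⟩
  rw [mul_app, mul_app, z2, map_add, app_inv_app, h1, C.B_inv p ht (b := Ψ.σ a * Ψ.B e v) fun k => by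
    rw [h1, Ψ.B_smul_left, map_mul Ψ.σ]; congr 1; ring]
  rfl

theorem exists_of_fix {z : V ≃ₗ[F] V} (hz : z ∈ M) (h1 : ∀ k : K, z (k • e) = k • e) :
    ∃ ζ : K →ₗ[F] K, ∀ v, z v = v + ζ (Ψ.B e v) • e := by
  refine ⟨(Ψ.B f).restrictScalars F ∘ₗ z.toLinearMap ∘ₗ
    (LinearMap.toSpanSingleton K V f).restrictScalars F, fun v => ?_⟩
  have e1 : Ψ.B e (z (Ψ.B e v • f)) = Ψ.B e v := C.B_inv p (M.inv_mem hz) fun k => by
    rw [show z⁻¹ (k • e) = k • e from z.injective (by rw [app_inv_app, h1])]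
    simp [p.simp, mul_comm]
  change _ = v + Ψ.B f (z (Ψ.B e v • f)) • e
  conv_lhs => rw [p.eq v, map_add, h1, p.eq (z _), e1]
  linear_combination (norm := module) -p.eq v

section Big

variable {τ : K ≃ₐ[F] K} (hτ : τ ≠ 1)
  (h2 : ∀ c, ∃ ζ ∈ ZA Ψ M p.qe, ∀ x, ζ x = c * τ x - τ⁻¹ (Ψ.σ c * x))
include hτ h2

theorem exists_conf : ∃ g ∈ M, g ∉ stab (pt F K e) ∧ g e ∈ pt F K e := by
  obtain ⟨d, hd, a, ha, e1⟩ := Rk.move_pt (Or.inr C.rk) p.qe p.qf p.ne p.symm.ne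
  obtain ⟨ζ, ⟨z, z1, z2⟩, e2, e3⟩ := C.cj.exists_second hτ (C.scalar_mem p) h2 ha C.a3
  have e4 : (z * res F d) e = a • f := by simp [mul_app, res_apply, e1, z2, p.simp, e2]
  refine (C.toTr.exists_conf C.hH (Or.inr C.rk) (M.mul_mem z1 (C.hH (C.toTr.res_EG hd))) p.qe
    (e4 ▸ Ψ.Q_smul_zero p.qf a) fun hp => e3 ?_).2
  obtain ⟨k, hk⟩ := mem_pt.1 (hp a₀)
  have := congrArg (Ψ.B f) hk
  rw [e4, mul_app, res_apply, map_smul d, e1, z2] at this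
  simp only [Ψ.bsimp, p.simp, mul_zero, mul_one, zero_add] at this
  rw [← this, mul_zero, map_zero]

theorem exists_tv : ∃ b, b ≠ 0 ∧ ∀ y, T (Ψ.σ b * y) = 0 →
    ∃ s ∈ M, ∀ k : K, s (k • e) = (k + T (Ψ.σ b * k) • y) • e := by
  obtain ⟨g₀, h1, h3, h4⟩ := C.exists_conf p hτ h2
  obtain ⟨g, X, -⟩ := exists_maxI h1 h3 p.ne (self_mem_pt e) h4
  obtain ⟨u, hu, hu'⟩ := exists_notMem_of_notMem_stab X.ne
  have hβ : Ψ.B e (g u) ≠ 0 := fun e' => hu' ((C.mem_pt_iff p).2 e')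
  have ts : ∀ x ∈ pt F K e, ∀ y ∈ pt F K e, Φ.B (g x) (g y) = 0 := fun x hx y hy => by
    rw [Iso.B (C.hM X.mem), C.toTr.B_zero (C.toTr.B_pt hx ((C.mem_pt_iff p).1 hy))]
  have Be : ∀ v (k : K), Φ.B v (k • e) = T (Ψ.σ (Ψ.B e v) * k) := fun v k => by
    rw [C.BF, Ψ.B_smul_right, Ψ.symm e v, C.ε', one_mul, mul_comm]
  have k1 : ∀ k : K, ∃ c : F, Ψ.B e (g (k • e)) = c • Ψ.B e (g u) := fun k => by
    by_contra hc
    obtain ⟨ζ, ⟨z, z1, z2⟩, e2, e3⟩ := C.cj.exists_second hτ (C.scalar_mem p) h2 hβ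
      (y := Ψ.B e (g (k • e)) / Ψ.B e (g u)) fun c e' => hc ⟨c, by
        rw [Algebra.smul_def, e', div_mul_cancel₀ _ hβ]⟩
    have := ts _ (smul_mem_pt k e) _ (stab_apply (X.stab_of z1 (fun w hw => by
      simp [z2, (C.mem_pt_iff p).1 hw]) hu hu' (by simpa [z2, e2] using hu)) (smul_mem_pt k e))
    rw [mul_app, mul_app, app_inv_app, z2, map_add, ts _ (smul_mem_pt k e) _ (smul_mem_pt k e),
      zero_add, Be] at this
    rw [div_mul_cancel₀ _ hβ] at e3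
    exact e3 this
  obtain ⟨l, hl⟩ := exists_mul_eq_one C.cj.T_ne hβ 1
  obtain ⟨b, hb⟩ := exists_mul_eq C.cj.T_ne (T ∘ₗ LinearMap.mulLeft F l ∘ₗ
    (Ψ.B e).restrictScalars F ∘ₗ g.toLinearMap ∘ₗ (LinearMap.toSpanSingleton K V e).restrictScalars F)
  replace hb : ∀ k : K, Ψ.B e (g (k • e)) = T (Ψ.σ (Ψ.σ b) * k) • Ψ.B e (g u) := fun k => by
    obtain ⟨c, hc⟩ := k1 k
    have : T (l * Ψ.B e (g (k • e))) = _ := hb k
    rw [Ψ.invol, mul_comm, ← this, hc, mul_smul_comm, map_smul, hl, smul_eq_mul, mul_one]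
  refine ⟨Ψ.σ b, fun e' => ?_, fun y hy => ?_⟩
  · obtain ⟨k, rfl⟩ := mem_pt.1 hu
    exact hβ (by simpa [e'] using hb k)
  have e1 := p.eq_smul (v := g (y • e)) (by rw [hb, hy, zero_smul])
  obtain ⟨ζ, ⟨z, z1, z2⟩, e2⟩ := C.cj.exists_apply_eq hτ (C.scalar_mem p) h2 hβ
    (y := Ψ.B f (g (y • e))) (by rw [← Be, ← e1, ts _ hu _ (smul_mem_pt y e)])
  refine ⟨g⁻¹ * z * g, M.mul_mem (M.mul_mem (M.inv_mem X.mem) z1) X.mem, fun k => g.injective ?_⟩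
  rw [mul_app, mul_app, app_inv_app, z2, hb, map_smul ζ, e2, smul_assoc, ← e1, add_smul, smul_assoc,
    map_add, map_smul g]

theorem lam_pt (n : K) (c : F) (hc : Φ.π c = 0) : Φ.HasE M (n • e) 0 c := by
  obtain ⟨b, b0, hb⟩ := C.exists_tv p hτ h2
  obtain ⟨t, rfl⟩ := C.lam c hc
  have key : ∀ n, T (Ψ.σ b * n) = 0 → Φ.HasE M (n • e) 0 (Φ.σ t - Φ.ε * t) := fun n hn => by
    obtain ⟨s, s1, s2⟩ := hb (-t • n) (by rw [mul_smul_comm, map_smul, hn, smul_zero])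
    obtain ⟨ζ, hζ, e1⟩ := C.cj.exists_apply_eq hτ (C.scalar_mem p) h2 b0 hn
    have sk := C.skew p hζ b
    obtain ⟨z, z1, z2⟩ := hζ
    refine ⟨z⁻¹ * (s * z * s⁻¹), M.mul_mem (M.inv_mem z1) (M.mul_mem (M.mul_mem s1 z1)
      (M.inv_mem s1)), fun v => z.injective ?_⟩
    rw [mul_app, app_inv_app, mul_app, mul_app, z2, map_add, app_inv_app, s2,
      C.B_inv p s1 (b := Ψ.B e v + T (Ψ.σ (-t • n) * Ψ.B e v) • b) fun k => by
        rw [s2, Ψ.B_smul_left, map_add, C.cj.s_smul, ← C.cj.Ts, map_mul Ψ.σ, Ψ.invol]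
        simp only [add_mul, mul_add, map_add, smul_mul_assoc, mul_smul_comm, map_smul, smul_eq_mul,
          mul_comm], z2, ef, C.BF (n • e), map_add ζ, map_smul ζ, e1, mul_add, map_add T,
      mul_smul_comm, map_smul T, hn, eq_neg_of_add_eq_zero_left (sk _), e1, C.cj.s_smul,
      smul_mul_assoc, map_smul T]
    have e2 : ∀ c : F, Ψ.B e (c • n • e) = 0 := fun c =>
      (C.mem_pt_iff p).1 (Submodule.smul_mem _ _ (smul_mem_pt _ _))
    simp only [smul_zero, add_zero, map_sub (Ψ.B e), e2, sub_zero, Ψ.B_smul_left, add_smul,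
      smul_assoc, C.ε, map_zero, LinearMap.zero_apply, map_neg, smul_eq_mul]
    module
  obtain ⟨a, a0, a1, a2⟩ := C.cj.exists_fix_ker (Ψ.σ b * n)
  obtain ⟨d, d1, d2⟩ := C.exists_torus p (a := a⁻¹) (by rw [map_inv₀, a1]) (inv_ne_zero a0)
  have := (key (a * n) (by rwa [mul_left_comm])).conj d1 (C.hM d1)
  rwa [d2, inv_mul_cancel_left₀ a0, map_zero] at this

end Big

end Pair

theorem EG_le_of_lam (h1 : ∀ x, Ψ.Q x = 0 → ∀ c, Φ.π c = 0 → Φ.HasE M x 0 c) {e : V}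
    (he : Ψ.Q e = 0) (h0 : e ≠ 0) : Φ.EG ≤ M := by
  obtain ⟨ι, ι0, ι1, -⟩ := C.exists_skew
  have hι : Φ.π ι = 0 := by rw [C.π, ι1, add_neg_cancel]
  have k1 : ∀ x, Ψ.Q x = 0 → ∀ a b : K, Φ.Valid (a • x) (b • x) 0 ∧ Φ.HasE M (a • x) (b • x) 0 :=
    fun x hx a b => by
      have q : ∀ a : K, Φ.Q (a • x) = 0 := fun a => C.toTr.Q_zero (Ψ.Q_smul_zero hx a)
      have pp : ∀ a b : K, Φ.B (a • x) (b • x) = 0 := fun a b =>
        C.toTr.B_zero (by simp [Ψ.B_self hx])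
      refine ⟨valid_zero (q a) (pp a b) (q b), ?_⟩
      have := (hasE_add_center (q a) (q ((-ι)⁻¹ • b)) (pp _ _) hι
        (add_smul a _ x ▸ h1 _ (Ψ.Q_smul_zero hx _) ι hι) (h1 _ (Ψ.Q_smul_zero hx _) ι hι)).1
        (h1 _ (Ψ.Q_smul_zero hx _) ι hι)
      rwa [C.ε, one_mul, smul_assoc, smul_inv_smul₀ (neg_ne_zero.2 ι0)] at this
  have k2 : ∀ e, Ψ.Q e = 0 → e ≠ 0 → Φ.Full M e := fun e he h0 w c hv => by
    refine InA.hasE ?_ (h1 e he) hv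
    obtain ⟨f, p⟩ := C.exists_hp he h0
    have i1 : ∀ a : K, Φ.InA M e (a • e) := fun a => ⟨0, by simpa using k1 e he 1 a⟩
    obtain ⟨k, hk, hk'⟩ : ∃ k, T (Ψ.σ (Ψ.B e w) * k) = 0 ∧ k ∉ Submodule.span F {(1 : K)} := by
      by_contra hc
      push Not at hc
      have e1 := (Submodule.finrank_mono (show LinearMap.ker
        (T ∘ₗ LinearMap.mulLeft F (Ψ.σ (Ψ.B e w))) ≤ _ from hc)).trans
        ((finrank_span_le_card ({1} : Set K)).trans (by simp : _ ≤ 1))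
      have e2 := finrank_le_inf_ker ⊤ (T ∘ₗ LinearMap.mulLeft F (Ψ.σ (Ψ.B e w)))
      rw [top_inf_eq, finrank_top] at e2
      have := C.cj.three_le
      omega
    obtain ⟨φ, φ1, φ2⟩ := exists_dual_zero_one hk'
    obtain ⟨m, hm⟩ := exists_mul_eq C.cj.T_ne φ
    have e0 : T (Ψ.σ (Ψ.B e w)) = 0 := by rw [C.cj.Ts, ← C.BF, hv.perp, map_zero]
    obtain ⟨hv', t, ht, et⟩ := k1 f p.qf (Ψ.σ m) (Ψ.B e w)
    have e1 : ∀ a : K, t (a • e) = a • e + T (a * m) • Ψ.B e w • f -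
        T (Ψ.σ (Ψ.B e w) * a) • Ψ.σ m • f := fun a => by
      simp [et, ef, C.BF, p.simp, C.ε, Ψ.invol, mul_comm]
    have e2 := (i1 k).conj ht (C.hM ht)
    rw [e1, ← hm, φ2, hk, ← one_smul K e, e1, ← hm, φ1, mul_one, e0] at e2
    have e3 := (InA.sub (by simpa using e2) (i1 k)).add (i1 (Ψ.B f w))
    rwa [add_sub_cancel_left, add_comm, ← p.eq w] at e3
  obtain ⟨f, p⟩ := C.exists_hp he h0
  obtain ⟨a, ha⟩ := C.toTr.exists_T 1
  have e0 : Φ.B e (a • f) ≠ 0 := by simp [C.BF, p.simp, ha]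
  have e2 := Ψ.Q_smul_zero p.qf a
  exact EG_le_of_full (k2 e he h0) (k2 _ e2 fun e => e0 (by rw [e, map_zero]))
    (C.toTr.Q_zero he) (C.toTr.Q_zero e2) e0

variable (hn : ¬ Φ.EG ≤ M)
include hn

section Pair

variable {e f : V} (p : Ψ.Hp e f)
include p

/-- The centraliser of a singular point consists of transvections over `K`. -/
theorem exists_skew_of_fix {z : V ≃ₗ[F] V} (hz : z ∈ M) (h1 : ∀ b ∈ pt F K e, z b = b) :
    ∃ c, ∀ v, z v = v + (c * Ψ.B e v) • e := by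
  obtain ⟨ζ, hζ⟩ := C.exists_of_fix p hz fun k => h1 _ (smul_mem_pt k e)
  by_contra hc
  obtain ⟨t, t1, t2⟩ := C.exists_scalar p C.a1 C.a2
  obtain ⟨τ, hτ, h2⟩ := C.cj.exists_comp (ZA Ψ M p.qe) (fun a ha => by
      by_cases a0 : a = 0
      · exact fun _ _ => ⟨0, zero_mem _, by simp [a0]⟩
      · obtain ⟨t, t1, t2⟩ := C.exists_torus p ha a0
        exact C.conj_mem p t1 t2) C.a1 C.a3 (C.conj_mem p t1 fun k => by rw [t2, smul_smul])
    (fun ζ => C.skew p) ⟨z, hz, hζ⟩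
    fun ⟨c, hc'⟩ => hc ⟨c, fun v => by rw [hζ, hc']⟩
  refine hn (C.EG_le_of_lam (fun x hx c hc => ?_) p.qe p.ne)
  by_cases x0 : x = 0
  · exact ⟨1, M.one_mem, fun v => by simp [ef, x0]⟩
  obtain ⟨d, hd, a, ha, e1⟩ := Rk.move_pt (Or.inr C.rk) p.qe hx p.ne x0
  have := (C.lam_pt p hτ h2 a⁻¹ c hc).conj (C.hH (C.toTr.res_EG hd))
    (C.toTr.res_Iso (Ψ.EG_le_Iso hd))
  rwa [map_zero, res_apply, map_smul, e1, inv_smul_smul₀ ha] at this

omit hn in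
theorem exists_tr {c : K} (hc : Ψ.σ c = -c) : ∃ u ∈ M, ∀ v, u v = v + (c * Ψ.B e v) • e := by
  obtain ⟨ζ, ⟨u, h1, h2⟩, h3⟩ := C.scalar_mem p c hc
  exact ⟨u, h1, fun v => by rw [h2, h3]⟩

theorem semi {s : V ≃ₗ[F] V} (hs : s ∈ M) (hs' : s ∈ stab (pt F K e)) (a : K) :
    ∃ b : K, ∀ k : K, s ((a * k) • e) = b • s (k • e) := by
  have key : ∀ c, Ψ.σ c = -c → ∃ c' : K, ∀ k : K, s ((c * k) • e) = (c' * Ψ.B e (s (k • f))) • e :=
    fun c hc => by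
      obtain ⟨u, u1, u2⟩ := C.exists_tr p hc
      obtain ⟨c', h1⟩ := C.exists_skew_of_fix hn p (M.mul_mem (M.mul_mem hs u1) (M.inv_mem hs))
        fun b hb => by
          rw [mul_app, mul_app, u2, (C.mem_pt_iff p).1 (stab_apply ((stab _).inv_mem hs') hb),
            mul_zero, zero_smul, add_zero, app_inv_app]
      exact ⟨c', fun k => by simpa [u2, p.simp] using h1 (s (k • f))⟩
  obtain ⟨ι, -, -, ι0, ι1⟩ := C.exists_skew
  obtain ⟨c, hc⟩ := key _ ι1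
  have c0 : c ≠ 0 := fun e' => ι0 (by simpa [e', p.ne] using hc 1)
  have k1 : ∀ a, Ψ.σ a = a → ∃ b : K, ∀ k : K, s ((a * k) • e) = b • s (k • e) := fun a ha => by
    obtain ⟨c', hc'⟩ := key (a * algebraMap F K ι) (by rw [map_mul, ha, ι1, mul_neg])
    refine ⟨c' / c, fun k => ?_⟩
    rw [← mul_div_cancel₀ k ι0, ← mul_assoc, hc', hc, smul_smul, ← mul_assoc, div_mul_cancel₀ _ c0]
  obtain ⟨ω, x, y, hx, hy, rfl, -⟩ := C.cj.exists_add_smul a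
  obtain ⟨b, hb⟩ := k1 x hx
  obtain ⟨b', hb'⟩ := k1 y hy
  exact ⟨b + ω • b', fun k => by
    rw [add_mul, add_smul, map_add, hb, smul_mul_assoc, smul_assoc, map_smul s ω, hb', add_smul,
      smul_assoc]⟩

/-- The stabiliser of a singular point is semilinear. -/
theorem exists_aut {s : V ≃ₗ[F] V} (hs : s ∈ M) (hs' : s ∈ stab (pt F K e)) :
    ∃ τ : K ≃ₐ[F] K, ∀ (a : K) v, s (a • v) = τ a • s v := by
  choose τ hτ using C.semi hn p hs hs'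
  have e1 : ∀ a, s (a • e) = τ a • s e := fun a => by simpa using hτ a 1
  have inj := smul_left_injective K (s.map_ne_zero_iff.2 p.ne)
  let ρ : K →ₐ[F] K :=
    { toFun := τ
      map_one' := inj (by simp [← e1])
      map_mul' := fun a b => inj (by simp only [mul_smul (τ a), ← e1, hτ])
      map_zero' := inj (by simp [← e1])
      map_add' := fun a b => inj (by simp only [← e1, add_smul, map_add])
      commutes' := fun c => inj (by simp [← e1]) }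
  let θ := AlgEquiv.ofBijective ρ (Finite.injective_iff_bijective.1 ρ.injective)
  have hθ : ∀ a k : K, s ((a * k) • e) = θ a • s (k • e) := hτ
  refine ⟨θ, fun a => ?_⟩
  obtain ⟨t, t1, t2⟩ := C.exists_scalar p C.a1 C.a2
  obtain ⟨t', t3, t4⟩ := C.exists_scalar p (a := θ a₀)
    (by rw [Cj.comm, ← map_mul, C.a1, map_one]) (by rw [Algebra.norm_eq_of_algEquiv, C.a2])
  obtain ⟨c, hc⟩ := C.exists_skew_of_fix hn p
    (M.mul_mem (M.inv_mem t3) (M.mul_mem (M.mul_mem hs t1) (M.inv_mem hs))) fun b hb => by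
      obtain ⟨k, hk⟩ := mem_pt.1 (stab_apply ((stab _).inv_mem hs') hb)
      refine t'.injective ?_
      rw [mul_app, app_inv_app, mul_app, mul_app, ← hk, t2, smul_smul, hθ, hk, app_inv_app, t4]
  have e2 : ∀ v, s (a₀ • v) = θ a₀ • (s v + (c * Ψ.B e (s v)) • e) := fun v => by
    rw [← hc, ← t4, mul_app, app_inv_app, mul_app, mul_app, inv_app_app, t2]
  have e3 : ∀ n : ℕ, ∀ v, s (a₀ ^ n • v) = θ a₀ ^ n • (s v + (n * c * Ψ.B e (s v)) • e) :=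
    fun n v => by
      induction n with
      | zero => simp
      | succ n ih =>
        rw [pow_succ', mul_smul, e2, ih]
        simp only [Ψ.bsimp, p.simp, Nat.cast_succ]
        module
  have := Fintype.ofFinite K
  have a0 : a₀ ≠ 0 := left_ne_zero_of_mul_eq_one C.a1
  have c0 : c = 0 := by
    have := e3 (Fintype.card K - 1) (s⁻¹ f)
    rw [← map_pow, FiniteField.pow_card_sub_one_eq_one _ a0, map_one, one_smul, one_smul,
      Nat.cast_sub Fintype.card_pos, FiniteField.cast_card_eq_zero, app_inv_app] at this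
    simpa [p.simp, p.ne] using this
  let S : Subalgebra F K :=
    { carrier := {a | ∀ v, s (a • v) = θ a • s v}
      mul_mem' := fun {a b} ha hb v => by rw [mul_smul, ha, hb, map_mul, mul_smul]
      add_mem' := fun {a b} ha hb v => by rw [add_smul, map_add, ha, hb, map_add, add_smul]
      algebraMap_mem' := fun c v => by simp }
  rcases (Subalgebra.isSimpleOrder_of_finrank_prime F K C.prime).eq_bot_or_eq_top S with h | h
  · obtain ⟨d, hd⟩ := Algebra.mem_bot.1 (h ▸ (show a₀ ∈ S from fun v => by simp [e2, c0]))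
    exact absurd hd (C.a3 d)
  · exact (h ▸ Algebra.mem_top : a ∈ S)

section Conf

variable {g : V ≃ₗ[F] V} (hg : g ∈ M) (hg' : g ∉ stab (pt F K e)) {j : V} (hj : j ∈ pt F K e)
  (hj0 : j ≠ 0) (hgj : g j ∈ pt F K e)
include hg hj hj0 hgj

theorem burn {J : Submodule F V} (hJ : J = (pt F K e).map (g : V →ₗ[F] V) ⊓ pt F K e) {d : V}
    (hd : d ∈ (pt F K e).map (g : V →ₗ[F] V))
    (h1 : ∀ s ∈ M, s ∈ stab (pt F K e) → (∀ y ∈ J, s y = y) → s d - d ∈ J → ∀ b ∈ pt F K e, s b = b)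
    {c₀ : K} (c0 : c₀ ≠ 0) (c1 : Ψ.σ c₀ = -c₀) (c2 : (c₀ * Ψ.B e d) • e ∈ J) :
    ∃ v, Φ.B (g j) v ≠ 0 ∧ ∀ c, Ψ.σ c = -c → (c * Ψ.B e d) • e ∈ J → (c * Ψ.B e v) • e ∈ J := by
  classical
  set X := fixMod M J d with hX
  have hj' : g j ∈ J := hJ ▸ ⟨⟨j, hj, rfl⟩, hgj⟩
  have hj0' : g j ≠ 0 := g.map_ne_zero_iff.2 hj0
  have : Finite (V ≃ₗ[F] V) := Finite.of_injective _ DFunLike.coe_injective
  have := Finite.of_injective _ (algebraMap F K).injective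
  have hA : ∀ s : X, s ∈ (stab (pt F K e)).subgroupOf X →
      ∃ c, ∀ v, s.1 v = v + (c * Ψ.B e v) • e := fun s hs =>
    C.exists_skew_of_fix hn p s.2.1 (h1 _ s.2.1 hs s.2.2.1 s.2.2.2)
  have tX : ∀ c, Ψ.σ c = -c → (c * Ψ.B e d) • e ∈ J →
      ∃ u : X, ∀ v, u.1 v = v + (c * Ψ.B e v) • e := fun c e1 e2 => by
    obtain ⟨u, u1, u2⟩ := C.exists_tr p e1
    exact ⟨⟨u, u1, fun y hy => by simp [u2, (C.mem_pt_iff p).1 (hJ ▸ hy).2], by simpa [u2]⟩, u2⟩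
  obtain ⟨q, hq⟩ := CharP.exists F
  have : Fact q.Prime := ⟨CharP.char_is_prime F q⟩
  have : CharP K q := charP_of_injective_algebraMap (algebraMap F K).injective q
  obtain ⟨P, hP, hc, dec⟩ := exists_normal_compl (p := q) (A := (stab (pt F K e)).subgroupOf X)
    (fun s => ⟨1, Subtype.ext (Subtype.ext (by
      obtain ⟨c, hc⟩ := hA s s.2
      have : ∀ n : ℕ, ∀ v, (s.1.1 ^ n) v = v + (n * c * Ψ.B e v) • e := fun n v => by
        induction n with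
        | zero => simp
        | succ n ih =>
          rw [pow_succ', mul_app, ih, hc]
          simp only [Ψ.bsimp, p.simp, Nat.cast_succ]
          module
      exact LinearEquiv.ext fun v => by simp [this]))⟩)
    (fun s hs t ht => Subtype.ext (by
      obtain ⟨a, ha⟩ := hA s hs
      obtain ⟨b, hb⟩ := hA t ht
      exact LinearEquiv.ext fun v => by simp [ha, hb, p.simp, add_right_comm]))
    (fun n hn => by
      obtain ⟨u, hu⟩ := tX c₀ c1 c2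
      obtain ⟨c, hc⟩ := hA _ (hn u (mem_stab_of_mapsTo (g := u.1) fun y hy => by
        simpa [hu, (C.mem_pt_iff p).1 hy]))
      have e1 : ∀ v, n.1 ((c₀ * Ψ.B e v) • e) = (c * Ψ.B e (n.1 v)) • e := fun v => by
        simpa [hu] using hc (n.1 v)
      refine mem_stab_of_mapsTo (g := n.1) fun y hy => ?_
      obtain ⟨k, rfl⟩ := mem_pt.1 hy
      have := e1 ((k / c₀) • f)
      rw [Ψ.B_smul_right, p.ef, mul_one, mul_div_cancel₀ _ c0] at this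
      exact this ▸ smul_mem_pt _ _)
  obtain ⟨u, u1, u2⟩ := C.exists_tr p c1
  have e0 : ∀ y ∈ (pt F K e).map (g : V →ₗ[F] V), (g * u * g⁻¹) y = y := by
    rintro _ ⟨y, hy, rfl⟩
    simp [u2, (C.mem_pt_iff p).1 hy]
  obtain ⟨y, hy, s, hs, e1⟩ := dec ⟨g * u * g⁻¹, M.mul_mem (M.mul_mem hg u1) (M.inv_mem hg),
    fun y hy => e0 y (hJ ▸ hy).1, by simp only [e0 d hd, sub_self, zero_mem]⟩
  have key : ∀ z ∈ pt F K e, (∀ y ∈ P, y.1 z = z) → z ∈ J := fun z hz hz' => by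
    obtain ⟨b, hb⟩ := hA s hs
    have e2 := congrArg (fun s : X => s.1 z) e1
    simp only [Subgroup.coe_mul, mul_app, hb, (C.mem_pt_iff p).1 hz, mul_zero, zero_smul, add_zero,
      hz' y hy, u2, map_add, app_inv_app, add_eq_left, g.map_eq_zero_iff, smul_eq_zero, p.ne,
      or_false, mul_eq_zero, c0, false_or] at e2
    exact hJ ▸ ⟨⟨g⁻¹ z, (C.mem_pt_iff p).2 e2, app_inv_app _ _⟩, hz⟩
  obtain ⟨v₀, hv₀⟩ := Φ.exists_B_ne hj0'
  have := Fintype.ofFinite P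
  set v := ∑ y : P, y.1.1 v₀ with hv
  have v1 : ∀ y ∈ P, y.1 v = v := fun y hy => by
    rw [hv, map_sum]
    exact Fintype.sum_equiv (Equiv.mulLeft (⟨y, hy⟩ : P)) _ _ fun _ => rfl
  refine ⟨v, ?_, fun c e2 e3 => key _ (smul_mem_pt _ _) fun y hy => ?_⟩
  · rw [hv, map_sum, Finset.sum_congr rfl (g := fun _ => Φ.B (g j) v₀) fun y _ => by
      conv_lhs => rw [← y.1.2.2.1 _ hj']
      exact Iso.B (C.hM y.1.2.1) _ _, Finset.sum_const, nsmul_eq_mul, Finset.card_univ,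
      ← Nat.card_eq_fintype_card]
    exact mul_ne_zero (by rwa [Ne, CharP.cast_eq_zero_iff F q]) hv₀
  · obtain ⟨t, ht⟩ := tX c e2 e3
    have e4 : y.1 (t.1 v) = t.1 v :=
      t.1⁻¹.injective (by rw [inv_app_app]; exact v1 _ (hP.conj_mem' y hy t))
    rwa [ht, map_add, v1 y hy, add_right_inj] at e4

include hg' in
theorem conf_false : False := by
  obtain ⟨ι, ι0, -, ι1, ι2⟩ := C.exists_skew
  obtain ⟨k, hk⟩ := mem_pt.1 hgj
  have k0 : k ≠ 0 := fun e' => hj0 (g.map_eq_zero_iff.1 (by rw [← hk, e', zero_smul]))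
  have Bj : ∀ v, Φ.B (g j) v = T (Ψ.σ k * Ψ.B e v) := fun v => by rw [← hk, C.BF, Ψ.B_smul_left]
  set J := (pt F K e).map (g : V →ₗ[F] V) ⊓ pt F K e with hJ
  by_cases h1 : ∀ y ∈ J, ∃ c : F, c • g j = y
  · obtain ⟨w, w1, w2, w3⟩ := C.cj.exists_good
    have hk' : Ψ.σ k ≠ 0 := Ψ.σ_ne k0
    obtain ⟨d, hd, b, hb, e1⟩ := Submodule.mem_sup.1 (show (w / Ψ.σ k) • f ∈
        (pt F K e).map (g : V →ₗ[F] V) ⊔ pt F K e by
      rw [← Φ.perp_perp (_ ⊔ _)]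
      intro y hy
      obtain ⟨c, rfl⟩ := h1 y ⟨⟨g⁻¹ y, (C.mem_pt_iff p).2 (C.toTr.perp_of' fun k => by
          rw [Iso.B_inv (C.hM hg)]
          exact hy _ (Submodule.mem_sup_left ⟨_, smul_mem_pt k e, rfl⟩)), app_inv_app _ _⟩,
        (C.mem_pt_iff p).2 (C.toTr.mem_perp_pt.1 (Φ.perp_anti le_sup_right hy))⟩
      rw [Φ.B_smul_left, Bj, Ψ.B_smul_right, p.ef, mul_one, mul_div_cancel₀ _ hk', w2, mul_zero])
    have e2 : Ψ.B e d = w / Ψ.σ k := by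
      simpa [(C.mem_pt_iff p).1 hb, p.simp] using congrArg (Ψ.B e) e1
    have w0 : w ≠ 0 := fun e' => w3 0 (by simp [e'])
    have c1 : Ψ.σ (algebraMap F K ι * (k * Ψ.σ k / w)) = -(algebraMap F K ι * (k * Ψ.σ k / w)) := by
      rw [map_mul, ι2, map_div₀, map_mul, Ψ.invol, w1, mul_comm k, neg_mul]
    have c2 : (algebraMap F K ι * (k * Ψ.σ k / w) * Ψ.B e d) • e ∈ J := by
      rw [e2, show algebraMap F K ι * (k * Ψ.σ k / w) * (w / Ψ.σ k) = algebraMap F K ι * k by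
        field_simp, mul_smul, algebraMap_smul, hk]
      exact J.smul_mem _ ⟨⟨j, hj, rfl⟩, hgj⟩
    obtain ⟨v, v1, v2⟩ := C.burn hn p hg hj hj0 hgj hJ hd (fun s s1 s2 s3 s4 => by
      obtain ⟨τ, hτ⟩ := C.exists_aut hn p s1 s2
      have e3 : s (g j) = g j := s3 _ ⟨⟨j, hj, rfl⟩, hgj⟩
      have e4 : Ψ.B e (s d) = Ψ.B e d := by
        simpa [sub_eq_zero] using (C.mem_pt_iff p).1 s4.2
      have e5 : τ = 1 := by
        by_contra hne
        obtain ⟨c, hc⟩ := C.cj.fix hne (a := w) (sub_eq_zero.1 (eq_zero_of_forall_mul C.cj.T_ne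
          fun a => by
            obtain ⟨a, rfl⟩ := τ.surjective a
            have := Iso.B (C.hM s1) (g j) (a • d)
            rw [e3, hτ, Bj, Bj, Ψ.B_smul_right, Ψ.B_smul_right, e4, e2, mul_left_comm,
              mul_left_comm _ a, mul_div_cancel₀ _ hk'] at this
            rw [mul_sub, map_sub, this, ← map_mul, C.cj.Tτ, sub_self]))
        exact w3 c hc
      intro b hb
      obtain ⟨a, rfl⟩ := exists_smul_of_mem_pt (K := K) hgj (g.map_ne_zero_iff.2 hj0) hb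
      rw [hτ, e3, e5, AlgEquiv.one_apply])
      (mul_ne_zero ι1 (div_ne_zero (mul_ne_zero k0 hk') w0)) c1 c2
    obtain ⟨c, hc⟩ := h1 _ (v2 _ c1 c2)
    rw [← hk, ← smul_assoc] at hc
    have := smul_left_injective K p.ne hc
    refine v1 ?_
    rw [Bj, show Ψ.σ k * Ψ.B e v = (c / ι) • w by
      rw [Algebra.smul_def] at this ⊢
      rw [map_div₀]
      field_simp at this ⊢
      linear_combination -this, map_smul, w2, smul_zero]
  · push Not at h1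
    obtain ⟨y, y1, y2⟩ := h1
    obtain ⟨v, v1, v2⟩ := C.burn hn p hg hj hj0 hgj hJ (zero_mem _) (fun s s1 s2 s3 _ => by
      obtain ⟨τ, hτ⟩ := C.exists_aut hn p s1 s2
      exact Semi.fix_of_two C.prime (fun a => ⟨τ a, fun y _ => hτ a y⟩) hgj
        (g.map_ne_zero_iff.2 hj0) (s3 _ ⟨⟨j, hj, rfl⟩, hgj⟩) y1.2 (s3 y y1) y2) ι1 ι2 (by simp)
    have v0 : Ψ.B e v ≠ 0 := fun e' => v1 (by rw [Bj, e', mul_zero, map_zero])
    refine hg' ((stab _).inv_mem_iff.1 (mem_stab_of_mapsTo fun b hb => ?_))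
    obtain ⟨m, rfl⟩ := mem_pt.1 hb
    obtain ⟨ω, x, z, hx, hz, e1, -⟩ := C.cj.exists_add_smul (m / (algebraMap F K ι * Ψ.B e v))
    have e2 : ∀ x, Ψ.σ x = x → (x * (algebraMap F K ι * Ψ.B e v)) • e ∈ J := fun x hx =>
      mul_assoc x _ _ ▸ v2 _ (by rw [map_mul, hx, ι2, mul_neg]) (by simp)
    have e3 := J.add_mem (e2 x hx) (J.smul_mem ω (e2 z hz))
    rw [← smul_assoc, ← add_smul, ← smul_mul_assoc, ← add_mul, ← e1,
      div_mul_cancel₀ _ (mul_ne_zero ι1 v0)] at e3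
    obtain ⟨⟨b, hb, e4⟩, -⟩ := e3
    rwa [← e4, LinearEquiv.coe_coe, inv_app_app]

end Conf

end Pair

theorem pm_of_sing {g : V ≃ₗ[F] V} (hg : g ∈ M) {e : V} (he : Ψ.Q e = 0) (hge : Ψ.Q (g e) = 0) :
    Pm K g e := by
  by_contra hp
  obtain ⟨h0, g₀, h1, h2, h3⟩ := C.toTr.exists_conf C.hH (Or.inr C.rk) hg he hge hp
  obtain ⟨f, p⟩ := C.exists_hp he h0
  exact C.conf_false hn p h1 h2 (self_mem_pt e) h0 h3

theorem pm {g : V ≃ₗ[F] V} (hg : g ∈ M) {e : V} (he : Ψ.Q e = 0) : Pm K g e := by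
  by_contra hp
  have hq : Ψ.Q (g e) ≠ 0 := fun e' => hp (C.pm_of_sing hn hg he e')
  have hvv : Ψ.B (g e) (g e) ≠ 0 := fun e' => hq (C.sing _ e')
  have h0 : e ≠ 0 := fun e' => hq (by rw [e', map_zero, Ψ.Q_zero])
  obtain ⟨k, hu⟩ := not_forall.1 hp
  set w := g (k • e) - (Ψ.B (g e) (g (k • e)) / Ψ.B (g e) (g e)) • g e with hw
  have w0 : w ≠ 0 := fun e' => hu (sub_eq_zero.1 e' ▸ smul_mem_pt _ _)
  have w1 : Ψ.B (g e) w = 0 := by simp [hw, hvv]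
  have sp : ∀ y, ∃ a b : K, y = a • g e + b • w := fun y => by
    have li : LinearIndependent K ![g e, w] := LinearIndependent.pair_iff.2 fun a b h => by
      have : a = 0 := by simpa [w1, hvv] using congrArg (Ψ.B (g e)) h
      exact ⟨this, by simpa [this, w0] using h⟩
    obtain ⟨c, rfl⟩ := (Submodule.mem_span_range_iff_exists_fun K).1
      (li.span_eq_top_of_card_eq_finrank' (by simp [C.dim]) ▸ Submodule.mem_top (x := y))
    exact ⟨c 0, c 1, by simp⟩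
  have ww : Ψ.B w w ≠ 0 := fun e' => w0 (Ψ.nondeg w fun y => by
    obtain ⟨a, b, rfl⟩ := sp y
    simp [e', Ψ.perp_symm w1])
  obtain ⟨t, t1, t2⟩ := C.exists_refl ww
  have e1 : (g⁻¹ * t * g) e = e := by simp [t2, Ψ.perp_symm w1]
  have st : ∀ y ∈ (pt F K e).map (g : V →ₗ[F] V), t y ∈ (pt F K e).map (g : V →ₗ[F] V) := by
    rintro _ ⟨b, hb, rfl⟩
    obtain ⟨a, rfl⟩ := mem_pt.1 hb
    have := C.pm_of_sing hn (M.mul_mem (M.mul_mem (M.inv_mem hg) t1) hg) he (by rwa [e1]) a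
    rw [e1] at this
    exact ⟨_, this, app_inv_app _ _⟩
  have m1 : g (k • e) ∈ (pt F K e).map (g : V →ₗ[F] V) := ⟨_, smul_mem_pt k e, rfl⟩
  have e2 : t (g (k • e)) - g (k • e) = (a₀ - 1) • w := by
    rw [t2, add_sub_cancel_left, show Ψ.B w (g (k • e)) = Ψ.B w w by
      conv_rhs => enter [2]; rw [hw]
      simp [Ψ.perp_symm w1], div_mul_cancel₀ _ ww]
  obtain ⟨c, hc⟩ := mem_range_of_stab C.prime (A := (pt F K e).map (g : V →ₗ[F] V) ⊓ pt F K w)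
    (y := (a₀ - 1) • w) ⟨e2 ▸ Submodule.sub_mem _ (st _ m1) m1, smul_mem_pt _ _⟩
    (smul_ne_zero (sub_ne_zero.2 fun e' => C.a3 1 (by simp [e'])) w0) (by
      rw [← finrank_pt h0, ← LinearEquiv.finrank_map_eq g (pt F K e)]
      refine Submodule.finrank_lt_finrank_of_lt (SetLike.lt_iff_le_and_exists.2
        ⟨inf_le_left, g e, ⟨e, self_mem_pt e, rfl⟩, fun h => hvv ?_⟩)
      obtain ⟨c, hc⟩ := mem_pt.1 h.2
      conv_lhs => enter [2]; rw [← hc]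
      simp [w1]) (a := a₀) fun y hy => by
      obtain ⟨c, rfl⟩ := mem_pt.1 hy.2
      refine ⟨?_, smul_mem_pt_of _ hy.2⟩
      have := st _ hy.1
      rwa [t2, Ψ.B_smul_right, mul_left_comm, div_mul_cancel₀ _ ww,
        show c • w + (c * (a₀ - 1)) • w = a₀ • c • w by module] at this
  exact C.a3 c hc

theorem le_GamL {e : V} (he : Ψ.Q e = 0) (h0 : e ≠ 0) : M ≤ GamL F K V := fun g hg => by
  have hp := C.pm hn hg he
  obtain ⟨f, p⟩ := C.exists_hp he h0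
  obtain ⟨d, hd, a, ha, e1⟩ := Rk.move_pt (Or.inr C.rk) (C.toTr.sing_of_pm (C.hM hg) he hp) he
    (g.map_ne_zero_iff.2 h0) h0
  obtain ⟨τ, hτ⟩ := C.exists_aut hn p (M.mul_mem (C.hH (C.toTr.res_EG hd)) hg)
    (mem_stab_of_mapsTo fun b hb => by
      obtain ⟨k, rfl⟩ := mem_pt.1 hb
      obtain ⟨c, hc⟩ := mem_pt.1 (hp k)
      rw [mul_app, ← hc, res_apply, map_smul, e1]
      exact smul_mem_pt_of _ (smul_mem_pt _ _))
  exact ((GamL F K V).mul_mem_cancel_left (res_mem_GamL d)).1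
    ⟨fun k => ⟨_, hτ k⟩, fun k => ⟨τ.symm k, fun v => by rw [hτ, τ.apply_symm_apply]⟩⟩

end U2

theorem UU.isMaximalIn_two (h : UU Φ Ψ T) (h2 : finrank K V = 2) (det : Φ.Iso ⊓ SLV F V ≤ Φ.EG)
    (a1 : a₀ * Ψ.σ a₀ = 1) (a2 : Algebra.norm F a₀ = 1) (a3 : ∀ c : F, algebraMap F K c ≠ a₀) :
    Geo.IsMaximalIn Φ.EG (GamL F K V ⊓ Φ.EG) := by
  obtain ⟨e, -, h0, he⟩ := Ψ.iso ⊤ (by rw [finrank_top, h.d, h2])
  refine isMaximalIn_of inf_le_right ?_ fun M h1 h3 g hg hg' => ?_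
  · obtain ⟨ι, ι0, ι1, -⟩ := h.exists_skew
    obtain ⟨g, h1, h2⟩ := h.toTr.exists_not_GamL
      (Or.inr ⟨ι, ι0, by rw [h.π, ι1, add_neg_cancel]⟩) he h0
    exact ⟨g, h1, fun h => h2 h.1⟩
  · by_contra hc
    exact hg' ⟨U2.le_GamL ⟨h, h2, h1, h3.trans Φ.EG_le_Iso, det, a1, a2, a3⟩ hc he h0 hg, h3 hg⟩

end Fm

section Bridge

open Matrix

variable {F : Type*} [Field F] [Fintype F]

/-- `GU_m(q^r).r` in `SU_{mr}(q)`, `r` odd, `m ≥ 2`, `(m, q, r) ≠ (2, 2, 3)`. -/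
theorem uu_normalizer_isMaximalIn {n q : ℕ} (hF : Fintype.card F = q ^ 2) {r : ℕ}
    (hr : r.Prime) (h2 : r ≠ 2) (hn : r < n) (hq : 3 ≤ q ∨ 7 ≤ n)
    {K : Subalgebra F (Matrix (Fin n) (Fin n) F)}
    (hK : Geo.IsFieldSubalgebra r K) (hac : Geo.IsAdjointClosedFor (hermForm n F q) K) :
    Geo.IsMaximalIn (GU n F q ⊓ Geo.specialLinear (Fin n) F)
      (Geo.subalgebraNormalizer K ⊓ (GU n F q ⊓ Geo.specialLinear (Fin n) F)) := by
  by_cases h3 : 2 * r < n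
  · exact uu_normalizer_isMaximalIn_three hF hr h2 h3 hK hac
  have := U.UF.of_card hF
  have : NeZero n := ⟨by omega⟩
  refine normalizer_isMaximalIn_of (mem_SU_iff n q) hK ?_
  let := (isField_of hK).toField
  have h1 := mul_finrank_eq hK
  rw [Fintype.card_fin] at h1
  obtain ⟨Ψ, T, h⟩ := exists_uu_std hr h2 hK hac
  have h4 : finrank K (Fin n → F) = 2 := by
    by_contra hc
    rcases (show finrank K (Fin n → F) ≤ 1 ∨ 3 ≤ finrank K (Fin n → F) by omega) with e | e <;>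
    have := Nat.mul_le_mul_left r e <;> have := hr.pos <;> omega
  obtain ⟨a, a1, a2, a3⟩ := h.cj.exists_a₀ (q := q) (by rwa [Nat.card_eq_fintype_card])
    (fun _ => rfl) (hq.imp_right fun e => by rw [hK.finrank_eq]; rw [h4] at h1; omega)
  exact h.isMaximalIn_two h4 (EG_fmUStd n q).ge a1 a2 a3

end Bridge

end Cfsg.Agent.Class.Max
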