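import Mathlib
import Cfsg.Agent.Class.Max.C4Inst

/-!
Tensor products of formed spaces whose second factor is orthogonal.
-/

set_option autoImplicit false
set_option linter.unusedSectionVars false

namespace Cfsg.Agent.Class.Max

open Module

section Abstract

variable {F U W V : Type*} [Field F] [AddCommGroup U] [Module F U] [AddCommGroup W]
  [Module F W] [AddCommGroup V] [Module F V] {T : Tn F U W V} {Φ₁ : Fm F U} {Φ₂ : Fm F W}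
  {Φ : Fm F V} {M : Subgroup (V ≃ₗ[F] V)}
  [FiniteDimensional F U] [FiniteDimensional F W] [FiniteDimensional F V]

namespace Fm

variable (Φ) in
/-- The skew map attached to two vectors. -/
def rt (w s : V) : V →ₗ[F] V := Φ.rk s w - Φ.rk w s

@[simp] theorem rt_apply (w s x : V) : Φ.rt w s x = Φ.B w x • s - Φ.B s x • w := rfl

variable {w s : V}

theorem Pair.range_rt (h : Φ.Pair w s) : LinearMap.range (Φ.rt w s) = Submodule.span F {w, s} := by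
  obtain ⟨f, -, h1, h2⟩ := h.exists_partner
  obtain ⟨f', -, h3, h4⟩ := h.symm.exists_partner
  refine le_antisymm ?_ (Submodule.span_le.2 ?_)
  · rintro _ ⟨x, rfl⟩
    exact Submodule.mem_span_pair.2 ⟨-Φ.B s x, Φ.B w x, by rw [rt_apply]; module⟩
  · rintro _ (rfl | rfl)
    exacts [⟨-f, by simp [h1, h2]⟩, ⟨f', by simp [h3, h4]⟩]

namespace IsO

variable (hO : Φ.IsO)
include hO

theorem skew_rt (w s : V) : Φ.Skew (Φ.rt w s) := fun x y => by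
  simp only [rt_apply, Φ.bsimp, hO.σ, hO.symm x]
  ring

theorem skew_self (h2 : (2 : F) ≠ 0) {η : V →ₗ[F] V} (h : Φ.Skew η) (x : V) : Φ.B x (η x) = 0 :=
  mul_left_cancel₀ h2 (by linear_combination h x x - hO.symm x (η x))

theorem eq_smul_rt (h2 : (2 : F) ≠ 0) (h : Φ.Pair w s) {η : V →ₗ[F] V} (hη : Φ.Skew η)
    (h1 : ∀ x, η x ∈ Submodule.span F {w, s}) : ∃ c : F, ∀ x, η x = c • Φ.rt w s x := by
  obtain ⟨f, -, f1, f2⟩ := h.exists_partner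
  obtain ⟨f', -, f3, f4⟩ := h.symm.exists_partner
  obtain ⟨a, b, e⟩ := Submodule.mem_span_pair.1 (h1 f)
  obtain ⟨a', b', e'⟩ := Submodule.mem_span_pair.1 (h1 f')
  have k1 := hO.skew_self h2 hη f
  have k2 := hO.skew_self h2 hη f'
  have k3 := hη f f'
  simp only [← e, ← e', Φ.bsimp, hO.σ, hO.symm w, hO.symm s, f1, f2, f3, f4, mul_zero, mul_one,
    add_zero, zero_add] at k1 k2 k3
  refine ⟨b', fun x => ?_⟩
  have := hη.eq_zero (v := x - Φ.B w x • f' - Φ.B s x • f) fun y => by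
    obtain ⟨p, q, e⟩ := Submodule.mem_span_pair.1 (h1 y)
    simp [← e, f1, f2, f3, f4]
  simp only [map_sub, map_smul, ← e, ← e', k1, k2, k3] at this
  rw [rt_apply]
  linear_combination (norm := module) this

theorem exists_rt_eq {p : V} (hp : p ∈ Submodule.span F {w, s}) (p0 : p ≠ 0) :
    ∃ a, ∀ x, Φ.rt w s x = Φ.rt p a x := by
  obtain ⟨c, d, rfl⟩ := Submodule.mem_span_pair.1 hp
  by_cases h : c = 0
  · have : d ≠ 0 := fun h' => p0 (by simp [h, h'])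
    refine ⟨-(d⁻¹ • w), fun x => ?_⟩
    simp only [rt_apply, Φ.bsimp, hO.σ, h]
    match_scalars <;> field_simp <;> ring
  · refine ⟨c⁻¹ • s, fun x => ?_⟩
    simp only [rt_apply, Φ.bsimp, hO.σ]
    match_scalars <;> field_simp <;> ring

theorem exists_move_off (h2 : (2 : F) ≠ 0) (h : Φ.Pair w s) {x : V} (hx : Φ.Q x ≠ 0)
    (h1 : Φ.B w x = 0) (h3 : Φ.B s x = 0) : ∃ τ ∈ Φ.EG, τ w = w ∧ Φ.B (τ s) x ≠ 0 := by
  obtain ⟨f₀, -, e1, e2⟩ := h.exists_partner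
  have x0 : Φ.B x x ≠ 0 := by rw [hO.B_self]; exact mul_ne_zero h2 hx
  obtain ⟨f, ⟨f1, f2⟩, f3, f4⟩ := exists_partner
    (U := LinearMap.ker (Φ.B w) ⊓ LinearMap.ker (Φ.B x)) ⟨h.perp, Φ.perp_symm h3⟩ h.q₂
    ⟨f₀ - (Φ.B x f₀ / Φ.B x x) • x, ⟨by simp [e2, h1], by simp [x0]⟩, by simp [e1, h3]⟩
  have hv := hO.valid f3 (Φ.perp_symm f2)
  refine ⟨_, hv.eich_mem, ef_apply_of_perp (Φ.perp_symm f1) (Φ.perp_symm h1), ?_⟩
  simpa [Valid.eich_apply, hO.ef, hO.symm s f, f4, h3, Φ.perp_symm f2, hO.σ] using x0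

end IsO

end Fm

namespace TF

variable (hT : TF T Φ₁ Φ₂ Φ) (hH : T.NG ⊓ Φ.EG ≤ M) (hG : M ≤ Φ.EG)
  (hL : ∀ w, Φ₂.Q w = 0 → w ≠ 0 → Loc T Φ₂ M w) (hO : Φ₂.IsO) (h2 : (2 : F) ≠ 0)
  (h5 : 5 ≤ finrank F W)
include hT hH hG hL hO h2 h5

theorem mem_of_perp_o {g : V ≃ₗ[F] V} (hg : g ∈ M) {w y z : W} (hw : Φ₂.Q w = 0) (hw0 : w ≠ 0)
    (hy : Φ₂.Q y ≠ 0) (hwy : Φ₂.B w y = 0) (hz : Φ₂.Q z = 0) (hz0 : z ≠ 0)
    (h1 : ∀ u u', Φ.B (g (T.tm u' w)) (T.tm u z) = 0)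
    (h3 : ∀ u u', Φ.B (g (T.tm u' y)) (T.tm u z) = 0) : g ∈ T.NG := by
  have hI := Φ.EG_le_Iso (hG hg)
  have hv := hO.valid hw hwy
  have hk := hT.krR_mem hH hv.eich_mem
  have k1 : ∀ u, (g * (T.krR hv.eich * g⁻¹)) (T.tm u z) = T.tm u z := fun u => by
    rw [mul_app, mul_app, krR_ef hv.eich_apply,
      hT.cR_eq_zero fun u' => by rw [Fm.Iso.B_inv hI, h1],
      hT.cR_eq_zero fun u' => by rw [Fm.Iso.B_inv hI, h3]]
    simp
  obtain ⟨a, d, e⟩ := hT.mem_of_sp hH hG hL (by omega)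
    (M.mul_mem hg (M.mul_mem hk (M.inv_mem hg))) hz hz0 hz0 fun u => (k1 u).symm ▸ T.tm_mem_sp u z
  obtain ⟨d', e'⟩ := T.exists_krR_of_smul d hT.ne₁ (T.smul_of_fix (Y := ⊥) (y := z)
    (by simpa using hz0) fun u => by rw [← e, k1, sub_self]; exact zero_mem _)
  set n := d'.toLinearMap - LinearMap.id with hn
  have k2 : ∀ v, T.krL LinearMap.id n (g v) = g (T.krR hv.eich v - v) := fun v => by
    rw [← T.krR_sub, ← e', ← e, mul_app, mul_app, inv_app_app, map_sub]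
  have k3 : ∀ v, T.krL LinearMap.id (n ∘ₗ n) (g v) =
      g (T.tm ((-(2 * Φ₂.Q y)) • T.cR (Φ₂.B w) v) w) := fun v => by
    rw [show T.krL LinearMap.id (n ∘ₗ n) (g v) = T.krL LinearMap.id n (T.krL LinearMap.id n (g v))
      from T.ext (g := T.krL _ n ∘ₗ T.krL _ n) (fun u x => by simp) _, k2, k2, T.krR_sub, T.krR_sub]
    refine congrArg g (T.ext (f := T.krL _ _ ∘ₗ T.krL _ _)
      (g := T.tm.flip w ∘ₗ ((-(2 * Φ₂.Q y)) • T.cR (Φ₂.B w))) (fun u x => ?_) v)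
    simp only [LinearMap.comp_apply, Tn.krL_tm, LinearMap.sub_apply, LinearEquiv.coe_coe,
      Fm.Valid.eich_apply, hO.ef, LinearMap.id_apply, Φ₂.bsimp, hwy, Φ₂.B_self hw, hO.symm w y,
      hO.B_self y, map_add, map_sub, map_smul, LinearMap.smul_apply, Tn.cR_tm, LinearMap.flip_apply]
    module
  obtain ⟨x, hx⟩ : ∃ x, (n ∘ₗ n) x ≠ 0 := by
    by_contra hc
    push Not at hc
    obtain ⟨u, hu⟩ := hT.ne₁
    obtain ⟨w', -, e1⟩ := Fm.exists_partner' hw hw0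
    have := k3 (T.tm u w')
    rw [T.ext (g := 0) (fun u x => by rw [Tn.krL_tm, hc]; simp)] at this
    exact T.tm_ne_zero hu hw0 (by simpa [e1, h2, hy] using this.symm)
  refine hT.mem_of_sp' hH hG hL (by omega) hg hw hw0 hx fun u => ?_
  have := k3 (g⁻¹ (T.tm u x))
  rw [app_inv_app, Tn.krL_tm, LinearMap.id_apply] at this
  rw [this, inv_app_app]
  exact T.tm_mem_sp _ _

theorem mem_of_line {g : V ≃ₗ[F] V} (hg : g ∈ M) {w s z : W} (h : Φ₂.Pair w s) (hz0 : z ≠ 0)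
    (hz : ∀ u, T.tm u z ∈ (T.ts (Submodule.span F {w, s})).map g.toLinearMap) : g ∈ T.NG := by
  have hI := Φ.EG_le_Iso (hG hg)
  obtain ⟨f, f0, f1, f2⟩ := h.exists_partner
  obtain ⟨y, c, c0, y0, y1, y2, -⟩ := h.exists_valid (Or.inr h5) f0 f1 f2
  have k : ∀ {x}, Φ₂.B w x = 0 → Φ₂.B s x = 0 → ∀ u u', Φ.B (g (T.tm u' x)) (T.tm u z) = 0 :=
    fun {x} h1 h3 u u' => by
      obtain ⟨v, hv, e⟩ := hz u
      rw [← e, LinearEquiv.coe_coe, hI.1]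
      refine T.eq_zero_on_ts (fun p q hq => ?_) hv
      obtain ⟨a, b, rfl⟩ := Submodule.mem_span_pair.1 hq
      simp [hT.B, Φ₂.perp_symm h1, Φ₂.perp_symm h3]
  refine hT.mem_of_perp_o hH hG hL hO h2 h5 hg h.q₁ h.ne (by rwa [← y0, hO.π]) y1
    (hT.sing_of_perp fun u u' => ?_) hz0 (k (Φ₂.B_self h.q₁) (Φ₂.perp_symm h.perp)) (k y1 y2)
  obtain ⟨v, hv, e⟩ := hz u
  rw [← e]
  refine Φ.perp_symm (T.eq_zero_on_ts (f := Φ.B _ ∘ₗ g.toLinearMap) (fun p q hq => ?_) hv)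
  obtain ⟨a, b, rfl⟩ := Submodule.mem_span_pair.1 hq
  exact Φ.perp_symm (k (by simp [Φ₂.B_self h.q₁, h.perp])
    (by simp [Φ₂.B_self h.q₂, Φ₂.perp_symm h.perp]) _ _)

theorem qd_ln (hns : 2 * finrank F U < finrank F W ∨ (Φ₁.IsO ∧ finrank F U < finrank F W))
    {w s : W} (h : Φ₂.Pair w s) :
    Fm.QD Φ M (T.NG ⊓ Φ.EG) (T.krL LinearMap.id (Φ₂.rt w s)) := by
  have hr : LinearMap.range (T.krL LinearMap.id (Φ₂.rt w s)) = T.ts (Submodule.span F {w, s}) := by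
    rw [T.range_krL, h.range_rt]
  have hs := hT.skew_krL (hO.skew_rt w s)
  have hq : ∀ v, T.krL LinearMap.id (Φ₂.rt w s) (T.krL LinearMap.id (Φ₂.rt w s) v) = 0 :=
    T.ext (f := T.krL _ _ ∘ₗ T.krL _ _) (g := 0) fun u x => by
      simp [Φ₂.B_self h.q₁, Φ₂.B_self h.q₂, h.perp, Φ₂.perp_symm h.perp]
  have hf : ∀ g : V ≃ₗ[F] V, finrank F ((T.ts (Submodule.span F {w, s})).map g.toLinearMap) =
      finrank F U * 2 := fun g => by rw [LinearEquiv.finrank_map_eq, T.finrank_ts, h.finrank_span]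
  refine ⟨hH, hG.trans Φ.EG_le_Iso, hq, hs, fun c hc => ?_, fun g hg h1 => ⟨?_, hG hg⟩,
    fun g hg c hc c0 ⟨_, ⟨⟨a, d, rfl⟩, _⟩, e⟩ => ⟨?_, hG hg⟩⟩
  · exact ⟨_, ⟨T.krR_mem _, hT.krR_EG (h.valid c).eich_mem⟩, T.ext (f := (T.krR _).toLinearMap)
      (g := LinearMap.id + c • T.krL _ _) fun u x => by
        simp [Fm.Valid.eich_apply, hO.ef, hO.σ]
        module⟩
  · refine T.NG.inv_mem_iff.1 (hT.mem_of_line hH hG hL hO h2 h5 (M.inv_mem hg) h h.ne fun u => ?_)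
    obtain ⟨v, hv⟩ := hr.ge (T.tm_mem_ts u (Submodule.subset_span (Set.mem_insert w _)))
    exact ⟨_, hr ▸ h1 v, hv ▸ inv_app_app _ _⟩
  have hr' : LinearMap.range (c • cjL g (T.krL LinearMap.id (Φ₂.rt w s))) =
      (T.ts (Submodule.span F {w, s})).map g.toLinearMap := by
    rw [LinearMap.range_smul _ _ c0, range_cjL, hr]
  have hm : ∀ v, T.kr a d v - v ∈ (T.ts (Submodule.span F {w, s})).map g.toLinearMap := fun v =>
    hr' ▸ ⟨v, by rw [e, add_sub_cancel_left]⟩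
  obtain ⟨u₀, hu₀⟩ := hT.ne₁
  have hU : 0 < finrank F U := finrank_pos_iff_exists_ne_zero.2 hT.ne₁
  by_cases ha : ∃ c : F, ∀ u, a u = c • u
  · obtain ⟨d', e'⟩ := T.exists_krR_of_smul d hT.ne₁ ha
    obtain ⟨v, hv⟩ := hr'.ge ⟨_, T.tm_mem_ts u₀ (Submodule.subset_span (Set.mem_insert w _)), rfl⟩
    obtain ⟨y, y0, x, hx⟩ := hT.exists_mem_of_krR (d := d') (v := v) (by
      rw [← e', e, hv]
      simpa using T.tm_ne_zero hu₀ h.ne)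
    exact hT.mem_of_line hH hG hL hO h2 h5 hg h y0 fun u => by rw [hx, ← e']; exact hm _
  rcases hns with hns | ⟨hO₁, hns⟩
  · have := T.finrank_le_of_not_smul ha hm
    rw [hf] at this
    omega
  obtain ⟨η, k1, k2⟩ := hT.exists_eta h2 e (fun v => by simp [cjL_apply, hq])
    ((hs.cjL (Φ.EG_le_Iso (hG hg))).smul hc) ha
  have k3 := T.swap.finrank_ts (LinearMap.range η)
  rw [← k2, hr', hf] at k3
  rw [hO₁.eq_zero_of_skew h2 k1 (by nlinarith), LinearMap.range_zero, finrank_bot] at k3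
  omega

theorem le_NG_ln [Finite F]
    (hns : 2 * finrank F U < finrank F W ∨ (Φ₁.IsO ∧ finrank F U < finrank F W)) : M ≤ T.NG := by
  intro g₀ hg₀
  by_contra hg₁
  obtain ⟨w, -, hw0, hw⟩ := Φ₂.iso ⊤ (by rw [finrank_top, hO.d]; omega)
  obtain ⟨w', s, s', -, q1, q2, -, e2, e3, e4, -, -⟩ :=
    Fm.exists_hyp2 (by rw [hO.d]; omega) hw hw0
  have hp : Φ₂.Pair w s := ⟨hw, q1, e3, hw0, s', e4, by simp [e2]⟩
  obtain ⟨y₀, c, c0, y0, y1, y2, -⟩ := hp.exists_valid (Or.inr h5) q2 e2 e4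
  replace y0 : Φ₂.Q y₀ ≠ 0 := by rwa [← y0, hO.π]
  have D := hT.qd_ln hH hG hL hO h2 h5 hns hp
  have hr := hp.range_rt
  set θ := T.krL LinearMap.id (Φ₂.rt w s) with hθ
  have hr' : LinearMap.range θ = T.ts (Submodule.span F {w, s}) := by rw [hθ, T.range_krL, hr]
  have key : ∀ g ∈ M, g ∉ T.NG ⊓ Φ.EG → Fm.QMax M (T.NG ⊓ Φ.EG) θ
      (finrank F ↥(LinearMap.range θ ⊓ LinearMap.range (cjL g θ))) →
      LinearMap.range θ ⊓ LinearMap.range (cjL g θ) = ⊥ ∧ ∃ x, Φ₂.Q x ≠ 0 ∧ Φ₂.B w x = 0 ∧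
        Φ₂.B s x = 0 ∧ ∀ u, cjL g θ (T.tm u x) = 0 := fun g hg hg' h => by
    have hσ : ∀ a, Φ.σ a = a := fun a => (hT.σ₂ a).symm.trans (hO.σ a)
    rcases hT.exc hH hG D (fun η h1 h3 =>
        let ⟨c, hc⟩ := hO.eq_smul_rt h2 hp h1 (hr ▸ h3); ⟨c, hσ c, hc⟩)
      ⟨y₀, by simp [y1, y2], fun h => y0 (hp.ts.1 _ (hr ▸ h))⟩
      (let ⟨a, ha⟩ := hO.exists_ne_ne h2; ⟨a, hσ a, ha⟩) hg hg' h with
      ⟨h0, h1⟩ | ⟨d, k1, k2, k3, -, k4, k5⟩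
    · obtain ⟨m, hm, h3⟩ := h1 y₀ (by simp [y1, y2])
      obtain ⟨a, b, rfl⟩ := Submodule.mem_span_pair.1 (hr ▸ hm)
      refine ⟨h0, _, ?_, by simp [y1, Φ₂.B_self hw, e3],
        by simp [y2, Φ₂.B_self q1, Φ₂.perp_symm e3], h3⟩
      rw [hO.Q_sub, hp.ts.1 (a • w + b • s) (hr ▸ hm)]
      simpa [hO.symm _ y₀, y1, y2] using y0
    obtain ⟨p, ⟨p1, p2⟩, p0⟩ := Submodule.exists_mem_ne_zero_of_ne_bot k2
    obtain ⟨a, ha⟩ := hO.exists_rt_eq (hr ▸ p1) p0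
    set δ := Φ₂.rt w s
    set δ' := cjL d δ
    have q' : ∀ x, δ' (δ' x) = 0 := fun x => by
      simp [δ', δ, cjL_apply, Φ₂.B_self hw, Φ₂.B_self q1, e3, Φ₂.perp_symm e3]
    have p3 : δ' p = 0 := by
      obtain ⟨x, rfl⟩ := p2
      exact q' x
    have p4 : ∀ x, Φ₂.B p (δ' x) = 0 := fun x => k1.perp_of_eq_zero p2 (q' x)
    have p5 : ∀ x, δ' (δ x) = Φ₂.B p x • δ' a := fun x => by simp [ha, p3]
    have p6 : δ' a ∈ LinearMap.range δ :=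
      k5 _ ⟨a, rfl⟩ (by simp [ha, p4, hO.skew_self h2 k1 a])
    obtain ⟨_, ⟨x, rfl⟩, hx⟩ := SetLike.not_le_iff_exists.1 k3
    have p7 : δ (δ' x) + δ' (δ x) ≠ 0 := fun e => hx (k5 _ ⟨x, rfl⟩ (by
      have e1 := congrArg (Φ₂.B x) e
      rw [p5] at e e1
      simp only [ha, Fm.rt_apply, Φ₂.bsimp, p4, hO.symm p x] at e1
      have e2 := k1 a x
      rw [hO.symm] at e2
      by_cases h0 : Φ₂.B p x = 0
      · simpa [h0] using e
      · have : Φ₂.B a (δ' x) = 0 := mul_left_cancel₀ (mul_ne_zero h2 h0) (by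
          linear_combination -e1 + Φ₂.B p x * e2)
        simp [ha, p4, this]))
    have p8 : ∀ v, T.krL LinearMap.id (δ ∘ₗ δ' + δ' ∘ₗ δ) v ∈ LinearMap.range θ := fun v => by
      rw [hθ, T.range_krL]
      exact T.krL_mem_ts _ (fun x => add_mem (LinearMap.mem_range_self δ _)
        (show δ' (δ x) ∈ _ from p5 x ▸ Submodule.smul_mem _ _ p6)) v
    refine (hg' ⟨hT.mem_of_line hH hG hL hO h2 h5 hg hp p7 fun u => ?_, hG hg⟩).elim
    have := D.fact h hg M.one_mem (by simpa using hg') rfl inf_le_right inf_le_left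
      (p8 (T.tm u x)) ⟨k4 _ ▸ p8 _, _, rfl⟩
    rw [← hr', ← range_cjL]
    simpa using this.2
  obtain ⟨g, hg, hg', h⟩ := Fm.exists_qMax (H := T.NG ⊓ Φ.EG) hg₀ (fun h => hg₁ h.1) θ
  rw [(key g hg hg' h).1, finrank_bot] at h
  set P := LinearMap.ker (T.tm.flip.compr₂ (cjL g θ))
  have hP : ∀ x, x ∈ P ↔ ∀ u, cjL g θ (T.tm u x) = 0 := fun x => LinearMap.ext_iff
  have st : ∀ τ ∈ Φ₂.EG, ∃ x ∈ P, Φ₂.Q x ≠ 0 ∧ Φ₂.B (τ w) x = 0 ∧ Φ₂.B (τ s) x = 0 := fun τ hτ => by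
    have h1 : T.krR τ ∈ T.NG ⊓ Φ.EG := ⟨T.krR_mem τ, hT.krR_EG hτ⟩
    have h3 := M.mul_mem (M.inv_mem (hH h1)) hg
    have h4 : (T.krR τ)⁻¹ * g ∉ T.NG ⊓ Φ.EG := fun h => hg' (by simpa using mul_mem h1 h)
    obtain ⟨-, x, x0, x1, x2, x3⟩ := key _ h3 h4 (by rwa [Nat.le_zero.1 (h _ h3 h4)])
    have hI := Φ₂.EG_le_Iso hτ
    refine ⟨τ x, (hP _).2 fun u => ?_, by rwa [hI.2], by rwa [hI.1], by rwa [hI.1]⟩
    simpa [cjL_mul, cjL_apply (T.krR τ)⁻¹] using x3 u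
  obtain ⟨x₁, a1, a2, a3, a4⟩ := st 1 (one_mem _)
  obtain ⟨τ₁, t1, t2, t3⟩ := hO.exists_move_off h2 hp.symm a2 a4 a3
  obtain ⟨x₂, b1, b2, b3, b4⟩ := st τ₁ t1
  obtain ⟨τ₂, t4, t5, t6⟩ := hO.exists_move_off h2 (hp.map (Φ₂.EG_le_Iso t1)) b2 b3 b4
  obtain ⟨x₃, c1, c2, c3, c4⟩ := st _ (mul_mem t4 t1)
  rw [mul_app, t5] at c3
  have f1 : P ⊓ LinearMap.ker (Φ₂.B (τ₁ w)) < P :=
    SetLike.lt_iff_le_and_exists.2 ⟨inf_le_left, x₁, a1, fun h => t3 h.2⟩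
  have f2 : P ⊓ LinearMap.ker (Φ₂.B (τ₁ w)) ⊓ LinearMap.ker (Φ₂.B (τ₂ (τ₁ s))) <
      P ⊓ LinearMap.ker (Φ₂.B (τ₁ w)) :=
    SetLike.lt_iff_le_and_exists.2 ⟨inf_le_left, x₂, Submodule.mem_inf.2 ⟨b1, b3⟩,
      fun h => t6 (Submodule.mem_inf.1 h).2⟩
  have f3 : ⊥ < P ⊓ LinearMap.ker (Φ₂.B (τ₁ w)) ⊓ LinearMap.ker (Φ₂.B (τ₂ (τ₁ s))) :=
    SetLike.lt_iff_le_and_exists.2 ⟨bot_le, x₃, Submodule.mem_inf.2 ⟨⟨c1, c3⟩, c4⟩,
      fun h => c2 ((Submodule.mem_bot F).1 h ▸ Φ₂.Q_zero)⟩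
  obtain ⟨x, x1, x0, x2⟩ := Φ₂.iso P (by
    have := Submodule.finrank_lt_finrank_of_lt f1
    have := Submodule.finrank_lt_finrank_of_lt f2
    have := Submodule.finrank_lt_finrank_of_lt f3
    rw [hO.d]
    omega)
  obtain ⟨τ, hτ, c, c0, e⟩ := Fm.Rk.move_pt (Ψ := Φ₂) (Or.inl (by omega)) hw x2 hw0 x0
  obtain ⟨y, d1, d2, d3, -⟩ := st τ hτ
  have k : ∀ x ∈ P, ∀ u u', Φ.B (g⁻¹ (T.tm u' x)) (T.tm u w) = 0 := fun x hx u u' => by
    rw [Fm.Iso.B_inv_left (D.iso hg)]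
    refine Φ.perp_symm ((D.skew.cjL (D.iso hg)).perp_of_eq_zero ?_ ((hP x).1 hx u'))
    rw [range_cjL, hr']
    exact ⟨_, T.tm_mem_ts u (Submodule.subset_span (Set.mem_insert w _)), rfl⟩
  exact hg' ⟨T.NG.inv_mem_iff.1 (hT.mem_of_perp_o hH hG hL hO h2 h5 (M.inv_mem hg) x2 x0 d2
    (by simpa [e, c0] using d3) hw hw0 (k x x1) (k y d1)), hG hg⟩

omit hH hG hL hO in
/-- The tensor product of a symplectic space and a large orthogonal space. -/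
theorem sp_o_isMaximalIn [Finite F] (h₁ : Φ₁.IsSp) (h₂ : Φ₂.IsO) (hS : Φ.IsSp)
    (hU : 2 ≤ finrank F U) (h12 : 2 * finrank F U < finrank F W) :
    Geo.IsMaximalIn Φ.EG (T.NG ⊓ Φ.EG) :=
  hT.isMaximalIn_of_key (by rw [hS.d]; omega) (by rw [h₂.d]; omega) hU fun _ hH hG hn =>
    hT.le_NG_ln hH hG (fun _ hw hw0 => hT.loc_sp_o hH hG hn h₁ h₂ hS.π h2 h5 hU hw hw0) h₂ h2 h5
      (Or.inl h12)

omit hH hG hL hO in
/-- The tensor product of two orthogonal spaces. -/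
theorem o_o_isMaximalIn [Finite F] (h₁ : Φ₁.IsO) (h₂ : Φ₂.IsO) (hO : Φ.IsO) (hU : 3 ≤ finrank F U)
    (h12 : finrank F U < finrank F W) (h4 : finrank F U = 4 → ∀ s v, ¬ Φ₁.Pair s v)
    (hq : ¬ (Nat.card F = 3 ∧ finrank F U = 3)) : Geo.IsMaximalIn Φ.EG (T.NG ⊓ Φ.EG) :=
  hT.isMaximalIn_of_key hO.d.le (by rw [h₂.d]; omega) (by omega) fun _ hH hG hn =>
    hT.le_NG_ln hH hG (fun _ hw hw0 => hT.loc_o_o hH hG hn h₁ h₂
      (fun c hc => (hO.π c).symm.trans hc) h2 h5 hU (by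
        by_cases h : 5 ≤ finrank F U
        · exact Or.inl h
        refine Or.inr fun s v hp => ?_
        have := hp.finrank_span ▸ hp.ts.two_mul_le
        exact h4 (by omega) s v hp) hq hw hw0) h₂ h2 h5 (Or.inr ⟨h₁, h12⟩)

end TF

end Abstract

section Matrices

open Cfsg.Agent.Class.Asch

variable {ι : Type} [Fintype ι] [DecidableEq ι] {F : Type*} [Field F] [Fintype F]
  {k l : ℕ} {f₁ : (Fin k → F) → (Fin k → F) → F} {f₂ : (Fin l → F) → (Fin l → F) → F}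

theorem sp_sp_o_isMaximalIn' {m : ℕ} (hodd : Odd (Fintype.card F)) (h0 : 0 < k) (h12 : 2 * k < l)
    (e : (Fin m ⊕ Fin m) ≃ Fin k × Fin l) (P : GL (Fin m ⊕ Fin m) F)
    (hf₁ : Geo.IsSymplecticForm f₁) (hf₂ : Geo.IsSymmetricForm f₂)
    (hT : Geo.IsTensorFormStructure id (sympForm m F) f₁ f₂ e P) :
    Geo.IsMaximalIn (spGL m F) (Geo.tensorProductSubgroup k l e P ⊓ spGL m F) := by
  have h2 := two_ne_zero_of_odd hodd
  obtain ⟨Φ₁, h₁, hT'⟩ := tf_sp_o h2 h0 (by omega) hf₁ hf₂ hT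
  have h3 : 2 ≤ k := by
    obtain ⟨x, y, hxy⟩ := hT'.exists_B_one
    by_contra hc
    obtain ⟨v, hv⟩ := (finrank_le_one_iff (K := F) (V := Fin k → F)).1 (by simp; omega)
    obtain ⟨a, rfl⟩ := hv x
    obtain ⟨b, rfl⟩ := hv y
    simp [h₁.B_self] at hxy
  exact isMaximalIn_of_NG (mem_spGL_iff m) (hT'.sp_o_isMaximalIn h2 (by simp; omega) h₁
    (isO_fmSym h2 hf₂) (isSp_fmSp _) (by simpa) (by simpa))

theorem not_pair_fmSym (h2 : (2 : F) ≠ 0) (hf : Geo.IsSymmetricForm f₁) {c : F} (c0 : c ≠ 0)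
    (h : k = 4 → ¬ Geo.IsPlusTypeOn (fun v => f₁ v v) ⊤) (h4 : finrank F (Fin k → F) = 4) (s v) :
    ¬ (fmSym h2 (symmetric_smul hf c0)).Pair s v := fun hp =>
  h (by simpa using h4) ⟨_, le_top, fun x hx => by simpa [fmSym_B, c0] using hp.ts.2 x hx x hx,
    by rw [hp.finrank_span, finrank_top, h4]⟩

theorem o_o_o_isMaximalIn {Q : (ι → F) → F} (hQ : Geo.IsNondegenerateQuadraticForm Q)
    (hodd : Odd (Fintype.card F)) (h3 : 3 ≤ k) (h3' : 3 ≤ l) (hkl : k ≠ l) (h5 : 5 ≤ k ∨ 5 ≤ l)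
    (hex : ¬ (Fintype.card F = 3 ∧ (k = 3 ∨ l = 3))) (e : ι ≃ Fin k × Fin l) (P : GL ι F)
    (hf₁ : Geo.IsSymmetricForm f₁) (hf₂ : Geo.IsSymmetricForm f₂)
    (h4 : k = 4 → ¬ Geo.IsPlusTypeOn (fun v => f₁ v v) ⊤)
    (h4' : l = 4 → ¬ Geo.IsPlusTypeOn (fun v => f₂ v v) ⊤)
    (hT : Geo.IsTensorFormStructure id (QuadraticMap.polar Q) f₁ f₂ e P) :
    Geo.IsMaximalIn (Geo.omegaGL Q) (Geo.tensorProductSubgroup k l e P ⊓ Geo.omegaGL Q) := by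
  have h2 := two_ne_zero_of_odd hodd
  obtain ⟨c, c0, h⟩ := exists_tm_eq (isSesq_of_bilinear hf₁.bilinear)
    (isSesq_of_bilinear hf₂.bilinear) hT
  have h₁ := isO_fmSym h2 (symmetric_smul hf₁ c0)
  have h₂ := isO_fmSym h2 (symmetric_smul hf₂ one_ne_zero)
  have hO := isO_fmO hQ
  have hB : ∀ u w u' w', (fmO hQ).B ((tnOf e P).tm u w) ((tnOf e P).tm u' w') =
      (fmSym h2 (symmetric_smul hf₁ c0)).B u u' *
        (fmSym h2 (symmetric_smul hf₂ one_ne_zero)).B w w' := fun u w u' w' => by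
    rw [fmSym_B, fmSym_B, one_mul]; exact h _ _ _ _
  have hT' : TF (tnOf e P) _ _ (fmO hQ) :=
    ⟨fun _ => rfl, fun _ => rfl, (mul_one _).symm, hB,
      ⟨2⁻¹, fun u w => by rw [← hB, hO.B_self, inv_mul_cancel_left₀ h2]⟩, h₁.tv h2, h₂.tv h2,
      exists_ne_zero_fin (by omega), exists_ne_zero_fin (by omega)⟩
  have := Fintype.card_congr e
  refine isMaximalIn_of_NG (mem_omegaGL_iff hQ (by simp at this; nlinarith)) ?_
  rcases lt_or_gt_of_ne hkl with h12 | h12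
  · exact hT'.o_o_isMaximalIn h2 (by simp; omega) h₁ h₂ hO (by simpa) (by simpa)
      (not_pair_fmSym h2 hf₁ c0 h4) (by simpa using fun h1 h3 => hex ⟨h1, Or.inl h3⟩)
  · rw [← Tn.swap_NG]
    exact hT'.swap.o_o_isMaximalIn h2 (by simp; omega) h₂ h₁ hO (by simpa) (by simpa)
      (not_pair_fmSym h2 hf₂ one_ne_zero h4') (by simpa using fun h1 h3 => hex ⟨h1, Or.inr h3⟩)

end Matrices

end Cfsg.Agent.Class.Max
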