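import Mathlib
import Cfsg.Agent.Class.Max.C7Y
import Cfsg.Agent.Class.Max.C4Ln

/-!
The tensor product of `Sp₂` and an orthogonal space of Witt index one: local analysis.
-/

set_option autoImplicit false
set_option linter.unusedSectionVars false

namespace Cfsg.Agent.Class.Max

open Module

variable {F U W V : Type*} [Field F] [AddCommGroup U] [Module F U] [AddCommGroup W]
  [Module F W] [AddCommGroup V] [Module F V] {T : Tn F U W V} {Φ₁ : Fm F U} {Φ₂ : Fm F W}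
  {Φ : Fm F V} {M : Subgroup (V ≃ₗ[F] V)}
  [FiniteDimensional F U] [FiniteDimensional F W] [FiniteDimensional F V] [Finite F]

/-- Invariant spaces of self-adjoint maps. -/
theorem Fm.IsO.exists_rk_mem (hO : Φ.IsO) (h2 : (2 : F) ≠ 0) (h3 : 3 ≤ finrank F V)
    (hq : ¬ (Nat.card F = 3 ∧ finrank F V = 3)) (np : ∀ s v, ¬ Φ.Pair s v)
    (R : Submodule F (V →ₗ[F] V)) (hadj : ∀ b ∈ R, ∀ v, Φ.adj b v = b v)
    (hcj : ∀ a ∈ Φ.Iso, ∀ b ∈ R, cjL a b ∈ R) {b : V →ₗ[F] V} (hb : b ∈ R)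
    (hb' : ¬ ∃ a : F, ∀ v, b v = a • v) : ∃ s, s ≠ 0 ∧ Φ.Q s = 0 ∧ Φ.rk s s ∈ R := by
  have sm : ∀ {a : F} {A B : V →ₗ[F] V}, a ≠ 0 → A ∈ R → (∀ v, a • B v = A v) → B ∈ R :=
    fun {a A B} h0 h e => mem_of_ext (R.smul_mem a⁻¹ h) fun v => by
      rw [LinearMap.smul_apply, ← e, inv_smul_smul₀ h0]
  let I : V → Submodule F V := fun x =>
    { carrier := {y | Φ.rk x y + Φ.rk y x ∈ R}
      zero_mem' := mem_of_ext R.zero_mem fun v => by simp
      add_mem' := fun ha hb => mem_of_ext (R.add_mem ha hb) fun v => by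
        simp only [LinearMap.add_apply, rk_apply, Φ.bsimp]; module
      smul_mem' := fun c _ ha => mem_of_ext (R.smul_mem c ha) fun v => by
        simp only [LinearMap.add_apply, LinearMap.smul_apply, rk_apply, Φ.bsimp, hO.σ]; module }
  have i0 : ∀ {x y}, y ∈ I x → x ∈ I y := fun {x y} h =>
    (add_comm (Φ.rk x y) _ ▸ h : Φ.rk y x + Φ.rk x y ∈ R)
  have i1 : ∀ {g x y}, g ∈ Φ.Iso → y ∈ I x → g y ∈ I (g x) := fun {g x y} hg h =>
    mem_of_ext (hcj g hg _ h) fun v => by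
      have e1 := cjL_rk hg x y v
      have e2 := cjL_rk hg y x v
      rw [cjL_apply] at e1 e2
      rw [cjL_apply, LinearMap.add_apply, LinearMap.add_apply, map_add, e1, e2]
  have good : ∀ p z, Φ.Q p ≠ 0 → z ≠ 0 → Φ.B p z = 0 → z ∈ I p → ∀ y, Φ.B p y = 0 → y ∈ I p :=
    fun p z hp1 z0 z1 k2 y hy => by
    have hd := finrank_le_inf_ker ⊤ (Φ.B p)
    rw [finrank_top] at hd
    exact ((hO.nd_inf h2 Φ.nd_top trivial hp1).le_of_invariant
      (A := I p ⊓ (⊤ ⊓ LinearMap.ker (Φ.B p))) inf_le_right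
      ((Submodule.ne_bot_iff _).2 ⟨z, ⟨k2, trivial, z1⟩, z0⟩)
      (fun s hs w hw c hv x hx => ⟨by
        have := i1 (hv.mem_Iso hv.eich_apply) hx.1
        rwa [hv.eich_apply p, ef_apply_of_perp (Φ.perp_symm hs.2) (Φ.perp_symm hw.2)] at this,
        ef_mem c hs hw hx.2⟩)
      (fun a ha c c0 hc x hx h => ⟨by
        have := i1 (refl_mem_Iso c0 hc) hx.1
        rw [refl_apply c0 hc p, Φ.perp_symm ha.2, mul_zero, zero_smul, sub_zero] at this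
        have := (I p).smul_mem (c⁻¹ * Φ.B a x)⁻¹ ((I p).sub_mem hx.1 this)
        rwa [refl_apply, sub_sub_cancel, inv_smul_smul₀ (by simp [c0, h])] at this, ha⟩)
      (Or.inr (by
        by_cases h : Nat.card F = 3
        · have : finrank F V ≠ 3 := fun h' => hq ⟨h, h'⟩
          exact Or.inl (by omega)
        · have := Fintype.ofFinite F
          refine Or.inr (Or.inr (exists_ne_ne_ne ?_))
          have h4 := Orth.card_mod_two_of_two_ne_zero h2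
          have := Fintype.one_lt_card (α := F)
          rw [Nat.card_eq_fintype_card] at h
          omega)) ⟨trivial, hy⟩).1
  obtain ⟨e, -, he0, he⟩ := Φ.iso ⊤ (by rw [finrank_top, hO.d]; exact h3)
  obtain ⟨a, ha, ha'⟩ : ∃ a, Φ.Q a ≠ 0 ∧ b a ∉ Submodule.span F {a} := by
    by_contra hc
    push Not at hc
    obtain ⟨l, l0, l1⟩ := hO.exists_ne_ne h2
    refine hb' (exists_eq_smul_of_sing h3 l0 l1 he he0 b.toAddMonoidHom fun s hs => ?_)
    by_cases hs0 : s = 0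
    · exact ⟨0, by simp [hs0]⟩
    obtain ⟨f, hf, e1⟩ := exists_partner' hs hs0
    obtain ⟨y, -, y0, y1, -⟩ := hO.exists_nonsing_perp Φ.nd_top (by simpa using h3) trivial trivial
      hs hf e1
    obtain ⟨γ, hγ⟩ := Submodule.mem_span_singleton.1 (hc y y0)
    obtain ⟨δ, hδ⟩ := Submodule.mem_span_singleton.1 (hc (s + y) (by simp [hO.Q_add, hs, y1, y0]))
    have e2 := Φ.B_adj b y s
    rw [map_add, ← hγ] at hδ
    rw [hadj b hb, ← hγ, eq_sub_iff_add_eq.2 hδ.symm] at e2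
    simp only [Φ.bsimp, Φ.perp_symm y1, hO.B_self y] at e2
    have e3 : δ = γ := mul_right_cancel₀ (mul_ne_zero h2 y0) (by linear_combination -e2)
    exact ⟨γ, by rw [e3] at hδ; exact (add_right_cancel ((smul_add γ s y).symm.trans hδ)).symm⟩
  have ga := good a (b a - (Φ.B a (b a) / (2 * Φ.Q a)) • a) ha (fun h => ha' (by
      rw [sub_eq_zero.1 h]
      exact Submodule.smul_mem _ _ (Submodule.mem_span_singleton_self a)))
    (by simp [hO.B_self, h2, ha]) (sm (a := -(Φ.Q a)⁻¹) (by simp [ha])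
      (R.sub_mem (hcj _ (refl_mem_Iso ha (hO.π _)) b hb) hb) fun v => by
        simp only [LinearMap.sub_apply, LinearMap.add_apply, hO.cjL_refl, hadj b hb, rk_apply,
          Φ.bsimp, hO.σ]
        match_scalars <;> field_simp <;> ring)
  obtain ⟨y, y0, y1, y2⟩ : ∃ y, Φ.Q y ≠ 0 ∧ Φ.B e y = 0 ∧ e ∈ I y := by
    by_cases h : Φ.B a e = 0
    · exact ⟨a, ha, Φ.perp_symm h, ga e h⟩
    obtain ⟨y, y0, y1, y2⟩ := exists_perp_pair (Ψ := Φ) h3 e a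
    have y3 : Φ.Q y ≠ 0 := fun q => by
      obtain ⟨c, rfl⟩ := (pair_or_eq_smul he he0 q y1).resolve_left (np _ _)
      exact y0 (by rw [show c = 0 by simpa [h] using y2, zero_smul])
    exact ⟨y, y3, y1, good y a y3 (fun h => ha (h ▸ Φ.Q_zero)) (Φ.perp_symm y2) (i0 (ga y y2)) e
      (Φ.perp_symm y1)⟩
  have hv := hO.valid he y1
  have := i0 (i1 (hv.mem_Iso hv.eich_apply) y2)
  rw [hv.eich_apply, hv.eich_apply, hv.ef_self, ef_apply_of_perp' y1] at this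
  exact ⟨e, he0, he, sm (a := 2 * (Φ.ε * Φ.B y y)) (by simp [h2, hO.ε, hO.B_self, y0])
    ((I e).sub_mem (i0 y2) this) fun v => by
      simp only [sub_sub_cancel, LinearMap.add_apply, rk_apply, Φ.bsimp, hO.σ]; module⟩

theorem Fm.TvC.move {e e' : V} (h : Φ.TvC M e) {g : V ≃ₗ[F] V} (hg : g ∈ M) (hI : g ∈ Φ.Iso)
    (hS : Φ.IsSp) {a : F} (a0 : a ≠ 0) (e1 : g e = a • e') : Φ.TvC M e' := ⟨hS.Q _, fun c _ => by
  have := (h.2 ((a * a)⁻¹ * c) (hS.π _)).conj hg hI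
  rw [e1, Fm.hasE_smul_left, hS.σ, mul_inv_cancel_left₀ (mul_ne_zero a0 a0)] at this
  simpa using this⟩

namespace TF

variable (hT : TF T Φ₁ Φ₂ Φ) (hH : T.NG ⊓ Φ.EG ≤ M) (hG : M ≤ Φ.EG) (hS : Φ.IsSp)
  (h2 : (2 : F) ≠ 0)
include hT hH hG hS h2

/-- Generation by one transvection group. -/
theorem EG_le_of_one_tvC (h₁ : Φ₁.IsSp) (h₂ : Φ₂.IsO) (h3 : 3 ≤ finrank F W) {u : U} {s : W}
    (u0 : u ≠ 0) (hs : Φ₂.Q s = 0) (s0 : s ≠ 0) (h : Φ.TvC M (T.tm u s)) : Φ.EG ≤ M := by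
  have hI := hG.trans Φ.EG_le_Iso
  have all : ∀ u s, u ≠ 0 → s ≠ 0 → Φ₂.Q s = 0 → Φ.TvC M (T.tm u s) := fun u' s' a1 a2 a3 => by
    obtain ⟨k, hk, a, a0, e⟩ := Fm.Rk.move_pt (Ψ := Φ₁) (Or.inr ⟨1, one_ne_zero, h₁.π 1⟩) (h₁.Q u)
      (h₁.Q u') u0 a1
    obtain ⟨τ, hτ, b, b0, e'⟩ := Fm.Rk.move_pt (Ψ := Φ₂) (Or.inl h3) hs a3 s0 a2
    have := M.mul_mem (hT.krL_mem hH hk) (hT.krR_mem hH hτ)
    exact h.move this (hI this) hS (mul_ne_zero a0 b0) (by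
      simp [mul_app, e, e', one_app, smul_smul, mul_comm])
  have m1 : ∃ c, Φ.σ c = c ∧ c ≠ 0 ∧ c ≠ 1 :=
    ⟨-1, hS.σ _, by simp, fun e => h2 (by linear_combination -e)⟩
  have full : ∀ u s, u ≠ 0 → s ≠ 0 → Φ₂.Q s = 0 → Φ.Full M (T.tm u s) := fun u s a1 a2 a3 => by
    obtain ⟨u', -, e1⟩ := Fm.exists_partner' (h₁.Q u) a1
    obtain ⟨s', q, e2⟩ := Fm.exists_partner' a3 a2
    let A := Φ.inAG M (hS.Q (T.tm u s))
    have k1 : ∀ a a' t t', Φ₁.B u a = 1 → Φ₁.B u a' = 1 → Φ₂.Q t = 0 → Φ₂.Q t' = 0 → Φ₂.B s t = 1 →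
        Φ₂.B s t' = 1 → ∀ μ : F, μ • (T.tm a' t' - T.tm a t) ∈ A := fun a a' t t' b1 b2 b3 b4 b5 b6 μ =>
      Fm.TvC.inA hS.tv (hS.π 1) one_ne_zero m1 hI (all u s a1 a2 a3)
        (all a t (fun e => by simp [e] at b1) (fun e => by simp [e] at b5) b3)
        (all a' t' (fun e => by simp [e] at b2) (fun e => by simp [e] at b6) b4)
        (by simp [hT.B, b1, b5]) (by simp [hT.B, b2, b6]) (hS.σ μ)
    obtain ⟨y₀, -, y0, y1, -⟩ := h₂.exists_nonsing_perp Φ₂.nd_top (by simpa using h3) trivial trivial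
      a3 q e2
    have k2 : ∀ a, Φ₁.B u a = 1 → ∀ y, Φ₂.B s y = 0 → T.tm a y ∈ A := fun a ha y hy =>
      Fm.mem_of_diff hT.tv₂ (by simpa only [hT.σ₂] using m1) a3 q (by simp [e2])
        (Or.inr ⟨y₀, y1, by simp [h₂.B_self, h2, y0]⟩) (A.comap (T.tm a).toAddMonoidHom)
        (fun t b1 b2 μ _ => by simpa using k1 a a s' t ha ha q b1 e2 (b2.trans e2) μ) hy
    have k3 : ∀ a y, Φ₂.B s y = 0 → T.tm a y ∈ A := fun a y hy => by
      have := A.add_mem (A.sub_mem (k2 (u' + (a - Φ₁.B u a • u')) (by simp [e1]) y hy) (k2 u' e1 y hy))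
        (k2 u' e1 (Φ₁.B u a • y) (by simp [hy]))
      simpa using this
    let X : Submodule F V :=
      { carrier := {v | ∀ c : F, c • v ∈ A}
        zero_mem' := fun c => by rw [smul_zero]; exact zero_mem _
        add_mem' := fun ha hb c => by rw [smul_add]; exact add_mem (ha c) (hb c)
        smul_mem' := fun a _ ha c => by rw [smul_smul]; exact ha _ }
    refine fun v c hv => Fm.InA.hasE ?_ (all u s a1 a2 a3).2 hv
    have k4 := T.ts_le (Y := Φ₂.perp (Submodule.span F {s})) (X := X) (fun a y hy c => by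
      simpa using k3 (c • a) y (Φ₂.mem_perp_span_singleton.1 hy))
      (hT.mem_ts_perp.2 fun y hy => by
        obtain ⟨c, rfl⟩ := Submodule.mem_span_singleton.1 hy
        change T.cR _ (v - T.tm (T.cR (Φ₂.B s) v) s') = 0
        simp [e2]) 1
    have k5 := k1 u' (u' + T.cR (Φ₂.B s) v) s' s' e1 (by
      rw [map_add, e1, ← hT.B_tm, hv.perp, add_zero]) q q e2 e2 1
    change v ∈ A
    simpa using A.add_mem k4 k5
  obtain ⟨u', -, e1⟩ := Fm.exists_partner' (h₁.Q u) u0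
  obtain ⟨s', q, e2⟩ := Fm.exists_partner' hs s0
  exact Fm.EG_le_of_full (full u s u0 s0 hs) (full u' s' (fun e => by simp [e] at e1)
    (fun e => by simp [e] at e2) q) (hS.Q _) (hS.Q _) (by simp [hT.B, e1, e2])

variable (hn : ¬ Φ.EG ≤ M)
include hn

/-- The centre of the radical of the stabiliser of `U ⊗ w`, `U` orthogonal. -/
theorem cen_o_sp (h₁ : Φ₁.IsO) (h₂ : Φ₂.IsSp) (h3 : 3 ≤ finrank F U)
    (hq : ¬ (Nat.card F = 3 ∧ finrank F U = 3)) (np : ∀ s v, ¬ Φ₁.Pair s v) :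
    ∀ C ∈ T.cenG Φ₂ M, ∃ c : F, ∀ u, C u = c • u := fun C hC => by
  have hI := hG.trans Φ.EG_le_Iso
  have hk : WK T Φ₁ Φ₂ Φ M 1 := ⟨hT, fun τ => hT.krR_mem hH, hI, one_ne_zero, h₂.π 1⟩
  obtain ⟨w, w0⟩ := hT.ne₂
  by_contra hc
  obtain ⟨s, s0, hs, h⟩ := h₁.exists_rk_mem h2 h3 hq np
    { T.cenG Φ₂ M with smul_mem' := fun a _ h => hk.smul_mem_cenG h (h₂.σ a) }
    (fun b hb v => by simp [hT.adj_of_cenG hI (h₂.Q w) w0 hb, h₂.ε])
    (fun a ha b hb => hT.cjL_mem_cenG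
      (hH ⟨T.kr_mem a 1, hS.Iso_le (T.swap_kr a 1 ▸ hT.swap.krR_Iso ha)⟩) hb) hC hc
  exact hn (hT.swap.EG_le_of_one_tvC (by rwa [Tn.swap_NG]) hG hS h2 h₂ h₁ h3 w0 hs s0 ⟨hS.Q _, fun c _ => by
    simpa using hT.hasE_of_cenG (x := s) (x' := 0) (c := c) (mem_of_ext (hk.smul_mem_cenG h (h₂.σ c))
      fun v => by simp [hS.ε]) (h₂.Q w)⟩)

omit hn h2 in
/-- The stabiliser of `U ⊗ w` for `W = Sp₂`. -/
theorem mem_NG_of_stab_two (h₂ : Φ₂.IsSp) (hW : finrank F W ≤ 2)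
    (hZ : ∀ C ∈ T.cenG Φ₂ M, ∃ c : F, ∀ u, C u = c • u) {w : W} (w0 : w ≠ 0) {g : V ≃ₗ[F] V}
    (hg : g ∈ M) (hE : ∀ u, g (T.tm u w) ∈ T.sp w) : g ∈ T.NG := by
  have hI := hG.trans Φ.EG_le_Iso
  have hk : WK T Φ₁ Φ₂ Φ M 1 := ⟨hT, fun τ => hT.krR_mem hH, hI, one_ne_zero, h₂.π 1⟩
  have hL := hk.loc_two hW hZ (h₂.Q w) w0
  have hσ : ∀ a, Φ₁.σ a = a := fun a => by rw [← hT.σ₁₂, h₂.σ]
  obtain ⟨a, ea⟩ := T.exists_left (h := g) w0 (by rintro _ ⟨u, rfl⟩; exact hE u)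
  obtain ⟨τ, hτ, eτ⟩ := hk.hasU_tv (h₂.Q w) (hS.σ 1)
  obtain ⟨μ, hμ⟩ := hL.Z (a.toLinearMap ∘ₗ Φ₁.adj a.toLinearMap) (HasU.conj' ⟨_, hk.R τ hτ, eτ⟩ hg
    fun v => by
      rw [one_smul, WK.tv_apply, one_smul, ea, Tn.xl_apply]
      refine congrArg (fun u => T.tm (a u) w) (sub_eq_zero.1 (Φ₁.nondeg _ fun u => Φ₁.perp_symm ?_))
      rw [map_sub, Φ₁.B_adj', LinearEquiv.coe_coe, ← hT.B_tm, ← hT.B_tm, ← ea, (hI hg).1, sub_self])
  have m1 : ∀ u u', Φ₁.B (a u) (a u') = μ * Φ₁.B u u' := fun u u' => by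
    have := Φ₁.B_adj' a.toLinearMap u (a u')
    rw [a.injective ((hμ (a u')).trans (map_smul a μ u').symm), map_smul] at this
    exact this.symm
  obtain ⟨u₀, u₁, hu⟩ := hT.exists_B_one
  have m0 : μ ≠ 0 := fun e => by
    simp [a.map_eq_zero_iff.1 (Φ₁.nondeg (a u₀) fun y => by
      obtain ⟨y, rfl⟩ := a.surjective y; simp [m1, e])] at hu
  obtain ⟨w', -, e1⟩ := Fm.exists_partner' (h₂.Q w) w0
  let d : W →ₗ[F] W := LinearMap.id + ((μ⁻¹ - 1) • Φ₂.B w).smulRight w'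
  have d1 : ∀ x y, μ * Φ₂.B (d x) (d y) = Φ₂.B x y := fun x y => by
    obtain ⟨α, hx⟩ := Fm.eq_smul_of_two hW w0 (h₂.B_self w) (y := x - Φ₂.B w x • w') (by simp [e1])
    obtain ⟨β, hy⟩ := Fm.eq_smul_of_two hW w0 (h₂.B_self w) (y := y - Φ₂.B w y • w') (by simp [e1])
    rw [sub_eq_iff_eq_add] at hx hy
    generalize Φ₂.B w x = γ at hx
    generalize Φ₂.B w y = δ at hy
    simp only [hx, hy, d, LinearMap.add_apply, LinearMap.id_apply, LinearMap.smulRight_apply,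
      LinearMap.smul_apply, Φ₂.bsimp, h₂.σ, h₂.B_self, e1, h₂.symm w w', smul_eq_mul]
    field_simp
    ring
  let d' := LinearEquiv.ofInjectiveEndo d ((injective_iff_map_eq_zero d).2 fun x hx =>
    Φ₂.nondeg x fun y => by rw [← d1, hx]; simp)
  have g1 : T.kr a d' ∈ M := hH ⟨T.kr_mem _ _, hS.Iso_le (hT.kr_Iso fun u u' x y => by
    rw [m1, ← d1 x y]; exact mul_right_comm _ _ _ |>.trans (mul_comm _ _))⟩
  have g2 : ∀ u, ((T.kr a d')⁻¹ * g) (T.tm u w) = T.tm u w := fun u => (T.kr a d').injective (by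
    rw [mul_app, app_inv_app, ea, Tn.kr_tm]
    simp [d', d, h₂.B_self])
  simpa using T.NG.mul_mem (T.kr_mem a d') (hL.mem_NG_of_unip hT hH hI (h₂.Q w) w0
    (M.mul_mem (M.inv_mem g1) hg) g2 fun v hv => by
      obtain ⟨u, rfl⟩ := hT.mem_sp_of (w := w) (v := v) fun y hy => by
        obtain ⟨c, rfl⟩ := Fm.eq_smul_of_two hW w0 (h₂.B_self w) hy
        simp [hv]
      exact (g2 u).symm ▸ (sub_self (T.tm u w)).symm ▸ zero_mem _)

/-- The radical of the stabiliser of `U ⊗ s`, `U = Sp₂`. -/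
theorem loc_two_o (h₁ : Φ₁.IsSp) (h₂ : Φ₂.IsO) (hU : finrank F U ≤ 2) (h3 : 3 ≤ finrank F W)
    {s : W} (hs : Φ₂.Q s = 0) (s0 : s ≠ 0) : Loc T Φ₂ M s := by
  have hI := hG.trans Φ.EG_le_Iso
  obtain ⟨s', q, e1⟩ := Fm.exists_partner' hs s0
  have b0 := Φ₂.B_self hs
  have sc : ∀ b : End F U, (∀ u, Φ₁.B u (b u) = 0) → ∃ c : F, ∀ u, b u = c • u := fun b hb =>
    exists_smul_of_comm fun u => by
      by_cases u0 : u = 0
      · exact ⟨0, by simp [u0]⟩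
      · exact Fm.eq_smul_of_two hU u0 (h₁.B_self u) (hb u)
  have hZ : ∀ C, HasU M (T.xl C s (Φ₂.B s)) → ∀ u, Φ₁.B u (C u) = 0 := fun C hC u => by
    by_contra hu
    have k1 : ∀ c, HasU M (T.xl (cjL (Fm.valid_tv (h₁.Q u) (h₁.π c)).eich C - C) s (Φ₂.B s)) :=
      fun c => ((hC.conj' (B := T.xl (cjL _ C) s (Φ₂.B s))
        (hT.krL_mem hH (Fm.valid_tv (h₁.Q u) (h₁.π c)).eich_mem) fun v => by
          rw [Tn.xl_apply, Tn.xl_apply, Tn.kr_tm, T.cR_kr, cjL_app]; rfl).sub hC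
        (fun v => by simp [Tn.xl_apply, b0]) fun v => by simp [Tn.xl_apply, b0]).congr fun v => by
          simp [Tn.xl_apply]
    have k2 : ∀ c : F, HasU M (T.xl ((c * c * -(2 * Φ₁.B u (C u))) • Φ₁.rk u u) s (Φ₂.B s)) := fun c =>
      ((k1 c).add (k1 (-c)) fun v => by simp [Tn.xl_apply, b0]).congr fun v => by
        simp only [LinearMap.add_apply, Tn.xl_apply, LinearMap.sub_apply, Fm.cjL_tv, h₁.ε,
          Fm.rk_apply, map_smul, map_sub, map_add, LinearMap.smul_apply]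
        module
    refine hn (hT.EG_le_of_one_tvC hH hG hS h2 h₁ h₂ h3 (u := u) (fun e => hu (by simp [e])) hs s0
      ⟨hS.Q _, fun c _ => ?_⟩)
    obtain ⟨a, b, -, -, e⟩ := Fm.exists_sq_sub_sq (hS.σ (c / -(2 * Φ₁.B u (C u))))
    obtain ⟨g, hg, eg⟩ := (k2 a).sub (k2 b) (fun v => by simp [Tn.xl_apply, b0])
      fun v => by simp [Tn.xl_apply, b0]
    refine ⟨g, hg, fun v => ?_⟩
    rw [div_eq_iff (by simp [h2, hu])] at e
    simp only [eg, e, Fm.ef, hS.ε, hT.B_tm, Tn.xl_apply, LinearMap.sub_apply, Fm.rk_apply, map_smul,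
      LinearMap.smul_apply, map_zero, LinearMap.zero_apply]
    module
  refine ⟨fun A ⟨h1, x, hx, e⟩ y hy => sc (A ∘ₗ T.tm.flip y) fun u => ?_, fun C hC => sc C (hZ C hC)⟩
  have hv := h₂.valid hs hy
  have hτ := hT.krR_mem hH hv.eich_mem
  have f1 : ∀ u, x (T.tm u s) = T.tm u s := fun u => by rw [e _ (by simp [b0]), h1]; simp
  have p1 := hT.cR_of_fix (hI hx) f1
  have t1 : ∀ v, T.cR (Φ₂.B s) v = 0 → T.krR hv.eich v = v - T.tm (T.cR (Φ₂.B y) v) s := fun v h => by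
    simp [krR_ef hv.eich_apply, h, h₂.ε]
  have hm := M.mul_mem (M.inv_mem (M.mul_mem hτ hx)) (M.mul_mem hx hτ)
  obtain ⟨C, hC⟩ := hT.exists_nu (hI hm) s0 fun v h => (T.krR hv.eich * x).injective (by
    rw [mul_app _⁻¹, app_inv_app, mul_app, mul_app, t1 v h, map_sub, f1, t1 (x v) (by
      simpa [h] using p1 v), e v h]
    simp [Φ₂.perp_symm hy])
  have k := congrArg (T.krR hv.eich * x) (hC (T.tm u s'))
  obtain ⟨n, hn⟩ : ∃ n, x (T.tm u s') = T.tm u s' + n := ⟨_, (add_sub_cancel _ _).symm⟩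
  have n0 : T.cR (Φ₂.B s) n = 0 := by simpa [hn] using p1 (T.tm u s')
  have k1 := (hI hx).1 (T.tm u y) (T.tm u s')
  rw [e _ (by simp [hy]), hn] at k1
  rw [mul_app _⁻¹, app_inv_app, mul_app, mul_app, Tn.xl_apply, map_add, f1, hn, map_add, map_add, t1 n n0,
    Tn.krR_tm, Tn.krR_tm, hv.eich_apply, hv.eich_apply, hv.ef_self, h₂.ef] at k
  simp only [map_add, map_sub, map_smul, hn, f1, e _ (show T.cR (Φ₂.B s) (T.tm u y) = 0 by simp [hy]),
    e1, one_smul, Tn.cR_tm] at k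
  have k2 := congrArg (fun v => Φ₁.B u (T.cR (Φ₂.B s') v)) k
  simp only [map_add, map_sub, map_smul, Tn.cR_tm, h₂.symm s s', e1, one_smul, hZ C ⟨_, hm, hC⟩,
    h₁.B_self, smul_eq_mul, mul_zero] at k2
  simp only [Φ.bsimp, hT.B_tm, Tn.cR_tm, map_smul, h₁.B_self, e1, n0, h₁.symm u, smul_eq_mul,
    map_zero, one_smul] at k1
  exact mul_left_cancel₀ h2 (by
    simp only [LinearMap.comp_apply, LinearMap.flip_apply]; linear_combination k2 - k1)

end TF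

end Cfsg.Agent.Class.Max
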