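import Mathlib
import Cfsg.Agent.Class.Max.C4S2

/-!
The tensor product of `Sp₂` and `O₄⁻`.
-/

set_option autoImplicit false
set_option linter.unusedSectionVars false

namespace Cfsg.Agent.Class.Max

open Module

section Abstract

variable {F U W V : Type*} [Field F] [AddCommGroup U] [Module F U] [AddCommGroup W]
  [Module F W] [AddCommGroup V] [Module F V] {T : Tn F U W V} {Φ₁ : Fm F U} {Φ₂ : Fm F W}
  {Φ : Fm F V} {M : Subgroup (V ≃ₗ[F] V)}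
  [FiniteDimensional F U] [FiniteDimensional F W] [FiniteDimensional F V] [Finite F]

namespace Fm.IsO

variable (hO : Φ.IsO) (h2 : (2 : F) ≠ 0) {n₁ n₂ : V} (h0 : Φ.B n₁ n₂ = 0) (q₁ : Φ.Q n₁ ≠ 0)
  (q₂ : Φ.Q n₂ ≠ 0)
include hO h2 h0 q₁ q₂

theorem not_isSquare (h : ∀ a b : F, Φ.Q (a • n₁ + b • n₂) = 0 → a • n₁ + b • n₂ = 0) :
    ¬ IsSquare (-(Φ.Q n₁ * Φ.Q n₂)) := fun ⟨r, hr⟩ => by
  have := congrArg (Φ.B n₂) (h r (Φ.Q n₁) (by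
    simp only [hO.Q_add, hO.Q_smul, Φ.bsimp, h0]; linear_combination -Φ.Q n₁ * hr))
  simp [Φ.perp_symm h0, hO.B_self, h2, q₁, q₂] at this

theorem exists_sing_perp (h4 : 4 ≤ finrank F V) (np : ∀ s v, ¬ Φ.Pair s v)
    (h : ¬ IsSquare (-(Φ.Q n₁ * Φ.Q n₂))) : ∃ s, s ≠ 0 ∧ Φ.Q s = 0 ∧ Φ.B n₁ s = 0 ∧ Φ.B n₂ s = 0 := by
  by_contra hc
  obtain ⟨z₁, a0, a1, a2⟩ := exists_perp_pair (Ψ := Φ) (by omega) n₁ n₂
  obtain ⟨z₂, -, b0, hb⟩ := exists_ne_zero_ker [Φ.B n₁, Φ.B n₂, Φ.B z₁] (⊤ : Submodule F V)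
    (by simp; omega)
  simp only [List.mem_cons, forall_eq_or_imp, List.not_mem_nil, IsEmpty.forall_iff, implies_true,
    and_true] at hb
  obtain ⟨b1, b2, b3⟩ := hb
  have c1 : Φ.Q z₁ ≠ 0 := fun e => hc ⟨_, a0, e, a1, a2⟩
  have c2 : Φ.Q z₂ ≠ 0 := fun e => hc ⟨_, b0, e, b1, b2⟩
  obtain ⟨r, hr⟩ := Orth.isSquare_mul_of_not_isSquare h (hO.not_isSquare h2 b3 c1 c2 fun a b e =>
    by_contra fun e' => hc ⟨_, e', e, by simp [a1, b1], by simp [a2, b2]⟩)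
  obtain ⟨α, β, e⟩ := Orth.exists_mul_sq_add_mul_sq h2 c1 c2 (-Φ.Q n₁)
  have r0 : r ≠ 0 := fun e => by simp [e, q₁, q₂, c1, c2] at hr
  refine np (n₁ + (α • z₁ + β • z₂)) ((r / Φ.Q n₂) • n₂ + ((-(β * Φ.Q z₂)) • z₁ + (α * Φ.Q z₁) • z₂))
    ⟨?_, ?_, ?_, fun e => ?_, n₂, ?_, ?_⟩
  · simp only [hO.Q_add, hO.Q_smul, Φ.bsimp, a1, b1, b3]
    linear_combination e
  · simp only [hO.Q_add, hO.Q_smul, Φ.bsimp, a2, b2, b3]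
    field_simp
    linear_combination Φ.Q n₂ * Φ.Q z₁ * Φ.Q z₂ * e - hr
  · simp only [Φ.bsimp, a1, b1, b3, h0, Φ.perp_symm a2, Φ.perp_symm b2, Φ.perp_symm b3, hO.B_self,
      hO.σ]
    ring
  · simpa [a1, b1, hO.B_self, h2, q₁] using congrArg (Φ.B n₁) e
  · simp [h0, Φ.perp_symm a2, Φ.perp_symm b2]
  · simp [Φ.perp_symm a2, Φ.perp_symm b2, hO.B_self, h2, q₂, r0]

variable (h4 : finrank F V ≤ 4) {s s' : V} (hs : Φ.Q s = 0) (hs' : Φ.Q s' = 0) (e : Φ.B s s' = 1)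
  (a1 : Φ.B n₁ s = 0) (a2 : Φ.B n₂ s = 0) (a3 : Φ.B n₁ s' = 0) (a4 : Φ.B n₂ s' = 0)
include h4 hs hs' e a1 a2 a3 a4

theorem expand (v : V) : v = Φ.B s' v • s + Φ.B s v • s' + ((2 * Φ.Q n₁)⁻¹ * Φ.B n₁ v) • n₁ +
    ((2 * Φ.Q n₂)⁻¹ * Φ.B n₂ v) • n₂ := by
  let f : V →ₗ[F] Fin 4 → F := LinearMap.pi ![Φ.B s, Φ.B s', Φ.B n₁, Φ.B n₂]
  have k : ∀ a b c d : F, f (a • s + b • s' + c • n₁ + d • n₂) =
      ![b, a, c * (2 * Φ.Q n₁), d * (2 * Φ.Q n₂)] := fun a b c d => funext fun i => by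
    fin_cases i <;> simp [f, hO.B_self, hs, hs', e, hO.symm s s', a1, a2, a3, a4, h0, Φ.perp_symm h0,
      Φ.perp_symm a1, Φ.perp_symm a2, Φ.perp_symm a3, Φ.perp_symm a4]
  have h1 : Function.Surjective f := fun x => ⟨_, (k (x 1) (x 0) (x 2 / (2 * Φ.Q n₁))
    (x 3 / (2 * Φ.Q n₂))).trans (funext fun i => by fin_cases i <;> simp [h2, q₁, q₂])⟩
  have h3 := f.finrank_range_add_finrank_ker
  rw [LinearMap.range_eq_top.2 h1, finrank_top, Module.finrank_fin_fun] at h3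
  refine LinearMap.ker_eq_bot.1 (Submodule.finrank_eq_zero.1 (show finrank F (LinearMap.ker f) = 0 by
    omega)) ((funext fun i => ?_).trans (k _ _ _ _).symm)
  fin_cases i <;> simp [f] <;> field_simp

theorem exists_sim {μ : F} (m0 : μ ≠ 0) : ∃ a : V ≃ₗ[F] V, a s = s ∧ a s' = μ • s' ∧
    ∀ x y, Φ.B (a x) (a y) = μ * Φ.B x y := by
  obtain ⟨α, β, h⟩ := Orth.exists_mul_sq_add_mul_sq h2 q₁ q₂ (μ * Φ.Q n₁)
  let a : V →ₗ[F] V := (Φ.B s').smulRight s + (Φ.B s).smulRight (μ • s') +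
    ((2 * Φ.Q n₁)⁻¹ • Φ.B n₁).smulRight (α • n₁ + β • n₂) +
    ((2 * Φ.Q n₂)⁻¹ • Φ.B n₂).smulRight (α • n₂ - (β * Φ.Q n₂ / Φ.Q n₁) • n₁)
  have k : ∀ x y, Φ.B (a x) (a y) = μ * Φ.B x y := fun x y => by
    conv_rhs => rw [hO.expand h2 h0 q₁ q₂ h4 hs hs' e a1 a2 a3 a4 x]
    simp only [a, LinearMap.add_apply, LinearMap.smulRight_apply, LinearMap.smul_apply, Φ.bsimp,
      hO.B_self, hs, hs', e, hO.symm s s', a1, a2, a3, a4, h0, Φ.perp_symm h0, hO.σ,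
      Φ.perp_symm a1, Φ.perp_symm a2, Φ.perp_symm a3, Φ.perp_symm a4, smul_eq_mul]
    field_simp
    linear_combination 2 * (Φ.Q n₂ * Φ.B n₁ x * Φ.B n₁ y + Φ.Q n₁ * Φ.B n₂ x * Φ.B n₂ y) * h
  exact ⟨LinearEquiv.ofInjectiveEndo a ((injective_iff_map_eq_zero a).2 fun x hx =>
    Φ.nondeg x fun y => mul_left_cancel₀ m0 (by rw [← k, hx]; simp)),
    by simp [a, hO.B_self, hs, hO.symm s s', e, a1, a2], by simp [a, hO.B_self, hs', e, a3, a4], k⟩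

end Fm.IsO

theorem Fm.IsSp.exists_sim (hS : Φ.IsSp) (h2 : finrank F V ≤ 2) {p p' : V} (h : Φ.B p p' ≠ 0) {μ : F}
    (m0 : μ ≠ 0) : ∃ d : V ≃ₗ[F] V, (∀ x, d x = x + ((μ - 1) / Φ.B p p' * Φ.B p x) • p') ∧
      ∀ x y, Φ.B (d x) (d y) = μ * Φ.B x y := by
  have p0 : p ≠ 0 := fun e => h (by simp [e])
  let d : V →ₗ[F] V := LinearMap.id + (((μ - 1) / Φ.B p p') • Φ.B p).smulRight p'
  have d1 : ∀ x y, Φ.B (d x) (d y) = μ * Φ.B x y := fun x y => by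
    obtain ⟨α, hx⟩ := Fm.eq_smul_of_two h2 p0 (hS.B_self p) (y := x - (Φ.B p x / Φ.B p p') • p')
      (by simp [h])
    obtain ⟨β, hy⟩ := Fm.eq_smul_of_two h2 p0 (hS.B_self p) (y := y - (Φ.B p y / Φ.B p p') • p')
      (by simp [h])
    rw [sub_eq_iff_eq_add] at hx hy
    generalize Φ.B p x / _ = γ at hx
    generalize Φ.B p y / _ = δ at hy
    simp only [hx, hy, d, LinearMap.add_apply, LinearMap.id_apply, LinearMap.smulRight_apply,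
      LinearMap.smul_apply, Φ.bsimp, hS.σ, hS.B_self, hS.symm p p', smul_eq_mul]
    field_simp
    ring
  exact ⟨LinearEquiv.ofInjectiveEndo d ((injective_iff_map_eq_zero d).2 fun x hx =>
    Φ.nondeg x fun y => mul_left_cancel₀ m0 (by rw [← d1, hx]; simp)), fun _ => rfl, d1⟩

/-- The local data for `Sp₂ ⊗ O`. -/
structure SO (T : Tn F U W V) (Φ₁ : Fm F U) (Φ₂ : Fm F W) (Φ : Fm F V)
    (M : Subgroup (V ≃ₗ[F] V)) : Prop where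
  tf : TF T Φ₁ Φ₂ Φ
  H : T.NG ⊓ Φ.EG ≤ M
  G : M ≤ Φ.EG
  sp : Φ.IsSp
  sp₁ : Φ₁.IsSp
  o : Φ₂.IsO
  two : (2 : F) ≠ 0
  dU : finrank F U ≤ 2
  dW : 3 ≤ finrank F W
  A : ∀ g ∈ M, ∀ u, u ≠ 0 → (∀ w, g (T.tm u w) ∈ T.swap.sp u) → g ∈ T.NG
  L : ∀ s, Φ₂.Q s = 0 → s ≠ 0 → TF.Loc T Φ₂ M s

namespace SO

variable (h : SO T Φ₁ Φ₂ Φ M) {g : V ≃ₗ[F] V} (hg : g ∈ M) {w : W} (hw : Φ₂.Q w ≠ 0)
include h hw

theorem refl_mem : T.krR (Fm.refl hw (h.o.π _)) ∈ M :=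
  h.H ⟨T.krR_mem _, h.sp.Iso_le (h.tf.krR_Iso (Fm.refl_mem_Iso _ _))⟩

theorem refl_apply (v : V) : T.krR (Fm.refl hw (h.o.π _)) v =
    v - T.tm ((Φ₂.Q w)⁻¹ • T.cR (Φ₂.B w) v) w := by
  rw [T.krR_apply_of_tv (φ := -((Φ₂.Q w)⁻¹ • Φ₂.B w)) (w := w) fun x => by
    simp [Fm.refl_apply, sub_eq_add_neg]]
  simp [sub_eq_add_neg]

include hg

theorem exists_t : ∃ t ∈ M, (∀ v, t v = v - g (T.tm ((Φ₂.Q w)⁻¹ • T.cR (Φ₂.B w) (g⁻¹ v)) w)) ∧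
    (t ∈ T.NG → ∃ w', w' ≠ 0 ∧ (T.sp w).map g.toLinearMap = T.sp w') := by
  have e : ∀ v, (g * T.krR (Fm.refl hw (h.o.π _)) * g⁻¹) v =
      v - g (T.tm ((Φ₂.Q w)⁻¹ • T.cR (Φ₂.B w) (g⁻¹ v)) w) := fun v => by
    rw [mul_app, mul_app, h.refl_apply, map_sub, app_inv_app]
  have w0 : w ≠ 0 := fun e => hw (e ▸ Φ₂.Q_zero)
  obtain ⟨u, hu⟩ := h.tf.ne₁
  refine ⟨_, M.mul_mem (M.mul_mem hg (h.refl_mem hw)) (M.inv_mem hg), e, fun ht =>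
    Tn.exists_eq_sp (by have := h.dU; have := h.dW; omega) ⟨u, hu⟩ ht ⟨g (T.tm u w), ?_⟩
      (fun v => ?_) (by rw [LinearEquiv.finrank_map_eq, T.finrank_sp w0])⟩
  · simpa [e, h.o.B_self, h.two, hw] using T.tm_ne_zero hu w0
  · rw [e, sub_sub_cancel_left]
    exact neg_mem ⟨_, T.tm_mem_sp _ _, rfl⟩

theorem eq_sp_of_pure {u₀ u : U} {y : W} (e : g (T.tm u₀ w) = T.tm u y) (h0 : T.tm u y ≠ 0) :
    (T.sp w).map g.toLinearMap = T.sp y := by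
  obtain ⟨t, ht, et, k⟩ := h.exists_t hg hw
  obtain ⟨w', -, e'⟩ := k (h.A t ht u (fun e => h0 (by simp [e])) fun z => by
    obtain ⟨c, hc⟩ := Fm.eq_smul_of_two h.dU (w := u₀) (fun e' => h0 (by simp [← e, e']))
      (h.sp₁.B_self _) (y := T.cR (Φ₂.B w) (g⁻¹ (T.tm u z))) (by
        rw [← h.tf.B_tm, Fm.Iso.B_inv (Φ.EG_le_Iso (h.G hg)), e, h.tf.B, h.sp₁.B_self, zero_mul])
    exact ⟨z - ((Φ₂.Q w)⁻¹ * c) • y, by rw [et, hc]; simp [e, mul_smul]⟩)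
  rw [e']
  exact T.sp_eq_of_mem h0 (e' ▸ ⟨_, T.tm_mem_sp _ _, e⟩) (T.tm_mem_sp _ _)

theorem exists_add {u₀ : U} (u0 : u₀ ≠ 0) {k : V ≃ₗ[F] V} (hk : k ∈ M)
    (e : k (g (T.tm u₀ w)) = g (T.tm u₀ w)) (u : U) :
    ∃ c : F, k (g (T.tm u w)) = g (T.tm u w) + c • g (T.tm u₀ w) := by
  have w0 : w ≠ 0 := fun e => hw (e ▸ Φ₂.Q_zero)
  have hm := M.mul_mem (M.inv_mem hg) (M.mul_mem hk hg)
  have e1 : (g⁻¹ * (k * g)) (T.tm u₀ w) = T.tm u₀ w := by rw [mul_app, mul_app, e, inv_app_app]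
  obtain ⟨u', e2⟩ := T.mem_sp.1 ((h.eq_sp_of_pure hm hw e1 (T.tm_ne_zero u0 w0)).le
    ⟨_, T.tm_mem_sp u w, rfl⟩)
  have e3 := (Φ.EG_le_Iso (h.G hm)).1 (T.tm u₀ w) (T.tm u w)
  rw [LinearEquiv.coe_coe] at e2
  rw [e1, ← e2, h.tf.B, h.tf.B] at e3
  obtain ⟨c, hc⟩ := Fm.eq_smul_of_two h.dU u0 (h.sp₁.B_self _) (y := u' - u) (by
    simpa [h.o.B_self, h.two, hw, sub_eq_zero] using e3)
  exact ⟨c, by simpa [mul_app, eq_add_of_sub_eq' hc] using congrArg g e2.symm⟩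

theorem eq_sp (h4 : finrank F W = 4) (np : ∀ s v, ¬ Φ₂.Pair s v) :
    ∃ w', w' ≠ 0 ∧ (T.sp w).map g.toLinearMap = T.sp w' := by
  have hI := Φ.EG_le_Iso (h.G hg)
  have hO := h.o
  have h2 := h.two
  have w0 : w ≠ 0 := fun e => hw (e ▸ Φ₂.Q_zero)
  by_contra hc
  have pu : ∀ u₀ u y, g (T.tm u₀ w) = T.tm u y → u₀ = 0 := fun u₀ u y e => by_contra fun h0 => by
    have : T.tm u y ≠ 0 := e ▸ g.map_ne_zero_iff.2 (T.tm_ne_zero h0 w0)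
    exact hc ⟨y, fun e => this (by simp [e]), h.eq_sp_of_pure hg hw e this⟩
  obtain ⟨u₀, u₁, hu⟩ := h.tf.exists_B_one
  have u0 : u₀ ≠ 0 := fun e => by simp [e] at hu
  obtain ⟨y₀, y₁, ex⟩ : ∃ y₀ y₁, g (T.tm u₀ w) = T.tm u₀ y₀ + T.tm u₁ y₁ := by
    refine T.induction (p := fun v => ∃ y₀ y₁, v = T.tm u₀ y₀ + T.tm u₁ y₁) ⟨0, 0, by simp⟩
      (fun u y => ?_) ?_ _
    · obtain ⟨c, hc⟩ := Fm.eq_smul_of_two h.dU u0 (h.sp₁.B_self _) (y := u - Φ₁.B u₀ u • u₁)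
        (by simp [hu])
      exact ⟨c • y, Φ₁.B u₀ u • y, by
        conv_lhs => rw [eq_add_of_sub_eq hc]
        simp⟩
    · rintro _ _ ⟨a, b, rfl⟩ ⟨c, d, rfl⟩
      exact ⟨a + c, b + d, by simp only [map_add]; abel⟩
  have k1 : ∀ n, Φ₂.Q n ≠ 0 → Φ₂.B y₀ n = 0 → Φ₂.B y₁ n = 0 → ∀ u,
      T.cR (Φ₂.B n) (g (T.tm u w)) = 0 := fun n hn a1 a2 u => by
    obtain ⟨c, e⟩ := h.exists_add hg hw u0 (h.refl_mem hn) (by
      simp [h.refl_apply, ex, Φ₂.perp_symm a1, Φ₂.perp_symm a2]) u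
    rw [h.refl_apply, sub_eq_add_neg, add_right_inj] at e
    have := pu (c • u₀) _ (-n) (by rw [map_neg, e]; simp)
    rw [(smul_eq_zero_iff_left u0).1 this, zero_smul, neg_eq_zero] at e
    simpa [hn] using T.left_inj (w := n) (u' := 0) (fun e => hn (e ▸ Φ₂.Q_zero)) (e.trans (by simp))
  have k3 : ∀ s, Φ₂.B y₀ s = 0 → Φ₂.B y₁ s = 0 → Φ₂.Q s = 0 → s = 0 := fun s a1 a2 hs =>
    by_contra fun s0 => by
      obtain ⟨φ, hφ⟩ := exists_dual_eq_one (F := F) s0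
      obtain ⟨n, -, n0, hn⟩ := exists_ne_zero_ker [Φ₂.B y₀, Φ₂.B y₁, φ] (⊤ : Submodule F W)
        (by simp; omega)
      obtain ⟨a, b, hab, ha, hb⟩ : ∃ a b : F, a ≠ b ∧ Φ₂.Q (n + a • s) ≠ 0 ∧ Φ₂.Q (n + b • s) ≠ 0 := by
        simp only [hO.Q_add, hO.Q_smul, hs, Φ₂.bsimp, hO.symm s n]
        by_cases e : Φ₂.B s n = 0
        · have : Φ₂.Q n ≠ 0 := fun q => by
            obtain ⟨c, rfl⟩ := (Fm.pair_or_eq_smul hs s0 q e).resolve_left (np _ _)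
            exact n0 (by rw [show c = 0 by simpa [hφ] using hn φ (by simp), zero_smul])
          exact ⟨0, 1, zero_ne_one, by simpa, by simpa [e]⟩
        · exact ⟨(1 - Φ₂.Q n) / Φ₂.B s n, (-1 - Φ₂.Q n) / Φ₂.B s n, fun e' => h2 (by
            rw [div_left_inj' e] at e'; linear_combination e'), by simp [e], by simp [e]⟩
      obtain ⟨t, ht, et, k⟩ := h.exists_t hg hw
      refine hc (k ((h.L s hs s0).mem_NG_of_stab h.tf h.H h.G h.dW hs s0 ht fun u => ?_))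
      rw [et, h.tf.cR_eq_zero fun u' => ?_]
      · simpa using T.tm_mem_sp u s
      have b1 := k1 _ ha (by simp [a1, hn _ (List.mem_cons_self ..)]) (by simp [a2, hn (Φ₂.B y₁)]) u'
      have b2 := k1 _ hb (by simp [a1, hn _ (List.mem_cons_self ..)]) (by simp [a2, hn (Φ₂.B y₁)]) u'
      simp only [map_add, map_smulₛₗ, hO.σ, LinearMap.add_apply, LinearMap.smul_apply,
        RingHom.id_apply] at b1 b2
      rw [Fm.Iso.B_inv hI, Φ.perp_comm, h.tf.B_tm, (smul_eq_zero_iff_right (sub_ne_zero.2 hab)).1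
        (show (a - b) • T.cR (Φ₂.B s) (g (T.tm u' w)) = 0 by linear_combination (norm := module) b1 - b2),
        map_zero]
  obtain ⟨n₁, a0, a1, a2⟩ := Fm.exists_perp_pair (Ψ := Φ₂) h.dW y₀ y₁
  obtain ⟨n₂, -, b0, hb⟩ := exists_ne_zero_ker [Φ₂.B y₀, Φ₂.B y₁, Φ₂.B n₁] (⊤ : Submodule F W)
    (by simp; omega)
  simp only [List.mem_cons, forall_eq_or_imp, List.not_mem_nil, IsEmpty.forall_iff, implies_true,
    and_true] at hb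
  obtain ⟨b1, b2, b3⟩ := hb
  have q₁ : Φ₂.Q n₁ ≠ 0 := fun e => a0 (k3 _ a1 a2 e)
  have q₂ : Φ₂.Q n₂ ≠ 0 := fun e => b0 (k3 _ b1 b2 e)
  obtain ⟨s, s0, hs, c1, c2⟩ := hO.exists_sing_perp h2 b3 q₁ q₂ h4.ge np (hO.not_isSquare h2 b3 q₁ q₂
    fun a b => k3 _ (by simp [a1, b1]) (by simp [a2, b2]))
  obtain ⟨z, hz⟩ := Φ₂.exists_B_ne s0
  obtain ⟨s', ⟨c3, c4⟩, hs', e⟩ := Fm.exists_partner
    (U := LinearMap.ker (Φ₂.B n₁) ⊓ LinearMap.ker (Φ₂.B n₂)) ⟨c1, c2⟩ hs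
    ⟨z - (Φ₂.B n₁ z / (2 * Φ₂.Q n₁)) • n₁ - (Φ₂.B n₂ z / (2 * Φ₂.Q n₂)) • n₂,
      ⟨by simp [hO.B_self, h2, q₁, b3], by simp [hO.B_self, h2, q₂, Φ₂.perp_symm b3]⟩,
      by simpa [Φ₂.perp_symm c1, Φ₂.perp_symm c2]⟩
  have k4 : ∀ u, g (T.tm u w) = T.tm (T.cR (Φ₂.B s') (g (T.tm u w))) s +
      T.tm (T.cR (Φ₂.B s) (g (T.tm u w))) s' := fun u => by
    have := T.ext (f := LinearMap.id) (g := T.tm.flip s ∘ₗ T.cR (Φ₂.B s') + T.tm.flip s' ∘ₗ T.cR (Φ₂.B s) +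
      (2 * Φ₂.Q n₁)⁻¹ • T.tm.flip n₁ ∘ₗ T.cR (Φ₂.B n₁) + (2 * Φ₂.Q n₂)⁻¹ • T.tm.flip n₂ ∘ₗ T.cR (Φ₂.B n₂))
      (fun u y => by
        conv_lhs => rw [hO.expand h2 b3 q₁ q₂ h4.le hs hs' e c1 c2 c3 c4 y]
        simp [mul_smul]) (g (T.tm u w))
    simpa [k1 n₁ q₁ a1 a2, k1 n₂ q₂ b1 b2] using this
  obtain ⟨p, p', ep⟩ : ∃ p p', g (T.tm u₀ w) = T.tm p s + T.tm p' s' := ⟨_, _, k4 u₀⟩
  obtain ⟨v, v', ev⟩ : ∃ v v', g (T.tm u₁ w) = T.tm v s + T.tm v' s' := ⟨_, _, k4 u₁⟩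
  have p0 : p ≠ 0 := fun e => u0 (pu u₀ p' s' (by simp [ep, e]))
  have pp : Φ₁.B p p' ≠ 0 := fun e => by
    obtain ⟨c, rfl⟩ := Fm.eq_smul_of_two h.dU p0 (h.sp₁.B_self _) e
    exact u0 (pu u₀ p (s + c • s') (by simp [ep]))
  have m0 : (-1 : F) ≠ 0 := by simp
  obtain ⟨a, ea, ea', ha⟩ := hO.exists_sim h2 b3 q₁ q₂ h4.le hs hs' e c1 c2 c3 c4 m0
  obtain ⟨d, ed, hd⟩ := h.sp₁.exists_sim h.dU pp m0
  obtain ⟨c, ec⟩ := h.exists_add hg hw u0 (h.H ⟨T.kr_mem d a, h.sp.Iso_le (h.tf.kr_Iso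
    fun _ _ _ _ => by rw [ha, hd]; ring)⟩) (by
      simp only [ep, map_add, Tn.kr_tm, ea, ea', ed, h.sp₁.B_self, div_mul_cancel₀ _ pp, map_smul,
        LinearMap.add_apply, LinearMap.smul_apply]
      module) u₁
  have f1 := congrArg (fun x => T.cR (Φ₂.B s') x) ec
  have f2 := congrArg (fun x => T.cR (Φ₂.B s) x) ec
  simp only [ep, ev, map_add, Tn.kr_tm, ea, ea', map_smul, Tn.cR_tm, Φ₂.B_self hs, Φ₂.B_self hs', e,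
    hO.symm s s', zero_smul, one_smul, smul_zero, add_zero, zero_add] at f1 f2
  rw [ed] at f1 f2
  have f3 : Φ₁.B p v = 0 := by
    simpa [h.sp₁.B_self, pp, show (-1 - 1 : F) ≠ 0 from fun e => h2 (by linear_combination -e)]
      using congrArg (Φ₁.B p) f1
  obtain ⟨α, rfl⟩ := Fm.eq_smul_of_two h.dU p0 (h.sp₁.B_self _) f3
  obtain ⟨δ, rfl⟩ : ∃ δ : F, v' = δ • p' := ⟨2⁻¹ * (-((-1 - 1) / Φ₁.B p p' * Φ₁.B p v') - c), by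
    rw [mul_smul, eq_inv_smul_iff₀ h2]; linear_combination (norm := module) -f2⟩
  have := pu (u₁ - α • u₀) ((δ - α) • p') s' (by
    simp only [map_sub, map_smul, LinearMap.sub_apply, LinearMap.smul_apply, ep, ev]; module)
  simp [sub_eq_zero.1 this, h.sp₁.B_self] at hu

omit hw in
theorem mem_NG (k : ∀ w, Φ₂.Q w ≠ 0 → ∃ w', w' ≠ 0 ∧ (T.sp w).map g.toLinearMap = T.sp w') :
    g ∈ T.NG := by
  have hO := h.o
  obtain ⟨s, -, s0, hs⟩ := Φ₂.iso ⊤ (by rw [finrank_top, hO.d]; exact h.dW)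
  obtain ⟨s', q, e⟩ := Fm.exists_partner' hs s0
  obtain ⟨w, -, hw, h1, -⟩ := hO.exists_nonsing_perp Φ₂.nd_top (by simpa using h.dW) trivial trivial
    hs q e
  obtain ⟨w₁, -, e1⟩ := k w hw
  obtain ⟨w₂, -, e2⟩ := k (s + w) (by simpa [hO.Q_add, hs, h1])
  have hI := Φ.EG_le_Iso (h.G hg)
  obtain ⟨u₀, u₁, hu⟩ := h.tf.exists_B_one
  have q1 : Φ₂.B w₁ w₁ ≠ 0 := fun e => by
    obtain ⟨a, ha⟩ := T.mem_sp.1 (e1.le ⟨_, T.tm_mem_sp u₀ w, rfl⟩)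
    obtain ⟨b, hb⟩ := T.mem_sp.1 (e1.le ⟨_, T.tm_mem_sp u₁ w, rfl⟩)
    have := hI.1 (T.tm u₀ w) (T.tm u₁ w)
    rw [LinearEquiv.coe_coe] at ha hb
    simp [← ha, ← hb, h.tf.B, e, hu, hO.B_self w, h.two, hw] at this
  have k1 : ∀ u, g (T.tm u s) ∈ T.sp (w₂ - (Φ₂.B w₁ w₂ / Φ₂.B w₁ w₁) • w₁) := fun u => by
    obtain ⟨a, ha⟩ := T.mem_sp.1 (e1.le ⟨_, T.tm_mem_sp u w, rfl⟩)
    obtain ⟨b, hb⟩ := T.mem_sp.1 (e2.le ⟨_, T.tm_mem_sp u (s + w), rfl⟩)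
    rw [LinearEquiv.coe_coe] at ha hb
    rw [map_add, map_add, ← ha, ← sub_eq_iff_eq_add] at hb
    have := h.tf.cR_eq_zero (w := w₁) (v := g (T.tm u s)) fun u' => by
      obtain ⟨_, ⟨x, rfl⟩, hx⟩ := e1.ge (T.tm_mem_sp u' w₁)
      rw [← hx, LinearEquiv.coe_coe, hI.1]
      simp [h.tf.B, Φ₂.perp_symm h1]
    rw [← hb, map_sub, Tn.cR_tm, Tn.cR_tm, sub_eq_zero, eq_comm, ← eq_inv_smul_iff₀ q1] at this
    exact ⟨b, by simp [← hb, this, div_eq_inv_mul, mul_smul]⟩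
  exact h.tf.mem_of_sp h.H h.G h.L h.dW hg hs s0 (fun e => by
    obtain ⟨x, hx⟩ := T.mem_sp.1 (k1 u₀)
    rw [e, map_zero, eq_comm, g.map_eq_zero_iff] at hx
    exact T.tm_ne_zero (fun e => by simp [e] at hu) s0 hx) k1

end SO

theorem TF.so (hT : TF T Φ₁ Φ₂ Φ) (h₁ : Φ₁.IsSp) (h₂ : Φ₂.IsO) (hS : Φ.IsSp) (h2 : (2 : F) ≠ 0)
    (hU : finrank F U ≤ 2) (h3 : 3 ≤ finrank F W) (hq : ¬ (Nat.card F = 3 ∧ finrank F W = 3))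
    (np : ∀ s v, ¬ Φ₂.Pair s v) (hH : T.NG ⊓ Φ.EG ≤ M) (hG : M ≤ Φ.EG) (hn : ¬ Φ.EG ≤ M) :
    SO T Φ₁ Φ₂ Φ M :=
  ⟨hT, hH, hG, hS, h₁, h₂, h2, hU, h3, fun _ hg _ u0 e => T.swap_NG ▸ hT.swap.mem_NG_of_stab_two
    (T.swap_NG ▸ hH) hG hS h₁ hU (hT.swap.cen_o_sp (T.swap_NG ▸ hH) hG hS h2 hn h₂ h₁ h3 hq np) u0 hg e,
    fun _ => hT.loc_two_o hH hG hS h2 hn h₁ h₂ hU h3⟩

theorem TF.isMaximalIn_of_sp (hT : TF T Φ₁ Φ₂ Φ) (hS : Φ.IsSp) (hU : 2 ≤ finrank F U)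
    (hW : 2 ≤ finrank F W) (key : ∀ M, T.NG ⊓ Φ.EG ≤ M → M ≤ Φ.EG → ¬ Φ.EG ≤ M → M ≤ T.NG) :
    Geo.IsMaximalIn Φ.EG (T.NG ⊓ Φ.EG) := by
  refine isMaximalIn_of inf_le_right ?_ fun M h1 h3 g hg hg' => by_contra fun hc =>
    hg' ⟨key M h1 h3 hc hg, h3 hg⟩
  obtain ⟨u, hu⟩ := hT.ne₁
  obtain ⟨w, hw⟩ := hT.ne₂
  obtain ⟨y, hy⟩ := Φ.exists_B_ne (T.tm_ne_zero hu hw)
  have hv := Fm.valid_tv (hS.Q (T.tm u w)) (hS.π 1)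
  exact ⟨_, hv.eich_mem, fun h => Tn.notMem_NG_of_tv hU hW (v := T.tm u w) ⟨y, by
    simpa [hv.eich_apply, Fm.ef, hS.ε, hy] using T.tm_ne_zero hu hw⟩ (fun x => by
      simpa [hv.eich_apply, Fm.ef] using
        Submodule.smul_mem _ _ (Submodule.mem_span_singleton_self _)) h.1⟩

theorem TF.sp2_o4_isMaximalIn (hT : TF T Φ₁ Φ₂ Φ) (h₁ : Φ₁.IsSp) (h₂ : Φ₂.IsO) (hS : Φ.IsSp)
    (h2 : (2 : F) ≠ 0) (hU : finrank F U = 2) (h4 : finrank F W = 4) (np : ∀ s v, ¬ Φ₂.Pair s v) :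
    Geo.IsMaximalIn Φ.EG (T.NG ⊓ Φ.EG) :=
  hT.isMaximalIn_of_sp hS hU.ge (by omega) fun _ hH hG hn _ hg =>
    have h := hT.so h₁ h₂ hS h2 hU.le (by omega) (by omega) np hH hG hn
    h.mem_NG hg fun _ hw => h.eq_sp hg hw h4 np

end Abstract

theorem sp_sp2_o4_isMaximalIn {F : Type*} [Field F] [Fintype F] {m : ℕ} (ho : Odd (Fintype.card F))
    (e : (Fin m ⊕ Fin m) ≃ Fin 2 × Fin 4) (P : GL (Fin m ⊕ Fin m) F)
    {f₁ : (Fin 2 → F) → (Fin 2 → F) → F} {f₂ : (Fin 4 → F) → (Fin 4 → F) → F}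
    (h1 : Geo.IsSymplecticForm f₁) (h2 : Geo.IsSymmetricForm f₂)
    (hm : ¬ Geo.IsPlusTypeOn (fun v : Fin 4 → F => f₂ v v) ⊤)
    (hT : Geo.IsTensorFormStructure id (sympForm m F) f₁ f₂ e P) :
    Geo.IsMaximalIn (spGL m F) (Geo.tensorProductSubgroup 2 4 e P ⊓ spGL m F) := by
  have h0 := two_ne_zero_of_odd ho
  obtain ⟨Φ₁, h₁, hT'⟩ := tf_sp_o h0 two_pos four_pos h1 h2 hT
  exact isMaximalIn_of_NG (mem_spGL_iff m) (hT'.sp2_o4_isMaximalIn h₁ (isO_fmSym h0 h2) (isSp_fmSp _)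
    h0 (by simp) (by simp) fun s v hp => hm ⟨_, le_top, fun x hx => by
      simpa [fmSym_B] using hp.ts.2 x hx x hx, by rw [hp.finrank_span, finrank_top]; simp⟩)

end Cfsg.Agent.Class.Max
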