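import Mathlib
import Cfsg.Agent.Class.Max.Frob
import Cfsg.Agent.Class.Max.FmRec

/-!
Class `C₅` for the special linear group: subfield subgroups are maximal.
-/

set_option autoImplicit false

namespace Cfsg.Agent.Class.Max

open Module

variable {F V : Type*} [Field F] [AddCommGroup V] [Module F V]
variable {ι : Type} [Fintype ι] [DecidableEq ι] {θ₀ : F ≃+* F} {F₀ : Subfield F}
variable {b : Basis ι F V} {M : Subgroup (V ≃ₗ[F] V)}

omit [DecidableEq ι] in
theorem exists_ne_ne_of_card (h : 3 ≤ Fintype.card ι) (i j : ι) : ∃ k, k ≠ i ∧ k ≠ j := by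
  classical
  obtain ⟨k, -, hk⟩ := Finset.exists_mem_notMem_of_card_lt_card (s := {i, j})
    (t := Finset.univ) (lt_of_le_of_lt Finset.card_le_two (by rw [Finset.card_univ]; omega))
  exact ⟨k, by simpa [not_or] using hk⟩

omit [Fintype ι] in
theorem coord_basis (b : Basis ι F V) (i j : ι) : b.coord i (b j) = if j = i then 1 else 0 := by
  simp [Finsupp.single_apply]

omit [DecidableEq ι] in
theorem hasTv_rat [FiniteDimensional F V] {φ : Dual F V} {v : V} (h0 : φ v = 0)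
    (hφ : ∀ i, θ₀ (φ (b i)) = φ (b i)) (hv : frob θ₀ b v = v) :
    HasTv (Nfrob (frob θ₀ b) ⊓ SLV F V) φ v := by
  obtain ⟨t, ht, e⟩ := hasTv_SLV h0
  refine ⟨t, ⟨mem_Nfrob_of_basis b one_ne_zero fun i => ?_, ht⟩, e⟩
  rw [one_smul, e, map_add, map_smulₛₗ, frob_basis, hv, RingHom.coe_coe, hφ]

theorem hasTv_elem [FiniteDimensional F V] (hθ : ∀ c, θ₀ c = c ↔ c ∈ F₀) {i j : ι} (hij : i ≠ j)
    {c : F} (hc : c ∈ F₀) : HasTv (Nfrob (frob θ₀ b) ⊓ SLV F V) (b.coord j) (c • b i) :=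
  hasTv_rat (by simp [hij]) (fun k => by rw [coord_basis]; split_ifs <;> simp)
    (by rw [map_smulₛₗ, frob_basis, RingHom.coe_coe, (hθ c).2 hc])

omit [Fintype ι] [DecidableEq ι] in
theorem hasTv_elem_mul {i j k : ι} (hik : i ≠ k) (hkj : k ≠ j) (hij : i ≠ j) {a c : F}
    (h1 : HasTv M (b.coord k) (a • b i)) (h2 : HasTv M (b.coord j) (c • b k)) :
    HasTv M (b.coord j) ((a * c) • b i) := by
  have := h1.comm (by simp [hik]) (by simp [hkj]) (by simp [hij]) h2
  simpa [smul_smul, mul_comm] using this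

theorem hasTv_elem_all (hn : 3 ≤ Fintype.card ι)
    (h1 : ∀ i j, i ≠ j → HasTv M (b.coord j) ((1 : F) • b i)) {i j : ι} (hij : i ≠ j) {c : F}
    (h : HasTv M (b.coord j) (c • b i)) : ∀ k l, k ≠ l → HasTv M (b.coord l) (c • b k) := by
  have row : ∀ i j l, i ≠ j → i ≠ l → HasTv M (b.coord j) (c • b i) →
      HasTv M (b.coord l) (c • b i) := fun i j l hij hil h => by
    by_cases hjl : j = l
    · exact hjl ▸ h
    · simpa using hasTv_elem_mul hij hjl hil h (h1 j l hjl)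
  have col : ∀ i j k, i ≠ j → k ≠ j → HasTv M (b.coord j) (c • b i) →
      HasTv M (b.coord j) (c • b k) := fun i j k hij hkj h => by
    by_cases hki : k = i
    · exact hki ▸ h
    · simpa using hasTv_elem_mul hki hij hkj (h1 k i hki) h
  intro k l hkl
  obtain ⟨m, hmi, hmk⟩ := exists_ne_ne_of_card hn i k
  exact row k m l hmk.symm hkl (col i m k hmi.symm hmk.symm (row i j m hij hmi.symm h))

section Main

variable [FiniteDimensional F V]

theorem SLV_le_or_rat (hθ : IsFrob θ₀ F₀) (hn : 3 ≤ Fintype.card ι)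
    (hH : Nfrob (frob θ₀ b) ⊓ SLV F V ≤ M) :
    SLV F V ≤ M ∨ ∀ (φ : Dual F V) i, φ (b i) = 0 → HasTv M φ (b i) → ∀ j, φ (b j) ∈ F₀ := by
  let R : Subring F :=
    { carrier := {c | ∀ i j, i ≠ j → HasTv M (b.coord j) (c • b i)}
      mul_mem' := fun {a c} ha hc i j hij => by
        obtain ⟨k, hki, hkj⟩ := exists_ne_ne_of_card hn i j
        exact hasTv_elem_mul hki.symm hkj hij (ha i k hki.symm) (hc k j hkj)
      one_mem' := fun i j hij => (hasTv_elem hθ.fix hij F₀.one_mem).mono hH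
      add_mem' := fun {a c} ha hc i j hij => by
        rw [add_smul]; exact (ha i j hij).add_right (by simp [hij]) (hc i j hij)
      zero_mem' := fun i j _ => by rw [zero_smul]; exact hasTv_zero_right _
      neg_mem' := fun {a} ha i j hij => by
        rw [neg_smul]; exact (ha i j hij).neg_right (by simp [hij]) }
  rcases hθ.max R (fun c hc i j hij => (hasTv_elem hθ.fix hij hc).mono hH) with h | h
  · refine Or.inr fun φ i h0 hφ j => ?_
    by_cases hji : j = i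
    · rw [hji, h0]; exact F₀.zero_mem
    obtain ⟨k, hki, hkj⟩ := exists_ne_ne_of_card hn i j
    have := hφ.comm h0 (by simp [hkj.symm]) (by simp [hki.symm]) (R.one_mem j k hkj.symm)
    rw [one_smul] at this
    exact h _ (hasTv_elem_all hn R.one_mem hki.symm this)
  · exact Or.inl (SLV_le_of_basis b fun i j hij c => h c i j hij)

theorem mem_Nfrob_of_fix_basis (hθ : IsFrob θ₀ F₀) (hH : Nfrob (frob θ₀ b) ⊓ SLV F V ≤ M)
    (hM : M ≤ SLV F V)
    (hR : ∀ (φ : Dual F V) i, φ (b i) = 0 → HasTv M φ (b i) → ∀ j, φ (b j) ∈ F₀)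
    {h : V ≃ₗ[F] V} (hh : h ∈ M) {i : ι} {c : F} (hi : h (b i) = c • b i) :
    h ∈ Nfrob (frob θ₀ b) := by
  have hc : c ≠ 0 := by
    rintro rfl
    exact b.ne_zero i (by simpa using hi)
  have hi' : h⁻¹ (b i) = c⁻¹ • b i := by
    apply h.injective
    rw [app_inv_app, map_smul, hi, smul_smul, inv_mul_cancel₀ hc, one_smul]
  have h1 : ∀ j, j ≠ i → ∀ k, c⁻¹ * b.repr (h (b k)) j ∈ F₀ := fun j hj k => by
    have h2 := ((hasTv_elem hθ.fix hj.symm F₀.one_mem).mono hH).conj (M.inv_mem hh)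
    rw [one_smul, hi', ← hasTv_smul_iff] at h2
    simpa using hR _ i (by simp [hi, hj.symm]) h2 k
  let ψ : Dual F V := c⁻¹ • (b.coord i ∘ₗ h.toLinearMap) - b.coord i
  have hψ : ∀ x, ψ x = c⁻¹ * b.repr (h x) i - b.repr x i := fun _ => rfl
  have hψ0 : ψ (b i) = 0 := by rw [hψ, hi]; simp [hc]
  obtain ⟨t, ht, e⟩ := hasTv_SLV (φ := -ψ) (v := b i) (by simp [hψ0])
  have key : ∀ g : V ≃ₗ[F] V, (∀ j k, c⁻¹ * b.repr (g (b k)) j ∈ F₀) → g ∈ Nfrob (frob θ₀ b) :=
    fun g hg => mem_Nfrob_of_basis b (inv_ne_zero hc) fun k => (frob_eq_iff b).2 fun j => by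
      rw [hθ.fix]; simpa using hg j k
  have h2 : h * t ∈ M := hH ⟨key _ fun j k => by
    rw [mul_app, e, map_add, map_smul, hi]
    by_cases hj : j = i
    · subst hj
      have : c⁻¹ * b.repr (h (b k) + (-ψ) (b k) • c • b j) j = b.repr (b k) j := by
        simp only [map_add, map_smul, Finsupp.add_apply, Finsupp.smul_apply, smul_eq_mul,
          LinearMap.neg_apply, hψ, b.repr_self j, Finsupp.single_eq_same]
        field_simp
        ring
      rw [this, b.repr_self, Finsupp.single_apply]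
      split_ifs
      exacts [F₀.one_mem, F₀.zero_mem]
    · simpa [Finsupp.single_apply, Ne.symm hj] using h1 j hj k, (SLV F V).mul_mem (hM hh) ht⟩
  have h3 := hR _ i (by simp [hψ0]) ⟨t, by simpa using M.mul_mem (M.inv_mem hh) h2, e⟩
  refine key h fun j k => ?_
  by_cases hj : j = i
  · subst hj
    have h4 : c⁻¹ * b.repr (h (b k)) j = b.repr (b k) j - (-ψ) (b k) := by
      rw [LinearMap.neg_apply, hψ]; ring
    rw [h4]
    refine F₀.sub_mem ?_ (h3 k)
    rw [b.repr_self, Finsupp.single_apply]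
    split_ifs
    exacts [F₀.one_mem, F₀.zero_mem]
  · exact h1 j hj k

theorem exists_move_rat (i : ι) {u : V} (hu : frob θ₀ b u = u) :
    ∃ k ∈ Nfrob (frob θ₀ b) ⊓ SLV F V, ∃ c : F, k u = c • b i := by
  by_cases h : ∀ j, j ≠ i → b.repr u j = 0
  · refine ⟨1, one_mem _, b.repr u i, b.ext_elem fun j => ?_⟩
    by_cases hj : j = i
    · simp [hj]
    · simp [h j hj, Ne.symm hj]
  push Not at h
  obtain ⟨j, hj, hj'⟩ := h
  have hu' := (frob_eq_iff b).1 hu
  obtain ⟨k, hk, e⟩ := hasTv_rat (θ₀ := θ₀) (b := b)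
    (φ := b.coord i + ((1 - b.repr u i) / b.repr u j) • b.coord j) (v := b i - u)
    (by simp [Ne.symm hj, hj']) (fun l => by
      simp only [LinearMap.add_apply, LinearMap.smul_apply, coord_basis, smul_eq_mul, map_add,
        map_mul, map_div₀, map_sub, map_one, hu']
      split_ifs <;> simp) (by rw [map_sub, hu, frob_basis])
  exact ⟨k, hk, 1, by rw [e]; simp [hj']⟩

theorem mem_Nfrob_of_rat (hθ : IsFrob θ₀ F₀) (hH : Nfrob (frob θ₀ b) ⊓ SLV F V ≤ M)
    (hM : M ≤ SLV F V)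
    (hR : ∀ (φ : Dual F V) i, φ (b i) = 0 → HasTv M φ (b i) → ∀ j, φ (b j) ∈ F₀)
    {g : V ≃ₗ[F] V} (hg : g ∈ M) (i : ι) {u u' : V} (hu0 : u ≠ 0) (hu : frob θ₀ b u = u)
    (hu' : frob θ₀ b u' = u') {c : F} (h : g u = c • u') : g ∈ Nfrob (frob θ₀ b) := by
  obtain ⟨k, hk, a, ha⟩ := exists_move_rat i hu
  obtain ⟨k', hk', a', ha'⟩ := exists_move_rat i hu'
  have ha0 : a ≠ 0 := by
    rintro rfl
    exact hu0 (by simpa using ha)
  have h1 := mem_Nfrob_of_fix_basis hθ hH hM hR (h := k' * g * k⁻¹)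
    (M.mul_mem (M.mul_mem (hH hk') hg) (M.inv_mem (hH hk))) (i := i) (c := a⁻¹ * c * a') (by
      have : k⁻¹ (b i) = a⁻¹ • u := k.injective (by
        rw [app_inv_app, map_smul, ha, smul_smul, inv_mul_cancel₀ ha0, one_smul])
      rw [mul_app, mul_app, this, map_smul, h, map_smul, map_smul, ha', smul_smul, smul_smul])
  simpa [mul_assoc] using Subgroup.mul_mem _ (Subgroup.mul_mem _ (Subgroup.inv_mem _ hk'.1) h1) hk.1

theorem exists_rat_ker [Finite F] (hθ : IsFrob θ₀ F₀) (hn : 4 ≤ Fintype.card ι)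
    (hH : Nfrob (frob θ₀ b) ⊓ SLV F V ≤ M) (hM : M ≤ SLV F V)
    (hR : ∀ (φ : Dual F V) i, φ (b i) = 0 → HasTv M φ (b i) → ∀ j, φ (b j) ∈ F₀)
    {ψ : Dual F V} {w : V} (hw0 : w ≠ 0) (hψ : ψ w = 0) (h : HasTv M ψ w) :
    ∃ u, u ≠ 0 ∧ frob θ₀ b u = u ∧ ψ u = 0 := by
  by_contra hc
  push Not at hc
  obtain ⟨k, hk⟩ : ∃ k, b.repr w k ≠ 0 := by
    by_contra h
    push Not at h
    exact hw0 (b.ext_elem fun i => by simp [h i])
  obtain ⟨t', ht', e'⟩ := h
  let S := M ⊓ Fm.fixing {x | b.repr x k = 0 ∧ ψ x = 0}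
  have key : ∀ i, i ≠ k → ∃ s ∈ S, ∃ δ : F, δ ≠ 0 ∧ s (b i) = δ • w := fun i hi => by
    obtain ⟨t, ht, e⟩ := (hasTv_elem (b := b) hθ.fix hi F₀.one_mem).mono hH
    refine exists_move_plane (S := S) (x := t) (x' := t') ⟨ht, fun x hx => by simp [e, hx.1]⟩
      ⟨ht', fun x hx => by simp [e', hx.2]⟩ hk (hc _ (b.ne_zero i) (frob_basis b i))
      (by simp [e, hi]) (by simp [e]) (by simp [e', hψ]) (e' _) fun x y hxy => ?_
    have h1 := congrArg (b.repr · k) hxy
    simp only [map_add, map_smul, Finsupp.add_apply, Finsupp.smul_apply, b.repr_self,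
      Finsupp.single_apply, hi, if_false, smul_eq_mul, mul_zero, zero_add, map_zero,
      Finsupp.zero_apply, mul_eq_zero, hk, or_false] at h1
    subst h1
    exact ⟨by simpa [b.ne_zero i] using hxy, rfl⟩
  obtain ⟨i, hik, -⟩ := exists_ne_ne_of_card (by omega) k k
  obtain ⟨j, hjk, hji⟩ := exists_ne_ne_of_card (by omega) k i
  obtain ⟨s₁, hs₁, δ₁, hδ₁, e₁⟩ := key i hik
  obtain ⟨s₂, hs₂, δ₂, -, e₂⟩ := key j hjk
  have hy : s₁⁻¹ * s₂ ∈ S := S.mul_mem (S.inv_mem hs₁) hs₂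
  have e₃ : (s₁⁻¹ * s₂) (b j) = (δ₂ / δ₁) • b i := s₁.injective (by
    rw [mul_app, app_inv_app, e₂, map_smul, e₁, smul_smul, div_mul_cancel₀ _ hδ₁])
  have hN := mem_Nfrob_of_rat hθ hH hM hR hy.1 i (b.ne_zero j) (frob_basis b j) (frob_basis b i) e₃
  obtain ⟨v, ⟨⟨h1, h2⟩, h3⟩, hv0⟩ := Submodule.exists_mem_ne_zero_of_ne_bot
    (p := LinearMap.ker (b.coord k) ⊓ LinearMap.ker ψ ⊓ LinearMap.ker (dualFrob (frob θ₀ b) ψ))
    (fun h => by
      have a1 := finrank_le_inf_ker ⊤ (b.coord k)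
      have a2 := finrank_le_inf_ker (LinearMap.ker (b.coord k)) ψ
      have a3 := finrank_le_inf_ker (LinearMap.ker (b.coord k) ⊓ LinearMap.ker ψ)
        (dualFrob (frob θ₀ b) ψ)
      rw [top_inf_eq, finrank_top, finrank_eq_card_basis b] at a1
      rw [h, finrank_bot] at a3
      omega)
  have h4 := Nfrob.comm hN ((frob_eq_zero b).not.2 hv0) (hy.2 v ⟨h1, h2⟩)
    (hy.2 _ ⟨by rw [repr_frob, show b.repr v k = 0 from h1, map_zero], dualFrob_eq_zero.1 h3⟩) (b i)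
  have hχ := hc _ (b.ne_zero j) (frob_basis b j)
  have h5 := hy.2 (b i - (ψ (b i) / ψ (b j)) • b j)
    ⟨by simp [hik, hjk], by simp [hχ]⟩
  rw [map_sub, map_smul, e₃, sub_eq_iff_eq_add] at h5
  rw [frob_basis, h5, frob_eq_iff] at h4
  have h6 := h4 j
  simp only [map_add, map_sub, map_smul, Finsupp.add_apply, Finsupp.sub_apply, Finsupp.smul_apply,
    b.repr_self, Finsupp.single_apply, hji.symm, if_false, if_true, smul_eq_mul, mul_zero, mul_one,
    add_zero, zero_sub, map_neg, neg_inj] at h6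
  refine hc (b i - (ψ (b i) / ψ (b j)) • b j) (fun h => ?_) ?_ (by simp [hχ])
  · simpa [Finsupp.single_apply, hji] using congrArg (b.repr · i) h
  · rw [map_sub, map_smulₛₗ, frob_basis, frob_basis, RingHom.coe_coe, h6]

/-- Subfield subgroups are maximal in `SL`. -/
theorem Nfrob_isMaximalIn_SLV [Finite F] (hθ : IsFrob θ₀ F₀) (hn : 4 ≤ Fintype.card ι)
    (b : Basis ι F V) : Geo.IsMaximalIn (SLV F V) (Nfrob (frob θ₀ b) ⊓ SLV F V) := by
  obtain ⟨i⟩ : Nonempty ι := Fintype.card_pos_iff.1 (by omega)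
  obtain ⟨j, hji, -⟩ := exists_ne_ne_of_card (by omega) i i
  refine isMaximalIn_of inf_le_right ?_ fun M hH hM g hg hg' => ?_
  · obtain ⟨c, hc⟩ := hθ.ne
    obtain ⟨t, ht, e⟩ := hasTv_SLV (φ := b.coord j) (v := c • b i) (by simp [hji.symm])
    refine ⟨t, ht, fun h => hc ?_⟩
    have h1 : t (b i) = b i := by simp [e, hji.symm]
    have h2 := Nfrob.comm h.1 (v := b i) (by rw [frob_basis]; exact b.ne_zero i) h1
      (by rw [frob_basis, h1]) (b j)
    rw [frob_basis, frob_eq_iff] at h2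
    simpa [e, Finsupp.single_apply, hji, hθ.fix] using h2 i
  refine (SLV_le_or_rat hθ (by omega) hH).resolve_right fun hR => hg' ⟨?_, hM hg⟩
  have h1 := ((hasTv_elem (b := b) hθ.fix hji.symm F₀.one_mem).mono hH).conj hg
  rw [one_smul] at h1
  have h0 : g (b i) ≠ 0 := g.map_ne_zero_iff.2 (b.ne_zero i)
  obtain ⟨u, hu0, hu, hu'⟩ := exists_rat_ker hθ hn hH hM hR h0 (by simp [hji.symm]) h1
  obtain ⟨t, ht, e⟩ := h1
  have h2 : t u = u := by rw [e, hu', zero_smul, add_zero]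
  have h3 := Nfrob.comm (mem_Nfrob_of_rat hθ hH hM hR ht i hu0 hu hu (c := 1) (by rw [h2, one_smul]))
    (v := u) (by rwa [hu]) h2 (by rw [hu, h2])
  obtain ⟨k, hk⟩ : ∃ k, (b.coord j ∘ₗ (g⁻¹ : V ≃ₗ[F] V).toLinearMap) (b k) ≠ 0 := by
    by_contra hc
    push Not at hc
    have := LinearMap.congr_fun (b.ext (f₂ := 0) hc) (g (b j))
    simp at this
  have h4 := h3 (b k)
  rw [frob_basis, e, map_add, frob_basis, add_right_inj] at h4
  exact mem_Nfrob_of_rat hθ hH hM hR hg i (b.ne_zero i) (frob_basis b i) h4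
    (c := _⁻¹) (by rw [smul_smul, inv_mul_cancel₀ hk, one_smul])

end Main

theorem subfield_isMaximalIn_SL [Fintype F] (hn : 4 ≤ Fintype.card ι) (F₀ : Subfield F) {r : ℕ}
    (hr : r.Prime) (hcard : Fintype.card F = Nat.card F₀ ^ r) (P : GL ι F) :
    Geo.IsMaximalIn (Geo.specialLinear ι F)
      (Geo.subfieldSubgroup F₀ P ⊓ Geo.specialLinear ι F) := by
  obtain ⟨θ₀, hθ, -⟩ := exists_isFrob F₀ hr hcard
  have : Nonempty ι := Fintype.card_pos_iff.1 (by omega)
  refine isMaximalIn_of_equiv (glEquiv ι F) mem_specialLinear_iff (fun g => ?_)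
    (Nfrob_isMaximalIn_SLV hθ hn (colBasis P))
  rw [Subgroup.mem_inf, Subgroup.mem_inf, mem_specialLinear_iff, mem_subfieldSubgroup_iff hθ.fix]

end Cfsg.Agent.Class.Max
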