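import Mathlib
import Cfsg.Agent.Class.Max.C7Lin
import Cfsg.Agent.Class.Max.C4Ln
import Cfsg.Agent.Class.Max.C2O2

/-!
Endomorphisms of an orthogonal space under conjugation by Eichler maps.
-/

set_option autoImplicit false
set_option linter.unusedSectionVars false

namespace Cfsg.Agent.Class.Max

open Module

variable {F W : Type*} [Field F] [AddCommGroup W] [Module F W] {A : Type*} [Ring A] [Algebra F A]

theorem exists_jordan [Finite F] {a : W ≃ₗ[F] W} (hp : a ^ ringChar F = 1) {x : W} (h : a x ≠ x) :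
    ∃ f, a f ≠ f ∧ a (a f - f) = a f - f := by
  obtain ⟨N, e⟩ : ∃ N : End F W, a.toLinearMap = N + 1 := ⟨a.toLinearMap - 1, by simp⟩
  obtain ⟨r, hr⟩ := (Commute.one_right N).exists_add_pow_prime_eq (CharP.char_is_prime F (ringChar F))
  rw [← e, show a.toLinearMap ^ ringChar F = 1 from ((LinearEquiv.automorphismGroup.toLinearMapMonoidHom
    ).map_pow a _).symm.trans (by rw [hp, map_one]), ← map_natCast (algebraMap F (End F W)),
    CharP.cast_eq_zero] at hr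
  have e' : ∀ x, a x = N x + x := LinearMap.congr_fun e
  have k : ∀ k x, N x ≠ 0 → (N ^ k) x = 0 → ∃ f, N f ≠ 0 ∧ N (N f) = 0 := fun k => by
    induction k with
    | zero => exact fun x h1 h2 => absurd (by rw [show x = 0 from h2, map_zero]) h1
    | succ k ih =>
      intro x h1 h2
      by_cases h3 : N (N x) = 0
      · exact ⟨x, h1, h3⟩
      · exact ih _ h3 (by rwa [pow_succ] at h2)
  simpa [e'] using k (ringChar F) x (by simpa [e'] using h) (by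
    rw [show N ^ ringChar F = 0 by simpa using hr.symm]; rfl)

namespace Fm

variable (Φ : Fm F W)

/-- An Eichler map as an endomorphism. -/
def eE (s y : W) : End F W := Φ.eL s y (Φ.Q y)

theorem eE_apply (s y x : W) : Φ.eE s y x = Φ.ef s y (Φ.Q y) x := rfl

/-- A second difference of the conjugation action. -/
def Sy (φ : End F W →ₐ[F] A) (s y : W) (b : A) : A :=
  φ (Φ.eE s y) * b * φ (Φ.eE s (-y)) + φ (Φ.eE s (-y)) * b * φ (Φ.eE s y) - b - b

/-- Witt index one or dimension at least five. -/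
def Wide : Prop := 5 ≤ finrank F W ∨ ∀ s v, ¬ Φ.Pair s v

variable {Φ} {φ : End F W →ₐ[F] A} {s y : W}

theorem Sy_mem {G : AddSubgroup A} (h : ∀ y, Φ.B s y = 0 → ∀ b ∈ G,
    φ (Φ.eE s y) * b * φ (Φ.eE s (-y)) ∈ G) (hy : Φ.B s y = 0) {b : A} (hb : b ∈ G) :
    Φ.Sy φ s y b ∈ G :=
  G.sub_mem (G.sub_mem (G.add_mem (h y hy b hb) (by simpa using h (-y) (by simp [hy]) b hb)) hb) hb

theorem Wide.mem_span (h : Φ.Wide) [FiniteDimensional F W] {w z : W} (hw : Φ.Q w = 0) (hw0 : w ≠ 0)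
    (hz : Φ.Q z = 0) (e : Φ.B w z = 0) (h1 : ∀ τ ∈ Φ.EG, τ w = w → Φ.B z (τ z) = 0) :
    ∃ c : F, z = c • w :=
  (pair_or_eq_smul hw hw0 hz e).resolve_left fun hp => h.elim (fun h5 =>
    let ⟨τ, h2, h3, h4⟩ := hp.exists_move (Or.inr h5); h4 (h1 τ h2 h3)) fun h => h _ _ hp

namespace IsO

variable [FiniteDimensional F W] (hO : Φ.IsO)
include hO

theorem eE_eq (s y : W) : Φ.eE s y = 1 + Φ.rt s y - Φ.Q y • Φ.rk s s :=
  LinearMap.ext fun x => by simp [eE_apply, hO.ef]; module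

theorem Sy_eq (s y : W) (b : A) : Φ.Sy φ s y b =
    (2 * Φ.Q y * Φ.Q y) • (φ (Φ.rk s s) * b * φ (Φ.rk s s)) - (2 * Φ.Q y) • (φ (Φ.rk s s) * b) -
      (2 * Φ.Q y) • (b * φ (Φ.rk s s)) - (2 : F) • (φ (Φ.rt s y) * b * φ (Φ.rt s y)) := by
  have : Φ.rt s (-y) = -Φ.rt s y := LinearMap.ext fun x => by simp; module
  simp only [Sy, hO.eE_eq, this, Φ.Q_neg, map_add, map_sub, map_neg, map_smul, map_one, mul_add,
    add_mul, mul_sub, sub_mul, mul_neg, neg_mul, smul_mul_assoc, mul_smul_comm, one_mul, mul_one]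
  module

theorem rk_eq (s y : W) : (2 * Φ.Q y) • Φ.rk s s = 1 + 1 - Φ.eE s y - Φ.eE s (-y) :=
  LinearMap.ext fun x => by simp [eE_apply, hO.ef, Φ.Q_neg]; module

variable (h2 : (2 : F) ≠ 0) (h3 : 3 ≤ finrank F W)
include h2 h3

theorem exists_triple (hs : Φ.Q s = 0) (hs0 : s ≠ 0) : ∃ f y, Φ.Q f = 0 ∧ Φ.B s f = 1 ∧
    Φ.Q y ≠ 0 ∧ Φ.B s y = 0 ∧ Φ.B f y = 0 :=
  let ⟨f, hf, e1⟩ := exists_partner' hs hs0
  let ⟨y, _, h⟩ := hO.exists_nonsing_perp Φ.nd_top (by simpa using h3) trivial trivial hs hf e1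
  ⟨f, y, hf, e1, h⟩

/-- The sandwich operator. -/
theorem sand [Finite F] (hq : ¬ (Nat.card F = 3 ∧ finrank F W = 3)) (hs : Φ.Q s = 0)
    {G : AddSubgroup A} (h : ∀ y, Φ.B s y = 0 → ∀ b ∈ G, φ (Φ.eE s y) * b * φ (Φ.eE s (-y)) ∈ G) :
    ∃ κ : F, κ ≠ 0 ∧ ∀ b ∈ G, κ • (φ (Φ.rk s s) * b * φ (Φ.rk s s)) ∈ G := by
  by_cases hs0 : s = 0
  · exact ⟨1, one_ne_zero, fun b _ => by
      rw [show Φ.rk s s = 0 from LinearMap.ext fun x => by simp [hs0]]; simp⟩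
  obtain ⟨f, y, hf, e1, y0, y1, y2⟩ := hO.exists_triple h2 h3 hs hs0
  by_cases hF : Nat.card F = 3
  · obtain ⟨c, hc, c0⟩ := hO.exists_nonsing ((Φ.nd_top.inf_hyp trivial trivial hs hf e1).inf_one
      (z := y) ⟨⟨trivial, y1⟩, y2⟩ (by rw [hO.B_self]; exact mul_ne_zero h2 y0)) fun e => by
        obtain ⟨x, -, x0, hx⟩ := exists_ne_zero_ker [Φ.B s, Φ.B f, Φ.B y] (⊤ : Submodule F W) (by
          have : finrank F W ≠ 3 := fun h' => hq ⟨hF, h'⟩
          simp; omega)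
        exact x0 (e.le ⟨⟨⟨trivial, hx _ (by simp)⟩, hx _ (by simp)⟩, hx _ (by simp)⟩)
    have c1 : Φ.B s c = 0 := hc.1.1.2
    have c2 : Φ.B y c = 0 := hc.2
    refine ⟨2 * 2 * 2 * Φ.Q y * Φ.Q c, by simp [h2, y0, c0], fun b hb => ?_⟩
    convert Sy_mem h y1 (Sy_mem h c1 hb) using 1
    have r : ∀ x x' : End F W, (∀ v, x (x' v) = 0) → (∀ b, φ x * (φ x' * b) = 0) ∧ φ x * φ x' = 0 :=
      fun x x' e => by
        have : φ x * φ x' = 0 := by rw [← map_mul, show x * x' = 0 from LinearMap.ext e, map_zero]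
        exact ⟨fun b => by rw [← mul_assoc, this, zero_mul], this⟩
    have p := Φ.B_self hs
    have r1 := r (Φ.rk s s) (Φ.rk s s) (by simp [p])
    have r2 := r (Φ.rk s s) (Φ.rt s c) (by simp [p, c1])
    have r3 := r (Φ.rt s c) (Φ.rk s s) (by simp [p, Φ.perp_symm c1])
    have r4 := r (Φ.rk s s) (Φ.rt s y) (by simp [p, y1])
    have r5 := r (Φ.rt s y) (Φ.rk s s) (by simp [p, Φ.perp_symm y1])
    have r6 := r (Φ.rt s y) (Φ.rt s c) (by simp [p, Φ.perp_symm y1, c1, c2])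
    simp only [hO.Sy_eq, mul_sub, sub_mul, smul_mul_assoc, mul_smul_comm, mul_assoc, r1, r2, r3, r4,
      r5, r6, mul_zero, zero_mul, smul_zero]
    module
  obtain ⟨l, l0, l1⟩ := exists_mul_self_ne_one h2 hF
  have k : ∀ a : F, Φ.rt s (a • y) = a • Φ.rt s y := fun a => LinearMap.ext fun x => by
    simp [hO.σ]; module
  refine ⟨2 * 2 * 2 * 2 * (l * l * (1 - l * l) * (1 - l * l)) * Φ.Q y * Φ.Q y,
    by simp [h2, y0, l0, sub_ne_zero.2 l1.symm], fun b hb => ?_⟩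
  convert G.sub_mem (G.sub_mem (Sy_mem h (y := (1 + l * l) • y) (by simp [y1]) hb)
    (Sy_mem h (y := (1 - l * l) • y) (by simp [y1]) hb)) (Sy_mem h (y := (2 * l) • y) (by simp [y1]) hb)
    using 1
  simp only [hO.Sy_eq, k, hO.Q_smul, map_smul, smul_mul_assoc, mul_smul_comm]
  module

/-- The rank one maps attached to singular vectors generate the algebra. -/
theorem all_mem (R : Submodule F (End F W)) (hm : ∀ b ∈ R, ∀ c ∈ R, b * c ∈ R)
    (h : ∀ s, Φ.Q s = 0 → Φ.rk s s ∈ R) (x : End F W) : x ∈ R := by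
  obtain ⟨e, -, he0, he⟩ := Φ.iso ⊤ (by rw [finrank_top, hO.d]; exact h3)
  obtain ⟨f, hf⟩ := Φ.exists_B_ne he0
  have k0 : ∀ s z, Φ.Q s = 0 → (∃ y ∈ (⊤ : Submodule F W), Φ.B s y ≠ 0) → Φ.Q z = 0 →
      (∃ y ∈ (⊤ : Submodule F W), Φ.B z y ≠ 0) → Φ.rk s z ∈ R := fun s z hs ⟨_, _, s0⟩ hz ⟨_, _, z0⟩ => by
    obtain ⟨t, t0, t1, t2⟩ := Rk.exists_sing_not_perp (Ψ := Φ) (Or.inl h3) hs hz
      (fun e => s0 (by simp [e])) (fun e => z0 (by simp [e]))
    exact mem_of_ext (R.smul_mem (Φ.B t s * Φ.B t z)⁻¹ (hm _ (hm _ (h s hs) _ (h t t0)) _ (h z hz)))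
      fun v => by simp [hO.symm t s, smul_smul]; congr 1; field_simp
  have k1 : ∀ s z, Φ.rk s z ∈ R := fun s z => by
    refine le_of_sing (Y := ⊤) trivial he ⟨f, trivial, hf⟩ (R.comap ((Φ.B z).smulRightₗ)).toAddSubgroup
      (fun s _ hs s0 => ?_) s trivial
    let I : AddSubgroup W :=
      { carrier := {z | Φ.rk s z ∈ R}
        zero_mem' := mem_of_ext R.zero_mem fun v => by simp
        add_mem' := fun ha hb => mem_of_ext (R.add_mem ha hb) fun v => by simp [add_smul]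
        neg_mem' := fun ha => mem_of_ext (R.neg_mem ha) fun v => by simp }
    exact le_of_sing (Y := ⊤) trivial he ⟨f, trivial, hf⟩ I (fun z _ hz z0 => k0 s z hs s0 hz z0) z
      trivial
  let b := finBasis F W
  choose z hz using fun i => Φ.exists_eq_dual (b.coord i)
  exact mem_of_ext (R.sum_mem (t := Finset.univ) fun i _ => k1 (x (b i)) (z i)) fun v => by
    conv_lhs => rw [← b.sum_repr v, map_sum]
    simp [hz]

theorem all_mem_of_eE (R : Submodule F (End F W)) (hm : ∀ b ∈ R, ∀ c ∈ R, b * c ∈ R) (h1 : 1 ∈ R)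
    (h : ∀ s y, Φ.Q s = 0 → Φ.B s y = 0 → Φ.eE s y ∈ R) (x : End F W) : x ∈ R :=
  hO.all_mem h2 h3 R hm (fun s hs => by
    by_cases hs0 : s = 0
    · exact mem_of_ext R.zero_mem fun v => by simp [hs0]
    obtain ⟨f, y, -, -, y0, y1, -⟩ := hO.exists_triple h2 h3 hs hs0
    rw [← R.smul_mem_iff (mul_ne_zero h2 y0), hO.rk_eq]
    exact R.sub_mem (R.sub_mem (R.add_mem h1 h1) (h s y hs y1)) (h s _ hs (by simp [y1]))) x

theorem Sy_quad [Finite F] (hq : ¬ (Nat.card F = 3 ∧ finrank F W = 3)) {β : End F W}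
    (h : ∀ s, Φ.Q s = 0 → Φ.B s (β s) = 0) (hs : Φ.Q s = 0) (hy : Φ.B s y = 0) :
    Φ.Sy (AlgHom.id F _) s y β = Φ.rt s ((2 * Φ.B y (β s)) • y - (2 * Φ.Q y) • β s) := by
  obtain ⟨a, ha⟩ := hO.smul_of_quadric h2 h3 hq (b := β + Φ.adj β)
    (fun v => by rw [adj_add, adj_adj, add_comm]) fun s hs => by
      simp [B_adj', h s hs, hO.symm s (β s)]
  have sy : ∀ x z, Φ.B x (β z) = a * Φ.B x z - Φ.B z (β x) := fun x z => by
    have := congrArg (Φ.B x) (ha z)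
    simp only [LinearMap.add_apply, map_add, B_adj', map_smul, smul_eq_mul] at this
    rw [hO.symm z (β x)] at this
    linear_combination this
  have e1 : Φ.B y (β y) = a * Φ.Q y := mul_left_cancel₀ h2 (by
    linear_combination sy y y + a * hO.B_self y)
  refine LinearMap.ext fun v => ?_
  simp only [Sy, AlgHom.id_apply, LinearMap.sub_apply, LinearMap.add_apply, Module.End.mul_apply,
    eE_apply, hO.ef, Φ.bsimp, map_add β, map_sub β, map_smul β, map_neg β, Φ.Q_neg, h s hs, sy s y,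
    sy s v, e1, hy, rt_apply, hO.σ, hO.symm v (β s)]
  module

/-- Invariant families of maps whose quadratic forms vanish on the quadric. -/
theorem smul_of_quad [Finite F] (hq : ¬ (Nat.card F = 3 ∧ finrank F W = 3)) (hW : Φ.Wide)
    (S : Set (End F W)) (hcj : ∀ τ ∈ Φ.EG, ∀ β ∈ S, cjL τ β ∈ S)
    (h0 : ∀ β ∈ S, ∀ s, Φ.Q s = 0 → Φ.B s (β s) = 0)
    (hm : ∀ s y f, Φ.Q s = 0 → Φ.B s y = 0 → Φ.Q f = 0 → ∀ β ∈ S, ∀ β' ∈ S,
      Φ.B f (Φ.Sy (AlgHom.id F _) s y β (Φ.Sy (AlgHom.id F _) s y β' f)) = 0)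
    {β : End F W} (hβ : β ∈ S) : ∃ c : F, ∀ v, β v = c • v := by
  obtain ⟨e, -, he0, he⟩ := Φ.iso ⊤ (by rw [finrank_top, hO.d]; exact h3)
  obtain ⟨l, l0, l1⟩ := hO.exists_ne_ne h2
  refine exists_eq_smul_of_sing h3 l0 l1 he he0 β.toAddMonoidHom fun s hs => ?_
  by_cases hs0 : s = 0
  · exact ⟨0, by simp [hs0]⟩
  obtain ⟨f, y, hf, e1, y0, y1, y2⟩ := hO.exists_triple h2 h3 hs hs0
  have k : ∀ β' ∈ S, Φ.B (β s) (β' s) = 0 := fun β' hβ' => by
    have := hm s y f hs y1 hf β hβ β' hβ'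
    rw [hO.Sy_quad h2 h3 hq (h0 β hβ) hs y1, hO.Sy_quad h2 h3 hq (h0 β' hβ') hs y1] at this
    simp only [rt_apply, Φ.bsimp, hO.σ, e1, y1, y2, h0 β' hβ' s hs, Φ.B_self hs,
      hO.symm s f, hO.B_self y, Φ.perp_symm y1, Φ.perp_symm (h0 β hβ s hs), hO.symm y (β s)] at this
    exact mul_left_cancel₀ (mul_ne_zero (mul_ne_zero h2 y0) (mul_ne_zero h2 y0))
      (by linear_combination -this)
  change ∃ c : F, β s = c • s
  refine hW.mem_span hs hs0 (mul_left_cancel₀ h2 (by rw [← hO.B_self, k β hβ, mul_zero]))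
    (h0 β hβ s hs) fun τ hτ e => ?_
  have := k _ (hcj τ hτ β hβ)
  rwa [← e, cjL_app, e] at this

omit h3 in
/-- The Dickson invariant and the spinor norm. -/
noncomputable def sg : Φ.Iso →* ℤˣ × Orth.SqClass F :=
  ((Orth.dickson hO.nd_qf (hO.nd_qf.reflGen_odd h2)).prod
    (Orth.spinor hO.nd_qf (hO.nd_qf.reflGen_odd h2))).comp
      (Subgroup.inclusion fun _ => hO.mem_OG.2)

omit h3 in
theorem sg_r {a : W} (ha : Φ.Q a ≠ 0) :
    hO.sg h2 ⟨_, hO.r_mem_Iso a⟩ = (-1, Orth.sqClass (Φ.Q a)) := by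
  have : Subgroup.inclusion (fun _ => hO.mem_OG.2) ⟨_, hO.r_mem_Iso a⟩ = Orth.refl hO.qf a :=
    Subtype.ext (LinearEquiv.ext fun x => by
      rw [Orth.refl_apply, hO.polar_qf, hO.symm]; exact hO.r_apply a x)
  exact Prod.ext ((congrArg _ this).trans (Orth.dickson_refl _ _ ha))
    ((congrArg _ this).trans (Orth.spinor_refl _ _ ha))

theorem mem_EG_iff [Finite F] (g : Φ.Iso) : g.1 ∈ Φ.EG ↔ hO.sg h2 g = 1 := by
  have h1 : (fmQuad hO.qf hO.nd_qf).EG = Φ.EG := by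
    have k : ∀ e w c x, (fmQuad hO.qf hO.nd_qf).ef e w c x = Φ.ef e w c x := fun e w c x => by
      rw [hO.ef, ← hO.polar_qf, ← hO.polar_qf]
      change x + _ - (1 * _) • e = _
      rw [one_mul]; rfl
    refine le_antisymm (EG_le fun e w c hv => ?_) (EG_le fun e w c hv => ?_)
    · have h2 : Φ.Valid e w c := ⟨hv.sing, hO.polar_qf e w ▸ hv.perp, (hO.π c).trans hv.norm⟩
      exact ⟨_, h2.eich_mem, fun x => (k e w c x).symm⟩
    · have h2 : (fmQuad hO.qf hO.nd_qf).Valid e w c :=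
        ⟨hv.sing, (hO.polar_qf e w).trans hv.perp, (hO.π c).symm.trans hv.norm⟩
      exact ⟨_, h2.eich_mem, k e w c⟩
  obtain ⟨e, f, hef⟩ := hO.nd_qf.exists_isHyp_of_three_le h3
  rw [← h1, EG_fmQuad, ← hO.nd_qf.commutator_eq_EG hef (by omega) (Or.inl (hO.exists_ne_ne h2)),
    Prod.ext_iff]
  exact (Subgroup.mem_map_iff_mem (x := ⟨g.1, hO.mem_OG.2 g.2⟩) (Subgroup.subtype_injective _)).trans
    (Orth.mem_commutator_iff _ _ _)

theorem mul_mem_EG_iff [Finite F] {g h : W ≃ₗ[F] W} (hg : g ∈ Φ.Iso) (hh : h ∈ Φ.Iso) :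
    g * h ∈ Φ.EG ↔ hO.sg h2 ⟨g, hg⟩ = hO.sg h2 ⟨h, hh⟩ := by
  rw [show g * h = (⟨g, hg⟩ * ⟨h, hh⟩ : Φ.Iso).1 from rfl, hO.mem_EG_iff h2 h3, map_mul,
    mul_eq_one_iff_eq_inv, Prod.ext_iff, Prod.ext_iff, Prod.fst_inv, Prod.snd_inv, Int.units_inv_eq_self,
    Orth.sqClass_inv]

theorem rr_mem [Finite F] {a b : W} (ha : Φ.Q a ≠ 0) (hb : Φ.Q b ≠ 0)
    (h : IsSquare (Φ.Q a * Φ.Q b)) : hO.r a * hO.r b ∈ Φ.EG := by
  rw [hO.mul_mem_EG_iff h2 h3 (hO.r_mem_Iso a) (hO.r_mem_Iso b), hO.sg_r h2 ha, hO.sg_r h2 hb,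
    (Orth.sqClass_eq_iff_isSquare ha hb).2 h]

omit h3 in
/-- In dimension three no `p`-element fixes a non-singular vector. -/
theorem eq_one_of_pow [Finite F] (h3 : finrank F W = 3) {a : W ≃ₗ[F] W} (ha : a ∈ Φ.Iso) {v : W}
    (hv : Φ.Q v ≠ 0) (e : a v = v) (hp : a ^ ringChar F = 1) : a = 1 := by
  refine LinearEquiv.ext fun x => by_contra fun h => ?_
  obtain ⟨f, f1, f2⟩ := exists_jordan hp h
  have k : ∀ z, a z = z → Φ.B z (a f - f) = 0 := fun z hz => by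
    rw [map_sub, ← ha.1 z f, hz, sub_self]
  have k1 : Φ.B (a f - f) f = 0 := mul_left_cancel₀ h2 (by
    have h1 := k _ f2
    have h3 := ha.1 f f
    simp only [Φ.bsimp, hO.symm f (a f)] at h1 ⊢
    linear_combination h3 - h1)
  obtain ⟨t, ht⟩ := (Φ.nd_top.inf_one (z := v) trivial (by
    rw [hO.B_self]; exact mul_ne_zero h2 hv)).plane_perp (n := a f - f) (x := a f - f)
      (y := f - (Φ.B v f / Φ.B v v) • v) (by
        have := Module.Dual.finrank_ker_add_one_of_ne_zero (f := Φ.B v) fun h => by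
          simpa [h, h2, hv] using hO.B_self v
        rw [top_inf_eq]; omega) ⟨trivial, k v e⟩ (sub_ne_zero.2 f1) ⟨trivial, k v e⟩
      (sub_ne_zero.2 f1) ⟨trivial, by simp [hO.B_self, h2, hv]⟩ (k _ f2)
      (by rw [map_sub, k1, map_smul, Φ.perp_symm (k v e)]; simp)
  exact f1 (by rw [sub_eq_iff_eq_add.1 ht, map_add, map_smul, map_smul, f2, e])

end IsO

end Fm

end Cfsg.Agent.Class.Max
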