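import Mathlib
import Cfsg.Agent.Class.Max.C7O1
import Cfsg.Agent.Class.Max.C2O3

/-!
Tensor products of orthogonal spaces: the local analysis for a factor of Witt index one.
-/

set_option autoImplicit false
set_option linter.unusedSectionVars false

namespace Cfsg.Agent.Class.Max

open Module

variable {F U W V : Type*} [Field F] [AddCommGroup U] [Module F U] [AddCommGroup W]
  [Module F W] [AddCommGroup V] [Module F V] {T : Tn F U W V} {Φ₁ : Fm F U} {Φ₂ : Fm F W}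
  {Φ : Fm F V} {M : Subgroup (V ≃ₗ[F] V)}

theorem Tn.Gen.lmul {w : W} {A : V →ₗ[F] U} (h : T.Gen Φ₂ M w A) (hw : Φ₂.Q w = 0)
    {D : V ≃ₗ[F] V} (hD : D ∈ M) {b : End F U} (h1 : ∀ u, D (T.tm u w) = T.tm (u + b u) w)
    (h2 : ∀ v, T.cR (Φ₂.B w) v = 0 → D⁻¹ v - v ∈ T.sp w) : T.Gen Φ₂ M w (b ∘ₗ A) := by
  have k : T.Gen Φ₂ M w (A + b ∘ₗ A) := by
    obtain ⟨a1, x, hx, e⟩ := h
    refine ⟨fun u => by simp [a1], _, M.mul_mem (M.mul_mem hD hx) (M.inv_mem hD), fun v hv => ?_⟩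
    obtain ⟨u, hu⟩ := h2 v hv
    replace hu : D⁻¹ v = v + T.tm u w := eq_add_of_sub_eq' (Eq.symm hu)
    rw [mul_app, mul_app, e _ (by simp [hu, hv, Φ₂.B_self hw]), map_add, app_inv_app, h1, hu]
    simp [a1]
  exact (k.add (h.neg hw) hw).congr hw fun v _ => by simp

variable (T Φ₂) in
/-- The maps `C` such that `M` contains `1 + C ⊗ (B w · w)`. -/
def Tn.cenW (M : Subgroup (V ≃ₗ[F] V)) {w : W} (hw : Φ₂.Q w = 0) : AddSubgroup (End F U) where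
  carrier := {C | HasU M (T.xl C w (Φ₂.B w))}
  zero_mem' := hasU_zero.congr fun v => by simp [Tn.xl_apply]
  add_mem' ha hb := (ha.add hb fun v => by
    simp [Tn.xl_apply, Φ₂.B_self hw]).congr fun v => by simp [Tn.xl_apply]
  neg_mem' ha := (ha.neg fun v => by simp [Tn.xl_apply, Φ₂.B_self hw]).congr
    fun v => by simp [Tn.xl_apply]

variable (T Φ₂) in
/-- The maps `b` all of whose pure elements at `w` lie in `M`. -/
def Tn.pureW (M : Subgroup (V ≃ₗ[F] V)) {w : W} (hw : Φ₂.Q w = 0) : Submodule F (End F U) where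
  carrier := {b | ∀ y, Φ₂.B w y = 0 → T.Gen Φ₂ M w (b ∘ₗ T.cR (Φ₂.B y))}
  zero_mem' _ _ := Tn.Gen.zero
  add_mem' ha hb y hy := ((ha y hy).add (hb y hy) hw).congr hw fun _ _ => rfl
  smul_mem' c b hb y hy := (hb (Φ₂.σ c • y) (by simp [hy])).congr hw fun v _ => by
    simp [Φ₂.invol]

theorem Tn.Gen.levi {w w' : W} (hw : Φ₂.Q w = 0) (hw' : Φ₂.Q w' = 0) {C C' : End F U}
    (h : C ∈ T.cenW Φ₂ M hw) (h' : C' ∈ T.cenW Φ₂ M hw') (e1 : ∀ u, C (C' (C u)) = 0)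
    (e2 : ∀ u, C' (C (C' u)) = 0) {A : V →ₗ[F] U} (hA : T.Gen Φ₂ M w A) :
    T.Gen Φ₂ M w (((Φ₂.B w w' * Φ₂.B w' w) • (C * C')) ∘ₗ A) := by
  have p := Φ₂.B_self hw
  have p' := Φ₂.B_self hw'
  obtain ⟨D, hD, e⟩ := HasU.comm h h' (fun v => by simp [Tn.xl_apply, p])
    (fun v => by simp [Tn.xl_apply, p']) (fun v => by simp [Tn.xl_apply, e1])
    fun v => by simp [Tn.xl_apply, e2]
  refine hA.lmul hw hD (fun u => by simp [e, Tn.xl_apply, p, smul_smul, mul_comm]) fun v hv => ?_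
  rw [inv_apply_of_unip (fun v => by simp [Tn.xl_apply, p, p', e1, e2]) e]
  simpa [Tn.xl_apply, hv] using (T.sp w).smul_mem _ (T.tm_mem_sp _ w)

theorem Tn.cjL_mem_cenW {w : W} {hw : Φ₂.Q w = 0} {a : U ≃ₗ[F] U} (ha : T.kr a 1 ∈ M)
    {C : End F U} (h : C ∈ T.cenW Φ₂ M hw) : cjL a C ∈ T.cenW Φ₂ M hw := HasU.conj' h ha fun v => by
  rw [Tn.xl_apply, Tn.xl_apply, Tn.kr_tm, T.cR_kr, cjL_app]
  rfl

theorem Tn.Gen.cjL {w y : W} (hw : Φ₂.Q w = 0) {a : U ≃ₗ[F] U} (ha : T.kr a 1 ∈ M) {b : End F U}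
    (h : T.Gen Φ₂ M w (b ∘ₗ T.cR (Φ₂.B y))) : T.Gen Φ₂ M w (cjL a b ∘ₗ T.cR (Φ₂.B y)) :=
  (h.conj Φ₂.Iso.one_mem ha).congr hw fun v _ => by
    simp only [T.kr_inv, LinearMap.comp_apply, LinearEquiv.coe_coe, T.cR_kr, cjL_apply]
    rfl

namespace TF

variable [FiniteDimensional F U] [FiniteDimensional F W] [FiniteDimensional F V]
  (hT : TF T Φ₁ Φ₂ Φ)
include hT

theorem cR_gen' {x : V ≃ₗ[F] V} (hx : x ∈ Φ.Iso) {w : W} (hw : Φ₂.Q w = 0) {A : V →ₗ[F] U}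
    (h1 : ∀ u, A (T.tm u w) = 0) (e : ∀ v, T.cR (Φ₂.B w) v = 0 → x v = v + T.tm (A v) w) {y : W}
    (hy : Φ₂.B w y = 0) (v : V) :
    T.cR (Φ₂.B y) (x v - v) = -Φ₁.adj (A ∘ₗ T.tm.flip y) (T.cR (Φ₂.B w) v) :=
  Φ₁.eq_of_B_eq fun u => by
    have k1 := hx.1 (T.tm u y) v
    have k2 := hx.1 (T.tm (A (T.tm u y)) w) v
    rw [e _ (by simp [Φ₂.B_self hw]), h1] at k2
    rw [e _ (by simp [hy]), Φ.B_add_left] at k1
    simp only [map_zero, LinearMap.zero_apply, add_zero] at k2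
    rw [k2, hT.B_tm, hT.B_tm, hT.B_tm] at k1
    rw [Φ₁.symm u, Φ₁.symm u, map_sub, map_sub, map_neg, Φ₁.B_adj', ← k1]
    simp

variable (h₂ : Φ₂.IsO)
include h₂

theorem gen_comm' (hI : M ≤ Φ.Iso) {w s : W} (hw : Φ₂.Q w = 0) (hs : Φ₂.B w s = 0)
    {A : V →ₗ[F] U} {c : End F U} (h : T.Gen Φ₂ M w A) (h' : T.Gen Φ₂ M w (c ∘ₗ T.cR (Φ₂.B s))) :
    c ∘ₗ Φ₁.adj (A ∘ₗ T.tm.flip s) - (A ∘ₗ T.tm.flip s) ∘ₗ Φ₁.adj c ∈ T.cenW Φ₂ M hw := by
  obtain ⟨h1, x, hx, e⟩ := h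
  obtain ⟨h2, y, hy, e'⟩ := h'
  have f1 : ∀ u, x (T.tm u w) = T.tm u w := fun u => by
    rw [e _ (by simp [Φ₂.B_self hw]), h1]; simp
  have f2 : ∀ u, y (T.tm u w) = T.tm u w := fun u => by
    rw [e' _ (by simp [Φ₂.B_self hw]), h2]; simp
  have p1 := hT.cR_of_fix (hI hx) f1
  have p2 := hT.cR_of_fix (hI hy) f2
  refine ⟨x * y * (y * x)⁻¹, M.mul_mem (M.mul_mem hx hy) (M.inv_mem (M.mul_mem hy hx)), fun v => ?_⟩
  obtain ⟨v, rfl⟩ := (y * x).surjective v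
  have k1 := e _ (p2 v)
  have k2 := e' _ (p1 v)
  obtain ⟨u, hu⟩ : y v - v + T.tm (Φ₁.adj c (T.cR (Φ₂.B w) v)) s ∈ T.sp w :=
    hT.mem_sp_of fun z hz => by
      rw [map_add, hT.cR_gen (hI hy) hw hs e' hz, ← hT.σ₂, h₂.σ, h₂.symm z s]; simp
  have k0 : A (y v - v) = -A (T.tm (Φ₁.adj c (T.cR (Φ₂.B w) v)) s) := by
    rw [eq_sub_iff_add_eq.2 hu.symm]; simp [h1]
  rw [k0, map_sub] at k1
  simp only [LinearMap.comp_apply] at k2
  rw [hT.cR_gen' (hI hx) hw h1 e hs, map_sub] at k2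
  have k3 : T.cR (Φ₂.B w) ((y * x) v) = T.cR (Φ₂.B w) v := by
    have := p2 (x v)
    have := p1 v
    rw [map_sub, sub_eq_zero] at *
    rw [mul_app, ‹T.cR _ (y _) = _›, this]
  rw [mul_app, inv_app_app, Tn.xl_apply, k3, mul_app, mul_app, eq_add_of_sub_eq k1,
    eq_add_of_sub_eq k2]
  simp only [map_neg, LinearMap.neg_apply, LinearMap.sub_apply, LinearMap.comp_apply, map_sub,
    LinearMap.flip_apply]
  module

theorem skew_of_hasU (hI : M ≤ Φ.Iso) {w : W} (hw : Φ₂.Q w = 0) (hw0 : w ≠ 0) {C : End F U}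
    (h : C ∈ T.cenW Φ₂ M hw) : Φ₁.Skew C := fun u y => by
  obtain ⟨w', -, e1⟩ := Fm.exists_partner' hw hw0
  obtain ⟨x, hx, e⟩ := h
  have := (hI hx).1 (T.tm u w') (T.tm y w')
  simp only [e, Tn.xl_apply, Tn.cR_tm, e1, one_smul, Φ.bsimp, hT.B, Φ₂.B_self hw,
    h₂.symm w w'] at this
  linear_combination this

variable (hK : ∀ τ ∈ Φ₂.EG, T.krR τ ∈ M)
include hK

theorem one_mem_pureW {w : W} (hw : Φ₂.Q w = 0) : 1 ∈ T.pureW Φ₂ M hw := fun y hy =>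
  have hv := h₂.valid_neg hw hy
  ⟨fun u => by simp [Φ₂.perp_symm hy], _, hK _ hv.eich_mem, fun v h => by
    simp [krR_ef hv.eich_apply, h, h₂.ε]⟩

theorem mem_pureW_move {w w' : W} (hw : Φ₂.Q w = 0) (hw0 : w ≠ 0) (hw' : Φ₂.Q w' = 0)
    (hw0' : w' ≠ 0) (h3 : 3 ≤ finrank F W) {b : End F U} (h : b ∈ T.pureW Φ₂ M hw) :
    b ∈ T.pureW Φ₂ M hw' := fun y hy => by
  obtain ⟨τ, hτ, a, a0, e⟩ := Fm.Rk.move_pt (Ψ := Φ₂) (Or.inl h3) hw hw' hw0 hw0'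
  have hI := Φ₂.EG_le_Iso hτ
  obtain ⟨y, rfl⟩ := τ.surjective y
  obtain ⟨-, x, hx, ex⟩ := (h (a⁻¹ • y) (by
    have := hI.1 w y
    rw [e, h₂.B_smul_left, hy] at this
    simp [← this])).conj (a := 1) hI (hK τ hτ)
  refine ⟨fun u => by simp [Φ₂.perp_symm hy], x, hx, fun v hv => ?_⟩
  obtain ⟨v, rfl⟩ := (T.krR τ).surjective v
  rw [ex _ (by simp [e, hv])]
  change _ + T.tm (b (T.cR _ ((T.krR τ)⁻¹ (T.krR τ v)))) _ = _ + T.tm (b _) _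
  rw [hT.cR_krR_iso hI, inv_app_app, e]
  simp [h₂.σ, a0]

variable (h₁ : Φ₁.IsO) (hO : Φ.IsO) (h2 : (2 : F) ≠ 0) (hU : 3 ≤ finrank F U)
  (hW : 3 ≤ finrank F W) (hI : M ≤ Φ.Iso)
include h₁ hO h2 hU hW hI

/-- Generation by pure elements. -/
theorem EG_le_of_pure {w₀ : W} (hw₀ : Φ₂.Q w₀ = 0) (h0 : w₀ ≠ 0) (h : ∀ b, b ∈ T.pureW Φ₂ M hw₀) :
    Φ.EG ≤ M := by
  have k1 : ∀ u u' w y, Φ₂.Q w = 0 → w ≠ 0 → Φ₂.B w y = 0 → Φ.InA M (T.tm u w) (T.tm u' y) :=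
    fun u u' w y hw hw0 hy => by
      have hp := fun b => hT.mem_pureW_move h₂ hK hw₀ h0 hw hw0 hW (h b)
      have hv := hO.valid (w := T.tm u' y) (hT.Q_tm u hw) (by simp [hT.B, hy])
      obtain ⟨-, x, hx, e⟩ := hp (-Φ₁.rk u u') y hy
      have h3 := Φ.Iso.mul_mem (Φ.Iso.inv_mem (hI hx)) (hv.mem_Iso hv.eich_apply)
      obtain ⟨C, hC⟩ := hT.exists_nu h3 hw0 fun v h => x.injective (by
        rw [mul_app, app_inv_app, e v h, hv.eich_apply, hO.ef]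
        simp [hT.B_tm, h, sub_eq_add_neg])
      have h4 := hT.skew_of_hasU h₂ le_rfl hw hw0 ⟨_, h3, hC⟩
      obtain ⟨-, z, -, -, z0, z1, -⟩ := h₂.exists_triple h2 hW hw hw0
      obtain ⟨g, hg, eg⟩ := hT.gen_comm' h₂ hI hw z1 (hp 1 z z1) (hp ((2 * 2 * Φ₂.Q z)⁻¹ • C) z z1)
      refine ⟨_, hv, x * g, M.mul_mem hx hg, fun v => ?_⟩
      rw [← hv.eich_apply, ← app_inv_app x (hv.eich v), ← mul_app x⁻¹, hC, mul_app, eg]
      have h5 : (1 : End F U) ∘ₗ T.cR (Φ₂.B z) ∘ₗ T.tm.flip z = (2 * Φ₂.Q z) • LinearMap.id :=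
        LinearMap.ext fun u => by simp [h₂.B_self]
      have h6 : Φ₁.adj C = -C := LinearMap.ext fun u => Fm.adj_eq fun y => by simp [h4 u y]
      simp only [LinearMap.comp_assoc, h5, Φ₁.adj_smul, Φ₁.adj_id, h6, h₁.σ, Tn.xl_apply,
        LinearMap.sub_apply, LinearMap.comp_apply, LinearMap.smul_apply, LinearMap.id_apply,
        LinearMap.neg_apply, map_smul]
      congr 4
      match_scalars
      field_simp
      ring
  have key : ∀ u w, Φ₂.Q w = 0 → w ≠ 0 → Φ.Full M (T.tm u w) := fun u w hw hw0 => by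
    obtain ⟨w', hw', e1⟩ := Fm.exists_partner' hw hw0
    have hq := hT.Q_tm u hw
    refine hO.full_of fun v hv => ?_
    let X : Submodule F V :=
      { carrier := {v | ∀ c : F, c • v ∈ Φ.inAG M hq}
        zero_mem' := fun c => by rw [smul_zero]; exact zero_mem _
        add_mem' := fun ha hb c => by rw [smul_add]; exact add_mem (ha c) (hb c)
        smul_mem' := fun a _ ha c => by rw [smul_smul]; exact ha _ }
    have k2 := T.ts_le (Y := Φ₂.perp (Submodule.span F {w})) (X := X) (fun u' y hy c => by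
      simpa [Fm.inAG] using k1 u (c • u') w y hw hw0 (Φ₂.mem_perp_span_singleton.1 hy))
      ((hT.mem_ts_perp (v := v - T.tm (T.cR (Φ₂.B w) v) w')).2 fun y hy => by
        obtain ⟨c, rfl⟩ := Submodule.mem_span_singleton.1 hy
        simp [e1]) 1
    rw [hT.B_tm] at hv
    obtain ⟨x', x1, x2⟩ := exists_ker_notMem_span hU (Φ₁.B u) (T.cR (Φ₂.B w) v)
    obtain ⟨z, z1, z2⟩ := Φ₁.exists_perp_not_perp x2
    obtain ⟨c, hc, g, hg, eg⟩ := k1 (T.cR (Φ₂.B w) v) x' w' w' hw' (fun h => by simp [h] at e1)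
      (Φ₂.B_self hw')
    have c0 : c = 0 := (hO.π c).symm.trans (hc.norm.trans (hT.Q_tm _ hw'))
    have k3 := (k1 u (-z) w w hw hw0 (Φ₂.B_self hw)).comm_fix hg (hI hg) (by
      rw [eg]
      exact Fm.ef_apply_of_perp (by simp [hT.B, Φ₁.perp_symm hv]) (by simp [hT.B, Φ₁.perp_symm x1]))
    convert Fm.InA.add k2 k3 using 1
    simp [eg, hO.ef, hT.B, c0, Φ₁.mem_perp_span_singleton.1 z1, h₁.symm z x', z2, h₂.symm w w', e1]
  obtain ⟨u₀, u₁, hu⟩ := hT.exists_B_one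
  obtain ⟨w', hw', e⟩ := Fm.exists_partner' hw₀ h0
  exact Fm.EG_le_of_full (key u₀ w₀ hw₀ h0) (key u₁ w' hw' fun h => by simp [h] at e)
    (hT.Q_tm _ hw₀) (hT.Q_tm _ hw') (by simp [hT.B, hu, e])

omit hK hI in
/-- The local analysis when the second factor has Witt index one. -/
theorem loc_one [Finite F] (hH : T.NG ⊓ Φ.EG ≤ M) (hG : M ≤ Φ.EG) (hn : ¬ Φ.EG ≤ M)
    (hq : ¬ (Nat.card F = 3 ∧ finrank F U = 3)) (hw₁ : Φ₁.Wide) (hw₂ : ∀ s v, ¬ Φ₂.Pair s v)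
    {w : W} (hw : Φ₂.Q w = 0) (hw0 : w ≠ 0) : Loc T Φ₂ M w := by
  have hI := hG.trans Φ.EG_le_Iso
  have hK := fun τ => hT.krR_mem hH (τ := τ)
  have kL := fun a => hT.krL_mem hH (a := a)
  have cj : ∀ {s y} (hv : Φ₁.Valid s y (Φ₁.Q y)) (b : End F U),
      Φ₁.eE s y * b * Φ₁.eE s (-y) = cjL hv.eich b := fun hv b =>
    LinearMap.ext fun v => by rw [h₁.cjL_eich]; simp [Fm.eE_apply, Φ₁.Q_neg]
  have hZ : ∀ C ∈ T.cenW Φ₂ M hw, ∃ c : F, ∀ u, C u = c • u := fun C hC => by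
    have sk : ∀ β ∈ T.cenW Φ₂ M hw, ∀ s, Φ₁.Q s = 0 → Φ₁.B s (β s) = 0 := fun β hβ s _ =>
      h₁.skew_self h2 (hT.skew_of_hasU h₂ hI hw hw0 hβ) s
    refine h₁.smul_of_quad h2 hU hq hw₁ (T.cenW Φ₂ M hw) (fun τ hτ β hβ =>
      Tn.cjL_mem_cenW (kL τ hτ) hβ) sk (fun s y f hs hy hf β hβ β' hβ' => by_contra fun h0 => hn ?_) hC
    have m := fun {β} (hβ : β ∈ T.cenW Φ₂ M hw) => Fm.Sy_mem (φ := AlgHom.id F _)
      (G := T.cenW Φ₂ M hw) (fun y hy b hb => by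
        simpa only [AlgHom.id_apply, cj (h₁.valid hs hy)] using
          Tn.cjL_mem_cenW (kL _ (h₁.valid hs hy).eich_mem) hb) hy hβ
    have m1 := m hβ
    have m2 := m hβ'
    rw [h₁.Sy_quad h2 hU hq (sk β hβ) hs hy] at m1 h0
    rw [h₁.Sy_quad h2 hU hq (sk β' hβ') hs hy] at m2 h0
    generalize hz : (2 * Φ₁.B y (β s)) • y - (2 * Φ₁.Q y) • β s = z at m1 h0
    generalize hz' : (2 * Φ₁.B y (β' s)) • y - (2 * Φ₁.Q y) • β' s = z' at m2 h0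
    have z1 : Φ₁.B s z = 0 := by simp [← hz, hy, sk β hβ s hs]
    have z2 : Φ₁.B s z' = 0 := by simp [← hz', hy, sk β' hβ' s hs]
    have e : Φ₁.rt s z * Φ₁.rt s z' = (-Φ₁.B z z') • Φ₁.rk s s := LinearMap.ext fun v => by
      simp [Φ₁.B_self hs, z2, Φ₁.perp_symm z1]; module
    rw [← Module.End.mul_apply, e] at h0
    have z0 : Φ₁.B z z' ≠ 0 := fun h => h0 (by simp [h])
    have s0 : s ≠ 0 := fun h => h0 (by simp [h])
    obtain ⟨w', hw', e1⟩ := Fm.exists_partner' hw hw0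
    obtain ⟨τ, hτ, a, a0, ea⟩ := Fm.Rk.move_pt (Ψ := Φ₂) (Or.inl hW) hw hw'
      hw0 fun h => by simp [h] at e1
    have hτI := Φ₂.EG_le_Iso hτ
    have m3 : Φ₁.rt s z' ∈ T.cenW Φ₂ M ((hτI.2 w).trans hw) := HasU.conj' m2 (hK τ hτ) fun v => by
      rw [Tn.xl_apply, Tn.xl_apply, hT.cR_krR_iso hτI, Tn.krR_tm]
    let R : Submodule F (End F U) :=
      { carrier := {b | ∀ c ∈ T.pureW Φ₂ M hw, b * c ∈ T.pureW Φ₂ M hw}
        zero_mem' := fun c _ => by simp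
        add_mem' := fun ha hb c hc => by rw [add_mul]; exact add_mem (ha c hc) (hb c hc)
        smul_mem' := fun a b hb c hc => by
          rw [smul_mul_assoc]; exact Submodule.smul_mem _ a (hb c hc) }
    have r1 : Φ₁.rk s s ∈ R := by
      refine (R.smul_mem_iff (show a * a * -Φ₁.B z z' ≠ 0 by simp [a0, z0])).1 fun c hc y hy => ?_
      convert (hc y hy).levi hw _ m1 m3 (fun u => by
        simp [Φ₁.B_self hs, z1, Φ₁.perp_symm z1, Φ₁.perp_symm z2]) (fun u => by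
        simp [Φ₁.B_self hs, z2, Φ₁.perp_symm z1, Φ₁.perp_symm z2]) using 1
      rw [e, smul_smul, ea, h₂.symm w, map_smul, e1, smul_eq_mul, mul_one]
      rfl
    refine hT.EG_le_of_pure h₂ hK h₁ hO h2 hU hW hI hw hw0 fun b => ?_
    refine mul_one b ▸ h₁.all_mem h2 hU R (fun b hb c hc d hd => by
      rw [mul_assoc]; exact hb _ (hc d hd)) (fun s' hs' => ?_) b 1 (hT.one_mem_pureW h₂ hK hw)
    by_cases h0 : s' = 0
    · exact mem_of_ext R.zero_mem fun v => by simp [h0]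
    obtain ⟨τ, hτ, a, a0, ea⟩ := Fm.Rk.move_pt (Ψ := Φ₁) (Or.inl hU) hs hs' s0 h0
    refine (R.smul_mem_iff (mul_ne_zero a0 a0)).1 fun c hc y hy => ?_
    convert (r1 _ (fun y hy => (hc y hy).cjL hw (kL _ (inv_mem hτ))) y hy).cjL hw (kL τ hτ) using 2
    ext v
    simp only [cjL_apply, inv_inv, Module.End.mul_apply, app_inv_app, Fm.rk_apply,
      Fm.Iso.B_inv (Φ₁.EG_le_Iso hτ), ea, map_smul, LinearMap.smul_apply, h₁.B_smul_left]
    module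
  have z0 : ∀ C ∈ T.cenW Φ₂ M hw, ∀ u, C u = 0 := fun C hC u => by
    obtain ⟨c, hc⟩ := hZ C hC
    refine (hT.skew_of_hasU h₂ hI hw hw0 hC).eq_zero fun x => mul_left_cancel₀ h2 ?_
    have := hT.skew_of_hasU h₂ hI hw hw0 hC x u
    simp only [hc, h₁.B_smul_left, map_smul, smul_eq_mul] at this ⊢
    linear_combination this
  have ad : ∀ {A y}, T.Gen Φ₂ M w A → Φ₂.B w y = 0 → ∀ v,
      Φ₁.adj (A ∘ₗ T.tm.flip y) v = (A ∘ₗ T.tm.flip y) v := fun hA hy v => by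
    have := z0 _ (hT.gen_comm' h₂ hI hw hy hA (hT.one_mem_pureW h₂ hK hw _ hy)) v
    rwa [show (1 : End F U) = LinearMap.id from rfl, Φ₁.adj_id, LinearMap.sub_apply,
      sub_eq_zero] at this
  refine ⟨fun A hA y hy => h₁.smul_of_quadric h2 hU hq (ad hA hy) fun s hs => ?_, hZ⟩
  let G : AddSubgroup (End F V) :=
    { carrier := {N | ∃ A, T.Gen Φ₂ M w A ∧ ∀ v, N v = T.tm (A v) w}
      zero_mem' := ⟨0, Tn.Gen.zero, fun v => by simp⟩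
      add_mem' := fun ⟨A, h, e⟩ ⟨A', h', e'⟩ => ⟨_, h.add h' hw, fun v => by simp [e, e']⟩
      neg_mem' := fun ⟨A, h, e⟩ => ⟨_, h.neg hw, fun v => by simp [e]⟩ }
  obtain ⟨κ, k0, k⟩ := h₁.sand h2 hU hq hs (φ := T.swap.sl) (G := G) fun y hy N ⟨A, h, e⟩ => by
    have hv := h₁.valid hs hy
    refine ⟨_, h.conj Φ₂.Iso.one_mem (kL _ hv.eich_mem), fun v => ?_⟩
    have : (T.kr hv.eich 1)⁻¹ v = T.swap.sl (Φ₁.eE s (-y)) v := by
      rw [T.kr_inv, inv_one, ← T.swap_kr]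
      refine (T.swap.krR_eq_sl _ v).trans (congrArg (T.swap.sl · v) (LinearMap.ext fun x => ?_))
      simp [hv.eich_inv, Fm.eE_apply, Φ₁.Q_neg, h₁.σ, h₁.ε]
    simp only [Module.End.mul_apply, e, LinearMap.comp_apply, LinearEquiv.coe_coe, this]
    exact T.swap.sl_tm _ _ _
  obtain ⟨A', hA', e⟩ := k (T.tm.flip w ∘ₗ A) ⟨A, hA, fun _ => rfl⟩
  obtain ⟨y', hy'⟩ := Φ₂.exists_eq_dual (κ • Φ₁.B s ∘ₗ A ∘ₗ T.tm s)
  have y1 : Φ₂.B w y' = 0 := Φ₂.perp_symm (by simp [hy', hA.1])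
  have k1 : T.Gen Φ₂ M w (Φ₁.rk s s ∘ₗ T.cR (Φ₂.B y')) := by
    convert hA'
    refine LinearMap.ext (T.ext fun u x => T.left_inj hw0 ?_)
    have t : ∀ b u x, T.swap.sl b (T.tm u x) = T.tm (b u) x := fun b u x => T.swap.sl_tm _ _ _
    simp [← e, t, hy', smul_smul, mul_comm, mul_left_comm]
  by_cases y0 : Φ₂.Q y' = 0
  · obtain ⟨c, rfl⟩ := (Fm.pair_or_eq_smul hw hw0 y0 y1).resolve_left (hw₂ _ _)
    simpa [hy, k0] using (LinearMap.congr_fun hy' y).symm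
  have y2 : (2 * Φ₂.Q y') ≠ 0 := mul_ne_zero h2 y0
  have y3 : ∀ b : End F U, (b ∘ₗ T.cR (Φ₂.B y')) ∘ₗ T.tm.flip y' = (2 * Φ₂.Q y') • b := fun b =>
    LinearMap.ext fun u => by simp [h₂.B_self]
  let R : AddSubgroup (End F U) :=
    { carrier := {b | T.Gen Φ₂ M w (b ∘ₗ T.cR (Φ₂.B y'))}
      zero_mem' := Tn.Gen.zero
      add_mem' := fun ha hb => (ha.add hb hw).congr hw fun _ _ => rfl
      neg_mem' := fun ha => (ha.neg hw).congr hw fun _ _ => rfl }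
  have ad' : ∀ b ∈ R, ∀ v, Φ₁.adj b v = b v := fun b hb v => by
    simpa [y3, Φ₁.adj_smul, h₁.σ, h2, y0] using ad hb y1 v
  obtain ⟨c, hc⟩ := h₁.smul_of_comm h2 hU hq R ad' (fun a ha b hb => hb.cjL hw (kL a ha))
    (fun b hb c hc v => by
      simpa [y3, Φ₁.adj_smul, h₁.σ, h2, y0, ad' b hb, ad' c hc, ← smul_sub, sub_eq_zero] using
        (z0 _ (hT.gen_comm' h₂ hI hw y1 hc hb) v)) (b := Φ₁.rk s s) k1
  by_cases s0 : s = 0
  · simp [s0]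
  obtain ⟨f, z, -, f1, z1, z2, -⟩ := h₁.exists_triple h2 hU hs s0
  have c0 : c = 0 := by
    simpa [z2, show z ≠ 0 from fun h => z1 (by simp [h, Φ₁.Q_zero])] using (hc z).symm
  exact absurd (by simpa [c0, f1] using hc f) s0

end TF

end Cfsg.Agent.Class.Max
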