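import Mathlib
import Cfsg.Agent.Class.Max.C7Y

/-!
Class `C₇` for symplectic and unitary factors: the matrix statements.
-/

set_option autoImplicit false
set_option linter.unusedSectionVars false

namespace Cfsg.Agent.Class.Max

open Module Function

section Abstract

variable {F U W V : Type*} [Field F] [AddCommGroup U] [Module F U] [AddCommGroup W]
  [Module F W] [AddCommGroup V] [Module F V] {Φ₂ : Fm F W} {Φ : Fm F V}
  [FiniteDimensional F U] [FiniteDimensional F W] [FiniteDimensional F V]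
  {ι : Type*} [Fintype ι] [DecidableEq ι] {T : ι → Tn F U W V}
  {pu : MultilinearMap F (fun _ : ι => W) V} {κ : F} {Φ₁ : ι → Fm F U}

namespace PT

variable (h : PT T Φ₂ Φ pu κ)
include h

theorem B_tm (hσ : ∀ a, Φ₂.σ a = Φ.σ a) (i : ι) {w z : W} (hz : Φ₂.B w z = 1) (u u' : U) (x x' : W) :
    Φ.B ((T i).tm u x) ((T i).tm u' x') = Φ.B ((T i).tm u w) ((T i).tm u' z) * Φ₂.B x x' := by
  have := h.B_sl i (Φ₂.rk x (Φ₂.ε • z)) ((T i).tm u w) ((T i).tm u' x')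
  simp only [Tn.sl_tm, Fm.rk_apply, Fm.adj_rk, Φ₂.bsimp, Fm.B_eq_eps hz, Φ₂.eps_sq, one_smul,
    smul_smul, mul_right_comm _ _ Φ₂.ε, one_mul, map_smul] at this
  rw [this, smul_eq_mul, mul_comm]

theorem Q_tm (hσ : ∀ a, Φ₂.σ a = Φ.σ a) (hQ : ∀ x, Φ.Q (pu x) = 0) (i : ι) (u : U) {w : W}
    (hw : Φ₂.B w w = 0) : Φ.Q ((T i).tm u w) = 0 := by
  by_cases h0 : w = 0
  · simp [h0, Φ.Q_zero]
  obtain ⟨z, q, e⟩ : ∃ z, Φ₂.B w z = 1 ∧ Φ₂.B w z = 1 :=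
    let ⟨z, hz⟩ := Φ₂.exists_B_ne h0; ⟨(Φ₂.B w z)⁻¹ • z, by simp [hz]⟩
  have : ∀ v ∈ Submodule.span F (Set.range pu), Φ.Q ((T i).sl ((Φ₂.B w).smulRight w) v) = 0 :=
    fun v hv => by
      induction hv using Submodule.span_induction with
      | mem _ hx => obtain ⟨x, rfl⟩ := hx; rw [h.sl, hQ]
      | zero => simp [Φ.Q_zero]
      | add x y _ _ hx hy => rw [map_add, Φ.Q_add_perp (by
          rw [Tn.sl_rk, Tn.sl_rk, h.B_tm hσ i e, hw, mul_zero]), hx, hy, add_zero]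
      | smul a x _ hx => rw [map_smul, Φ.Q_smul_zero hx]
  simpa [e] using this ((T i).tm u z) (h.span ▸ trivial)

variable (hT : TP T) (hp : ∀ j l, ∃ p : V ≃ₗ[F] V, p * p = 1 ∧
  ∀ i x v, p ((T i).sl x v) = (T (Equiv.swap j l i)).sl x (p v))
include hT hp

theorem sw (hF : ∀ i, TF (T i) (Φ₁ i) Φ₂ Φ) (hE : ∀ i a, (T i).kr a 1 ∈ Φ.Iso →
    (T i).kr a 1 * (T i).kr a 1 = 1 → ∃ g ∈ Φ.EG, ∃ c : F, ∀ v, g v = c • (T i).kr a 1 v) :
    Sw T Φ.EG := fun j l _ ⟨i, h1, h2⟩ => by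
  obtain ⟨p, p2, e⟩ := hp j l
  have hB := h.B_swap hT (Equiv.swap_apply_self j l) p2 e
  obtain ⟨a, rfl⟩ := Tn.Cm.exists_kr (T := T i) (g := p) (fun x v => by
    simpa [Equiv.swap_apply_of_ne_of_ne h1 h2] using e i x v) hT.neW
  obtain ⟨g, hg, c, eg⟩ := hE i a ((hF i).kr_Iso fun u u' w w' => by
    rw [← (hF i).B, ← (hF i).B, ← hB ((T i).tm u w), Tn.kr_tm, Tn.kr_tm]) p2
  exact ⟨g, hg, fun i x v => by rw [eg, eg, e, map_smul]⟩

variable [Finite F] [Nonempty ι] (h3 : 3 ≤ finrank F U)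
include h3

theorem herm_isMaximalIn (hσ : ∀ a, Φ₂.σ a = Φ.σ a) {δ : F} (hδ : Φ.σ δ ≠ δ) (hε : Φ.ε = 1)
    (hε₂ : Φ₂.ε = 1) (htv : Φ.TV) (htv₂ : Φ₂.TV) (hd : Φ.d ≤ 3) (hd₂ : Φ₂.d = 2)
    (hQ : ∀ v, Φ.Q v = Φ.B v v) (hE : Φ.Iso ⊓ SLV F V ≤ Φ.EG) (hW : 3 ≤ finrank F W)
    (hq : 4 ≤ finrank F W ∨ ∃ a, Φ.σ a = a ∧ a ≠ 0 ∧ a ≠ 1)
    (ho : Odd (finrank F W) → Odd (finrank F V)) : Geo.IsMaximalIn Φ.EG (hT.WR ⊓ Φ.EG) := by
  choose Φ₁ hF _ using fun i => h.exists_TF hT hσ htv₂ i ⟨1, fun u w => by rw [hQ, one_mul]⟩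
    (fun u w z e => by
      simp only [hε, hε₂, one_mul]
      refine exists_add_conj_eq (fun e => hδ (by rw [e]; rfl)) Φ.invol ?_
      have := Φ.symm ((T i).tm u w) ((T i).tm u z)
      rwa [h.B_tm hσ i e, Fm.B_eq_eps e, hε, hε₂, one_mul, mul_one, eq_comm] at this) _
    (Or.inl (Nat.lt_succ_self _))
  refine hT.isMaximalIn_WR hF (l := δ - Φ.σ δ) (by simpa [hε₂, hσ] using Φ₂.π_sub_conj δ)
    (sub_ne_zero.2 hδ.symm) hd h3 (Or.inr hW) (Or.inr hq) (Classical.arbitrary ι)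
    (h.sw hT hp hF fun i a h1 h2 => ?_) fun M => hT.herm_le_WR h hδ hε htv hd₂ hW hq
  have hc : (T i).Cm ((T i).kr a 1).toLinearMap := fun x => (T i).ext
    (f := ((T i).kr a 1).toLinearMap ∘ₗ (T i).sl x) (g := (T i).sl x ∘ₗ ((T i).kr a 1).toLinearMap)
    fun u w => by simp [one_app]
  generalize (T i).kr a 1 = g at *
  rcases Nat.even_or_odd (finrank F W) with he | he
  · exact ⟨g, hE ⟨h1, Tn.det_of_cm hT.neW hc h2 he⟩, 1, by simp⟩
  have h4 : LinearMap.det g.toLinearMap * LinearMap.det g.toLinearMap = 1 := by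
    rw [← map_mul, ← LinearEquiv.coe_toLinearMap_mul, h2]; simp
  rcases mul_self_eq_one_iff.1 h4 with e | e
  · exact ⟨g, hE ⟨h1, mem_SLV.2 e⟩, 1, by simp⟩
  refine ⟨LinearEquiv.neg F * g, hE ⟨htv.mem_Iso fun x y => by simp [mul_app, h1.1], mem_SLV.2 ?_⟩,
    -1, by simp [mul_app]⟩
  rw [show (LinearEquiv.neg F * g : V ≃ₗ[F] V).toLinearMap = (-1 : F) • g.toLinearMap from
    LinearMap.ext fun v => by simp, LinearMap.det_smul, e, (ho he).neg_one_pow]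
  simp

theorem sp_isMaximalIn (hS : Φ.IsSp) (hS₂ : Φ₂.IsSp) (h2 : (2 : F) ≠ 0) (ho : Odd (Fintype.card ι))
    (hq : 3 ≤ finrank F W ∨ 5 ≤ Nat.card F) : Geo.IsMaximalIn Φ.EG (hT.WR ⊓ Φ.EG) := by
  choose Φ₁ hF _ using fun i => h.exists_TF hT (fun a => (hS₂.σ a).trans (hS.σ a).symm) hS₂.tv i
    ⟨0, fun u w => by rw [hS.Q, zero_mul]⟩ (fun u w z _ => ⟨Φ.B ((T i).tm u w) ((T i).tm u z) / 2, by
      rw [hS.ε, hS₂.ε, hS.σ]; field_simp; ring⟩) _ (Or.inl (Nat.lt_succ_self _))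
  exact hT.isMaximalIn_WR hF (hS₂.π 1) one_ne_zero (by rw [hS.d]; omega) h3 (Or.inl h2) (Or.inl h2)
    (Classical.arbitrary ι) (h.sw hT hp hF fun i a h1 _ => ⟨_, hS.Iso_le h1, 1, by simp⟩) fun M =>
    hT.sp_le_WR h hS₂ (fun c _ => ⟨c / 2, by rw [hS.ε, hS.σ]; field_simp; ring⟩)
      (Or.inl ⟨hS.tv, ho⟩) (Or.inr ⟨h2, hq⟩)

theorem o_isMaximalIn (hO : Φ.IsO) (hS₂ : Φ₂.IsSp) (hQ : ∀ x, Φ.Q (pu x) = 0)
    (hq : 5 ≤ finrank F W ∨ ((2 : F) ≠ 0 ∧ (3 ≤ finrank F W ∨ 5 ≤ Nat.card F))) :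
    Geo.IsMaximalIn Φ.EG (hT.WR ⊓ Φ.EG) := by
  have hσ : ∀ a, Φ₂.σ a = Φ.σ a := fun a => (hS₂.σ a).trans (hO.σ a).symm
  have k1 := fun i u w => h.Q_tm hσ hQ i u (hS₂.B_self w)
  have k2 : ∀ i u w z, Φ.B ((T i).tm u w) ((T i).tm u z) = 0 := fun i u w z => by
    simpa [Φ.add, k1, hO.π] using k1 i u (w + z)
  choose Φ₁ hF hd hπ using fun i => h.exists_TF hT hσ hS₂.tv i ⟨0, fun u w => by rw [k1, zero_mul]⟩
    (fun u w z _ => ⟨0, by simp [k2]⟩) 1 (Or.inr ⟨le_rfl, k2 i⟩)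
  have hS : ∀ i, (Φ₁ i).IsSp := fun i => ⟨fun a => ((hF i).σ₁ a).trans (hO.σ a), by
    simpa [hO.ε, hS₂.ε, neg_eq_iff_eq_neg] using (hF i).ε.symm, fun c => by
      simp [hπ, hO.ε, hS₂.ε, hO.σ], hd i⟩
  exact hT.isMaximalIn_WR hF (hS₂.π 1) one_ne_zero hO.d.le h3
    (hq.elim (fun _ => Or.inr (by omega)) fun h => Or.inl h.1)
    (hq.elim (fun _ => Or.inr (Or.inl (by omega))) fun h => Or.inl h.1) (Classical.arbitrary ι)
    (h.sw hT hp hF fun i a h1 _ => ⟨_, (hF i).swap.krR_EG ((hS i).Iso_le ((hF i).swap.B_of_krR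
      ((T i).swap_kr a 1 ▸ h1 :))), 1, fun v => by rw [one_smul, ← Tn.swap_kr]; rfl⟩) fun M =>
    hT.sp_le_WR h hS₂ (fun c hc => ⟨0, by simpa [hO.π] using hc⟩)
      (Or.inr fun c hc => by rwa [hO.π] at hc) hq

end PT

end Abstract

section Matrices

open Cfsg.Agent.Class.Asch
open scoped Matrix

variable {ι : Type} [Fintype ι] [DecidableEq ι] {F : Type*} [Field F] {k t : ℕ}
  {f : (ι → F) → (ι → F) → F} {f₁ : (Fin k → F) → (Fin k → F) → F}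

/-- Pure tensors in coordinates. -/
noncomputable def puOf (e : ι ≃ (Fin t → Fin k)) (P : GL ι F) :
    MultilinearMap F (fun _ : Fin t => Fin k → F) (ι → F) :=
  (trL e P).toLinearMap.compMultilinearMap (MultilinearMap.pi fun a =>
    (MultilinearMap.mkPiAlgebra F (Fin t) F).compLinearMap fun i => LinearMap.proj (a i))

variable {e : ι ≃ (Fin t → Fin k)} {P : GL ι F}

theorem puOf_apply (x : Fin t → Fin k → F) : puOf e P x = trV e P fun a => ∏ i, x i (a i) := rfl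

theorem exists_puOf_eq {σ : F ≃+* F} (h₁ : IsSesq σ f₁)
    (h : Geo.IsTensorPowerFormStructure σ f f₁ e P) : ∃ c : F, c ≠ 0 ∧ ∀ x y,
      f (puOf e P x) (puOf e P y) = c * ∏ i, f₁ (x i) (y i) := by
  obtain ⟨c, c0, h⟩ := h
  refine ⟨c, c0, fun x y => ?_⟩
  rw [puOf_apply, puOf_apply, trV, trV, h, h₁.eq_frm]
  simp only [Geo.formOfGram, Finset.prod_univ_sum, Fintype.piFinset_univ, map_prod,
    Finset.prod_mul_distrib, ← h₁.eq_frm]

theorem IsSl.pt {U : Type*} [AddCommGroup U] [Module F U] {T : Fin t → Tn F U (Fin k → F) (ι → F)}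
    (h : IsSl T e P) {Φ₂ : Fm F (Fin k → F)} {Φ : Fm F (ι → F)} {c : F} (c0 : c ≠ 0)
    (hB : ∀ x y, Φ.B (puOf e P x) (puOf e P y) = c * ∏ i, Φ₂.B (x i) (y i)) :
    PT T Φ₂ Φ (puOf e P) c := by
  refine ⟨fun i y x => ?_, eq_top_iff.2 fun v _ => ?_, hB, c0⟩
  · obtain ⟨y, rfl⟩ := Matrix.toLin'.surjective y
    rw [h, puOf_apply, puOf_apply, tr_mulVec]
    congr 1
    funext a
    have : ∀ j, update x i (Matrix.toLin' y (x i)) j (a j) =
        ∑ b, (Pi.mulSingle i y : Fin t → Matrix _ _ F) j (a j) b * x j b := fun j => by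
      by_cases hj : j = i
      · subst hj; simp [Matrix.mulVec, dotProduct]
      · simp [hj, Matrix.one_apply]
    simp only [this, Finset.prod_univ_sum, Fintype.piFinset_univ, Finset.prod_mul_distrib]
    rfl
  · obtain ⟨x, rfl⟩ := trV_surjective e P v
    rw [← trL_apply, pi_eq_sum_univ' x, map_sum]
    refine Submodule.sum_mem _ fun a _ => ?_
    rw [map_smul]
    refine Submodule.smul_mem _ _ (Submodule.subset_span ⟨fun i => Pi.single (a i) 1, ?_⟩)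
    rw [puOf_apply, trL_apply]
    congr 1
    funext b
    simp [Pi.single_apply, Finset.prod_ite_zero, funext_iff]

theorem isMaximalIn_of_PT (hk : 2 ≤ k) (h3 : 3 ≤ k ^ (t - 1)) {σ : F ≃+* F} (h₁ : IsSesq σ f₁)
    (hT : Geo.IsTensorPowerFormStructure σ f f₁ e P) {Φ₂ : Fm F (Fin k → F)} {Φ : Fm F (ι → F)}
    (hB : ((∀ x y, Φ.B x y = f x y) ∧ ∀ x y, Φ₂.B x y = f₁ x y) ∨
      ((∀ x y, Φ.B x y = f y x) ∧ ∀ x y, Φ₂.B x y = f₁ y x))
    {G : Subgroup (GL ι F)} (hG : ∀ g, g ∈ G ↔ glEquiv ι F g ∈ Φ.EG)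
    (key : ∀ (T : Fin t → Tn F (Fin (k ^ (t - 1)) → F) (Fin k → F) (ι → F)) (c : F),
      PT T Φ₂ Φ (puOf e P) c → ∀ hT : TP T, (∀ j l, ∃ p : (ι → F) ≃ₗ[F] (ι → F), p * p = 1 ∧
        ∀ i x v, p ((T i).sl x v) = (T (Equiv.swap j l i)).sl x (p v)) → [Nonempty (Fin t)] →
      3 ≤ finrank F (Fin (k ^ (t - 1)) → F) → Geo.IsMaximalIn Φ.EG (hT.WR ⊓ Φ.EG)) :
    Geo.IsMaximalIn G (Geo.tensorWreathSubgroup k t e P ⊓ G) := by
  have ht : 0 < t := Nat.pos_of_ne_zero fun h => by simp [h] at h3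
  obtain ⟨T, h⟩ := exists_isSl (by omega) ht e P
  have h2 : 3 ≤ finrank F (Fin (k ^ (t - 1)) → F) := by simpa using h3
  have hP := h.tp hk ((finrank_pos_iff_exists_ne_zero (R := F)).1 (by omega))
  obtain ⟨c, c0, hc⟩ := exists_puOf_eq h₁ hT
  have := Fin.pos_iff_nonempty.1 ht
  exact isMaximalIn_of_equiv (glEquiv ι F) (H' := hP.WR ⊓ Φ.EG) hG
    (fun g => and_congr (h.mem_iff hP ht g) (hG g)) (key T c (h.pt c0 fun x y => by
      rcases hB with hB | hB <;> simp only [hB.1, hB.2, hc]) hP h.exists_swap h2)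

variable [Fintype F]

theorem five_le_card (ho : Odd (Fintype.card F)) (h3 : Fintype.card F ≠ 3) : 5 ≤ Nat.card F := by
  have := Fintype.one_lt_card (α := F)
  obtain ⟨m, hm⟩ := ho
  rw [Nat.card_eq_fintype_card]
  omega

theorem su_wreath_isMaximalIn {n q : ℕ} (hF : Fintype.card F = q ^ 2) (hk : 3 ≤ k) (ht : 2 ≤ t)
    (hex : ¬ (q = 2 ∧ k = 3)) (e : Fin n ≃ (Fin t → Fin k)) (P : GL (Fin n) F)
    (hf₁ : Geo.IsUnitaryFormPow q f₁)
    (hT : Geo.IsTensorPowerFormStructure (fun x : F => x ^ q) (hermForm n F q) f₁ e P) :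
    Geo.IsMaximalIn (GU n F q ⊓ Geo.specialLinear (Fin n) F)
      (Geo.tensorWreathSubgroup k t e P ⊓ (GU n F q ⊓ Geo.specialLinear (Fin n) F)) := by
  have : U.UF F q := U.UF.of_card hF
  have h₁ := isUnitaryForm_of_pow hf₁
  obtain ⟨δ, hδ⟩ := U.exists_conj_ne F q
  refine isMaximalIn_of_PT (by omega) (hk.trans (Nat.le_self_pow (by omega) k))
    (isSesq_of_unitary h₁) hT (Φ₂ := fmU h₁) (Or.inr ⟨fun _ _ => rfl, fun _ _ => rfl⟩)
    (mem_SU_iff n q) fun T c h hT hp _ h3 => h.herm_isMaximalIn hT hp h3 (fun _ => rfl) hδ rfl rfl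
      (tv_fmU _) (tv_fmU _) (Nat.le_succ 2) rfl (fun _ => rfl) (EG_fmUStd n q).ge (by simpa) ?_
      fun ho => by simpa [show n = k ^ t by simpa using Fintype.card_congr e] using
        (show Odd k by simpa using ho).pow
  rw [Module.finrank_fin_fun]
  by_cases h4 : 4 ≤ k
  · exact Or.inl h4
  refine Or.inr (by_contra fun hc => ?_)
  push Not at hc
  have : Subsingleton {x : F // x ≠ 0 ∧ U.conj F q x = x} :=
    ⟨fun a b => Subtype.ext ((hc a a.2.2 a.2.1).trans (hc b b.2.2 b.2.1).symm)⟩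
  have h5 := Finite.card_le_one_iff_subsingleton.2 this
  have := U.two_le_q F q
  rw [U.card_fixed_ne_zero] at h5
  omega

theorem sp_wreath_isMaximalIn {m : ℕ} (hodd : Odd (Fintype.card F)) (hk : 2 ≤ k) (ht : Odd t)
    (ht3 : 3 ≤ t) (hex : ¬ (Fintype.card F = 3 ∧ k = 2)) (e : (Fin m ⊕ Fin m) ≃ (Fin t → Fin k))
    (P : GL (Fin m ⊕ Fin m) F) (hf₁ : Geo.IsSymplecticForm f₁)
    (hT : Geo.IsTensorPowerFormStructure id (sympForm m F) f₁ e P) :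
    Geo.IsMaximalIn (spGL m F) (Geo.tensorWreathSubgroup k t e P ⊓ spGL m F) :=
  isMaximalIn_of_PT hk (by
      have := Nat.pow_le_pow_left hk (t - 1)
      have := Nat.pow_le_pow_right two_pos (show 2 ≤ t - 1 by omega)
      omega)
    (isSesq_of_bilinear hf₁.bilinear) hT (Φ₂ := fmSp hf₁) (Or.inl ⟨fun _ _ => rfl, fun _ _ => rfl⟩)
    (mem_spGL_iff m) fun T c h hT hp _ h3 => h.sp_isMaximalIn hT hp h3 (isSp_fmSp _) (isSp_fmSp _)
      (two_ne_zero_of_odd hodd) (by simpa) (by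
        rw [Module.finrank_fin_fun]
        by_cases h : 3 ≤ k
        · exact Or.inl h
        · exact Or.inr (five_le_card hodd fun h' => hex ⟨h', by omega⟩))

theorem o_sp_wreath_isMaximalIn {Q : (ι → F) → F} (hQ : Geo.IsNondegenerateQuadraticForm Q)
    (h5 : 5 ≤ Fintype.card ι) (ht : 2 ≤ t) (hex : ¬ (Fintype.card F = 3 ∧ k = 2))
    (hex' : ¬ Odd (Fintype.card F) → 5 ≤ k) (hf₁ : Geo.IsSymplecticForm f₁)
    (hT : Geo.IsTensorPowerFormStructure id (QuadraticMap.polar Q) f₁ e P)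
    (hp : ∀ xs : Fin t → Fin k → F,
      Q ((P : Matrix ι ι F) *ᵥ ((fun a : Fin t → Fin k => ∏ i, xs i (a i)) ∘ e)) = 0) :
    Geo.IsMaximalIn (Geo.omegaGL Q) (Geo.tensorWreathSubgroup k t e P ⊓ Geo.omegaGL Q) := by
  have h1 : Fintype.card ι = k * k ^ (t - 1) := by
    rw [← pow_succ', Nat.sub_add_cancel (by omega)]; simpa using Fintype.card_congr e
  have h2 := Nat.le_self_pow (show t - 1 ≠ 0 by omega) k
  have hk : 2 ≤ k := by
    by_contra hc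
    have := Nat.pow_le_pow_left (show k ≤ 1 by omega) (t - 1)
    rw [one_pow] at this
    nlinarith
  refine isMaximalIn_of_PT hk (by by_contra hc; nlinarith) (isSesq_of_bilinear hf₁.bilinear) hT
    (Φ₂ := fmSp hf₁) (Or.inl ⟨fun _ _ => rfl, fun _ _ => rfl⟩) (mem_omegaGL_iff hQ h5)
    fun T c h hT hp' _ h3 => h.o_isMaximalIn hT hp' h3 (isO_fmO hQ) (isSp_fmSp _) hp ?_
  rw [Module.finrank_fin_fun]
  by_cases ho : Odd (Fintype.card F)
  · refine Or.inr ⟨two_ne_zero_of_odd ho, ?_⟩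
    by_cases h : 3 ≤ k
    · exact Or.inl h
    · exact Or.inr (five_le_card ho fun h' => hex ⟨h', by omega⟩)
  · exact Or.inl (hex' ho)

end Matrices

end Cfsg.Agent.Class.Max
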