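import Mathlib
import Cfsg.Agent.Class.Max.FrT

/-!
Orthonormal frames over prime fields: reflection groups containing the Weyl group of type `Dₙ`.
-/

set_option autoImplicit false

namespace Cfsg.Agent.Class.Max

open Module

variable {F V : Type*} [Field F] [AddCommGroup V] [Module F V] {ι : Type*}

theorem sq_eq_one_of_three (hF : ∀ a : F, ∃ n : ℕ, a = n) (h3 : (3 : F) = 0) {a : F} (ha : a ≠ 0) :
    a * a = 1 := by
  have : ∀ n : ℕ, (n : F) * (n * n - 1) = 0 := fun n => by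
    induction n with
    | zero => simp
    | succ n ih => push_cast; linear_combination ih + (n * n + n : F) * h3
  obtain ⟨n, rfl⟩ := hF a
  simpa [ha, sub_eq_zero] using this n

theorem exists_three_notMem [Fintype ι] [DecidableEq ι] (T : Finset ι)
    (h : T.card + 3 ≤ Fintype.card ι) :
    ∃ a b c, a ∉ T ∧ b ∉ T ∧ c ∉ T ∧ a ≠ b ∧ a ≠ c ∧ b ≠ c := by
  simpa using Finset.two_lt_card_iff.1 (show 2 < Tᶜ.card by rw [Finset.card_compl]; omega)

/-- `w = ± e i ± e j` with `i`, `j` distinct elements of `T`. -/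
def IsRoot (e : ι → V) (F : Type*) [Field F] [Module F V] (T : Set ι) (w : V) : Prop :=
  ∃ i ∈ T, ∃ j ∈ T, i ≠ j ∧ ∃ ε δ : F, ε * ε = 1 ∧ δ * δ = 1 ∧ w = ε • e i + δ • e j

theorem IsRoot.mono {e : ι → V} {S T : Set ι} {w : V} (h : IsRoot e F S w) (hST : S ⊆ T) :
    IsRoot e F T w :=
  let ⟨i, hi, j, hj, h⟩ := h
  ⟨i, hST hi, j, hST hj, h⟩

theorem IsRoot.neg {e : ι → V} {T : Set ι} {w : V} (h : IsRoot e F T w) : IsRoot e F T (-w) :=
  let ⟨i, hi, j, hj, h, ε, δ, h1, h2, h3⟩ := h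
  ⟨i, hi, j, hj, h, -ε, -δ, by simpa using h1, by simpa using h2, by rw [h3]; module⟩

theorem isRoot_add (e : ι → V) {T : Set ι} {i j : ι} (hi : i ∈ T) (hj : j ∈ T) (h : i ≠ j) {ε : F}
    (hε : ε * ε = 1) : IsRoot e F T (e i + ε • e j) :=
  ⟨i, hi, j, hj, h, 1, ε, one_mul _, hε, by rw [one_smul]⟩

namespace Fm

variable {Φ : Fm F V} {K : Subgroup (V ≃ₗ[F] V)} {e : ι → V}

theorem IsO.r_conj_mem (hO : Φ.IsO) (hK : K ≤ Φ.Iso) {g : V ≃ₗ[F] V} (hg : g ∈ K) {w : V}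
    (hw : hO.r w ∈ K) : hO.r (g w) ∈ K := by
  rw [← hO.conj_r (hK hg)]; exact K.mul_mem (K.mul_mem hg hw) (K.inv_mem hg)

theorem IsO.r_neg (hO : Φ.IsO) (w : V) : hO.r (-w) = hO.r w := by
  rw [← neg_one_smul F, hO.r_smul (by simp)]

theorem IsO.r_one (hO : Φ.IsO) {a : V} (ha : Φ.Q a = 1) (x : V) : hO.r a x = x - Φ.B a x • a := by
  rw [hO.r_apply, ha, inv_one, one_mul]

theorem IsO.eq_of_B_eq_two (hO : Φ.IsO) (hE : ∀ v u, v ≠ 0 → Φ.InA K v u → Φ.Q u = 0) {a b : V}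
    (qa : Φ.Q a = 1) (qb : Φ.Q b = 1) (ka : hO.r a ∈ K) (kb : hO.r b ∈ K) (h : Φ.B a b = 2) :
    b = a := by
  by_contra h1
  have := hE _ _ (sub_ne_zero.2 (Ne.symm h1)) (hO.inA_of_r (a := a) (by simp [qa])
    (by rw [hO.Q_sub, qa, qb, h]; norm_num) (by simp [hO.B_self, qa, hO.symm a b, h])
    (by rw [sub_sub_cancel]; exact K.mul_mem ka kb))
  simp [Φ.Q_neg, qa] at this

theorem IsO.eq_of_B_eq_neg_two (hO : Φ.IsO) (hE : ∀ v u, v ≠ 0 → Φ.InA K v u → Φ.Q u = 0) {a b : V}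
    (qa : Φ.Q a = 1) (qb : Φ.Q b = 1) (ka : hO.r a ∈ K) (kb : hO.r b ∈ K) (h : Φ.B a b = -2) :
    b = -a :=
  neg_eq_iff_eq_neg.1 (hO.eq_of_B_eq_two hE qa (by rw [Φ.Q_neg, qb]) ka (by rwa [hO.r_neg])
    (by simp [h]))

variable (Φ e) in
/-- An orthonormal basis. -/
structure ONB : Prop where
  o : Φ.IsO
  one : ∀ i, Φ.B (e i) (e i) = 1
  perp : ∀ i j, i ≠ j → Φ.B (e i) (e j) = 0
  ext : ∀ x, (∀ i, Φ.B (e i) x = 0) → x = 0

namespace ONB

variable (h : Φ.ONB e)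
include h

theorem two_ne (i : ι) : (2 : F) ≠ 0 := fun h2 => by
  have := h.one i
  rw [h.o.B_self, h2, zero_mul] at this
  exact zero_ne_one this

theorem B_e [DecidableEq ι] (i j : ι) : Φ.B (e i) (e j) = if i = j then 1 else 0 := by
  split_ifs with h1
  exacts [h1 ▸ h.one i, h.perp i j h1]

theorem Q_e (i : ι) : Φ.Q (e i) = 2⁻¹ :=
  eq_inv_of_mul_eq_one_right ((h.o.B_self _).symm.trans (h.one i))

theorem eq_of {x y : V} (h1 : ∀ i, Φ.B (e i) x = Φ.B (e i) y) : x = y :=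
  sub_eq_zero.1 (h.ext _ fun i => by rw [map_sub, h1, sub_self])

theorem Q_root {T : Set ι} {w : V} (hw : IsRoot e F T w) : Φ.Q w = 1 := by
  obtain ⟨i, -, j, -, hij, ε, δ, h1, h2, rfl⟩ := hw
  have := h.two_ne i
  rw [Φ.Q_add_perp (by simp [h.perp i j hij]), h.o.Q_smul, h.o.Q_smul, h1, h2, h.Q_e, h.Q_e]
  field_simp
  norm_num

theorem B_root {T : Set ι} {w : V} (hw : IsRoot e F T w) {k : ι} (hk : k ∉ T) :
    Φ.B (e k) w = 0 := by
  obtain ⟨i, hi, j, hj, -, ε, δ, -, -, rfl⟩ := hw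
  simp [h.perp k i (fun e => hk (e ▸ hi)), h.perp k j (fun e => hk (e ▸ hj))]

theorem r_e (i : ι) (x : V) : h.o.r (e i) x = x - (2 * Φ.B (e i) x) • e i := by
  rw [h.o.r_apply, h.Q_e, inv_inv]

theorem r_e_mul {i j : ι} (hij : i ≠ j) :
    h.o.r (e i) * h.o.r (e j) = h.o.r (e i + (1 : F) • e j) * h.o.r (e i + (-1 : F) • e j) :=
  LinearEquiv.ext fun x => by
    have q := fun ε : F => fun hε => h.Q_root (isRoot_add e (Set.mem_univ i) (Set.mem_univ j) hij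
      (ε := ε) hε)
    simp only [mul_app, h.r_e, h.o.r_one (q 1 (one_mul _)), h.o.r_one (q (-1) (by simp)), Φ.bsimp,
      h.one, h.perp i j hij, h.perp j i hij.symm]
    module

theorem sum_eq [Fintype ι] (x : V) : ∑ i, Φ.B (e i) x • e i = x := by
  classical
  exact h.eq_of fun j => by simp [h.B_e]

theorem B_eq [Fintype ι] (x y : V) : Φ.B x y = ∑ i, Φ.B (e i) x * Φ.B (e i) y := by
  conv_lhs => rw [← h.sum_eq y]
  simp [h.o.symm x, mul_comm]

theorem mem_of [Fintype ι] {U : Submodule F V} {x : V} (h1 : ∀ i, Φ.B (e i) x ≠ 0 → e i ∈ U) :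
    x ∈ U := by
  rw [← h.sum_eq x]
  refine U.sum_mem fun i _ => ?_
  by_cases h2 : Φ.B (e i) x = 0
  · simp [h2]
  · exact U.smul_mem _ (h1 i h2)

/-- The roots not perpendicular to a given vector span. -/
theorem mem_of_roots {T : Set ι} {a : ι} (ha : a ∈ T) (h3 : ∃ j ∈ T, ∃ k ∈ T, j ≠ a ∧ k ≠ a ∧ j ≠ k)
    {x : V} (hx : Φ.B (e a) x ≠ 0) {U : Submodule F V}
    (hU : ∀ c, IsRoot e F T c → Φ.B c x ≠ 0 → c ∈ U) {b : ι} (hb : b ∈ T) : e b ∈ U := by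
  have h2 := h.two_ne a
  have h0 : ∀ j ∈ T, j ≠ a → ∀ ε : F, ε * ε = 1 → Φ.B (e a) x + ε * Φ.B (e j) x ≠ 0 →
      e a + ε • e j ∈ U := fun j hj hja ε hε h1 =>
    hU _ (isRoot_add e ha hj hja.symm hε) (by simpa only [Φ.bsimp, h.o.σ] using h1)
  have h1 : ∀ j ∈ T, j ≠ a → (∃ ε : F, ε * ε = 1 ∧ ε * Φ.B (e j) x = Φ.B (e a) x) ∨
      ∀ ε : F, ε * ε = 1 → e a + ε • e j ∈ U := fun j hj hja => by
    by_contra hc
    push Not at hc
    obtain ⟨hc, ε, hε, hc'⟩ := hc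
    exact hc' (h0 j hj hja ε hε fun e => hc (-ε) (by simpa using hε) (by linear_combination -e))
  have h4 : ∀ j ∈ T, j ≠ a → ∀ ε : F, ε * ε = 1 → ε * Φ.B (e j) x = Φ.B (e a) x →
      e a + ε • e j ∈ U := fun j hj hja ε hε e =>
    h0 j hj hja ε hε (by rw [e, ← two_mul]; exact mul_ne_zero h2 hx)
  have h5 : ∀ j, (∀ ε : F, ε * ε = 1 → e a + ε • e j ∈ U) → e a ∈ U := fun j hj =>
    (U.smul_mem_iff h2).1 (by
      convert U.add_mem (hj 1 (one_mul _)) (hj (-1) (by simp)) using 1; module)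
  have h6 : e a ∈ U := by
    obtain ⟨j, hj, k, hk, hja, hka, hjk⟩ := h3
    rcases h1 j hj hja with ⟨ε, hε, e1⟩ | h7
    · rcases h1 k hk hka with ⟨δ, hδ, e2⟩ | h7
      · refine (U.smul_mem_iff h2).1 ?_
        convert U.sub_mem (U.add_mem (h4 j hj hja ε hε e1) (h4 k hk hka δ hδ e2))
          (hU _ ⟨j, hj, k, hk, hjk, ε, δ, hε, hδ, rfl⟩ (by
            simp only [Φ.bsimp, h.o.σ, e1, e2, ← two_mul]; exact mul_ne_zero h2 hx)) using 1
        module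
      · exact h5 k h7
    · exact h5 j h7
  by_cases hba : b = a
  · rwa [hba]
  obtain ⟨ε, hε, h7⟩ : ∃ ε : F, ε * ε = 1 ∧ e a + ε • e b ∈ U :=
    (h1 b hb hba).elim (fun ⟨ε, hε, e⟩ => ⟨ε, hε, h4 b hb hba ε hε e⟩)
      fun h7 => ⟨1, one_mul _, h7 1 (one_mul _)⟩
  exact (U.smul_mem_iff (left_ne_zero_of_mul_eq_one hε)).1 ((U.add_mem_iff_right h6).1 h7)

variable [DecidableEq ι]

/-- Changing the signs of the coordinates in a set of even size. -/
theorem exists_flip (hd : ∀ i j, i ≠ j → h.o.r (e i) * h.o.r (e j) ∈ K) (n : ℕ) :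
    ∀ T : Finset ι, T.card = 2 * n → ∃ g ∈ K, ∀ x, g x = x - ∑ i ∈ T, (2 * Φ.B (e i) x) • e i := by
  induction n with
  | zero => exact fun T hT => ⟨1, K.one_mem, fun x => by simp [Finset.card_eq_zero.1 hT]⟩
  | succ n ih =>
    intro T hT
    obtain ⟨i, T, hi, rfl, hT1⟩ := Finset.card_eq_succ.1 (show T.card = 2 * n + 1 + 1 from hT)
    obtain ⟨j, T, hj, rfl, hT2⟩ := Finset.card_eq_succ.1 hT1
    obtain ⟨g, hg, e1⟩ := ih T hT2
    have hij : i ≠ j := fun e => hi (by simp [e])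
    refine ⟨_, K.mul_mem (hd i j hij) hg, fun x => ?_⟩
    have hi' : i ∉ T := fun e => hi (by simp [e])
    rw [Finset.sum_insert hi, Finset.sum_insert hj, mul_app, mul_app, h.r_e, h.r_e, e1]
    simp [h.B_e, hj, hi', hij]
    abel

theorem B_flip (T : Finset ι) (x : V) (j : ι) :
    Φ.B (e j) (x - ∑ i ∈ T, (2 * Φ.B (e i) x) • e i) = if j ∈ T then -Φ.B (e j) x else Φ.B (e j) x := by
  simp [h.B_e]
  split_ifs <;> ring

omit [DecidableEq ι] in
theorem B_self_flip (T : Finset ι) (x : V) :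
    Φ.B x (x - ∑ i ∈ T, (2 * Φ.B (e i) x) • e i) = 2 * Φ.Q x - 2 * ∑ i ∈ T, Φ.B (e i) x ^ 2 := by
  simp [h.o.B_self, h.o.symm x, Finset.mul_sum, sq, mul_assoc]

section Refl

variable [Fintype ι] (hF : ∀ a : F, ∃ n : ℕ, a = n) (hK : K ≤ Φ.Iso)
  (hR : ∀ c, IsRoot e F Set.univ c → h.o.r c ∈ K)
include hR

omit [DecidableEq ι] [Fintype ι] in
theorem d_mem (i j : ι) (hij : i ≠ j) : h.o.r (e i) * h.o.r (e j) ∈ K := by
  rw [h.r_e_mul hij]
  exact K.mul_mem (hR _ (isRoot_add e (Set.mem_univ i) (Set.mem_univ j) hij (one_mul _)))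
    (hR _ (isRoot_add e (Set.mem_univ i) (Set.mem_univ j) hij (by simp)))

include hK

omit [Fintype ι] in
theorem r_flip_mem {w : V} (hw : h.o.r w ∈ K) {n : ℕ} {T : Finset ι} (hT : T.card = 2 * n) :
    h.o.r (w - ∑ i ∈ T, (2 * Φ.B (e i) w) • e i) ∈ K ∧
      Φ.Q (w - ∑ i ∈ T, (2 * Φ.B (e i) w) • e i) = Φ.Q w := by
  obtain ⟨g, hg, e1⟩ := h.exists_flip (h.d_mem hR) n T hT
  exact e1 w ▸ ⟨h.o.r_conj_mem hK hg hw, Iso.Q (hK hg) w⟩

include hF

theorem EG_le_three_of_zero (h3 : (3 : F) = 0) (hn : 6 ≤ Fintype.card ι) {w : V} (q : Φ.Q w = 1)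
    (hw : h.o.r w ∈ K) {i j a m : ι} (hij : i ≠ j) (hia : i ≠ a) (hja : j ≠ a)
    (wi : Φ.B (e i) w ≠ 0) (wj : Φ.B (e j) w ≠ 0) (wa : Φ.B (e a) w ≠ 0) (wm : Φ.B (e m) w = 0) :
    Φ.EG ≤ K := by
  have him : i ≠ m := fun e => wi (e ▸ wm)
  have hjm : j ≠ m := fun e => wj (e ▸ wm)
  have ham : a ≠ m := fun e => wa (e ▸ wm)
  have si := sq_eq_one_of_three hF h3 wi
  have sj := sq_eq_one_of_three hF h3 wj
  have s := And.intro h.one (And.intro (h.perp i j hij) (And.intro (h.perp j i hij.symm)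
    (And.intro (h.perp i m him) (And.intro (h.perp m i him.symm) (And.intro (h.perp j m hjm)
      (And.intro (h.perp m j hjm.symm) (And.intro h.o.σ wm)))))))
  have h2 := h.two_ne i
  obtain ⟨α, hα⟩ : ∃ α, α = Φ.B (e i) w := ⟨_, rfl⟩
  obtain ⟨β, hβ⟩ : ∃ β, β = Φ.B (e j) w := ⟨_, rfl⟩
  rw [← hα] at si
  rw [← hβ] at sj
  obtain ⟨v, hv⟩ : ∃ v, v = α • e i - β • e j + e m := ⟨_, rfl⟩
  have qv : Φ.Q v = 0 := mul_left_cancel₀ h2 (by
    rw [← h.o.B_self, hv]; simp only [Φ.bsimp, s]; linear_combination si + sj + h3)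
  have r1 : IsRoot e F Set.univ (α • e i + (1 : F) • e m) :=
    ⟨i, trivial, m, trivial, him, α, 1, si, one_mul _, rfl⟩
  have r2 : IsRoot e F Set.univ (α • e i + (-1 : F) • e m) :=
    ⟨i, trivial, m, trivial, him, α, -1, si, by simp, rfl⟩
  have r3 : IsRoot e F Set.univ (β • e j + (1 : F) • e m) :=
    ⟨j, trivial, m, trivial, hjm, β, 1, sj, one_mul _, rfl⟩
  let A := subA hF K qv
  have hA : ∀ c, Φ.Q c = 1 → Φ.B v c = 0 → h.o.r c ∈ K → h.o.r (c - v) ∈ K → c ∈ A :=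
    fun c qc e1 k1 k2 => by
      have := h.o.inA_of_r (by simp [qc]) qv e1 (K.mul_mem k1 k2)
      rw [qc, inv_one, neg_smul, one_smul] at this
      exact (A.neg_mem_iff).1 this
  have hwA : w ∈ A := hA w q (by rw [hv]; simp only [Φ.bsimp, s, ← hα, ← hβ]; linear_combination si - sj)
    hw (by
      convert h.o.r_conj_mem hK (K.mul_mem (h.d_mem hR j i hij.symm) (hR _ r1)) hw using 2
      simp only [mul_app, h.r_e, h.o.r_one (h.Q_root r1), Φ.bsimp, s, ← hα, ← hβ, si, hv]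
      match_scalars
      · ring
      · ring
      · linear_combination β * h3
      · ring)
  have huA := hA _ (h.Q_root r2) (by rw [hv]; simp only [Φ.bsimp, s]; linear_combination si)
    (hR _ r2) (by
      convert hR _ r3 using 2
      rw [hv]
      match_scalars
      · ring
      · linear_combination -h3
      · ring)
  have hvA : v ∈ A := show Φ.InA K v v by simpa using inA_smul_self (M := K) qv 1
  have hT : ∀ b, b ≠ i → b ≠ j → b ≠ m → e b ∈ A := fun b b1 b2 b3 => by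
    refine h.mem_of_roots (T := {b | b ≠ i ∧ b ≠ j ∧ b ≠ m}) ⟨hia.symm, hja.symm, ham⟩ ?_ wa
      (fun c hc hcw => ?_) ⟨b1, b2, b3⟩
    · obtain ⟨x, y, z, hx, hy, hz, hxy, hxz, hyz⟩ := exists_three_notMem {i, j, m}
        ((Nat.add_le_add_right Finset.card_le_three 3).trans hn)
      simp only [Finset.mem_insert, Finset.mem_singleton, not_or] at hx hy hz
      by_cases h1 : x = a
      · exact ⟨y, hy, z, hz, h1 ▸ hxy.symm, h1 ▸ hxz.symm, hyz⟩
      by_cases h4 : y = a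
      · exact ⟨x, hx, z, hz, h1, h4 ▸ hyz.symm, hxz⟩
      · exact ⟨x, hx, y, hy, h1, h4, hxy⟩
    · have k1 := hR c (hc.mono (Set.subset_univ _))
      have h4 := InA.conj hwA k1 (hK k1)
      rw [h.o.r_of_perp (Φ.perp_symm (by
        rw [hv]; simp only [Φ.bsimp, h.B_root hc (k := i) (by simp), h.B_root hc (k := j) (by simp),
          h.B_root hc (k := m) (by simp)]; ring)), h.o.r_one (h.Q_root hc)] at h4
      exact (A.smul_mem_iff hcw).1 (by simpa using A.sub_mem hwA h4)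
  have hfull : Φ.Full K v := h.o.full_of_inA fun x hx => by
    rw [hv] at hx
    simp only [Φ.bsimp, s] at hx
    have h4 : x - (-(β * Φ.B (e j) x) - Φ.B (e m) x) • (α • e i + (-1 : F) • e m) -
        (-(β * Φ.B (e j) x)) • v ∈ A := h.mem_of fun b hb => hT b ?_ ?_ ?_
    · change x ∈ A
      simpa using A.add_mem (A.add_mem h4 (A.smul_mem (-(β * Φ.B (e j) x)) hvA))
        (A.smul_mem (-(β * Φ.B (e j) x) - Φ.B (e m) x) huA)
    all_goals
      rintro rfl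
      refine hb ?_
      simp only [hv, Φ.bsimp, s]
    · linear_combination α * hx - Φ.B (e b) x * si + α * β * Φ.B (e j) x * h3
    · linear_combination -Φ.B (e b) x * sj
    · ring
  refine EG_le_of_full hfull (hfull.conj (hR _ r1) (hK (hR _ r1))) qv (by rw [h.o.Q_r, qv]) ?_
  simp only [h.o.r_one (h.Q_root r1), hv, Φ.bsimp, s]
  exact fun e => one_ne_zero (α := F) (by linear_combination -e - (α * α + 2) * si + sj)

theorem EG_le_three (h3 : (3 : F) = 0) (hn : 7 ≤ Fintype.card ι) (h8 : Fintype.card ι ≠ 8) {w : V}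
    (q : Φ.Q w = 1) (hw : h.o.r w ∈ K) {i j a : ι} (hij : i ≠ j) (hia : i ≠ a) (hja : j ≠ a)
    (wi : Φ.B (e i) w ≠ 0) (wj : Φ.B (e j) w ≠ 0) (wa : Φ.B (e a) w ≠ 0) : Φ.EG ≤ K := by
  by_cases hz : ∃ m, Φ.B (e m) w = 0
  · obtain ⟨m, hm⟩ := hz
    exact h.EG_le_three_of_zero hF hK hR h3 (by omega) q hw hij hia hja wi wj wa hm
  push Not at hz
  have hs : ∀ T : Finset ι, ∑ i ∈ T, Φ.B (e i) w ^ 2 = T.card := fun T => by
    simp [sq, sq_eq_one_of_three hF h3 (hz _)]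
  have h7 : Fintype.card ι ≠ 7 := fun e7 => by
    have h1 := h.B_eq w w
    simp only [← sq, hs, Finset.card_univ, e7, h.o.B_self, q] at h1
    exact one_ne_zero (α := F) (by push_cast at h1; linear_combination h1 + 2 * h3)
  obtain ⟨T, -, hT⟩ := Finset.exists_subset_card_eq (s := (Finset.univ : Finset ι)) (n := 2 * 3)
    (by rw [Finset.card_univ]; omega)
  obtain ⟨k1, q1⟩ := h.r_flip_mem hK hR hw hT
  obtain ⟨x, y, z, hx, hy, hz', hxy, hxz, hyz⟩ := exists_three_notMem T (by omega)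
  obtain ⟨m, hm⟩ := Finset.card_pos.1 (by omega : 0 < T.card)
  have hc : ∀ b, Φ.B (e b) (h.o.r w (w - ∑ i ∈ T, (2 * Φ.B (e i) w) • e i)) =
      if b ∈ T then 0 else 2 * Φ.B (e b) w := fun b => by
    rw [h.o.r_one q, map_sub, map_smul, h.B_flip, h.B_self_flip, hs, hT, q, smul_eq_mul]
    push_cast
    split_ifs
    · linear_combination 3 * Φ.B (e b) w * h3
    · linear_combination 3 * Φ.B (e b) w * h3
  have h2 := h.two_ne i
  exact h.EG_le_three_of_zero hF hK hR h3 (by omega) (by rw [h.o.Q_r, q1, q])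
    (h.o.r_conj_mem hK hw k1) hxy hxz hyz (m := m) (by rw [hc]; simp [hx, h2, hz])
    (by rw [hc]; simp [hy, h2, hz]) (by rw [hc]; simp [hz', h2, hz]) (by rw [hc]; simp [hm])

omit hF [DecidableEq ι] [Fintype ι] in
theorem ne_four (hE : ∀ v u, v ≠ 0 → Φ.InA K v u → Φ.Q u = 0) {w b₁ b₂ : V} (q : Φ.Q w = 1)
    (hw : h.o.r w ∈ K) {T : Set ι} (r₁ : IsRoot e F T b₁) (r₂ : IsRoot e F T b₂)
    (h12 : Φ.B b₁ b₂ = 0) {k : ι} (hk : k ∉ T) (wk : Φ.B (e k) w ≠ 0) :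
    Φ.B b₁ w ^ 2 + Φ.B b₂ w ^ 2 ≠ 4 := fun e4 => by
  have k₁ := hR _ (r₁.mono (Set.subset_univ _))
  have k₂ := hR _ (r₂.mono (Set.subset_univ _))
  have h1 := congrArg (Φ.B (e k)) (h.o.eq_of_B_eq_neg_two hE q
    (by rw [h.o.Q_r, h.o.Q_r, q]) hw (h.o.r_conj_mem hK k₁ (h.o.r_conj_mem hK k₂ hw)) (by
      simp only [h.o.r_one (h.Q_root r₁), h.o.r_one (h.Q_root r₂), Φ.bsimp, h12, h.o.B_self, q,
        h.o.symm b₁ w, h.o.symm b₂ w]
      linear_combination -e4))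
  simp only [h.o.r_one (h.Q_root r₁), h.o.r_one (h.Q_root r₂), Φ.bsimp, h.B_root r₁ hk,
    h.B_root r₂ hk] at h1
  exact mul_ne_zero (h.two_ne k) wk (by linear_combination h1)

omit hF hK [DecidableEq ι] [Fintype ι] in
theorem sq_ne_four (hE : ∀ v u, v ≠ 0 → Φ.InA K v u → Φ.Q u = 0) {w b : V} (q : Φ.Q w = 1)
    (hw : h.o.r w ∈ K) (hw' : ¬ IsRoot e F Set.univ w) (r : IsRoot e F Set.univ b) :
    Φ.B b w ^ 2 ≠ 4 := fun e4 => by
  rcases sq_eq_sq_iff_eq_or_eq_neg.1 (e4.trans (by norm_num : (4 : F) = 2 ^ 2)) with e2 | e2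
  · exact hw' (h.o.eq_of_B_eq_two hE (h.Q_root r) q (hR _ r) hw e2 ▸ r)
  · exact hw' (h.o.eq_of_B_eq_neg_two hE (h.Q_root r) q (hR _ r) hw e2 ▸ r.neg)

variable [Finite F] [FiniteDimensional F V]

omit [DecidableEq ι] [Fintype ι] in
theorem triple (hE : ∀ v u, v ≠ 0 → Φ.InA K v u → Φ.Q u = 0) {w b₁ b₂ : V} (q : Φ.Q w = 1)
    (hw : h.o.r w ∈ K) {T : Set ι} (r₁ : IsRoot e F T b₁) (r₂ : IsRoot e F T b₂)
    (h12 : Φ.B b₁ b₂ = 0) {k : ι} (hk : k ∉ T) (wk : Φ.B (e k) w ≠ 0) (t₁ : Φ.B b₁ w ≠ 0)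
    (t₂ : Φ.B b₂ w ≠ 0) : Φ.B b₁ w ^ 2 = 1 ∨ Φ.B b₂ w ^ 2 = 1 ∨
      (Φ.B b₁ w ^ 4 - 3 * Φ.B b₁ w ^ 2 + 1 = 0 ∧ Φ.B b₁ w ^ 2 + Φ.B b₂ w ^ 2 = 3) :=
  h.o.triple (h.two_ne k) (fun a => by
    obtain ⟨n, rfl⟩ := hF a
    obtain ⟨p, hp⟩ := CharP.exists F
    have := Fact.mk (CharP.char_is_prime F p)
    obtain ⟨x, y, e⟩ := CharP.sq_add_sq F p n
    exact ⟨x, y, by simpa [sq] using e⟩) hK hE (h.Q_root r₁) (h.Q_root r₂) q h12
    (hR _ (r₁.mono (Set.subset_univ _))) (hR _ (r₂.mono (Set.subset_univ _))) hw t₁ t₂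
    (h.ne_four hK hR hE q hw r₁ r₂ h12 hk wk)

theorem false_of_tame (hE : ∀ v u, v ≠ 0 → Φ.InA K v u → Φ.Q u = 0) (hn : 7 ≤ Fintype.card ι)
    (h8 : Fintype.card ι ≠ 8) {w : V} (q : Φ.Q w = 1) (hw : h.o.r w ∈ K)
    (hw' : ¬ IsRoot e F Set.univ w) {i₀ j₀ : ι} (hij₀ : i₀ ≠ j₀) (wi : Φ.B (e i₀) w ≠ 0)
    (wj : Φ.B (e j₀) w ≠ 0) : False := by
  have h2 := h.two_ne i₀
  have h4 : (4 : F) ≠ 0 := by rw [show (4 : F) = 2 * 2 by norm_num]; exact mul_ne_zero h2 h2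
  have n4 : ∀ i j, i ≠ j → ∀ ε : F, ε * ε = 1 → (Φ.B (e i) w + ε * Φ.B (e j) w) ^ 2 ≠ 4 :=
    fun i j hij ε hε => by
      simpa only [Φ.bsimp, h.o.σ] using h.sq_ne_four hR hE q hw hw'
        (isRoot_add e (Set.mem_univ i) (Set.mem_univ j) hij hε)
  have five : ∀ x : F, x ^ 4 - 3 * x ^ 2 + 1 = 0 → x ^ 2 + x ^ 2 = 3 → x ^ 2 = 4 := fun x e1 e2 => by
    linear_combination 3 * e2 + (1 - x ^ 2) * ((2 * x ^ 2 - 3) * e2 - 4 * e1)
  have tr1 : ∀ i j k, i ≠ j → k ≠ i → k ≠ j → Φ.B (e k) w ≠ 0 → ∀ x y, x = Φ.B (e i) w →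
      y = Φ.B (e j) w → x + y ≠ 0 → x - y ≠ 0 → (x + y) ^ 2 = 1 ∨ (x - y) ^ 2 = 1 ∨
        ((x + y) ^ 4 - 3 * (x + y) ^ 2 + 1 = 0 ∧ (x + y) ^ 2 + (x - y) ^ 2 = 3) := by
    rintro i j k hij hi hj hk _ _ rfl rfl e1 e2
    simpa only [Φ.bsimp, h.o.σ, one_mul, neg_mul, ← sub_eq_add_neg] using
      h.triple hF hK hR hE q hw (T := {i, j}) (isRoot_add e (by simp) (by simp) hij (one_mul 1))
        (isRoot_add e (by simp) (by simp) hij (ε := -1) (by simp))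
        (by simp [h.one, h.perp i j hij, h.perp j i hij.symm]) (k := k) (by simp [hi, hj]) hk
        (by simpa using e1) (by simpa [← sub_eq_add_neg] using e2)
  by_cases hz : ∃ m, Φ.B (e m) w = 0
  · obtain ⟨m, hm⟩ := hz
    have key : ∀ i j, i ≠ j → Φ.B (e i) w ≠ 0 → Φ.B (e j) w ≠ 0 → Φ.B (e i) w ^ 2 = 1 :=
      fun i j hij hi hj => by
        have him : i ≠ m := fun e => hi (e ▸ hm)
        have := tr1 i m j him hij.symm (fun e => hj (e ▸ hm)) hj _ _ rfl hm.symm (by simpa using hi)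
          (by simpa using hi)
        simp only [add_zero, sub_zero, or_self_left] at this
        refine this.resolve_right fun e => n4 i m him 1 (one_mul _) ?_
        rw [hm, mul_zero, add_zero, five _ e.1 e.2]
    have e1 := key _ _ hij₀ wi wj
    have e2 := key _ _ hij₀.symm wj wi
    exact n4 _ _ hij₀ (Φ.B (e i₀) w * Φ.B (e j₀) w)
      (by linear_combination Φ.B (e j₀) w ^ 2 * e1 + e2)
      (by linear_combination 4 * e1 + Φ.B (e i₀) w ^ 2 * (Φ.B (e j₀) w ^ 2 + 3) * e2)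
  push Not at hz
  have flip : ∀ (n : ℕ) (T : Finset ι), T.card = 2 * n → T.card < Fintype.card ι →
      ∑ i ∈ T, Φ.B (e i) w ^ 2 ≠ 2 := fun n T hT hT' e2 => by
    obtain ⟨k1, q1⟩ := h.r_flip_mem hK hR hw hT
    obtain ⟨k, -, hk⟩ := Finset.exists_mem_notMem_of_card_lt_card (t := Finset.univ) hT'
    have h1 := congrArg (Φ.B (e k)) (h.o.eq_of_B_eq_neg_two hE q (q1.trans q) hw k1 (by
      rw [h.B_self_flip, e2, q]; norm_num))
    rw [h.B_flip, if_neg hk, map_neg] at h1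
    exact mul_ne_zero h2 (hz k) (by linear_combination h1)
  have bad : ∀ i j, i ≠ j → 4 * Φ.B (e i) w ^ 2 ≠ 1 → ∃ ε : F, ε * ε = 1 ∧
      Φ.B (e i) w + ε * Φ.B (e j) w ≠ 0 ∧ (Φ.B (e i) w + ε * Φ.B (e j) w) ^ 2 ≠ 1 :=
    fun i j hij hi => by
      by_contra hc
      push Not at hc
      have c1 := hc 1 (one_mul _)
      have c2 := hc (-1) (by simp)
      by_cases e1 : Φ.B (e i) w + 1 * Φ.B (e j) w = 0 <;>
        by_cases e2 : Φ.B (e i) w + -1 * Φ.B (e j) w = 0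
      · exact mul_ne_zero h2 (hz i) (by linear_combination e1 + e2)
      · exact hi (by linear_combination c2 e2 + (3 * Φ.B (e i) w - Φ.B (e j) w) * e1)
      · exact hi (by linear_combination c1 e1 + (3 * Φ.B (e i) w + Φ.B (e j) w) * e2)
      · exact mul_ne_zero h4 (mul_ne_zero (hz i) (hz j)) (by linear_combination c1 e1 - c2 e2)
  have tr2 : ∀ i j k l o, i ≠ j → k ≠ l → i ≠ k → i ≠ l → j ≠ k → j ≠ l → o ∉ ({i, j, k, l} : Set ι) →
      ∀ ε δ : F, ε * ε = 1 → δ * δ = 1 → ∀ x y, x = Φ.B (e i) w + ε * Φ.B (e j) w →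
      y = Φ.B (e k) w + δ * Φ.B (e l) w → x ≠ 0 → y ≠ 0 → x ^ 2 ≠ 1 → y ^ 2 ≠ 1 →
        x ^ 4 - 3 * x ^ 2 + 1 = 0 ∧ x ^ 2 + y ^ 2 = 3 := by
    rintro i j k l o hij hkl hik hil hjk hjl ho ε δ hε hδ _ _ rfl rfl e1 e2 e3 e4
    have := h.triple hF hK hR hE q hw (T := {i, j, k, l}) (isRoot_add e (by simp) (by simp) hij hε)
      (isRoot_add e (by simp) (by simp) hkl hδ)
      (by simp [h.perp _ _ hik, h.perp _ _ hil, h.perp _ _ hjk, h.perp _ _ hjl]) ho (hz o)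
      (by simpa [h.o.σ] using e1) (by simpa [h.o.σ] using e2)
    simp only [Φ.bsimp, h.o.σ] at this
    exact (this.resolve_left e3).resolve_left e4
  classical
  set S := Finset.univ.filter fun i => 4 * Φ.B (e i) w ^ 2 ≠ 1 with hS
  have mS : ∀ i, i ∉ S → 4 * Φ.B (e i) w ^ 2 = 1 := fun i hi => by simpa [hS] using hi
  by_cases hS3 : 2 < S.card
  · obtain ⟨i, j, k, hi, hj, hk, hij, hik, hjk⟩ := Finset.two_lt_card_iff.1 hS3
    obtain ⟨l, m, o, hl, hm, ho, hlm, hlo, hmo⟩ := exists_three_notMem {i, j, k}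
      ((Nat.add_le_add_right Finset.card_le_three 3).trans (by omega))
    simp only [Finset.mem_insert, Finset.mem_singleton, not_or] at hl hm ho
    obtain ⟨ε₁, a₁, b₁, c₁⟩ := bad i l (Ne.symm hl.1) (Finset.mem_filter.1 hi).2
    obtain ⟨ε₂, a₂, b₂, c₂⟩ := bad j m (Ne.symm hm.2.1) (Finset.mem_filter.1 hj).2
    obtain ⟨ε₃, a₃, b₃, c₃⟩ := bad k o (Ne.symm ho.2.2) (Finset.mem_filter.1 hk).2
    have d₁ := tr2 i l j m o (Ne.symm hl.1) (Ne.symm hm.2.1) hij (Ne.symm hm.1) hl.2.1 hlm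
      (by simp [ho, hlo.symm, hmo.symm]) _ _ a₁ a₂ _ _ rfl rfl b₁ b₂ c₁ c₂
    have d₂ := tr2 i l k o m (Ne.symm hl.1) (Ne.symm ho.2.2) hik (Ne.symm ho.1) hl.2.2 hlo
      (by simp [hm, hlm.symm, hmo]) _ _ a₁ a₃ _ _ rfl rfl b₁ b₃ c₁ c₃
    have d₃ := tr2 j m k o l (Ne.symm hm.2.1) (Ne.symm ho.2.2) hjk (Ne.symm ho.2.1) hm.2.2 hmo
      (by simp [hl, hlm, hlo]) _ _ a₂ a₃ _ _ rfl rfl b₂ b₃ c₂ c₃
    exact n4 i l (Ne.symm hl.1) ε₁ a₁ (five _ d₁.1 (by linear_combination d₁.2 + d₂.2 - d₃.2))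
  rcases S.eq_empty_or_nonempty with hS0 | ⟨i, hi⟩
  · have hs : ∀ T : Finset ι, 4 * ∑ i ∈ T, Φ.B (e i) w ^ 2 = T.card := fun T => by
      simp [Finset.mul_sum, mS _ (hS0 ▸ Finset.notMem_empty _)]
    have h7 : Fintype.card ι ≠ 7 := fun e7 => by
      have h1 := hs Finset.univ
      simp only [sq, ← h.B_eq, Finset.card_univ, e7, h.o.B_self, q] at h1
      exact one_ne_zero (α := F) (by push_cast at h1; linear_combination h1)
    obtain ⟨T, -, hT⟩ := Finset.exists_subset_card_eq (s := (Finset.univ : Finset ι)) (n := 2 * 4)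
      (by rw [Finset.card_univ]; omega)
    exact flip 4 T hT (by omega) (mul_left_cancel₀ h4 (by rw [hs, hT]; norm_num))
  · obtain ⟨k, l, m, hk, hl, hm, hkl, hkm, hlm⟩ := exists_three_notMem S (by omega)
    have hik : i ≠ k := fun e => hk (e ▸ hi)
    have hil : i ≠ l := fun e => hl (e ▸ hi)
    have him : i ≠ m := fun e => hm (e ▸ hi)
    have c := (Finset.mem_filter.1 hi).2
    have ck := mS k hk
    have key : ∀ ε : F, ε * ε = 1 → (Φ.B (e i) w + ε * Φ.B (e k) w) ^ 2 ≠ 1 := fun ε hε e1 => by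
      refine n4 i k hik (-ε) (by simpa using hε) (mul_left_cancel₀ (mul_ne_zero h4 (sub_ne_zero.2 c)) ?_)
      generalize Φ.B (e i) w = x at *
      generalize Φ.B (e k) w = y at *
      have e2 : 8 * x * ε * y = 3 - 4 * x ^ 2 := by
        linear_combination 4 * e1 - ck - 4 * y ^ 2 * hε
      have e3 : (4 * x ^ 2 - 1) * (4 * x ^ 2 - 9) = 0 := by
        linear_combination -(8 * x * ε * y + 3 - 4 * x ^ 2) * e2 + 16 * x ^ 2 * ck +
          64 * x ^ 2 * y ^ 2 * hε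
      linear_combination 2 * e3 + (4 * x ^ 2 - 1) * (ck + 4 * y ^ 2 * hε - e2)
    rcases tr1 i k l hik hil.symm hkl.symm (hz l) _ _ rfl rfl
      (fun e1 => c (by linear_combination ck + 4 * (Φ.B (e i) w - Φ.B (e k) w) * e1))
      (fun e1 => c (by linear_combination ck + 4 * (Φ.B (e i) w + Φ.B (e k) w) * e1)) with e1 | e1 | e1
    · exact key 1 (one_mul _) (by rwa [one_mul])
    · exact key (-1) (by simp) (by rwa [neg_one_mul, ← sub_eq_add_neg])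
    · refine flip 2 {i, k, l, m} (by simp [Finset.card_insert_of_notMem, *])
        (Finset.card_le_four.trans_lt (by omega)) (mul_left_cancel₀ h4 ?_)
      rw [Finset.sum_insert (by simp [*]), Finset.sum_insert (by simp [*]),
        Finset.sum_insert (by simp [*]), Finset.sum_singleton]
      linear_combination 2 * e1.2 + mS l hl + mS m hm

/-- A reflection group containing `W(Dₙ)` and a further reflection of the same norm. -/
theorem EG_le_of_r (hn : 7 ≤ Fintype.card ι) (h8 : Fintype.card ι ≠ 8) {w : V} (q : Φ.Q w = 1)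
    (hw : h.o.r w ∈ K) (hw' : ¬ IsRoot e F Set.univ w) (hw1 : ∀ i (c : F), w ≠ c • e i) :
    Φ.EG ≤ K := by
  obtain ⟨i, wi⟩ : ∃ i, Φ.B (e i) w ≠ 0 := by
    by_contra hc
    push Not at hc
    simp [h.ext w hc, Φ.Q_zero] at q
  obtain ⟨j, hij, wj⟩ : ∃ j, i ≠ j ∧ Φ.B (e j) w ≠ 0 := by
    by_contra hc
    push Not at hc
    refine hw1 i (Φ.B (e i) w) (h.eq_of fun j => ?_)
    by_cases e : i = j
    · simp [← e, h.one]
    · simp [hc j e, h.perp j i (Ne.symm e)]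
  by_cases h3 : (3 : F) = 0
  · obtain ⟨a, hia, hja, wa⟩ : ∃ a, i ≠ a ∧ j ≠ a ∧ Φ.B (e a) w ≠ 0 := by
      by_contra hc
      push Not at hc
      refine hw' ⟨i, trivial, j, trivial, hij, _, _, sq_eq_one_of_three hF h3 wi,
        sq_eq_one_of_three hF h3 wj, h.eq_of fun a => ?_⟩
      by_cases e1 : i = a
      · simp [← e1, h.one, h.perp i j hij]
      by_cases e2 : j = a
      · simp [← e2, h.one, h.perp j i hij.symm]
      · simp [hc a e1 e2, h.perp a i (Ne.symm e1), h.perp a j (Ne.symm e2)]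
    exact h.EG_le_three hF hK hR h3 hn h8 q hw hij hia hja wi wj wa
  by_contra hc
  refine h.false_of_tame hF hK hR (fun v u hv hu => ?_) hn h8 q hw hw' hij wi wj
  by_contra hu0
  refine hc (h.o.EG_le_of_eich hF (h.two_ne i) h3 hK hv hu hu0 fun U hU => ?_)
  obtain ⟨a, ha⟩ : ∃ a, Φ.B (e a) v ≠ 0 := by
    by_contra hc
    push Not at hc
    exact hv (h.ext v hc)
  obtain ⟨x, y, -, hx, hy, -, hxy, -⟩ := exists_three_notMem {a} (by simp; omega)
  exact eq_top_iff.2 fun z _ => h.mem_of fun b _ => h.mem_of_roots (Set.mem_univ a)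
    ⟨x, trivial, y, trivial, by simpa using hx, by simpa using hy, hxy⟩ ha
    (fun c hc hc' => hU c (hR c hc) (by simp [h.Q_root hc]) hc') (Set.mem_univ b)

end Refl

end ONB

end Fm

end Cfsg.Agent.Class.Max
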