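import Mathlib
import Cfsg.Agent.Class.Max.FrR
import Cfsg.Agent.Class.Max.C2O4

/-!
Orthonormal frames over prime fields: overgroups of the monomial group without new reflections.
-/

set_option autoImplicit false

namespace Cfsg.Agent.Class.Max

open Module

theorem conj_or_central {G : Type*} [Group G] [Finite G] {x y : G} (hx : x * x = 1) (hy : y * y = 1) :
    (∃ j : ℕ, (x * y) ^ j * x * ((x * y) ^ j)⁻¹ = y) ∨ ∃ j : ℕ, (x * y) ^ j ≠ 1 ∧
      (x * y) ^ j * (x * y) ^ j = 1 ∧ Commute ((x * y) ^ j) x ∧ Commute ((x * y) ^ j) y := by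
  have hx' : x⁻¹ = x := inv_eq_of_mul_eq_one_right hx
  have hy' : y⁻¹ = y := inv_eq_of_mul_eq_one_right hy
  have h1 : ∀ j : ℕ, x * ((x * y) ^ j)⁻¹ = (x * y) ^ j * x := fun j => by
    have : x * (x * y)⁻¹ * x⁻¹ = x * y := by rw [mul_inv_rev, hy', mul_assoc, mul_assoc, hx', hx, mul_one]
    rw [← inv_pow, ← mul_inv_eq_iff_eq_mul, ← conj_pow, this]
  have h0 := orderOf_pos (x * y)
  have h2 := pow_orderOf_eq_one (x * y)
  obtain ⟨j, hj | hj⟩ := Nat.even_or_odd' (orderOf (x * y))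
  · rw [hj, two_mul, pow_add] at h2
    have h3 : Commute ((x * y) ^ j) x := by
      rw [Commute, SemiconjBy, ← h1, inv_eq_of_mul_eq_one_right h2]
    refine Or.inr ⟨j, pow_ne_one_of_lt_orderOf (by omega) (by omega), h2, h3, ?_⟩
    have := h3.mul_right ((Commute.refl (x * y)).pow_left j)
    rwa [← mul_assoc, hx, one_mul] at this
  · refine Or.inl ⟨j, ?_⟩
    rw [hj, pow_succ, two_mul, pow_add] at h2
    rw [mul_assoc, h1, ← mul_assoc, eq_inv_of_mul_eq_one_left h2, mul_inv_rev, hx', hy', mul_assoc, hx,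
      mul_one]

variable {F V : Type*} [Field F] [AddCommGroup V] [Module F V] {ι : Type*}

namespace Fm

variable {Φ : Fm F V} {M : Subgroup (V ≃ₗ[F] V)} {e : ι → V}

theorem IsO.r_notMem [FiniteDimensional F V] (hO : Φ.IsO) (h2 : (2 : F) ≠ 0) {a : V}
    (ha : Φ.Q a ≠ 0) : hO.r a ∉ Φ.EG := fun h => by
  have h1 := mem_SLV.1 (Φ.EG_le_SLV h)
  have : (hO.r a : V →ₗ[F] V) = LinearMap.transvection (-(Φ.Q a)⁻¹ • Φ.B a) a := by
    ext x
    simp [LinearMap.transvection.apply, hO.r_apply, sub_eq_add_neg]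
  rw [this, LinearMap.transvection.det] at h1
  simp [hO.B_self, h2, ha] at h1

theorem IsO.eq_r (hO : Φ.IsO) (h2 : (2 : F) ≠ 0) {g : V ≃ₗ[F] V} (hg : g ∈ Φ.Iso) {a : V}
    (ha : g a = -a) (h : ∀ v, ∃ t : F, g v = v + t • a) : g = hO.r a := LinearEquiv.ext fun v => by
  have key : ∀ v t, g v = v + t • a → t * Φ.Q a = -Φ.B a v := fun v t ht => by
    have := Iso.B hg a v
    rw [ha, ht] at this
    simp only [Φ.bsimp, hO.B_self] at this
    exact mul_left_cancel₀ h2 (by linear_combination -this)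
  obtain ⟨t, ht⟩ := h v
  by_cases q : Φ.Q a = 0
  · have : a = 0 := Φ.nondeg a fun y => by
      obtain ⟨s, hs⟩ := h y
      simpa [q] using (key y s hs).symm
    simp [ht, this, hO.r_apply]
  · rw [ht, hO.r_apply, sub_eq_add_neg, ← neg_smul, ← mul_neg, ← key v t ht]
    congr 2
    field_simp

namespace ONB

variable (h : Φ.ONB e)
include h

theorem root_eq {T : Set ι} {w : V} (hw : IsRoot e F T w) {m : ι} (hm : Φ.B (e m) w ≠ 0) :
    ∃ l, m ≠ l ∧ ∃ ε δ : F, ε * ε = 1 ∧ δ * δ = 1 ∧ w = ε • e m + δ • e l := by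
  obtain ⟨i, -, j, -, hij, ε, δ, h1, h2, rfl⟩ := hw
  by_cases hi : m = i
  · exact ⟨j, hi ▸ hij, ε, δ, h1, h2, by rw [hi]⟩
  by_cases hj : m = j
  · exact ⟨i, hi, δ, ε, h2, h1, by rw [hj, add_comm]⟩
  · simp [h.perp m i hi, h.perp m j hj] at hm

omit h in
theorem B_root_of {T : Set ι} {c v : V} (hc : IsRoot e F T c) (hv : ∀ i ∈ T, Φ.B (e i) v = 0) :
    Φ.B c v = 0 := by
  obtain ⟨i, hi, j, hj, -, ε, δ, -, -, rfl⟩ := hc
  simp [hv i hi, hv j hj]

theorem d_apply {k l : ι} (hkl : k ≠ l) (v : V) : (h.o.r (e k) * h.o.r (e l)) v =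
    v - (2 * Φ.B (e k) v) • e k - (2 * Φ.B (e l) v) • e l := by
  simp only [mul_app, h.r_e, Φ.bsimp, h.perp k l hkl]
  module

theorem of_d_neg {k l : ι} (hkl : k ≠ l) {v : V} (hv : (h.o.r (e k) * h.o.r (e l)) v = -v) {m : ι}
    (hk : m ≠ k) (hl : m ≠ l) : Φ.B (e m) v = 0 := by
  have := congrArg (Φ.B (e m)) hv
  simp only [h.d_apply hkl, Φ.bsimp, h.perp m k hk, h.perp m l hl] at this
  exact mul_left_cancel₀ (h.two_ne k) (by linear_combination this)

theorem of_d_fix {k l : ι} (hkl : k ≠ l) {v : V} (hv : (h.o.r (e k) * h.o.r (e l)) v = v) :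
    Φ.B (e k) v = 0 ∧ Φ.B (e l) v = 0 := by
  have h1 := congrArg (Φ.B (e k)) hv
  have h2 := congrArg (Φ.B (e l)) hv
  simp only [h.d_apply hkl, Φ.bsimp, h.perp k l hkl, h.perp l k hkl.symm, h.one] at h1 h2
  exact ⟨mul_left_cancel₀ (h.two_ne k) (by linear_combination -h1),
    mul_left_cancel₀ (h.two_ne k) (by linear_combination -h2)⟩

theorem B_swap [DecidableEq ι] {i j : ι} (hij : i ≠ j) (v : V) (m : ι) :
    Φ.B (e m) (h.o.r (e i + (-1 : F) • e j) v) = Φ.B (e (Equiv.swap i j m)) v := by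
  rw [h.o.r_one (h.Q_root (isRoot_add e (Set.mem_univ i) (Set.mem_univ j) hij (by simp)))]
  by_cases hi : m = i
  · simp [hi, h.B_e, hij]
  by_cases hj : m = j
  · simp [hj, h.B_e, hij.symm]
  · simp [h.B_e, hi, hj, Equiv.swap_apply_of_ne_of_ne hi hj]

/-- A common eigenvector of the rotation subgroup of `W(D_S)` vanishes on `S`. -/
theorem eigen {S : Set ι} {x : V} (hx : ∀ a b, IsRoot e F S a → IsRoot e F S b →
    ∃ c : F, (h.o.r a * h.o.r b) x = c • x) {i j k : ι} (hi : i ∈ S) (hj : j ∈ S) (hk : k ∈ S)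
    (hij : i ≠ j) (hik : i ≠ k) (hjk : j ≠ k) : Φ.B (e i) x = 0 := by
  classical
  by_contra h0
  obtain ⟨c, hc⟩ := hx _ _ (isRoot_add e hj hk hjk (one_mul 1)) (isRoot_add e hj hk hjk (ε := -1) (by simp))
  rw [← h.r_e_mul hjk] at hc
  have h1 := congrArg (Φ.B (e i)) hc
  simp only [h.d_apply hjk, Φ.bsimp, h.perp i j hij, h.perp i k hik, mul_zero, sub_zero] at h1
  rw [← mul_left_cancel₀ h0 ((mul_one _).trans (h1.trans (mul_comm _ _))), one_smul] at hc
  obtain ⟨h2, h3⟩ := h.of_d_fix hjk hc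
  obtain ⟨c, hc⟩ := hx _ _ (isRoot_add e hi hj hij (ε := -1) (by simp))
    (isRoot_add e hj hk hjk (ε := -1) (by simp))
  have h4 := congrArg (Φ.B (e j)) hc
  rw [mul_app, h.B_swap hij, h.B_swap hjk, Equiv.swap_apply_right,
    Equiv.swap_apply_of_ne_of_ne hij hik, map_smul, h2, smul_zero] at h4
  exact h0 h4

/-- A unit vector whose orbit under the rotation subgroup of `W(D_S)` is part of a frame. -/
theorem orbit {S : Set ι} (hS : ∀ i j k l, ∃ m ∈ S, m ≠ i ∧ m ≠ j ∧ m ≠ k ∧ m ≠ l)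
    (hd : ∀ a b, IsRoot e F S a → IsRoot e F S b → h.o.r a * h.o.r b ∈ M) {v : V}
    (h0 : ∀ i, i ∉ S → Φ.B (e i) v = 0) (h1 : Φ.B v v = 1)
    (hv : ∀ m ∈ M, m v = v ∨ m v = -v ∨ Φ.B v (m v) = 0) : ∃ i, ∃ ε : F, ε * ε = 1 ∧ v = ε • e i := by
  classical
  obtain ⟨i, hi⟩ : ∃ i, Φ.B (e i) v ≠ 0 := by
    by_contra hc
    push Not at hc
    simp [h.ext v hc] at h1
  have h2 := h.two_ne i
  have mS : ∀ i, Φ.B (e i) v ≠ 0 → i ∈ S := fun i hi => by_contra fun h => hi (h0 i h)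
  have dM : ∀ i ∈ S, ∀ j ∈ S, i ≠ j → h.o.r (e i) * h.o.r (e j) ∈ M := fun i hi j hj hij => by
    rw [h.r_e_mul hij]
    exact hd _ _ (isRoot_add e hi hj hij (one_mul 1)) (isRoot_add e hi hj hij (by simp))
  have key : ∀ i j k, i ≠ j → k ≠ i → k ≠ j → j ∈ S → Φ.B (e i) v ≠ 0 → Φ.B (e k) v ≠ 0 →
      2 * (Φ.B (e i) v ^ 2 + Φ.B (e j) v ^ 2) = 1 := fun i j k hij hki hkj hj hi hk => by
    rcases hv _ (dM i (mS i hi) j hj hij) with e1 | e1 | e1
    · exact absurd (h.of_d_fix hij e1).1 hi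
    · exact absurd (h.of_d_neg hij e1 hki hkj) hk
    · simp only [h.d_apply hij, Φ.bsimp, h1, h.o.symm _ v] at e1
      linear_combination -e1
  by_cases hj : ∀ j, j ≠ i → Φ.B (e j) v = 0
  · have : v = Φ.B (e i) v • e i := h.eq_of fun j => by
      by_cases e : j = i
      · simp [e, h.one]
      · simp [hj j e, h.perp j i e]
    refine ⟨i, _, ?_, this⟩
    rw [← h1]; nth_rw 4 [this]; rw [map_smul, h.o.symm (e i) v, smul_eq_mul]
  exfalso
  push Not at hj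
  obtain ⟨j, hji, hj⟩ := hj
  by_cases hk : ∀ k, k ≠ i → k ≠ j → Φ.B (e k) v = 0
  · obtain ⟨k, hkS, hki, hkj, -⟩ := hS i j i i
    have e0 := hk k hki hkj
    have hc := fun m => (h.B_swap hki.symm (h.o.r (e j + (-1 : F) • e k) v) m).trans
      (h.B_swap hkj.symm v _)
    have c1 := hc j
    have c2 := hc i
    rw [Equiv.swap_apply_of_ne_of_ne hji hkj.symm, Equiv.swap_apply_left, e0] at c1
    rw [Equiv.swap_apply_left, Equiv.swap_apply_right] at c2
    rcases hv _ (hd _ _ (isRoot_add e (mS i hi) hkS hki.symm (ε := -1) (by simp))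
      (isRoot_add e (mS j hj) hkS hkj.symm (ε := -1) (by simp))) with e1 | e1 | e1 <;>
      rw [mul_app] at e1
    · exact hj (e1 ▸ c1)
    · rw [e1, map_neg, neg_eq_zero] at c1; exact hj c1
    · have : v = Φ.B (e i) v • e i + Φ.B (e j) v • e j := h.eq_of fun m => by
        by_cases e1 : m = i
        · simp [e1, h.one, h.perp i j hji.symm]
        by_cases e2 : m = j
        · simp [e2, h.one, h.perp j i hji]
        · simp [hk m e1 e2, h.perp m i e1, h.perp m j e2]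
      nth_rw 1 [this] at e1
      simp only [Φ.B_add_left, h.o.B_smul_left, c1, c2, mul_zero, add_zero] at e1
      exact mul_ne_zero hi hj e1
  push Not at hk
  obtain ⟨k, hki, hkj, hk⟩ := hk
  obtain ⟨l, hlS, hli, hlj, hlk, -⟩ := hS i j k k
  obtain ⟨m, hmS, hmi, hmj, hmk, hml⟩ := hS i j k l
  have e1 := key i j k hji.symm hki hkj (mS j hj) hi hk
  have e2 := key i k j hki.symm hji hkj.symm (mS k hk) hi hj
  have e3 := key j k i hkj.symm hji.symm hki.symm (mS k hk) hj hi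
  have e4 := key k l i hlk.symm hki.symm hli.symm hlS hk hi
  have e5 := key i m j hmi.symm hji hmj.symm hmS hi hj
  have hm : Φ.B (e m) v ≠ 0 := fun e0 => one_ne_zero (α := F) (by
    rw [e0] at e5; linear_combination e1 + e2 - e3 - 2 * e5)
  have s := And.intro h.one (And.intro (h.perp _ _ hki.symm) (And.intro (h.perp _ _ hli.symm)
    (And.intro (h.perp _ _ hkj.symm) (And.intro (h.perp _ _ hlj.symm) (And.intro (h.perp _ _ hmi)
    (And.intro (h.perp _ _ hmj) (And.intro (h.perp _ _ hmk) (And.intro (h.perp _ _ hml)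
      (h.perp _ _ hji.symm)))))))))
  rcases hv _ (M.mul_mem (dM i (mS i hi) j (mS j hj) hji.symm) (dM k (mS k hk) l hlS hlk.symm)) with
    e6 | e6 | e6 <;> rw [mul_app, h.d_apply hji.symm, h.d_apply hlk.symm] at e6
  · have := congrArg (Φ.B (e i)) e6
    simp only [Φ.bsimp, s] at this
    exact mul_ne_zero h2 hi (by linear_combination -this)
  · have := congrArg (Φ.B (e m)) e6
    simp only [Φ.bsimp, s] at this
    exact mul_ne_zero h2 hm (by linear_combination this)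
  · simp only [Φ.bsimp, s, h1, h.o.symm _ v] at e6
    exact one_ne_zero (α := F) (by linear_combination -e6 - e1 - e4)

/-- The monomial isometries. -/
def mon [Finite ι] : Subgroup (V ≃ₗ[F] V) where
  carrier := {g | g ∈ Φ.Iso ∧ ∀ i, ∃ j, ∃ ε : F, ε * ε = 1 ∧ g (e i) = ε • e j}
  mul_mem' := by
    rintro g g' ⟨h1, h2⟩ ⟨h3, h4⟩
    refine ⟨Φ.Iso.mul_mem h1 h3, fun i => ?_⟩
    obtain ⟨j, ε, e1, e2⟩ := h4 i
    obtain ⟨k, δ, e3, e4⟩ := h2 j
    exact ⟨k, ε * δ, by linear_combination δ * δ * e1 + e3, by rw [mul_app, e2, map_smul, e4, smul_smul]⟩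
  one_mem' := ⟨Φ.Iso.one_mem, fun i => ⟨i, 1, one_mul _, by simp⟩⟩
  inv_mem' := by
    rintro g ⟨h1, h2⟩
    choose σ ε e1 e2 using h2
    have : Function.Injective σ := fun i j hij => by
      by_contra hc
      have := Iso.B h1 (e i) (e j)
      simp [e2, hij, h.one, h.perp i j hc, left_ne_zero_of_mul_eq_one (e1 _)] at this
    refine ⟨Φ.Iso.inv_mem h1, fun j => ?_⟩
    obtain ⟨i, rfl⟩ := Finite.injective_iff_surjective.1 this j
    exact ⟨i, ε i, e1 i, inv_app_of_eq (by rw [map_smul, e2, smul_smul, e1, one_smul])⟩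

theorem mon_of_roots [Fintype ι] (hn : 5 ≤ Fintype.card ι) {g : V ≃ₗ[F] V} (hg : g ∈ Φ.Iso)
    (hr : ∀ c, IsRoot e F Set.univ c → IsRoot e F Set.univ (g c)) : g ∈ h.mon := by
  refine ⟨hg, fun i => ?_⟩
  have h2 := h.two_ne i
  obtain ⟨j, hji, -⟩ := exists_third (by omega) i i
  have r := fun j (hj : j ≠ i) (ε : F) (hε : ε * ε = 1) =>
    hr _ (isRoot_add e (Set.mem_univ i) (Set.mem_univ j) hj.symm hε)
  have s := And.intro h.one (And.intro (h.perp _ _ hji) (h.perp _ _ hji.symm))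
  have rα := r j hji 1 (one_mul 1)
  have rβ := r j hji (-1) (by simp)
  have h0 : Φ.B (g (e i + (1 : F) • e j)) (g (e i + (-1 : F) • e j)) = 0 := by
    simp only [Iso.B hg, Φ.bsimp, s]; ring
  have h1 : (2 : F) • g (e i) = g (e i + (1 : F) • e j) + g (e i + (-1 : F) • e j) := by
    simp only [map_add, map_smul]; module
  have h1' : (2 : F) • g (e j) = g (e i + (1 : F) • e j) - g (e i + (-1 : F) • e j) := by
    simp only [map_add, map_smul]; module
  have h3 : ∀ s, s ≠ i → s ≠ j → Φ.B (g (e i + (1 : F) • e j)) (g (e i + (1 : F) • e s)) = 1 ∧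
      Φ.B (g (e i + (-1 : F) • e j)) (g (e i + (1 : F) • e s)) = 1 := fun t h1 h2 => by
    simp only [Iso.B hg, Φ.bsimp, s, h.perp _ _ h1.symm, h.perp _ _ h2.symm]
    constructor <;> ring
  generalize g (e i + (1 : F) • e j) = α at *
  generalize g (e i + (-1 : F) • e j) = β at *
  by_cases hc : ∃ l, Φ.B (e l) α ≠ 0 ∧ Φ.B (e l) β ≠ 0
  · obtain ⟨l, h4, h5⟩ := hc
    obtain ⟨b, hb, ε, δ, e1, e2, rfl⟩ := h.root_eq rα h4
    obtain ⟨d, hd, ε', δ', e3, e4, rfl⟩ := h.root_eq rβ h5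
    simp only [Φ.bsimp, h.o.σ, h.one, h.perp _ _ hb.symm, h.perp _ _ hd] at h0
    have hbd : b = d := by_contra fun hbd => by
      simp [h.perp _ _ hbd, left_ne_zero_of_mul_eq_one e1, left_ne_zero_of_mul_eq_one e3] at h0
    subst hbd
    rw [h.one] at h0
    rcases mul_self_eq_mul_self_iff.1 (e3.trans e1.symm) with e5 | e5
    · refine ⟨l, ε, e1, smul_right_injective V h2 (h1.trans ?_)⟩
      rw [e5, show δ' = -δ by rw [e5] at h0; linear_combination δ * h0 - δ' * e2 - δ * e1]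
      module
    · refine ⟨b, δ, e2, smul_right_injective V h2 (h1.trans ?_)⟩
      rw [e5, show δ' = δ by rw [e5] at h0; linear_combination δ * h0 - δ' * e2 + δ * e1]
      module
  exfalso
  push Not at hc
  obtain ⟨m, m1, m2⟩ : ∃ m, Φ.B (e m) α = 0 ∧ Φ.B (e m) β = 0 := by
    obtain ⟨a, -, b, -, -, ε, δ, -, -, rfl⟩ := rα
    obtain ⟨c, -, d, -, -, ε', δ', -, -, rfl⟩ := rβ
    obtain ⟨m, h4, h5, h6, h7⟩ := exists_fifth hn a b c d
    exact ⟨m, by simp [h.perp _ _ h4, h.perp _ _ h5], by simp [h.perp _ _ h6, h.perp _ _ h7]⟩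
  have mi : Φ.B (e m) (g (e i)) = 0 := by simpa [m1, m2, h2] using congrArg (Φ.B (e m)) h1
  have h4 : g⁻¹ (e m) = 0 := h.ext _ fun t => by
    rw [Iso.B_inv hg, h.o.symm]
    by_cases ti : t = i
    · rwa [ti]
    by_cases tj : t = j
    · simpa [m1, m2, h2, tj] using congrArg (Φ.B (e m)) h1'
    by_contra h5
    obtain ⟨l, -, ε, δ, -, -, e1⟩ := h.root_eq (r t ti 1 (one_mul 1)) (m := m) (by simpa [mi] using h5)
    obtain ⟨h6, h7⟩ := h3 t ti tj
    simp only [e1, Φ.bsimp, h.o.symm _ α, h.o.symm _ β, m1, m2, mul_zero, zero_add] at h6 h7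
    exact right_ne_zero_of_mul_eq_one h7 (hc l (right_ne_zero_of_mul_eq_one h6))
  simpa [(map_eq_zero_iff _ (g⁻¹).injective).1 h4] using h.one m

theorem supp_of_mon [Finite ι] {a : V} (ha : Φ.Q a ≠ 0) (hm : h.o.r a ∈ h.mon) :
    ∃ i j, ∀ m, m ≠ i → m ≠ j → Φ.B (e m) a = 0 := by
  obtain ⟨i, hi⟩ : ∃ i, Φ.B (e i) a ≠ 0 := by
    by_contra hc
    push Not at hc
    simp [h.ext a hc, Φ.Q_zero] at ha
  obtain ⟨j, ε, -, e1⟩ := hm.2 i
  refine ⟨i, j, fun m h1 h2 => ?_⟩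
  have := congrArg (Φ.B (e m)) e1
  simpa [h.o.r_apply, h.perp _ _ h1, h.perp _ _ h2, ha, h.o.symm (e i) a, hi] using this

theorem r_e_mon [Finite ι] (k : ι) : h.o.r (e k) ∈ h.mon := ⟨h.o.r_mem_Iso _, fun i => by
  by_cases hi : i = k
  · exact ⟨k, -1, by simp, by rw [hi, h.r_e, h.one]; module⟩
  · exact ⟨i, 1, by simp, by rw [h.o.r_of_perp (h.perp _ _ (Ne.symm hi)), one_smul]⟩⟩

theorem r_root_mon [Finite ι] {k l : ι} (hkl : k ≠ l) {ε : F} (hε : ε * ε = 1) :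
    h.o.r (e k + ε • e l) ∈ h.mon := ⟨h.o.r_mem_Iso _, fun i => by
  rw [h.o.r_one (h.Q_root (isRoot_add e (Set.mem_univ k) (Set.mem_univ l) hkl hε))]
  by_cases hk : i = k
  · exact ⟨l, -ε, by simpa using hε, by simp [hk, h.one, h.perp _ _ hkl.symm]⟩
  by_cases hl : i = l
  · refine ⟨k, -ε, by simpa using hε, ?_⟩
    simp [hl, h.one, h.perp _ _ hkl, h.o.σ, smul_smul, hε]
  · exact ⟨i, 1, by simp, by simp [h.perp _ _ (Ne.symm hk), h.perp _ _ (Ne.symm hl)]⟩⟩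

theorem r_mon [Finite ι] {c : V} (hc : IsRoot e F Set.univ c) : h.o.r c ∈ h.mon := by
  obtain ⟨i, -, j, -, hij, ε, δ, e1, e2, rfl⟩ := hc
  rw [show ε • e i + δ • e j = ε • (e i + (ε * δ) • e j) by
    rw [smul_add, smul_smul, ← mul_assoc, e1, one_mul], h.o.r_smul (left_ne_zero_of_mul_eq_one e1)]
  exact h.r_root_mon hij (by linear_combination δ * δ * e1 + e2)

end ONB

variable (Φ e M) in
/-- A subgroup of `Ω` containing the rotation subgroup of `W(Dₙ)` and no new pairs of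
reflections. -/
structure FSet [Fintype ι] : Prop extends Φ.ONB e where
  prime : ∀ a : F, ∃ n : ℕ, a = n
  seven : 7 ≤ Fintype.card ι
  rr : ∀ a b, IsRoot e F Set.univ a → IsRoot e F Set.univ b → o.r a * o.r b ∈ M
  le : M ≤ Φ.EG
  cls : ∀ a w, IsRoot e F Set.univ a → Φ.Q w = 1 → o.r a * o.r w ∈ M →
    IsRoot e F Set.univ w ∨ ∃ i, ∃ c : F, w = c • e i

namespace FSet

variable [Fintype ι] (h : Φ.FSet M e)
include h

theorem iso {g : V ≃ₗ[F] V} (hg : g ∈ M) : g ∈ Φ.Iso := Φ.EG_le_Iso (h.le hg)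

theorem rr' {S : Set ι} (a b : V) (ha : IsRoot e F S a) (hb : IsRoot e F S b) :
    h.o.r a * h.o.r b ∈ M := h.rr a b (ha.mono (Set.subset_univ _)) (hb.mono (Set.subset_univ _))

theorem d_mem {k l : ι} (hkl : k ≠ l) : h.o.r (e k) * h.o.r (e l) ∈ M := by
  rw [h.r_e_mul hkl]
  exact h.rr _ _ (isRoot_add e trivial trivial hkl (one_mul 1) (T := Set.univ))
    (isRoot_add e trivial trivial hkl (by simp) (T := Set.univ))

theorem conj_rr {g : V ≃ₗ[F] V} (hg : g ∈ M) (a b : V) :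
    h.o.r (g a) * h.o.r (g b) = g * (h.o.r a * h.o.r b) * g⁻¹ := by
  rw [← h.o.conj_r (h.iso hg), ← h.o.conj_r (h.iso hg)]; group

theorem mon_of_root {g : V ≃ₗ[F] V} (hg : g ∈ M) {a : V} (ha : IsRoot e F Set.univ a)
    (ha' : IsRoot e F Set.univ (g a)) : g ∈ h.mon := by
  have key : ∀ b, IsRoot e F Set.univ b → IsRoot e F Set.univ (g b) ∨ ∃ i, ∃ c : F, c * c = 2 ∧
      g b = c • e i := fun b hb => by
    have q : Φ.Q (g b) = 1 := by rw [Iso.Q (h.iso hg), h.Q_root hb]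
    refine (h.cls _ _ ha' q ?_).imp_right fun ⟨i, c, e1⟩ => ⟨i, c, ?_, e1⟩
    · rw [h.conj_rr hg]; exact M.mul_mem (M.mul_mem hg (h.rr a b ha hb)) (M.inv_mem hg)
    · have := h.o.B_self (g b)
      rw [q, e1] at this
      simpa [h.o.σ, h.one] using this
  refine h.mon_of_roots (by have := h.seven; omega) (h.iso hg) fun b hb =>
    (key b hb).resolve_right fun ⟨i, c, e1, e2⟩ => ?_
  obtain ⟨p, -, q, -, hpq, ε, δ, e3, e4, rfl⟩ := hb
  obtain ⟨s, hp, hq⟩ := exists_third (by have := h.seven; omega) p q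
  have h1 : Φ.B (g (ε • e p + δ • e q)) (g (ε • e p + (1 : F) • e s)) = 1 := by
    simp [Iso.B (h.iso hg), -map_add, -map_smul, Φ.bsimp, h.one, h.o.σ, h.perp _ _ hpq.symm,
      h.perp _ _ hp.symm, h.perp _ _ hq.symm, e3]
  rw [e2, h.o.B_smul_left] at h1
  rcases key _ ⟨p, trivial, s, trivial, hp.symm, ε, 1, e3, one_mul _, rfl⟩ with h2 | ⟨j, c', e5, e6⟩
  · obtain ⟨l, hl, ε', δ', e5, -, e6⟩ := h.root_eq h2 (right_ne_zero_of_mul_eq_one h1)
    simp only [e6, Φ.bsimp, h.one, h.perp _ _ hl] at h1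
    exact one_ne_zero (α := F) (by linear_combination (c * ε' + 1) * h1 - ε' * ε' * e1 - 2 * e5)
  · have hij : i = j := by_contra fun hij => by
      rw [e6] at h1; simp [h.perp _ _ hij] at h1
    simp only [e6, Φ.bsimp, hij, h.one] at h1
    have := sq_eq_one_of_three h.prime
      (by linear_combination (c * c' + 1) * h1 - c' * c' * e1 - 2 * e5) (left_ne_zero_of_mul_eq_one h1)
    exact one_ne_zero (α := F) (by linear_combination this - e1)

theorem mon_of_fix {g : V ≃ₗ[F] V} (hg : g ∈ M) {a : V} (ha : IsRoot e F Set.univ a) (h1 : g a = a) :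
    g ∈ h.mon := h.mon_of_root hg ha (h1.symm ▸ ha)

theorem partner {g : V ≃ₗ[F] V} (hg : g ∈ M) {p q : ι} (hpq : p ≠ q) {ε δ : F} (hε : ε * ε = 1)
    (hδ : δ * δ = 1) {S : Set ι} (h0 : ∀ i ∈ S, Φ.B (e i) (g (ε • e p + δ • e q)) = 0) {i j k : ι}
    (hi : i ∈ S) (hj : j ∈ S) (hk : k ∈ S) (hij : i ≠ j) (hik : i ≠ k) (hjk : j ≠ k) :
    Φ.B (e i) (g (e p)) = 0 ∧ Φ.B (e i) (g (e q)) = 0 := by
  have h1 : Φ.B (e i) (g (ε • e p - δ • e q)) = 0 := by
    refine h.eigen (fun a b ha hb => ?_) hi hj hk hij hik hjk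
    have hm := M.mul_mem (M.mul_mem (M.inv_mem hg) (h.rr' a b ha hb)) hg
    have h2 : (g⁻¹ * (h.o.r a * h.o.r b) * g) (ε • e p + δ • e q) = ε • e p + δ • e q := by
      rw [mul_app, mul_app, mul_app, h.o.r_of_perp (ONB.B_root_of hb h0),
        h.o.r_of_perp (ONB.B_root_of ha h0), inv_app_app]
    obtain ⟨u, η, e1, e2⟩ := (h.mon_of_fix hm
      ⟨p, trivial, q, trivial, hpq, ε, δ, hε, hδ, rfl⟩ h2).2 p
    have h3 := Iso.B (h.iso hm) (e p) (ε • e p + δ • e q)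
    rw [h2, e2] at h3
    simp only [Φ.bsimp, h.o.σ, h.one, h.perp _ _ hpq] at h3
    have h4 : ∀ c : F, (g⁻¹ * (h.o.r a * h.o.r b) * g) (ε • e p - δ • e q) = c • (ε • e p - δ • e q) →
        (h.o.r a * h.o.r b) (g (ε • e p - δ • e q)) = c • g (ε • e p - δ • e q) := fun c hc => by
      rw [← map_smul, ← hc]; exact (app_inv_app g _).symm
    have h5 : (g⁻¹ * (h.o.r a * h.o.r b) * g) (ε • e p - δ • e q) =
        (2 * ε * η) • e u - (ε • e p + δ • e q) := by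
      rw [← h2, mul_smul, ← e2, ← map_smul, ← map_sub]; congr 1; module
    by_cases hp : u = p
    · refine ⟨1, h4 1 ?_⟩
      simp only [hp, h.one, h.perp _ _ hpq] at h3
      rw [h5, hp, show 2 * ε * η = 2 * ε by linear_combination 2 * h3]
      module
    by_cases hq : u = q
    · refine ⟨-1, h4 (-1) ?_⟩
      simp only [hq, h.one, h.perp _ _ hpq.symm] at h3
      rw [h5, hq, show 2 * ε * η = 2 * δ by
        linear_combination -2 * ε * η * hδ + 2 * ε * δ * h3 + 2 * δ * hε]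
      module
    · simp [h.perp _ _ hp, h.perp _ _ hq, left_ne_zero_of_mul_eq_one hε, eq_comm] at h3
  have h2 := h0 i hi
  simp only [map_add, map_sub, map_smul, smul_eq_mul] at h1 h2
  exact ⟨mul_left_cancel₀ (mul_ne_zero (h.two_ne i) (left_ne_zero_of_mul_eq_one hε))
      (by linear_combination h1 + h2),
    mul_left_cancel₀ (mul_ne_zero (h.two_ne i) (left_ne_zero_of_mul_eq_one hδ))
      (by linear_combination h2 - h1)⟩

theorem exists_notMem (i j k l m n : ι) : ∃ o, o ≠ i ∧ o ≠ j ∧ o ≠ k ∧ o ≠ l ∧ o ≠ m ∧ o ≠ n := by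
  classical
  simpa using Finset.exists_mem_notMem_of_card_lt_card (s := {i, j, k, l, m, n}) (t := Finset.univ)
    (Finset.card_le_six.trans_lt h.seven)

theorem mon_of_conj {g : V ≃ₗ[F] V} (hg : g ∈ M) (k l : ι) {S : Set ι}
    (hS : ∀ i, i ≠ k → i ≠ l → i ∈ S) (h0 : ∀ a ∈ S, ∀ i, i ∉ S → Φ.B (e i) (g (e a)) = 0)
    (h1 : ∀ a b, IsRoot e F S a → IsRoot e F S b → g⁻¹ * (h.o.r a * h.o.r b) * g ∈ h.mon) :
    g ∈ h.mon := by
  have key : ∀ a ∈ S, ∃ i, ∃ ε : F, ε * ε = 1 ∧ g (e a) = ε • e i := fun a ha =>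
    h.orbit (M := h.mon.comap (MulAut.conj g⁻¹).toMonoidHom) (fun i j i' j' =>
      let ⟨o, h1, h2, h3, h4, h5, h6⟩ := h.exists_notMem i j i' j' k l
      ⟨o, hS o h5 h6, h1, h2, h3, h4⟩) (fun a b ha hb => by simpa using h1 a b ha hb) (h0 a ha)
      (by rw [Iso.B (h.iso hg), h.one]) fun m hm => by
        obtain ⟨j, ε, e1, e2⟩ := hm.2 a
        have e3 : m (g (e a)) = ε • g (e j) := by
          rw [← map_smul, ← e2]; exact (app_inv_app g _).symm
        by_cases hj : a = j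
        · rcases mul_self_eq_one_iff.1 e1 with e4 | e4
          · exact Or.inl (by rw [e3, e4, one_smul, hj])
          · exact Or.inr (Or.inl (by rw [e3, e4, neg_one_smul, hj]))
        · exact Or.inr (Or.inr (by simp [e3, Iso.B (h.iso hg), h.perp _ _ hj]))
  obtain ⟨a, a1, a2, -⟩ := h.exists_notMem k l k k k k
  obtain ⟨b, b1, b2, b3, -⟩ := h.exists_notMem k l a k k k
  obtain ⟨i, ε, e1, e2⟩ := key a (hS a a1 a2)
  obtain ⟨j, δ, e3, e4⟩ := key b (hS b b1 b2)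
  refine h.mon_of_root hg (isRoot_add e trivial trivial b3.symm (one_mul 1) (T := Set.univ))
    ⟨i, trivial, j, trivial, fun hij => ?_, ε, δ, e1, e3, by rw [one_smul, map_add, e2, e4]⟩
  have := Iso.B (h.iso hg) (e a) (e b)
  simp [e2, e4, hij, h.one, h.perp _ _ b3.symm, left_ne_zero_of_mul_eq_one e1,
    left_ne_zero_of_mul_eq_one e3] at this

theorem mon_of_commute {z : V ≃ₗ[F] V} (hz : z ∈ M) {k l : ι} (hkl : k ≠ l)
    (hc : Commute z (h.o.r (e k) * h.o.r (e l))) : z ∈ h.mon := by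
  have h1 : ∀ v, (h.o.r (e k) * h.o.r (e l)) (z v) = z ((h.o.r (e k) * h.o.r (e l)) v) := fun v => by
    rw [← mul_app, ← hc.eq, mul_app]
  refine h.mon_of_conj hz k l (S := {i | i ≠ k ∧ i ≠ l}) (fun i h1 h2 => ⟨h1, h2⟩)
    (fun a ha i hi => ?_) fun a b ha hb => h.mon_of_fix
      (M.mul_mem (M.mul_mem (M.inv_mem hz) (h.rr' a b ha hb)) hz)
      (isRoot_add e trivial trivial hkl (one_mul 1) (T := Set.univ)) ?_
  · have := h.of_d_fix hkl (v := z (e a)) (by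
      simp [h1, h.d_apply hkl, h.perp _ _ ha.1.symm, h.perp _ _ ha.2.symm])
    by_cases hk : i = k
    · exact hk ▸ this.1
    · exact (by simpa [hk] using hi : i = l) ▸ this.2
  · have : ∀ i ∈ {i | i ≠ k ∧ i ≠ l}, Φ.B (e i) (z (e k + (1 : F) • e l)) = 0 := fun i hi =>
      h.of_d_neg hkl (by
        rw [h1, ← map_neg, h.d_apply hkl]
        simp only [Φ.bsimp, h.one, h.perp _ _ hkl, h.perp _ _ hkl.symm]
        congr 1; module) hi.1 hi.2
    rw [mul_app, mul_app, mul_app, h.o.r_of_perp (ONB.B_root_of hb this),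
      h.o.r_of_perp (ONB.B_root_of ha this), inv_app_app]

variable [FiniteDimensional F V]

theorem exists_local {z : V ≃ₗ[F] V} (hz : z ∈ M) (h1 : z * z = 1) {k l : ι} (hkl : k ≠ l)
    (hc : Commute z (h.o.r (e k) * h.o.r (e l))) : ∃ y ∈ h.mon, y * y = 1 ∧ y (e k) = z (e k) ∧
      y (e l) = z (e l) ∧ (∀ v, Φ.B (e k) v = 0 → Φ.B (e l) v = 0 → y v = v) ∧
      (y = 1 ∨ y = h.o.r (e k) * h.o.r (e l) ∨ (y ∉ Φ.EG ∧ ∀ v, z v = v ∨ z v = -v →
        Φ.B (e k) v = 0 ∨ Φ.B (e l) v = 0 ∨ Φ.B (e k) v ^ 2 = Φ.B (e l) v ^ 2)) := by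
  have h2 := h.two_ne k
  have hm := h.mon_of_commute hz hkl hc
  have h3 : ∀ v, z (z v) = v := fun v => by rw [← mul_app, h1]; rfl
  have h4 : ∀ i v, Φ.B (e i) (z v) = Φ.B (z (e i)) v := fun i v => by
    rw [← Iso.B hm.1 (e i), h3]
  have s := And.intro h.one (And.intro (h.perp _ _ hkl) (h.perp _ _ hkl.symm))
  have h5 : ∀ i, i = k ∨ i = l → ∃ j, (j = k ∨ j = l) ∧ ∃ ε : F, ε * ε = 1 ∧ z (e i) = ε • e j :=
    fun i hi => by
      obtain ⟨j, ε, e1, e2⟩ := hm.2 i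
      refine ⟨j, by_contra fun hj => ?_, ε, e1, e2⟩
      push Not at hj
      have := h.of_d_neg hkl (v := z (e i)) (by
        rw [← mul_app, ← hc.eq, mul_app, ← map_neg, h.d_apply hkl]
        rcases hi with rfl | rfl <;> simp only [s] <;> congr 1 <;> module) hj.1 hj.2
      simp [e2, h.one, left_ne_zero_of_mul_eq_one e1] at this
  have q := fun i => (h.Q_e i).trans_ne (inv_ne_zero h2)
  obtain ⟨i, hi, ε, e1, e2⟩ := h5 k (Or.inl rfl)
  rcases hi with rfl | rfl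
  · obtain ⟨j, hj, δ, e3, e4⟩ := h5 l (Or.inr rfl)
    obtain rfl : j = l := hj.resolve_left fun hj => by
      have := Iso.B hm.1 (e i) (e l)
      simp [e2, e4, hj, s, left_ne_zero_of_mul_eq_one e1, left_ne_zero_of_mul_eq_one e3] at this
    rcases mul_self_eq_one_iff.1 e1 with rfl | rfl <;> rcases mul_self_eq_one_iff.1 e3 with rfl | rfl
    · exact ⟨1, h.mon.one_mem, mul_one _, by simp [e2], by simp [e4], fun _ _ _ => rfl, Or.inl rfl⟩
    · refine ⟨_, h.r_e_mon j, h.o.r_mul_self _, by simp [e2, h.r_e, s], by simp [e4, h.o.r_self (q j)],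
        fun v _ => h.o.r_of_perp, Or.inr (Or.inr ⟨h.o.r_notMem h2 (q j), fun v hv => ?_⟩)⟩
      have e5 := h4 i v
      have e6 := h4 j v
      rcases hv with hv | hv <;> simp only [hv, e2, e4, Φ.bsimp] at e5 e6
      · exact Or.inr (Or.inl (mul_left_cancel₀ h2 (by linear_combination e6)))
      · exact Or.inl (mul_left_cancel₀ h2 (by linear_combination -e5))
    · refine ⟨_, h.r_e_mon i, h.o.r_mul_self _, by simp [e2, h.o.r_self (q i)], by simp [e4, h.r_e, s],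
        fun v hv _ => h.o.r_of_perp hv, Or.inr (Or.inr ⟨h.o.r_notMem h2 (q i), fun v hv => ?_⟩)⟩
      have e5 := h4 i v
      have e6 := h4 j v
      rcases hv with hv | hv <;> simp only [hv, e2, e4, Φ.bsimp] at e5 e6
      · exact Or.inl (mul_left_cancel₀ h2 (by linear_combination e5))
      · exact Or.inr (Or.inl (mul_left_cancel₀ h2 (by linear_combination -e6)))
    · refine ⟨_, h.mon.mul_mem (h.r_e_mon i) (h.r_e_mon j), LinearEquiv.ext fun v => ?_, ?_, ?_,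
        fun v h1 h2 => by simp [h.d_apply hkl, h1, h2], Or.inr (Or.inl rfl)⟩
      all_goals simp only [mul_app _ (_ * _), h.d_apply hkl, Φ.bsimp, s, e2, e4, LinearEquiv.coe_one, id]
      all_goals module
  · have e3 : z (e i) = ε • e k := by rw [← h3 (e k), e2, map_smul, smul_smul, e1, one_smul]
    have e4 : -ε * -ε = 1 := by simpa using e1
    have qr := h.Q_root (isRoot_add e (Set.mem_univ k) (Set.mem_univ i) hkl e4)
    refine ⟨_, h.r_root_mon hkl e4, h.o.r_mul_self _, by rw [h.o.r_one qr]; simp [s, e2], ?_,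
      fun v h1 h2 => h.o.r_of_perp (by simp [h1, h2]),
      Or.inr (Or.inr ⟨h.o.r_notMem h2 (qr ▸ one_ne_zero), fun v hv => Or.inr (Or.inr ?_)⟩)⟩
    · rw [h.o.r_one qr]; simp [s, e3, h.o.σ, smul_smul, e1]
    · have e5 := h4 k v
      rcases hv with hv | hv <;> simp only [hv, e2, Φ.bsimp, h.o.σ] at e5
      · linear_combination (Φ.B (e k) v + ε * Φ.B (e i) v) * e5 + Φ.B (e i) v ^ 2 * e1
      · linear_combination (-Φ.B (e k) v + ε * Φ.B (e i) v) * e5 + Φ.B (e i) v ^ 2 * e1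

theorem core {z : V ≃ₗ[F] V} (hz : z ∈ M) (h1 : z * z = 1) (h0 : z ≠ 1) {k l : ι} (hkl : k ≠ l)
    (hc : Commute z (h.o.r (e k) * h.o.r (e l))) (hd : z ≠ h.o.r (e k) * h.o.r (e l))
    {P : Submodule F V} (hU : ∀ v, z v - v ∈ P ⊔ Submodule.span F {e k, e l}) {a : V}
    (ha : z a = -a) (hP : ∀ v ∈ P, ∃ α : F, z (v - α • a) = v - α • a) :
    a ≠ 0 ∧ (∀ v, z v = v ∨ z v = -v →
      Φ.B (e k) v = 0 ∨ Φ.B (e l) v = 0 ∨ Φ.B (e k) v ^ 2 = Φ.B (e l) v ^ 2) ∧
      ∃ i j, ∀ m, m ≠ k → m ≠ l → m ≠ i → m ≠ j → Φ.B (e m) a = 0 := by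
  have h2 := h.two_ne k
  obtain ⟨y, hy, y1, yk, yl, y2, y3⟩ := h.exists_local hz h1 hkl hc
  have h3 : ∀ v, z (z v) = v := fun v => by rw [← mul_app, h1]; rfl
  have h4 : ∀ u v, Φ.B u (z v) = Φ.B (z u) v := fun u v => by rw [← Iso.B (h.iso hz) u, h3]
  have s := And.intro h.one (And.intro (h.perp _ _ hkl) (h.perp _ _ hkl.symm))
  have hA : ∀ v, Φ.B (e k) v = 0 → Φ.B (e l) v = 0 → Φ.B (e k) (z v) = 0 ∧ Φ.B (e l) (z v) = 0 :=
    fun v e1 e2 => by rw [h4, h4, ← yk, ← yl, ← y2 v e1 e2, Iso.B hy.1, Iso.B hy.1]; exact ⟨e1, e2⟩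
  have hA' : ∀ m, m ≠ k → m ≠ l → Φ.B (e m) (z (e k)) = 0 ∧ Φ.B (e m) (z (e l)) = 0 := fun m e1 e2 => by
    rw [h4, h4, h.o.symm (e k), h.o.symm (e l)]
    exact hA _ (h.perp _ _ e1.symm) (h.perp _ _ e2.symm)
  have ext : ∀ u v, Φ.B (e k) u = Φ.B (e k) v → Φ.B (e l) u = Φ.B (e l) v →
      (∀ m, m ≠ k → m ≠ l → Φ.B (e m) u = Φ.B (e m) v) → u = v := fun u v e1 e2 e3 =>
    h.eq_of fun m => by
      by_cases hk : m = k
      · rwa [hk]
      by_cases hl : m = l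
      · rwa [hl]
      · exact e3 m hk hl
  obtain ⟨a', ha'⟩ : ∃ a', a' = a - Φ.B (e k) a • e k - Φ.B (e l) a • e l := ⟨_, rfl⟩
  have ak : Φ.B (e k) a' = 0 := by simp [ha', s]
  have al : Φ.B (e l) a' = 0 := by simp [ha', s]
  have am : ∀ m, m ≠ k → m ≠ l → Φ.B (e m) a' = Φ.B (e m) a := fun m e1 e2 => by
    simp [ha', h.perp _ _ e1, h.perp _ _ e2]
  have hB : ∀ v, Φ.B (e k) v = 0 → Φ.B (e l) v = 0 → ∃ t : F, z v = v + t • a' := fun v e1 e2 => by
    obtain ⟨p, hp, w, hw, e3⟩ := Submodule.mem_sup.1 (hU v)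
    obtain ⟨α, e4⟩ := hP p hp
    obtain ⟨β, γ, rfl⟩ := Submodule.mem_span_pair.1 hw
    have e5 := congrArg z e3
    rw [map_sub, map_smul, ha, sub_eq_iff_eq_add] at e4
    simp only [map_add, map_sub, map_smul, h3, e4] at e5
    refine ⟨α, ext _ _ (by simp [hA v e1 e2, e1, ak]) (by simp [hA v e1 e2, e2, al]) fun m m1 m2 => ?_⟩
    have e6 := congrArg (Φ.B (e m)) e3
    have e7 := congrArg (Φ.B (e m)) e5
    simp only [Φ.bsimp, h.perp _ _ m1, h.perp _ _ m2, hA' m m1 m2, am m m1 m2] at e6 e7 ⊢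
    exact mul_left_cancel₀ h2 (by linear_combination e7 - e6)
  have hr : z * y = h.o.r a' := h.o.eq_r h2 (Φ.Iso.mul_mem (h.iso hz) hy.1) (by
      rw [mul_app, y2 a' ak al]
      refine ext _ _ (by simp [hA a' ak al, ak]) (by simp [hA a' ak al, al]) fun m m1 m2 => ?_
      rw [map_neg, am m m1 m2, ha']
      simp [ha, hA' m m1 m2]) fun v => by
    obtain ⟨t, ht⟩ := hB (v - Φ.B (e k) v • e k - Φ.B (e l) v • e l) (by simp [s]) (by simp [s])
    have e1 := y2 (v - Φ.B (e k) v • e k - Φ.B (e l) v • e l) (by simp [s]) (by simp [s])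
    refine ⟨t, ?_⟩
    nth_rw 1 [← e1] at ht
    simp only [map_sub, map_smul, yk, yl, h3] at ht
    rw [mul_app]
    linear_combination (norm := module) ht
  have q : Φ.Q a' ≠ 0 := fun q => by
    rw [h.o.r_of_sing q, ← y1, mul_left_inj] at hr
    rcases y3 with y3 | y3 | y3
    exacts [h0 (hr.trans y3), hd (hr.trans y3), y3.1 (hr ▸ h.le hz)]
  have q' := h.o.r_notMem h2 q
  rcases y3 with y3 | y3 | y3
  · exact absurd (by rw [← hr, y3, mul_one]; exact h.le hz) q'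
  · exact absurd (by rw [← hr, y3]; exact h.le (M.mul_mem hz (h.d_mem hkl))) q'
  obtain ⟨i, j, hij⟩ := h.supp_of_mon q (hr ▸ h.mon.mul_mem (h.mon_of_commute hz hkl hc) hy)
  exact ⟨fun e0 => q (by simp [ha', e0, Φ.Q_zero]), y3.2, i, j, fun m m1 m2 m3 m4 =>
    am m m1 m2 ▸ hij m m3 m4⟩

theorem exists_root_fixed {z : V ≃ₗ[F] V} (hz : z ∈ h.mon) (h1 : z * z = 1) {k l : ι} (hkl : k ≠ l)
    {p p' : V}
    (hU : ∀ v, z v - v ∈ Submodule.span F {p, p'} ⊔ Submodule.span F {e k, e l}) :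
    ∃ c, IsRoot e F Set.univ c ∧ z c = c := by
  classical
  by_contra hc
  push Not at hc
  have h3 : ∀ v, z (z v) = v := fun v => by rw [← mul_app, h1]; rfl
  have h4 : ∀ i, z (e i) = e i ∨ z (e i) = -e i := fun i => by
    obtain ⟨j, ε, e1, e2⟩ := hz.2 i
    by_cases hij : i = j
    · rcases mul_self_eq_one_iff.1 e1 with e3 | e3 <;> simp [e2, e3, ← hij]
    · refine absurd ?_ (hc _ (isRoot_add e (Set.mem_univ i) (Set.mem_univ j) hij e1))
      rw [map_add, ← e2, h3, add_comm]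
  obtain ⟨i₀, hi₀⟩ : ∃ i₀, ∀ i, i ≠ i₀ → z (e i) = -e i := by
    by_cases h5 : ∃ i, z (e i) = e i
    · obtain ⟨i₀, h5⟩ := h5
      exact ⟨i₀, fun i hi => (h4 i).resolve_left fun h6 =>
        hc _ (isRoot_add e (Set.mem_univ i) (Set.mem_univ i₀) hi (one_mul 1)) (by simp [h5, h6])⟩
    · exact ⟨k, fun i _ => (h4 i).resolve_left fun h6 => h5 ⟨i, h6⟩⟩
  let π : V →ₗ[F] V := LinearMap.id - (Φ.B (e k)).smulRight (e k) - (Φ.B (e l)).smulRight (e l)
  have h5 : ∀ i, i ∉ ({k, l, i₀} : Finset ι) → e i ∈ Submodule.span F {π p, π p'} := fun i hi => by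
    simp only [Finset.mem_insert, Finset.mem_singleton, not_or] at hi
    obtain ⟨_, hp, _, hw, e3⟩ := Submodule.mem_sup.1 (hU (e i))
    obtain ⟨α, α', rfl⟩ := Submodule.mem_span_pair.1 hp
    obtain ⟨β, γ, rfl⟩ := Submodule.mem_span_pair.1 hw
    refine (Submodule.smul_mem_iff _ (neg_ne_zero.2 (h.two_ne k))).1
      (Submodule.mem_span_pair.2 ⟨α, α', ?_⟩)
    have e4 := congrArg π e3
    have e5 : π (e k) = 0 := by simp [π, h.one, h.perp _ _ hkl.symm]
    have e6 : π (e l) = 0 := by simp [π, h.one, h.perp _ _ hkl]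
    have e7 : π (e i) = e i := by simp [π, h.perp _ _ (Ne.symm hi.1), h.perp _ _ (Ne.symm hi.2.1)]
    simp only [hi₀ i hi.2.2, map_add, map_sub, map_neg, map_smul, e5, e6, e7] at e4
    linear_combination (norm := module) e4
  obtain ⟨a, b, c, ha, hb, hc, hab, hac, hbc⟩ := exists_three_notMem {k, l, i₀}
    ((Nat.add_le_add_right Finset.card_le_three 3).trans (by have := h.seven; omega))
  refine not_three_mem_span_pair (h5 a ha) (h5 b hb) (h5 c hc) fun α β γ e0 => ⟨?_, ?_, ?_⟩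
  · simpa [h.B_e, hab, hac] using congrArg (Φ.B (e a)) e0
  · simpa [h.B_e, hab.symm, hbc] using congrArg (Φ.B (e b)) e0
  · simpa [h.B_e, hac.symm, hbc.symm] using congrArg (Φ.B (e c)) e0

variable [Finite F]

theorem exists_central {g : V ≃ₗ[F] V} (hg : g ∈ M) {a b : ι} (hab : a ≠ b) {ε δ : F} (hε : ε * ε = 1)
    (hδ : δ * δ = 1) {r : V} (hr : IsRoot e F {i | i ≠ a ∧ i ≠ b} r) {p p' : V}
    (hp : p = g (ε • e a + δ • e b)) (hp' : p' = g r)
    (hn : ∀ c, IsRoot e F Set.univ c → Φ.B p c = 0 → Φ.B p' c ≠ 0) {k l : ι} (hkl : k ≠ l) :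
    ∃ u ∈ Submodule.span F {p, p'}, ∃ w ∈ Submodule.span F {p, p'},
      (∀ v ∈ Submodule.span F {p, p'}, ∃ α β : F, v = α • u + β • w) ∧
      (Φ.B (e k) u = 0 ∨ Φ.B (e l) u = 0 ∨ Φ.B (e k) u ^ 2 = Φ.B (e l) u ^ 2) ∧
      (Φ.B (e k) w = 0 ∨ Φ.B (e l) w = 0 ∨ Φ.B (e k) w ^ 2 = Φ.B (e l) w ^ 2) ∧
      ∃ i j, ∀ m, m ≠ k → m ≠ l → m ≠ i → m ≠ j → Φ.B (e m) u = 0 := by
  classical
  have h2 := h.two_ne k
  have : Finite V := Module.finite_of_finite F
  have : Finite (V ≃ₗ[F] V) := Finite.of_injective _ DFunLike.coe_injective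
  have r₀ : IsRoot e F Set.univ (ε • e a + δ • e b) := ⟨a, trivial, b, trivial, hab, ε, δ, hε, hδ, rfl⟩
  have ra := h.B_root hr (k := a) (by simp)
  have rb := h.B_root hr (k := b) (by simp)
  have q : Φ.Q p = 1 := by rw [hp, Iso.Q (h.iso hg), h.Q_root r₀]
  have q' : Φ.Q p' = 1 := by rw [hp', Iso.Q (h.iso hg), h.Q_root hr]
  have h0 : Φ.B p p' = 0 := by rw [hp, hp', Iso.B (h.iso hg)]; simp [ra, rb]
  have hx : ∀ v, (h.o.r p * h.o.r p') v = v - Φ.B p v • p - Φ.B p' v • p' := fun v => by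
    simp only [mul_app, h.o.r_one q, h.o.r_one q', Φ.bsimp, h0]
    module
  have xM : h.o.r p * h.o.r p' ∈ M := by
    rw [hp, hp', h.conj_rr hg]
    exact M.mul_mem (M.mul_mem hg (h.rr _ _ r₀ (hr.mono (Set.subset_univ _)))) (M.inv_mem hg)
  have dM := h.d_mem hkl
  have s := And.intro (h.o.B_self p) (And.intro (h.o.B_self p') (And.intro q (And.intro q'
    (And.intro h0 (Φ.perp_symm h0)))))
  have xP : ∀ v, v ∈ Submodule.span F {p, p'} ↔ (h.o.r p * h.o.r p') v = -v := fun v => by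
    refine ⟨fun hv => ?_, fun hv => (Submodule.smul_mem_iff _ h2).1
      (Submodule.mem_span_pair.2 ⟨Φ.B p v, Φ.B p' v, ?_⟩)⟩
    · obtain ⟨α, β, rfl⟩ := Submodule.mem_span_pair.1 hv
      simp only [hx, Φ.bsimp, s]
      module
    · rw [hx] at hv
      linear_combination (norm := module) -hv
  have pP : p ∈ Submodule.span F {p, p'} := Submodule.subset_span (by simp)
  have pP' : p' ∈ Submodule.span F {p, p'} := Submodule.subset_span (by simp)
  have hd := h.d_apply hkl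
  have x2 : h.o.r p * h.o.r p' * (h.o.r p * h.o.r p') = 1 := LinearEquiv.ext fun v => by
    simp only [mul_app _ (_ * _), hx, Φ.bsimp, s, LinearEquiv.coe_one, id]
    module
  have d2 : h.o.r (e k) * h.o.r (e l) * (h.o.r (e k) * h.o.r (e l)) = 1 := LinearEquiv.ext fun v => by
    simp only [mul_app _ (_ * _), hd, Φ.bsimp, h.one, h.perp _ _ hkl, h.perp _ _ hkl.symm,
      LinearEquiv.coe_one, id]
    module
  have x1 : h.o.r p * h.o.r p' ≠ 1 := fun e1 => by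
    have := congrArg (Φ.B p) ((xP p).1 pP)
    rw [e1, map_neg] at this
    simp [s, eq_neg_iff_add_eq_zero, ← two_mul, h2] at this
  have dneg := fun v hv m => h.of_d_neg hkl (v := v) hv (m := m)
  generalize h.o.r p * h.o.r p' = x at *
  rcases conj_or_central x2 d2 with ⟨j, hj⟩ | ⟨j, z0, z1, zx, zd⟩
  · exfalso
    have κM := M.mul_mem (M.pow_mem (M.mul_mem xM dM) j) hg
    have h3 : ∀ v ∈ Submodule.span F {p, p'}, ∀ m, m ≠ k → m ≠ l →
        Φ.B (e m) (((x * (h.o.r (e k) * h.o.r (e l))) ^ j) v) = 0 := fun v hv => dneg _ (by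
      generalize (x * (h.o.r (e k) * h.o.r (e l))) ^ j = κ at hj
      rw [← hj, mul_app, mul_app, inv_app_app, (xP v).1 hv, map_neg])
    have h4 : ∀ v, (∀ m, m ≠ k → m ≠ l → Φ.B (e m) v = 0) → v ∈ Submodule.span F {e k, e l} :=
      fun v hv => h.mem_of fun m hm => Submodule.subset_span (by
        by_contra hc
        simp only [Set.mem_insert_iff, Set.mem_singleton_iff, not_or] at hc
        exact hm (hv m (fun e => hc.1 (e ▸ rfl)) fun e => hc.2 (e ▸ rfl)))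
    have h5 : ∀ m, m ≠ k → m ≠ l → _ ∧ _ := fun m m1 m2 =>
      let ⟨n, n1, n2, n3, _⟩ := h.exists_notMem k l m m m m
      let ⟨o, o1, o2, o3, o4, _⟩ := h.exists_notMem k l m n n n
      h.partner κM hab hε hδ (S := {m | m ≠ k ∧ m ≠ l}) (fun i hi => h3 _ (hp ▸ pP) i hi.1 hi.2)
        ⟨m1, m2⟩ ⟨n1, n2⟩ ⟨o1, o2⟩ n3.symm o3.symm o4.symm
    refine not_three_mem_span_pair (h4 _ fun m m1 m2 => (h5 m m1 m2).1)
      (h4 _ fun m m1 m2 => (h5 m m1 m2).2) (h4 (((x * (h.o.r (e k) * h.o.r (e l))) ^ j * g) r)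
        (h3 _ (hp' ▸ pP'))) fun α β γ e0 => ?_
    simp only [← map_smul, ← map_add, EmbeddingLike.map_eq_zero_iff] at e0
    have e1 : α = 0 := by simpa [h.one, h.perp _ _ hab, ra] using congrArg (Φ.B (e a)) e0
    have e2 : β = 0 := by simpa [h.one, h.perp _ _ hab.symm, rb] using congrArg (Φ.B (e b)) e0
    exact ⟨e1, e2, by simpa [e1, e2, h.o.B_self, h.Q_root hr, h2] using congrArg (Φ.B r) e0⟩
  have zM := M.pow_mem (M.mul_mem xM dM) j
  have zd' : (x * (h.o.r (e k) * h.o.r (e l))) ^ j ≠ h.o.r (e k) * h.o.r (e l) := fun e1 => by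
    rw [e1] at zx
    have e2 : (x * (h.o.r (e k) * h.o.r (e l))) ^ 2 = 1 := by
      rw [zx.symm.mul_pow, sq, sq, x2, d2, mul_one]
    obtain ⟨i, rfl | rfl⟩ := Nat.even_or_odd' j
    · exact z0 (by rw [pow_mul, e2, one_pow])
    · rw [pow_succ, pow_mul, e2, one_pow, one_mul, mul_eq_right] at e1
      exact x1 e1
  have hU : ∀ v, ((x * (h.o.r (e k) * h.o.r (e l))) ^ j) v - v ∈
      Submodule.span F {p, p'} ⊔ Submodule.span F {e k, e l} := by
    clear z0 z1 zx zd zM zd'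
    induction j with
    | zero => simp
    | succ j ih =>
      intro v
      rw [pow_succ', mul_app, mul_app, hx, hd, sub_right_comm, sub_right_comm _ _ v,
        sub_right_comm _ _ v, sub_right_comm _ _ v]
      exact sub_mem (sub_mem (sub_mem (sub_mem (ih v)
        (Submodule.mem_sup_right (Submodule.smul_mem _ _ (Submodule.subset_span (by simp)))))
        (Submodule.mem_sup_right (Submodule.smul_mem _ _ (Submodule.subset_span (by simp)))))
        (Submodule.mem_sup_left (Submodule.smul_mem _ _ pP)))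
        (Submodule.mem_sup_left (Submodule.smul_mem _ _ pP'))
  generalize (x * (h.o.r (e k) * h.o.r (e l))) ^ j = z at *
  have h3 : ∀ v, z (z v) = v := fun v => by rw [← mul_app, z1]; rfl
  have zP : ∀ v ∈ Submodule.span F {p, p'}, z v ∈ Submodule.span F {p, p'} := fun v hv =>
    (xP _).2 (by rw [← mul_app, ← zx.eq, mul_app, (xP v).1 hv, map_neg])
  obtain ⟨v, hv, hv'⟩ : ∃ v ∈ Submodule.span F {p, p'}, v - z v ≠ 0 := by
    by_contra hc
    push Not at hc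
    exact (h.core zM z1 z0 hkl zd zd' hU (a := 0) (by simp) fun v hv =>
      ⟨0, by simpa using (sub_eq_zero.1 (hc v hv)).symm⟩).1 rfl
  obtain ⟨w, hw, hw'⟩ : ∃ v ∈ Submodule.span F {p, p'}, v + z v ≠ 0 := by
    by_contra hc
    push Not at hc
    obtain ⟨c, c1, c2⟩ := h.exists_root_fixed (h.mon_of_commute zM hkl zd) z1 hkl hU
    have : ∀ v ∈ Submodule.span F {p, p'}, Φ.B v c = 0 := fun v hv => by
      have := Iso.B (h.iso zM) v c
      rw [c2, eq_neg_of_add_eq_zero_right (hc v hv), Φ.B_neg_left] at this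
      exact mul_left_cancel₀ h2 (by linear_combination -this)
    exact hn c c1 (this p pP) (this p' pP')
  have hu := sub_mem hv (zP v hv)
  have hw2 := add_mem hw (zP w hw)
  have e1 : z (v - z v) = -(v - z v) := by rw [map_sub, h3, neg_sub]
  have e2 : z (w + z w) = w + z w := by rw [map_add, h3, add_comm]
  generalize v - z v = u at *
  generalize w + z w = u' at *
  have sp : ∀ t ∈ Submodule.span F {p, p'}, ∃ α β : F, t = α • u + β • u' := fun t ht => by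
    by_contra hc
    push Not at hc
    refine not_three_mem_span_pair hu hw2 ht fun α β γ e0 => ?_
    have e3 : γ = 0 := by_contra fun e3 => hc (-α / γ) (-β / γ) (smul_right_injective V e3 (by
      simp only [smul_add, smul_smul, mul_div_cancel₀ _ e3]
      linear_combination (norm := module) e0))
    have e4 := congrArg z e0
    simp only [e3, zero_smul, add_zero, map_add, map_smul, e1, e2, map_zero] at e0 e4
    have e5 : (2 * α) • u = 0 := by linear_combination (norm := module) e0 - e4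
    have e6 : (2 * β) • u' = 0 := by linear_combination (norm := module) e0 + e4
    exact ⟨by simpa [h2, hv'] using e5, by simpa [h2, hw'] using e6, e3⟩
  obtain ⟨-, c1, c2⟩ := h.core zM z1 z0 hkl zd zd' hU e1 fun t ht => by
    obtain ⟨α, β, rfl⟩ := sp t ht
    exact ⟨α, by simp [e2]⟩
  exact ⟨u, hu, u', hw2, sp, c1 u (Or.inr e1), c1 u' (Or.inl e2), c2⟩

theorem conj_mon {g : V ≃ₗ[F] V} (hg : g ∈ M) {a b : ι} (hab : a ≠ b) {ε δ : F} (hε : ε * ε = 1)
    (hδ : δ * δ = 1) {r : V} (hr : IsRoot e F {i | i ≠ a ∧ i ≠ b} r) :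
    g * (h.o.r (ε • e a + δ • e b) * h.o.r r) * g⁻¹ ∈ h.mon := by
  classical
  have r₀ : IsRoot e F Set.univ (ε • e a + δ • e b) := ⟨a, trivial, b, trivial, hab, ε, δ, hε, hδ, rfl⟩
  by_contra hc
  have hn : ∀ c, IsRoot e F Set.univ c → Φ.B (g (ε • e a + δ • e b)) c = 0 → Φ.B (g r) c ≠ 0 :=
    fun c c1 c2 c3 => hc (h.mon_of_fix (M.mul_mem (M.mul_mem hg (h.rr _ _ r₀
      (hr.mono (Set.subset_univ _)))) (M.inv_mem hg)) c1 (by
        rw [← h.conj_rr hg, mul_app, h.o.r_of_perp c3, h.o.r_of_perp c2]))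
  obtain ⟨u, hu, w, hw, sp, -, -, i, j, h1⟩ := h.exists_central hg hab hε hδ hr rfl rfl hn hab
  have h2 : ∀ m n, m ∉ ({a, b, i, j} : Finset ι) → n ∉ ({a, b, i, j} : Finset ι) → m ≠ n →
      Φ.B (e m) w ^ 2 ≠ Φ.B (e n) w ^ 2 := fun m n hm hn' hmn e0 => by
    simp only [Finset.mem_insert, Finset.mem_singleton, not_or] at hm hn'
    obtain ⟨η, e1, e2⟩ : ∃ η : F, η * η = 1 ∧ Φ.B (e m) w + η * Φ.B (e n) w = 0 := by
      rcases sq_eq_sq_iff_eq_or_eq_neg.1 e0 with e1 | e1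
      exacts [⟨-1, by simp, by simp [e1]⟩, ⟨1, by simp, by simp [e1]⟩]
    have : ∀ v ∈ Submodule.span F {g (ε • e a + δ • e b), g r}, Φ.B v (e m + η • e n) = 0 :=
      fun v hv => by
        obtain ⟨α, β, rfl⟩ := sp v hv
        rw [← h.o.symm]
        simp only [Φ.bsimp, h.o.σ, h1 m hm.1 hm.2.1 hm.2.2.1 hm.2.2.2,
          h1 n hn'.1 hn'.2.1 hn'.2.2.1 hn'.2.2.2]
        linear_combination β * e2
    exact hn _ (isRoot_add e (Set.mem_univ m) (Set.mem_univ n) hmn e1)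
      (this _ (Submodule.subset_span (by simp))) (this _ (Submodule.subset_span (by simp)))
  obtain ⟨k, l, hk, hl, hkl, wk, wl⟩ : ∃ k l, k ∉ ({a, b, i, j} : Finset ι) ∧
      l ∉ ({a, b, i, j} : Finset ι) ∧ k ≠ l ∧ Φ.B (e k) w ≠ 0 ∧ Φ.B (e l) w ≠ 0 := by
    obtain ⟨x, y, z, hx, hy, hz, hxy, hxz, hyz⟩ := exists_three_notMem {a, b, i, j}
      ((Nat.add_le_add_right Finset.card_le_four 3).trans h.seven)
    by_cases e1 : Φ.B (e x) w = 0
    · exact ⟨y, z, hy, hz, hyz, fun e2 => h2 x y hx hy hxy (by rw [e1, e2]),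
        fun e2 => h2 x z hx hz hxz (by rw [e1, e2])⟩
    by_cases e2 : Φ.B (e y) w = 0
    · exact ⟨x, z, hx, hz, hxz, e1, fun e3 => h2 y z hy hz hyz (by rw [e2, e3])⟩
    · exact ⟨x, y, hx, hy, hxy, e1, e2⟩
  have h3 := h2 k l hk hl hkl
  simp only [Finset.mem_insert, Finset.mem_singleton, not_or] at hk hl
  have h4 : ∀ v ∈ Submodule.span F {g (ε • e a + δ • e b), g r},
      Φ.B (e k) v = 0 ∨ Φ.B (e l) v = 0 ∨ Φ.B (e k) v ^ 2 = Φ.B (e l) v ^ 2 → Φ.B (e k) v = 0 :=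
    fun v hv e0 => by
      obtain ⟨α, β, rfl⟩ := sp v hv
      simp only [Φ.bsimp, h1 k hk.1 hk.2.1 hk.2.2.1 hk.2.2.2, h1 l hl.1 hl.2.1 hl.2.2.1 hl.2.2.2,
        mul_zero, zero_add, mul_pow] at e0 ⊢
      simpa [wk, wl, h3] using e0
  obtain ⟨u', hu', w', hw', sp', c1, c2, -⟩ := h.exists_central hg hab hε hδ hr rfl rfl hn hkl
  obtain ⟨α, β, e0⟩ := sp' w hw
  exact wk (by rw [e0]; simp [h4 u' hu' c1, h4 w' hw' c2])

theorem le_mon : M ≤ h.mon := fun g hg => by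
  refine h.mon.inv_mem_iff.1 (h.mon_of_conj (M.inv_mem hg) (S := Set.univ) (Classical.choice
    (Fintype.card_pos_iff.1 (by have := h.seven; omega))) (Classical.choice
    (Fintype.card_pos_iff.1 (by have := h.seven; omega))) (fun _ _ _ => trivial)
    (fun _ _ i hi => absurd trivial hi) ?_)
  rintro _ _ ⟨a, -, b, -, hab, ε, δ, hε, hδ, rfl⟩ ⟨c, -, d, -, hcd, ε', δ', hε', hδ', rfl⟩
  obtain ⟨m, m1, m2, m3, m4, -⟩ := h.exists_notMem a b c d d d
  obtain ⟨n, n1, n2, n3, n4, n5, -⟩ := h.exists_notMem a b c d m m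
  have := h.mon.mul_mem (h.conj_mon hg hab hε hδ
    (isRoot_add e (And.intro m1 m2) (And.intro n1 n2) n5.symm (one_mul 1)))
    (h.mon.inv_mem (h.conj_mon hg hcd hε' hδ'
      (isRoot_add e (And.intro m3 m4) (And.intro n3 n4) n5.symm (one_mul 1))))
  convert this using 1
  nth_rw 1 [← h.o.r_inv (ε' • e c + δ' • e d)]
  group

end FSet

/-- An overgroup in `Ω` of the rotation subgroup of `W(Dₙ)` is monomial or is `Ω`. -/
theorem ONB.le_mon_or [Fintype ι] [Finite F] [FiniteDimensional F V] (h : Φ.ONB e)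
    (hF : ∀ a : F, ∃ n : ℕ, a = n) (hn : 7 ≤ Fintype.card ι) (h8 : Fintype.card ι ≠ 8)
    (h1 : ∀ a b, IsRoot e F Set.univ a → IsRoot e F Set.univ b → h.o.r a * h.o.r b ∈ M)
    (h2 : M ≤ Φ.EG) : M ≤ h.mon ∨ Φ.EG ≤ M := by
  classical
  refine or_iff_not_imp_right.2 fun hc => FSet.le_mon ⟨h, hF, hn, h1, h2, fun a w ha q hw => ?_⟩
  by_contra hw'
  push Not at hw'
  have ss := h.o.r_mul_self a
  have si := h.o.r_inv a
  have sn := h.o.r_notMem (h.two_ne ha.choose) (a := a) (h.Q_root ha ▸ one_ne_zero)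
  have sI := h.o.r_mem_Iso a
  have h3 : ∀ c, h.o.r a * h.o.r c ∈ M → h.o.r c * h.o.r a ∈ M := fun c hc => by
    simpa [h.o.r_inv] using M.inv_mem hc
  have h4 := fun c => h1 a c ha
  generalize h.o.r a = s at *
  let K : Subgroup (V ≃ₗ[F] V) :=
    { carrier := {g | (g ∈ M ∧ s * g * s ∈ M) ∨ (g * s ∈ M ∧ s * g ∈ M)}
      mul_mem' := by
        have e1 : ∀ x, s * (s * x) = x := fun x => by rw [← mul_assoc, ss, one_mul]
        rintro g g' (⟨a1, a2⟩ | ⟨a1, a2⟩) (⟨b1, b2⟩ | ⟨b1, b2⟩)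
        · exact Or.inl ⟨M.mul_mem a1 b1, by simpa [mul_assoc, e1] using M.mul_mem a2 b2⟩
        · exact Or.inr ⟨by simpa [mul_assoc] using M.mul_mem a1 b1,
            by simpa [mul_assoc, e1] using M.mul_mem a2 b2⟩
        · exact Or.inr ⟨by simpa [mul_assoc, e1] using M.mul_mem a1 b2,
            by simpa [mul_assoc] using M.mul_mem a2 b1⟩
        · exact Or.inl ⟨by simpa [mul_assoc, e1] using M.mul_mem a1 b2,
            by simpa [mul_assoc] using M.mul_mem a2 b1⟩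
      one_mem' := Or.inl ⟨M.one_mem, by simp [ss]⟩
      inv_mem' := by
        rintro g (⟨a1, a2⟩ | ⟨a1, a2⟩)
        · exact Or.inl ⟨M.inv_mem a1, by simpa [si, mul_assoc] using M.inv_mem a2⟩
        · exact Or.inr ⟨by simpa [si] using M.inv_mem a2, by simpa [si] using M.inv_mem a1⟩ }
  refine hc fun g hg => ?_
  rcases h.EG_le_of_r (K := K) hF (fun g hg => hg.elim (fun hg => Φ.EG_le_Iso (h2 hg.1)) fun hg =>
    (Φ.Iso.mul_mem_cancel_right sI).1 (Φ.EG_le_Iso (h2 hg.1)))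
    (fun c hc => Or.inr ⟨h3 c (h4 c hc), h4 c hc⟩) hn h8 q
    (Or.inr ⟨h3 w hw, hw⟩) hw'.1 hw'.2 hg with h5 | h5
  · exact h5.1
  · exact absurd ((Φ.EG.mul_mem_cancel_left hg).1 (h2 h5.1)) sn

theorem ODec.isMaximalIn_frame [Fintype ι] [Finite F] [FiniteDimensional F V]
    {D : ι → Submodule F V} (hD : Φ.ODec D) (hO : Φ.IsO) (h1 : ∀ i, finrank F (D i) = 1)
    (hF : ∀ a : F, ∃ n : ℕ, a = n) (hn : 7 ≤ Fintype.card ι) (h8 : Fintype.card ι ≠ 8)
    (hd : 7 ≤ finrank F V) : Geo.IsMaximalIn Φ.EG (Φ.HE D) := by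
  obtain ⟨i₀⟩ := Fintype.card_pos_iff.1 (by omega : 0 < Fintype.card ι)
  obtain ⟨v, hv, hv0⟩ := hD.exists_ne_zero i₀
  choose g hg hg' using hD.iso i₀
  have he : ∀ i, g i v ∈ D i := fun i => (hg' i v).1 hv
  have he0 : ∀ i, g i v ≠ 0 := fun i => by simpa using hv0
  have hs : ∀ i, ∀ x ∈ D i, ∃ c : F, x = c • g i v := fun i x hx => by
    obtain ⟨c, hc⟩ := (finrank_eq_one_iff_of_nonzero' (⟨g i v, he i⟩ : D i)
      (fun e => he0 i (congrArg Subtype.val e))).1 (h1 i) ⟨x, hx⟩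
    exact ⟨c, (congrArg Subtype.val hc).symm⟩
  have hβ : Φ.B v v ≠ 0 := fun e0 => he0 i₀ (hD.nd i₀ _ (he i₀) fun y hy => by
    obtain ⟨c, rfl⟩ := hs i₀ y hy
    simp [Iso.B (hg i₀), e0])
  have hζ := inv_ne_zero hβ
  let Ψ := Φ.scale _ _ hζ hζ (by simp [hO.σ])
  have hO' : Ψ.IsO := ⟨hO.σ, by
    change Φ.ε * _ / Φ.σ _ = 1
    rw [hO.ε, hO.σ, one_mul, div_self hζ], fun c => by
    rw [scale_π, hO.π, mul_inv_cancel_left₀ hζ], hO.d⟩
  have h : Ψ.ONB fun i => g i v := ⟨hO', fun i => by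
    rw [scale_B, Iso.B (hg i), inv_mul_cancel₀ hβ], fun i j hij => by
    rw [scale_B, hD.perp i j hij _ (he i) _ (he j), mul_zero], fun x hx => hD.eq_zero_of_pr fun i =>
      hD.pr_eq_zero_iff.2 fun y hy => by
        obtain ⟨c, rfl⟩ := hs i y hy
        have := hx i
        rw [scale_B] at this
        simp [(mul_eq_zero.1 this).resolve_left hζ]⟩
  have hE : Ψ.EG = Φ.EG := EG_scale _ _ _
  have hm : h.mon ≤ dstab D := fun k hk => hD.mem_dstab fun i => by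
    obtain ⟨j, ε, -, e1⟩ := hk.2 i
    refine ⟨j, fun x hx => ?_⟩
    obtain ⟨c, rfl⟩ := hs i x hx
    rw [map_smul, e1]
    exact (D j).smul_mem _ ((D j).smul_mem _ (he j))
  refine isMaximalIn_of inf_le_right (hD.exists_EG_not_dstab (i := i₀) (by rw [hO.d]; omega)
    (by rw [hO.d, h1]; omega)) fun M h2 h3 k hk hk' => ?_
  rcases h.le_mon_or hF hn h8 (M := M) (fun a b ha hb => h2 ⟨hm (h.mon.mul_mem (h.r_mon ha) (h.r_mon hb)), hE ▸
    hO'.r_mul_r_mem (by omega) (h.Q_root ha ▸ one_ne_zero) (by rw [h.Q_root ha, h.Q_root hb])⟩)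
    (hE ▸ h3) with h4 | h4
  · exact absurd ⟨hm (h4 hk), h3 hk⟩ hk'
  · exact hE ▸ h4

end Fm

/-- Stabilisers of orthogonal frames of isometric points over prime fields. -/
theorem o_frame_isMaximalIn [Fintype F] (hp : (Fintype.card F).Prime) {κ : Type} [Fintype κ]
    [DecidableEq κ] (h7 : 7 ≤ Fintype.card κ) (h8 : Fintype.card κ ≠ 8) {Q : (κ → F) → F}
    (hQ : Geo.IsNondegenerateQuadraticForm Q) {t : ℕ} {D : Fin t → Submodule F (κ → F)}
    (hD : Geo.IsOrthogonalMDecomposition Q 1 D) :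
    Geo.IsMaximalIn (Geo.omegaGL Q) (Geo.decompositionStabilizer D ⊓ Geo.omegaGL Q) := by
  have h1 := finrank_of_isMDecomposition hD.decomp.decomp
  have hO : (fmO hQ).ODec D := oDec_of (Or.inl fun _ _ => rfl) hD.decomp fun i j => by
    obtain ⟨e, he⟩ := hD.isometric i j
    refine ⟨e, fun x y => ?_, he⟩
    simp only [fmO_B, QuadraticMap.polar, ← Submodule.coe_add, ← map_add, he]
  refine dstab_isMaximalIn_of (mem_omegaGL_iff hQ (by omega)) (hO.isMaximalIn_frame (isO_fmO hQ)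
    hD.decomp.decomp.finrank_eq (fun a => ?_) (by rw [Fintype.card_fin]; omega)
    (by rw [Fintype.card_fin]; omega) (by rwa [finrank_fintype_fun_eq_card]))
  have := Fact.mk hp
  obtain ⟨n, rfl⟩ := (ZMod.ringEquivOfPrime F hp rfl).surjective a
  exact ⟨n.val, by rw [← map_natCast (ZMod.ringEquivOfPrime F hp rfl), ZMod.natCast_zmod_val]⟩

end Cfsg.Agent.Class.Max
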