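import Mathlib
import Cfsg.Agent.Class.Max.LowC5S

/-!
Wrappers for the low-dimensional tables.
-/

set_option autoImplicit false

namespace Cfsg.Agent.Class.Max

open Module

variable {F : Type*} [Field F] [Fintype F] {ι : Type} [Fintype ι] [DecidableEq ι]

theorem o_nd_tab {Q : (ι → F) → F} (hQ : Geo.IsNondegenerateQuadraticForm Q) {n : ℕ}
    (hn : Fintype.card ι = n) (h7 : 7 ≤ n) (h2 : n = 7 → Odd (Fintype.card F))
    {W : Submodule F (ι → F)} (hW : Geo.IsNondegenerateOn (QuadraticMap.polar Q) W)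
    (h0 : finrank F W ≠ 0) (h1 : finrank F W ≠ n) (h1' : finrank F W + 2 ≠ n)
    (hdim : 2 * finrank F W = n → Even (finrank F W) ∧ ¬ Geo.IsPlusTypeOn Q ⊤)
    (hex : finrank F W = 2 → 4 ≤ Fintype.card F ∨ ¬ Geo.IsPlusTypeOn Q W) :
    Geo.IsMaximalIn (Geo.omegaGL Q) (Geo.subspaceStabilizer W ⊓ Geo.omegaGL Q) := by
  subst hn
  refine o_nd_isMaximalIn_seven hQ h7 (fun h => two_ne_zero_of_odd (h2 h))
    (by rintro rfl; simp at h0) (by rintro rfl; simp at h1) hW hdim ?_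
  rintro ⟨h3, U, h4, -, h5, rfl | ⟨-, h6⟩⟩
  · exact (hex h4).elim (by omega) fun h => h h5
  · omega

theorem o_nd_odd_tab (hodd : Odd (Fintype.card F)) {m : ℕ} (hm : 3 ≤ m)
    (W : Submodule F (Unit ⊕ (Fin m ⊕ Fin m) → F)) (h0 : W ≠ ⊥) (hev : Even (finrank F W))
    (hW : Geo.IsNondegenerateOn (QuadraticMap.polar (quadFormOdd m F)) W)
    (hex : ¬ (Fintype.card F = 3 ∧ finrank F W = 2 ∧ Geo.IsPlusTypeOn (quadFormOdd m F) W)) :
    Geo.IsMaximalIn (Geo.omegaGL (quadFormOdd m F))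
      (Geo.subspaceStabilizer W ⊓ Geo.omegaGL (quadFormOdd m F)) := by
  have h1 := Nat.even_iff.1 hev
  have h2 := Nat.odd_iff.1 hodd
  have h3 := Fintype.one_lt_card (α := F)
  refine o_nd_tab (isNondegenerateQuadraticForm_odd hodd m) (n := 2 * m + 1) (by simp; omega)
    (by omega) (fun _ => hodd) hW (fun h => h0 (Submodule.finrank_eq_zero.1 h)) (by omega) (by omega)
    (by omega) fun h => ?_
  by_contra hc
  push Not at hc
  exact hex ⟨by omega, h, hc.2⟩

end Cfsg.Agent.Class.Max
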