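import Mathlib
import Cfsg.Agent.Class.Max.LowO
import Cfsg.Agent.Class.Max.C2Lin

/-!
Dimension four, linear groups: two planes, symplectic and unitary similarity groups.
-/

set_option autoImplicit false

namespace Cfsg.Agent.Class.Max

open Module

section Blk

variable {F : Type*} [Field F] {ι : Type*} [DecidableEq ι] {W : Type*} [AddCommGroup W] [Module F W]
  [Fintype ι] [FiniteDimensional F W] {M : Subgroup ((ι → W) ≃ₗ[F] (ι → W))}

theorem exists_mem_blk' (hM : Nblk F ι W ⊓ SLV F (ι → W) ≤ M) (h2 : 2 ≤ finrank F W)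
    (hc : ¬ SLV F (ι → W) ≤ M) {a : F} (ha : a ≠ 0) (ha' : a * a ≠ 1)
    {ψ : Dual F (ι → W)} {w : ι → W} (h : ∀ c : F, HasTv M (c • ψ) w) (h0 : ψ w = 0) (hψ : ψ ≠ 0)
    (hw : w ≠ 0) : ∃ i, w ∈ blk F W i := by
  obtain ⟨i, hi⟩ := Function.ne_iff.1 hw
  refine ⟨i, ?_⟩
  by_contra h4
  obtain ⟨j, hj, hj'⟩ : ∃ j, j ≠ i ∧ w j ≠ 0 := by
    by_contra h5
    push Not at h5
    exact h4 h5
  have key : ∀ ψ : Dual F (ι → W), HasTv M ψ w → ψ w = 0 → ψ ≠ 0 → ∀ l, w l ≠ 0 →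
      ∀ v, cpt l ψ v = 0 → v ∈ Submodule.span F {w l} := fun ψ h h0 hψ l hl v hv => by
    by_contra h5
    have h6 := mem_blk_of_ker hM h2 hc h h0 hψ hl h5 hv
    exact hj ((eq_of_mem_blk h6 hj').trans (eq_of_mem_blk h6 hi).symm)
  have key2 : ∀ ψ : Dual F (ι → W), HasTv M ψ w → ψ w = 0 → ψ ≠ 0 → ∀ l, w l ≠ 0 →
      cpt l ψ ≠ 0 := fun ψ h h0 hψ l hl h7 => by
    have h5 := (Submodule.finrank_mono (show LinearMap.ker (cpt l ψ) ≤ _ from
      key ψ h h0 hψ l hl)).trans (finrank_span_le_card ({w l} : Set W))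
    simp only [Set.toFinset_singleton, Finset.card_singleton] at h5
    rw [h7, LinearMap.ker_zero, finrank_top] at h5
    omega
  have h1 : HasTv M ψ w := by simpa using h 1
  have key3 : ∀ l, w l ≠ 0 → cpt l ψ (w l) = 0 ∧ ∃ u, cpt l ψ u = 1 := fun l hl => by
    obtain ⟨x, hx⟩ := DFunLike.ne_iff.1 (key2 ψ h1 h0 hψ l hl)
    refine ⟨?_, (cpt l ψ x)⁻¹ • x, by rw [map_smul, smul_eq_mul, inv_mul_cancel₀ hx]⟩
    obtain ⟨z, hz, hz'⟩ := exists_ker_ne_zero h2 (cpt l ψ)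
    obtain ⟨t, rfl⟩ := Submodule.mem_span_singleton.1 (key ψ h1 h0 hψ l hl z hz')
    rw [map_smul, smul_eq_mul, mul_eq_zero] at hz'
    exact hz'.resolve_left fun ht => hz (by rw [ht, zero_smul])
  obtain ⟨h6, u, hu⟩ := key3 i hi
  obtain ⟨h7, y, hy⟩ := key3 j hj'
  obtain ⟨d, hd, d1, d2⟩ := exists_blk_dil i hu ha
  obtain ⟨d', hd', d1', d2'⟩ := exists_blk_dil j hy (inv_ne_zero ha)
  have h9 : d * d' ∈ M := hM ⟨(Nblk F ι W).mul_mem hd hd', mem_SLV.2 (by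
    rw [LinearEquiv.coe_toLinearMap_mul, map_mul, d1, d1', mul_inv_cancel₀ ha])⟩
  have h10 : (d * d') w = w := by rw [mul_app, d2', h7, d2]; simp [h6]
  have h11 := h1.conj (M.inv_mem h9)
  rw [inv_inv, show (d * d')⁻¹ w = w from (d * d').injective (by rw [app_inv_app, h10])] at h11
  have h12 : (ψ ∘ₗ (d * d').toLinearMap) w = 0 := by
    rw [LinearMap.comp_apply, LinearEquiv.coe_coe, h10, h0]
  refine key2 _ (h11.add_left h12 (h (-a⁻¹))) (by rw [LinearMap.add_apply, h12]; simp [h0])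
    (fun h13 => ?_) j hj' ?_
  · have := LinearMap.congr_fun h13 (sg i u)
    simp only [LinearMap.add_apply, LinearMap.comp_apply, LinearEquiv.coe_coe, mul_app, d2', d2,
      sg_ne hj, map_zero, mul_zero, zero_smul, add_zero, sg_same, hu, map_add, map_smul,
      LinearMap.smul_apply, LinearMap.zero_apply, ← cpt_apply, smul_eq_mul] at this
    apply ha'
    field_simp at this
    linear_combination this
  · ext z
    have e1 : ∀ c : F, (sg j z + c • sg j y : ι → W) i = 0 := fun c => by simp [sg_ne hj.symm]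
    simp only [cpt_apply j _ z, LinearMap.add_apply, LinearMap.comp_apply, LinearEquiv.coe_coe,
      mul_app, d2', d2, e1, map_zero, mul_zero, zero_smul, add_zero, sg_same, map_add, map_smul,
      LinearMap.smul_apply, LinearMap.zero_apply, smul_eq_mul]
    rw [← cpt_apply j ψ y, hy]
    ring

theorem Nblk_isMaximalIn' [Nontrivial ι] (h2 : 2 ≤ finrank F W) {a : F} (ha : a ≠ 0)
    (ha' : a * a ≠ 1) : Geo.IsMaximalIn (SLV F (ι → W)) (Nblk F ι W ⊓ SLV F (ι → W)) := by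
  have : Nontrivial W := Module.nontrivial_of_finrank_pos (R := F) (by omega)
  refine isMaximalIn_of inf_le_right exists_SLV_not_Nblk fun M h4 h5 g hg hg' => ?_
  by_contra hc
  refine hg' ⟨mem_Nblk_of_apply fun i u => ?_, h5 hg⟩
  by_cases hu : u = 0
  · exact ⟨i, by rw [hu, sg_zero, map_zero]; exact Submodule.zero_mem _⟩
  obtain ⟨χ, x, h6, h7⟩ := exists_dual_ne_zero h2 u
  refine exists_mem_blk' h4 h2 hc ha ha' (ψ := onB i χ ∘ₗ (g⁻¹ : _ ≃ₗ[F] _).toLinearMap)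
    (fun c => ((hasTv_blk h4 i (χ := c • χ) (u := u) (by simp [h6])).conj hg).congr
      fun x => by simp)
    (by simpa using h6) (fun h8 => ?_) (fun h8 => hu ?_)
  · simpa [h7] using LinearMap.congr_fun h8 (g (sg i x))
  · simpa using congrFun ((map_eq_zero_iff _ g.injective).1 h8) i

theorem lin_decomposition_two [Fintype F] (hq : 4 ≤ Fintype.card F) {n : Type} [Fintype n]
    [DecidableEq n] {t : ℕ} {D : Fin t → Submodule F (n → F)} (hD : Geo.IsMDecomposition 2 D) :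
    Geo.IsMaximalIn (Geo.specialLinear n F)
      (Geo.decompositionStabilizer D ⊓ Geo.specialLinear n F) := by
  have : Nontrivial (Fin t) := Fin.nontrivial_iff_two_le.2 hD.two_le
  obtain ⟨a, h0, h1, h2⟩ := exists_ne_ne_ne hq (1 : F) (-1)
  exact decomposition_isMaximalIn_of (W := Fin 2 → F) (by simpa using hD)
    (Nblk_isMaximalIn' (by simp) h0 fun h => (mul_self_eq_one_iff.1 h).elim h1 h2)

end Blk

variable {F V : Type*} [Field F] [AddCommGroup V] [Module F V] [FiniteDimensional F V]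

namespace Fm

variable {Φ : Fm F V} {M : Subgroup (V ≃ₗ[F] V)}

theorem exists_sing_perp_rad (hd : Φ.d + 2 ≤ finrank F V) (u : V) :
    ∃ e, Φ.Q e = 0 ∧ Φ.B u e = 0 ∧ ∃ y, Φ.B u y = 0 ∧ Φ.B e y ≠ 0 := by
  obtain ⟨φ, hφ⟩ : ∃ φ : Dual F V, u ≠ 0 → φ u = 1 := by
    by_cases hu : u = 0
    · exact ⟨0, fun h => (h hu).elim⟩
    · obtain ⟨φ, -, h⟩ := exists_dual_one (⊥ : Submodule F V) (u := u) hu
      exact ⟨φ, fun _ => h⟩
  obtain ⟨e, -, he0, he, h1⟩ := Φ.exists_sing_ker [Φ.B u, φ] ⊤ (by rw [finrank_top]; exact hd)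
  simp only [List.mem_cons, List.not_mem_nil, or_false, forall_eq_or_imp, forall_eq] at h1
  refine ⟨e, he, h1.1, ?_⟩
  by_contra hc
  push Not at hc
  obtain ⟨c, rfl⟩ := Φ.exists_smul_of_perp hc
  have hu : u ≠ 0 := fun h => he0 (by rw [h, smul_zero])
  have := h1.2
  rw [map_smul, hφ hu, smul_eq_mul, mul_one] at this
  exact he0 (by rw [this, zero_smul])

theorem exists_sing_perp_ne (hd : Φ.d + 2 ≤ finrank F V) {u v : V}
    (h : ∃ y, Φ.B u y = 0 ∧ Φ.B v y ≠ 0) : ∃ a, Φ.Q a = 0 ∧ Φ.B u a = 0 ∧ Φ.B v a ≠ 0 := by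
  obtain ⟨e, he, h1, h2⟩ := exists_sing_perp_rad hd u
  obtain ⟨s, hs, h3, h4⟩ := exists_sing_not_perp (LinearMap.ker (Φ.B u)) h1 he h2 h
  exact ⟨s, h3, hs, h4⟩

theorem exists_perp_ne_of {u v x : V} (hv : v ≠ 0) (h1 : Φ.B x v = 0) (h2 : Φ.B x u ≠ 0) :
    ∃ y, Φ.B u y = 0 ∧ Φ.B v y ≠ 0 := by
  by_contra hc
  push Not at hc
  obtain ⟨c, rfl⟩ := Φ.exists_smul_of_perp hc
  rw [Φ.B_smul_right] at h1
  exact hv (by rw [(mul_eq_zero.1 h1).resolve_right h2, zero_smul])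

variable {c₀ : F} (hd : Φ.d + 2 ≤ finrank F V) (hc₀ : c₀ ≠ 0) (hπ : Φ.π c₀ = 0) (hM : Φ.EG ≤ M)
include hπ hM

omit [FiniteDimensional F V] in
theorem hasTv_lam {e : V} (he : Φ.Q e = 0) : HasTv M ((-(Φ.ε * c₀)) • Φ.B e) e := by
  have hv : Φ.Valid e 0 c₀ := ⟨he, map_zero _, by rw [hπ, Φ.Q_zero]⟩
  exact ⟨hv.eich, hM hv.eich_mem, fun x => by
    simp only [hv.eich_apply, ef, Φ.bsimp, LinearMap.smul_apply, smul_eq_mul]; module⟩

include hd hc₀

theorem hasTv_smul_of {v u a : V} (hv0 : v ≠ 0) (hu : Φ.B u v = 0) (h : HasTv M (Φ.B u) v)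
    (ha : Φ.Q a = 0) (hav : Φ.B a v = 0) (hua : Φ.B u a ≠ 0) (μ : F) :
    HasTv M (Φ.B (μ • a)) v := by
  have aa := Φ.B_self ha
  set c := -(Φ.ε * c₀) with hc
  have hc' : c ≠ 0 := neg_ne_zero.2 (mul_ne_zero Φ.eps_ne hc₀)
  have h1 := h.comm hu (ψ := c • Φ.B a) (by simp [aa]) (by simp [hav]) (hasTv_lam hπ hM ha)
  obtain ⟨f, hf, haf, hvf⟩ := exists_sing_perp_ne hd (exists_perp_ne_of hv0 hu hua)
  have hfv := Φ.ne_symm hvf
  have h2 : ∀ l : F, HasTv M (c • Φ.B a) (l • a) := fun l => by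
    set t := Φ.σ (l / (Φ.ε * Φ.B u a * Φ.B f v)) with ht
    have hv : Φ.Valid a (t • f) 0 := valid_zero ha (by simp [haf]) (Φ.Q_smul_zero hf _)
    have hI := hv.mem_Iso hv.eich_apply
    have h3 := (h1.conj (hM hv.eich_mem)).congr (φ' := c • Φ.B a)
      (v' := Φ.B u a • v - l • a) fun x => by
        rw [LinearMap.comp_apply, LinearEquiv.coe_coe, LinearMap.smul_apply, Iso.B_inv hI,
          hv.eich_apply, hv.ef_self, hv.eich_apply, ef_apply_of_perp' (by simp [hav])]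
        simp only [Φ.bsimp, ht, LinearMap.smul_apply]
        congr 3
        have := Φ.eps_ne
        field_simp
    have := h1.add_right (w := -(Φ.B u a • v - l • a)) (by simp [hav, aa])
      (h3.neg_right (by simp [hav, aa]))
    simpa using this
  have h3 := h.comm hu (ψ := c • Φ.B a) (by simp [aa]) (by simp [hav])
    (h2 (Φ.σ μ / (c * Φ.B u a)))
  refine h3.congr fun x => ?_
  simp only [Φ.bsimp, LinearMap.smul_apply, smul_eq_mul, smul_smul]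
  congr 1
  field_simp

theorem SLV_le_of_hasTv' {e u y : V} (he0 : e ≠ 0) (hu : Φ.B u e = 0) (hy : Φ.B e y = 0)
    (huy : Φ.B u y ≠ 0) (h : HasTv M (Φ.B u) e) : SLV F V ≤ M := by
  have hu0 : u ≠ 0 := fun h => huy (by simp [h])
  obtain ⟨v, hv, huv, hev⟩ := exists_sing_perp_ne hd (u := u) (v := e) (by
    by_contra hc
    push Not at hc
    obtain ⟨c, rfl⟩ := Φ.exists_smul_of_perp hc
    rw [Φ.B_smul_left, mul_eq_zero, Φ.σ_eq_zero] at hy
    exact he0 (by rw [hy.resolve_right huy, zero_smul]))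
  have hve := Φ.ne_symm hev
  have h1 := h.comm' hu (by simp [Φ.B_self hv]) huv (hasTv_lam hπ hM hv)
  have hγ : ((-(Φ.ε * c₀)) • Φ.B v) e ≠ 0 :=
    mul_ne_zero (neg_ne_zero.2 (mul_ne_zero Φ.eps_ne hc₀)) hve
  generalize ((-(Φ.ε * c₀)) • Φ.B v) e = γ at h1 hγ
  have hv0 : γ • v ≠ 0 := smul_ne_zero hγ fun h => hev (by simp [h])
  have hv' := Φ.Q_smul_zero hv γ
  have huv' : Φ.B u (γ • v) = 0 := by simp [huv]
  obtain ⟨a, ha, hva, hua⟩ := exists_sing_perp_ne hd (u := γ • v) (v := u)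
    (exists_perp_ne_of (x := e) hu0 (Φ.perp_symm hu) (by simp [hγ, hev]))
  generalize γ • v = b at *
  let A : AddSubgroup V :=
    { carrier := {u | Φ.B u b = 0 ∧ HasTv M (Φ.B u) b}
      zero_mem' := ⟨by simp, by rw [map_zero]; exact hasTv_zero_left b⟩
      add_mem' := fun {a b} ha hb => ⟨by rw [Φ.B_add_left, ha.1, hb.1, add_zero], by
        rw [map_add]; exact ha.2.add_left ha.1 hb.2⟩
      neg_mem' := fun {a} ha => ⟨by rw [Φ.B_neg_left, ha.1, neg_zero], by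
        rw [map_neg]; exact ha.2.neg_left ha.1⟩ }
  have key : ∀ u ∈ A, ∀ a, Φ.Q a = 0 → Φ.B b a = 0 → Φ.B u a ≠ 0 → a ∈ A := fun u hu a h2 h3 h4 =>
    ⟨Φ.perp_symm h3, by simpa using hasTv_smul_of hd hc₀ hπ hM hv0 hu.1 hu.2 h2 (Φ.perp_symm h3) h4 1⟩
  have haA := key u ⟨huv', h1⟩ a ha hva hua
  have ha1 : ∃ y ∈ LinearMap.ker (Φ.B b), Φ.B a y ≠ 0 := ⟨u, Φ.perp_symm huv', Φ.ne_symm hua⟩
  have h2 := le_of_sing (Y := LinearMap.ker (Φ.B b)) hva ha ha1 A fun s hs qs hs1 => by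
    by_cases h3 : Φ.B a s = 0
    · obtain ⟨s', h4, h5, h6, h7⟩ := exists_sing_not_perp₂ _ hva ha h3 ha1 hs1
      exact key s' (key a haA s' h5 h4 h6) s qs hs (Φ.ne_symm h7)
    · exact key a haA s qs hs h3
  refine SLV_le_of_irr ((irr_EG hd).mono hM) hv0 fun φ hφ => ?_
  obtain ⟨v, rfl⟩ := Φ.exists_eq_dual φ
  exact (h2 v (Φ.perp_symm hφ)).2

/-- Similarity groups of symplectic and unitary forms. -/
theorem SLV_le_of_not_sim_tv' {g : V ≃ₗ[F] V}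
    (hg : g ∈ M) (h : ¬ ∃ c : F, ∀ x y, Φ.B (g x) (g y) = c * Φ.B x y) : SLV F V ≤ M := by
  by_contra hc
  apply h
  have h1 : ∀ e, Φ.Q e = 0 → e ≠ 0 → ∃ l, ∀ y, Φ.B (g e) (g y) = l * Φ.B e y := fun e he he0 => by
    have h3 := (hasTv_lam hπ hM he).conj hg
    obtain ⟨u, hu⟩ := Φ.exists_eq_dual (((-(Φ.ε * c₀)) • Φ.B e) ∘ₗ (g⁻¹ : V ≃ₗ[F] V).toLinearMap)
    have h4 : ∀ y, Φ.B u (g y) = -(Φ.ε * c₀) * Φ.B e y := fun y => by simp [hu]
    obtain ⟨t, rfl⟩ := Φ.exists_smul_of_perp (e := g e) (v := u) fun y hy => by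
      by_contra h5
      exact hc (SLV_le_of_hasTv' hd hc₀ hπ hM (g.map_ne_zero_iff.2 he0)
        (by rw [h4, Φ.B_self he, mul_zero]) hy h5 (hu ▸ h3))
    obtain ⟨z, hz⟩ := Φ.exists_B_ne he0
    have h5 : Φ.σ t ≠ 0 := left_ne_zero_of_mul (by
      rw [← Φ.B_smul_left, h4]
      exact mul_ne_zero (neg_ne_zero.2 (mul_ne_zero Φ.eps_ne hc₀)) hz)
    exact ⟨-(Φ.ε * c₀) / Φ.σ t, fun y => by
      rw [div_mul_eq_mul_div, ← h4, Φ.B_smul_left, mul_div_cancel_left₀ _ h5]⟩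
  choose! l hl using h1
  have h2 : ∀ a b, Φ.Q a = 0 → Φ.Q b = 0 → Φ.B a b ≠ 0 → l a = Φ.σ (l b) := fun a b ha hb hab => by
    have h3 := hl a ha (fun h => hab (by simp [h])) b
    rw [Φ.symm, hl b hb (fun h => hab (by simp [h])), map_mul, Φ.symm b a] at h3
    refine mul_right_cancel₀ (mul_ne_zero Φ.eps_ne (Φ.σ_ne (Φ.ne_symm hab))) ?_
    linear_combination -h3
  have h3 : ∀ a b, Φ.Q a = 0 → Φ.Q b = 0 → a ≠ 0 → b ≠ 0 → Φ.B a b = 0 → l a = l b :=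
    fun a b ha hb ha0 hb0 hab => by
      obtain ⟨s, -, hs, h4, h5⟩ := exists_sing_not_perp₂ ⊤ trivial ha hab
        (let ⟨y, hy⟩ := Φ.exists_B_ne ha0; ⟨y, trivial, hy⟩)
        (let ⟨y, hy⟩ := Φ.exists_B_ne hb0; ⟨y, trivial, hy⟩)
      rw [h2 a s ha hs h4, h2 b s hb hs h5]
  obtain ⟨e, -, he0, he⟩ := Φ.iso ⊤ (by rw [finrank_top]; omega)
  let A : AddSubgroup V :=
    { carrier := {x | ∀ y, Φ.B (g x) (g y) = l e * Φ.B x y}
      zero_mem' := fun y => by simp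
      add_mem' := fun {a b} ha hb y => by
        rw [map_add, Φ.B_add_left, ha, hb, Φ.B_add_left]; ring
      neg_mem' := fun {a} ha y => by rw [map_neg, Φ.B_neg_left, ha, Φ.B_neg_left]; ring }
  refine ⟨l e, fun x => le_of_sing (Y := ⊤) trivial he
    (let ⟨y, hy⟩ := Φ.exists_B_ne he0; ⟨y, trivial, hy⟩) A (fun s _ hs ⟨z, _, hz⟩ y => ?_) x trivial⟩
  have hs0 : s ≠ 0 := fun h => hz (by simp [h])
  obtain ⟨a, -, ha, h4, h5, z', -, h6⟩ := big_top (Φ := Φ) hd e s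
  have ha0 : a ≠ 0 := fun h => h6 (by simp [h])
  rw [hl s hs hs0, h3 e a he ha he0 ha0 h4, h3 s a hs ha hs0 ha0 h5]

end Fm

section Matrices

variable {ι : Type} [Fintype ι] [DecidableEq ι]

theorem tv_similarity_isMaximalIn' (Φ : Fm F (ι → F)) (hd : Φ.d + 2 ≤ Fintype.card ι)
    (hΛ : ∃ c, c ≠ 0 ∧ Φ.π c = 0) {S : Subgroup (GL ι F)}
    (hS : ∀ g, g ∈ S ↔ ∃ c : Fˣ, ∀ x y, Φ.B (glEquiv ι F g x) (glEquiv ι F g y) = c * Φ.B x y) :
    Geo.IsMaximalIn (Geo.specialLinear ι F) (S ⊓ Geo.specialLinear ι F) := by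
  obtain ⟨c, hc, hc'⟩ := hΛ
  have hd' : Φ.d + 2 ≤ finrank F (ι → F) := by simpa using hd
  have := Φ.d_pos
  refine similarityGroup_isMaximalIn_of Φ (by omega) (fun H hH => Fm.sim_isMaximalIn_of (by omega)
    (by omega) hH fun M h1 _ _ hn g hg => ?_) hS
  by_contra h
  exact hn (Fm.SLV_le_of_not_sim_tv' hd' hc hc' h1 hg h)

theorem sp_similarity_isMaximalIn_four {f : (ι → F) → (ι → F) → F} (hf : Geo.IsSymplecticForm f)
    (hn : 3 ≤ Fintype.card ι) :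
    Geo.IsMaximalIn (Geo.specialLinear ι F) (Geo.similarityGroup f ⊓ Geo.specialLinear ι F) :=
  tv_similarity_isMaximalIn' (fmSp hf) hn ⟨1, one_ne_zero, rfl⟩ fun _ => Iff.rfl

theorem u_similarity_isMaximalIn_four [Finite F] {σ : F ≃+* F} {f : (ι → F) → (ι → F) → F}
    (hf : Geo.IsUnitaryForm σ f) (hn : 4 ≤ Fintype.card ι) :
    Geo.IsMaximalIn (Geo.specialLinear ι F) (Geo.similarityGroup f ⊓ Geo.specialLinear ι F) := by
  obtain ⟨a, ha⟩ : ∃ a, σ a ≠ a := by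
    by_contra h
    push Not at h
    exact hf.ne_refl (RingEquiv.ext h)
  exact tv_similarity_isMaximalIn' (fmU hf) hn ⟨a - σ a, sub_ne_zero.2 ha.symm, by
      convert (fmU hf).π_sub_conj a using 3
      exact (one_mul _).symm⟩ fun _ =>
    ⟨fun ⟨c, hc⟩ => ⟨c, fun x y => hc y x⟩, fun ⟨c, hc⟩ => ⟨c, fun x y => hc y x⟩⟩

end Matrices

end Cfsg.Agent.Class.Max
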