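import Mathlib
import Cfsg.Agent.Class.Max.LowO

/-!
Similarity groups of quadratic forms in dimension at least four, odd characteristic.
-/

set_option autoImplicit false

namespace Cfsg.Agent.Class.Max

open Module

variable {F V : Type*} [Field F] [AddCommGroup V] [Module F V] [FiniteDimensional F V]

theorem det_of_tv {g : V ≃ₗ[F] V} {φ : Dual F V} {v : V} (e : ∀ x, g x = x + φ x • v) :
    LinearMap.det (g : V →ₗ[F] V) = 1 + φ v := by
  rw [← LinearMap.transvection.det]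
  congr 1
  ext x
  rw [LinearEquiv.coe_coe, e, LinearMap.transvection.apply]

namespace Fm

variable {Φ : Fm F V} {M : Subgroup (V ≃ₗ[F] V)}

theorem det_refl {a : V} {c : F} (hc : c ≠ 0) (h : Φ.π c = Φ.Q a) :
    LinearMap.det ((refl hc h : V ≃ₗ[F] V) : V →ₗ[F] V) = 1 - c⁻¹ * Φ.B a a := by
  rw [det_of_tv (φ := (-c⁻¹) • Φ.B a) (v := a) fun x => by
    rw [refl_apply, LinearMap.smul_apply, smul_eq_mul, neg_mul, neg_smul, sub_eq_add_neg]]
  simp [sub_eq_add_neg]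

namespace IsO

variable (hO : Φ.IsO)
include hO

theorem refl_mul_mem {a b : V} (ha : Φ.Q a ≠ 0) (hb : Φ.Q b ≠ 0) :
    refl ha (hO.π _) * refl hb (hO.π _) ∈ Φ.Iso ⊓ SLV F V := by
  refine ⟨Φ.Iso.mul_mem (refl_mem_Iso _ _) (refl_mem_Iso _ _), mem_SLV.2 ?_⟩
  rw [LinearEquiv.coe_toLinearMap_mul, map_mul, det_refl, det_refl, hO.B_self, hO.B_self]
  field_simp
  ring

omit [FiniteDimensional F V] in
theorem refl_move {x y : V} (hx : Φ.Q x = 0) (hy : Φ.Q y = 0) (h : Φ.B x y ≠ 0) :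
    ∃ h0 : Φ.Q (x - y) ≠ 0, refl h0 (hO.π _) x = y := by
  have h1 : Φ.Q (x - y) = -Φ.B x y := by rw [hO.Q_sub, hx, hy]; ring
  refine ⟨by rwa [h1, neg_ne_zero], ?_⟩
  rw [refl_apply, h1, Φ.B_sub_left, Φ.B_self hx, hO.symm x y, zero_sub, inv_mul_cancel₀
    (neg_ne_zero.2 h), one_smul, sub_sub_cancel]

theorem move_SO (h3 : 3 ≤ finrank F V) {x y : V} (hx : Φ.Q x = 0) (hy : Φ.Q y = 0) (hx0 : x ≠ 0)
    (hy0 : y ≠ 0) : ∃ g ∈ Φ.Iso ⊓ SLV F V, g x = y := by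
  by_cases h : Φ.B x y = 0
  · obtain ⟨s, -, hs, h1, h2⟩ := exists_sing_not_perp₂ ⊤ trivial hx h
      (let ⟨y, hy⟩ := Φ.exists_B_ne hx0; ⟨y, trivial, hy⟩)
      (let ⟨y, hy⟩ := Φ.exists_B_ne hy0; ⟨y, trivial, hy⟩)
    obtain ⟨h4, h5⟩ := hO.refl_move hx hs h1
    obtain ⟨h6, h7⟩ := hO.refl_move hs hy (Φ.ne_symm h2)
    exact ⟨_, hO.refl_mul_mem h6 h4, by rw [mul_app, h5, h7]⟩
  · obtain ⟨w, -, h1, h2, h4⟩ := hO.exists_nonsing_perp Φ.nd_top (by rwa [finrank_top]) trivial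
      (f := (Φ.B x y)⁻¹ • y) trivial hx (Φ.Q_smul_zero hy _) (by simp [h])
    obtain ⟨h5, h6⟩ := hO.refl_move hx hy h
    exact ⟨_, hO.refl_mul_mem h5 h1, by
      rw [mul_app, refl_apply h1, Φ.perp_symm h2, mul_zero, zero_smul, sub_zero, h6]⟩

/-- A transvection with singular centre together with `SO` generates `SL`. -/
theorem SLV_le_of_tv' (h2 : (2 : F) ≠ 0) (h4 : 4 ≤ finrank F V) (hM : Φ.Iso ⊓ SLV F V ≤ M) {e₀ : V}
    (he₀ : Φ.Q e₀ = 0) (h0 : e₀ ≠ 0) {φ : Dual F V} (hφ0 : φ ≠ 0) (hφ : φ e₀ = 0)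
    (h : HasTv M φ e₀) : SLV F V ≤ M := by
  have hE : Φ.EG ≤ M := (le_inf Φ.EG_le_Iso Φ.EG_le_SLV).trans hM
  obtain ⟨c₀, hc₀, h1⟩ : ∃ c : F, c ≠ 0 ∧ HasTv M (Φ.B (c • e₀)) e₀ := by
    obtain ⟨u, rfl⟩ := Φ.exists_eq_dual φ
    by_cases h1 : ∀ y, Φ.B e₀ y = 0 → Φ.B u y = 0
    · obtain ⟨c, rfl⟩ := Φ.exists_smul_of_perp h1
      exact ⟨c, fun hc => hφ0 (by simp [hc]), h⟩
    push Not at h1
    obtain ⟨w, hw, huw⟩ := h1
    have hv := hO.valid he₀ hw
    have h3 := hasTv_conj_iso h (hE hv.eich_mem) (hv.mem_Iso hv.eich_apply)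
    rw [hv.eich_apply, hv.eich_apply, hv.ef_self, ef_apply_of_perp' (Φ.perp_symm hφ)] at h3
    refine ⟨Φ.ε * Φ.B w u, mul_ne_zero Φ.eps_ne (Φ.ne_symm huw), ?_⟩
    have h4 : Φ.B (u - (Φ.ε * Φ.B w u) • e₀) e₀ = 0 := by simp [hφ, Φ.B_self he₀]
    simpa using h.add_left hφ (h3.neg_left h4)
  have h3 : ∀ s, Φ.Q s = 0 → ∀ c : F, HasTv M (Φ.B (c • s)) s := fun s hs c => by
    by_cases hs0 : s = 0
    · rw [hs0]; exact hasTv_zero_right _
    have key : ∀ a : F, HasTv M (Φ.B ((c₀ * a ^ 2) • s)) s := fun a => by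
      by_cases ha : a = 0
      · simpa [ha] using hasTv_zero_left s
      obtain ⟨g, hg, e1⟩ := hO.move_SO (by omega) he₀ (Φ.Q_smul_zero hs a) h0 (smul_ne_zero ha hs0)
      refine (hasTv_conj_iso h1 (hM hg) hg.1).congr fun x => ?_
      simp only [map_smul, e1, Φ.bsimp, hO.σ]
      module
    have h4 : ∀ a : F, Φ.B (a • s) s = 0 := fun a => by simp [Φ.B_self hs]
    refine ((key ((c / c₀ + 1) / 2)).add_left (h4 _) ((key ((c / c₀ - 1) / 2)).neg_left (h4 _))).congr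
      fun x => ?_
    simp only [LinearMap.add_apply, LinearMap.neg_apply, Φ.bsimp, hO.σ]
    congr 1
    field_simp
    ring
  have key : ∀ b, Φ.Q b = 0 → b ≠ 0 → ∀ u, Φ.B b u = 0 → Φ.Q u ≠ 0 → HasTv M (Φ.B u) b :=
    fun b qb hb0 u hbu qu => by
      obtain ⟨s, -, qs, hbs, hus⟩ := exists_sing_not_perp₂ ⊤ trivial qb hbu
        (let ⟨y, hy⟩ := Φ.exists_B_ne hb0; ⟨y, trivial, hy⟩)
        ⟨u, trivial, by rw [hO.B_self]; exact mul_ne_zero h2 qu⟩
      set t := Φ.Q u / Φ.B u s with ht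
      have ht0 : t ≠ 0 := div_ne_zero qu hus
      have ss := Φ.B_self qs
      have hsu : Φ.B s u = Φ.B u s := hO.symm _ _
      have hsb : Φ.B s b = Φ.B b s := hO.symm _ _
      have hub : Φ.B u b = 0 := Φ.perp_symm hbu
      have q1 : Φ.Q (u - t • s) = 0 := by
        rw [hO.Q_sub, Φ.Q_smul_zero qs, Φ.B_smul_right, ht, div_mul_cancel₀ _ hus]; ring
      obtain ⟨k, hk, e1⟩ := h3 s qs (-t / Φ.B u s)
      have h5 : HasTv M (Φ.B ((-(2 * t * Φ.B b s))⁻¹ • u)) (u - (2 * t) • s) := by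
        refine ((h3 _ q1 (-(2 * t * Φ.B b s))⁻¹).conj hk).congr fun x => ?_
        have : k⁻¹ x = x + (t / Φ.B u s * Φ.B s x) • s := k.injective (by
          rw [app_inv_app, e1]
          simp only [Φ.bsimp, ss, hO.σ]; module)
        simp only [LinearMap.comp_apply, LinearEquiv.coe_coe, this, e1, Φ.bsimp, hO.σ, ss, hsu]
        match_scalars
        · field_simp; ring
        · field_simp; ring
      refine (HasTv.comm' ?_ (by simp [Φ.B_self qb]) (by simp [hub]) h5 (h3 b qb 1)).congr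
        fun x => ?_
      · simp only [Φ.bsimp, hO.B_self, ht]
        field_simp
        ring
      · simp only [Φ.bsimp, hO.σ, hbu, smul_smul]
        congr 1
        field_simp
        ring
  obtain ⟨e, f, he, hf, hef⟩ := exists_hyp (Φ := Φ) (by rw [hO.d]; omega)
  obtain ⟨w, -, hw, hew, -⟩ := hO.exists_nonsing_perp Φ.nd_top (by rw [finrank_top]; omega)
    trivial trivial he hf hef
  have he0 : e ≠ 0 := fun h => by simp [h] at hef
  apply SLV_le_of_elations_eq_top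
  have h5 : ∀ b, Φ.Q b = 0 → b ∈ elations M := fun b qb φ hφ => by
    by_cases hb0 : b = 0
    · rw [hb0]; exact hasTv_zero_right _
    obtain ⟨g, hg, rfl⟩ := hO.move_SO (by omega) he qb he0 hb0
    obtain ⟨v, rfl⟩ := Φ.exists_eq_dual φ
    obtain ⟨v, rfl⟩ := g.surjective v
    rw [Iso.B hg.1] at hφ
    refine hasTv_conj_iso ?_ (hM hg) hg.1
    have h6 : ∀ w, Φ.Q w ≠ 0 → Φ.B e w = 0 → Φ.Q (v + w) ≠ 0 → HasTv M (Φ.B v) e :=
      fun w hw hew h => by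
        have := (key e he he0 _ (by simp [hew, Φ.perp_symm hφ]) h).add_left
          (by simp [hφ, Φ.perp_symm hew]) ((key e he he0 w hew hw).neg_left (Φ.perp_symm hew))
        simpa using this
    by_cases qv : Φ.Q v = 0
    · by_cases h7 : Φ.Q (v + w) = 0
      · refine h6 (-w) (by rwa [Φ.Q_neg]) (by simp [hew]) fun h8 => mul_ne_zero h2 hw ?_
        rw [hO.Q_add, qv] at h7 h8
        rw [Φ.Q_neg, map_neg] at h8
        linear_combination h7 + h8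
      · exact h6 w hw hew h7
    · exact key e he he0 v (Φ.perp_symm hφ) qv
  rw [eq_top_iff]
  intro y _
  exact le_of_sing (Y := ⊤) trivial he ⟨f, trivial, by simp [hef]⟩ (elations M).toAddSubgroup
    (fun s _ hs _ => h5 s hs) y trivial

section Rigid

variable (h2 : (2 : F) ≠ 0) (h4 : 4 ≤ finrank F V) (hM' : Φ.Iso ⊓ SLV F V ≤ M) (hn : ¬ SLV F V ≤ M)
include h2 h4 hM' hn

theorem eq_of_tv' {e : V} (he : Φ.Q e = 0) (h0 : e ≠ 0) {k : V ≃ₗ[F] V} (hk : k ∈ M) (hke : k e = e)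
    (h : ∀ x, ∃ t : F, k x = x + t • e) (x : V) : k x = x := by
  obtain ⟨y, hy⟩ := Φ.exists_B_ne h0
  have h1 := B_normalize' hy
  generalize (Φ.ε * (Φ.B e y)⁻¹) • y = f at h1
  have h3 : ∀ x, k x = x + (Φ.B f ∘ₗ k.toLinearMap - Φ.B f) x • e := fun x => by
    obtain ⟨t, ht⟩ := h x
    simp [ht, h1]
  by_cases h5 : Φ.B f ∘ₗ k.toLinearMap - Φ.B f = 0
  · rw [h3, h5]; simp
  · exact (hn (hO.SLV_le_of_tv' h2 h4 hM' he h0 h5 (by simp [hke]) ⟨k, hk, h3⟩)).elim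

theorem eq_ef' {e w : V} (he : Φ.Q e = 0) (h0 : e ≠ 0) (hw : Φ.B e w = 0) {z : V ≃ₗ[F] V} (hz : z ∈ M)
    (hze : z e = e) (h : ∀ x, ∃ t : F, z x = x + Φ.B e x • w + t • e) (x : V) :
    z x = Φ.ef e w (Φ.Q w) x := by
  have hM : Φ.EG ≤ M := (le_inf Φ.EG_le_Iso Φ.EG_le_SLV).trans hM'
  have hv := hO.valid he hw
  obtain ⟨E, hE, eE⟩ := hv.hasE
  have h1 : E e = e := by rw [eE, hv.ef_self]
  have := hO.eq_of_tv' h2 h4 hM' hn he h0 (M.mul_mem (M.inv_mem (hM hE)) hz)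
    (by rw [mul_app, hze, inv_app_of_eq h1]) (fun x => by
      obtain ⟨t, ht⟩ := h x
      refine ⟨t + (Φ.B w x + Φ.Q w * Φ.B e x), E.injective ?_⟩
      rw [mul_app, app_inv_app, map_add, map_smul, h1, eE, hO.ef, ht]
      module) x
  rw [← eE, ← app_inv_app E (z x), ← mul_app E⁻¹, this]

theorem perp_of_fix' {e : V} (he : Φ.Q e = 0) (h0 : e ≠ 0) {h : V ≃ₗ[F] V} (hh : h ∈ M) {μ : F}
    (hμ : h e = μ • e) : ∃ l : F, ∀ y, Φ.B e (h⁻¹ y) = l * Φ.B e y := by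
  have hM : Φ.EG ≤ M := (le_inf Φ.EG_le_Iso Φ.EG_le_SLV).trans hM'
  have ee := Φ.B_self he
  have hμ0 : μ ≠ 0 := by
    rintro rfl
    exact h0 (by simpa using hμ)
  obtain ⟨u, hu⟩ := Φ.exists_eq_dual (Φ.B e ∘ₗ (h⁻¹ : V ≃ₗ[F] V).toLinearMap)
  have hu' : ∀ y, Φ.B e (h⁻¹ y) = Φ.B u y := fun y => by simp [hu]
  suffices ∀ y, Φ.B e y = 0 → Φ.B u y = 0 by
    obtain ⟨l, rfl⟩ := Φ.exists_smul_of_perp this
    exact ⟨l, fun y => by rw [hu', Φ.B_smul_left, hO.σ]⟩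
  by_contra hc
  push Not at hc
  have hue : Φ.B u e = 0 := by
    have := hu' (μ • e)
    rw [← hμ, inv_app_app, ee, hμ, Φ.B_smul_right, eq_comm] at this
    exact (mul_eq_zero.1 this).resolve_left hμ0
  obtain ⟨f, -, hf, hef⟩ := exists_partner (U := ⊤) trivial he
    (let ⟨y, hy⟩ := Φ.exists_B_ne h0; ⟨y, trivial, hy⟩)
  have hfe : Φ.B f e = 1 := by rw [hO.symm, hef]
  obtain ⟨w₀, hw₀, huw₀⟩ := hc
  obtain ⟨w, hw, huw⟩ : ∃ w, Φ.B e w = 0 ∧ Φ.B u w = 1 :=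
    ⟨(Φ.B u w₀)⁻¹ • w₀, by simp [hw₀], by simp [huw₀]⟩
  have key : ∀ v, Φ.B e v = 0 → Φ.B u v = 0 → Φ.Q (w + v) = Φ.Q w := fun v hev huv => by
    have v1 := hO.valid he (w := h⁻¹ v) (by rw [hu', huv])
    have v2 := hO.valid he hw
    obtain ⟨E, hE, eE⟩ := v2.hasE
    set x := h * v1.eich * h⁻¹ with hx
    have hxM : x ∈ M := M.mul_mem (M.mul_mem hh (hM v1.eich_mem)) (M.inv_mem hh)
    have h6 : ∀ y, ∃ t : F, x y = y + Φ.B u y • v + t • e := fun y => ⟨_, by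
      rw [hx, mul_app, mul_app, v1.eich_apply, hO.ef, map_sub, map_add, map_smul, map_smul,
        app_inv_app, app_inv_app, hu', hμ, smul_smul, sub_eq_add_neg, ← neg_smul]⟩
    have h7 : x e = e := by
      rw [hx, mul_app, mul_app, show h⁻¹ e = μ⁻¹ • e from h.injective (by
        rw [app_inv_app, map_smul, hμ, smul_smul, inv_mul_cancel₀ hμ0, one_smul]), map_smul,
        v1.eich_apply, v1.ef_self, map_smul, hμ, smul_smul, inv_mul_cancel₀ hμ0, one_smul]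
    have h8 : ∀ y, Φ.B e (x⁻¹ y) = Φ.B e y := fun y => by
      obtain ⟨t, ht⟩ := h6 (x⁻¹ y)
      rw [app_inv_app] at ht
      nth_rewrite 2 [ht]
      simp [hev, ee]
    have h9 := hO.eq_ef' h2 h4 hM' hn he h0 (w := w + v) (by simp [hw, hev])
      (M.mul_mem (M.mul_mem hxM (hM hE)) (M.inv_mem hxM))
      (by rw [mul_app, mul_app, inv_app_of_eq h7, eE, v2.ef_self, h7]) fun y => by
        obtain ⟨t, ht⟩ := h6 w
        refine ⟨Φ.B e y * t - (Φ.B w (x⁻¹ y) + Φ.Q w * Φ.B e y), ?_⟩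
        rw [mul_app, mul_app, eE, hO.ef, map_sub, map_add, map_smul, map_smul,
          app_inv_app, h7, h8, ht, huw]
        module
    have h10 : ∀ y, E (E y) + y = (2 : F) • E y - (2 * Φ.Q w * Φ.B e y) • e := fun y => by
      simp only [eE, hO.ef, Φ.bsimp, hw, Φ.perp_symm hw, ee, hO.B_self w]
      module
    have h11 := congrArg x (h10 (x⁻¹ f))
    simp only [mul_app] at h9
    rw [map_add, map_sub, map_smul, map_smul, app_inv_app, h9, ← inv_app_app x (E (x⁻¹ f)), h9, h9,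
      h7, h8] at h11
    have h12 := congrArg (Φ.B f) h11
    have h13 : Φ.B (w + v) e = 0 := by simp [Φ.perp_symm hw, Φ.perp_symm hev]
    generalize w + v = w' at *
    simp only [hO.ef, Φ.bsimp, hef, hfe, ee, h13, Φ.perp_symm h13, hO.B_self w', Φ.B_self hf] at h12
    exact mul_left_cancel₀ h2 (by linear_combination -h12)
  have key2 : ∀ v, Φ.B e v = 0 → Φ.B u v = 0 → Φ.Q v = 0 ∧ Φ.B w v = 0 := fun v hev huv => by
    have h5 := key v hev huv
    have h6 := key (-v) (by simp [hev]) (by simp [huv])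
    rw [hO.Q_add] at h5 h6
    rw [Φ.Q_neg, map_neg] at h6
    exact ⟨mul_left_cancel₀ h2 (by linear_combination h5 + h6),
      mul_left_cancel₀ h2 (by linear_combination h5 - h6)⟩
  obtain ⟨v, -, hv0, hv⟩ := exists_ne_zero_ker [Φ.B e, Φ.B u, Φ.B f] ⊤ (by
    rw [finrank_top]; exact h4)
  simp only [List.mem_cons, List.not_mem_nil, or_false, forall_eq_or_imp, forall_eq] at hv
  obtain ⟨c, rfl⟩ := Φ.exists_smul_of_perp (e := e) (v := v) fun y hy => by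
    have h5 := key2 (y - Φ.B u y • w) (by simp [hy, hw]) (by simp [huw])
    have h6 := key2 (v + (y - Φ.B u y • w)) (by simp [hy, hw, hv.1]) (by simp [huw, hv.2.1])
    have h7 := key2 v hv.1 hv.2.1
    rw [hO.Q_add, h5.1, h7.1] at h6
    simpa [Φ.perp_symm h7.2] using h6.1
  exact hv0 (by rw [show c = 0 by simpa [hfe] using hv.2.2, zero_smul])

theorem sim_of_fix' (hH : ∀ g ∈ SLV F V, (∃ c : F, ∀ x y, Φ.B (g x) (g y) = c * Φ.B x y) → g ∈ M)
    (hS : M ≤ SLV F V) {e : V} (he : Φ.Q e = 0) (h0 : e ≠ 0) {h : V ≃ₗ[F] V} (hh : h ∈ M) {μ : F}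
    (hμ : h e = μ • e) : ∃ c : F, ∀ x y, Φ.B (h x) (h y) = c * Φ.B x y := by
  have hM : Φ.EG ≤ M := (le_inf Φ.EG_le_Iso Φ.EG_le_SLV).trans hM'
  have h₄ := h4
  have ee := Φ.B_self he
  have hμ0 : μ ≠ 0 := by
    rintro rfl
    exact h0 (by simpa using hμ)
  obtain ⟨l, hl⟩ := hO.perp_of_fix' h2 h4 hM' hn he h0 hh hμ
  have hl' : ∀ y, Φ.B e y = l * Φ.B e (h y) := fun y => by rw [← hl, inv_app_app]
  obtain ⟨f, -, hf, hef⟩ := exists_partner (U := ⊤) trivial he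
    (let ⟨y, hy⟩ := Φ.exists_B_ne h0; ⟨y, trivial, hy⟩)
  have hl0 : l ≠ 0 := left_ne_zero_of_mul (by rw [← hl', hef]; exact one_ne_zero)
  have h1 : ∀ w, Φ.B e w = 0 → Φ.B e (h w) = 0 := fun w hw =>
    (mul_eq_zero.1 ((hl' w).symm.trans hw)).resolve_left hl0
  have h3 : ∀ w, Φ.B e w = 0 → ∀ x, Φ.B (h w) (h x) = μ / l * Φ.B w x := fun w hw => by
    have hv := hO.valid he hw
    have h3 := hO.eq_ef' h2 h₄ hM' hn he h0 (w := l • h w) (by simp [h1 w hw])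
      (M.mul_mem (M.mul_mem hh (hM hv.eich_mem)) (M.inv_mem hh))
      (by rw [mul_app, mul_app, show h⁻¹ e = μ⁻¹ • e from h.injective (by
        rw [app_inv_app, map_smul, hμ, smul_smul, inv_mul_cancel₀ hμ0, one_smul]), map_smul,
        hv.eich_apply, hv.ef_self, map_smul, hμ, smul_smul, inv_mul_cancel₀ hμ0, one_smul])
      fun y => ⟨_, by
        rw [mul_app, mul_app, hv.eich_apply, hO.ef, map_sub, map_add, map_smul, map_smul,
          app_inv_app, hl, hμ, smul_smul, smul_smul, sub_eq_add_neg, ← neg_smul, mul_comm l]⟩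
    have h4 : ∀ x, μ * (Φ.B w x + Φ.Q w * Φ.B e x) =
        l * Φ.B (h w) (h x) + l * Φ.Q (h w) * Φ.B e x := fun x => by
      have := h3 (h x)
      rw [mul_app, mul_app, inv_app_app, hv.eich_apply, hO.ef, hO.ef, map_sub, map_add, map_smul,
        map_smul, hμ, smul_smul, smul_smul, mul_comm _ l, ← hl', sub_right_inj, hO.Q_smul,
        Φ.B_smul_left, hO.σ] at this
      rw [mul_comm μ, smul_left_injective F h0 this, hl' x]
      ring
    have h5 := h4 w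
    rw [hw, hO.B_self, hO.B_self] at h5
    have h6 : l * Φ.Q (h w) = μ * Φ.Q w := mul_left_cancel₀ h2 (by linear_combination -h5)
    intro x
    have := h4 x
    field_simp
    linear_combination -this - Φ.B e x * h6
  obtain ⟨t, ht, e1⟩ := hasTv_SLV (φ := (-(l * l * Φ.Q (h f))) • Φ.B e) (v := e) (by simp [ee])
  have h4 : Φ.B e (h f) = l⁻¹ := by
    have := hl' f
    rw [hef] at this
    exact eq_inv_of_mul_eq_one_right this.symm
  have h6 : ∀ x y, Φ.B ((t * h) x) ((t * h) y) = μ / l * Φ.B x y := by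
    have h6 : ∀ w, Φ.B e w = 0 → ∀ y, Φ.B ((t * h) w) ((t * h) y) = μ / l * Φ.B w y :=
      fun w hw y => by simp [e1, h1 w hw, Φ.perp_symm (h1 w hw), h3 w hw]
    have h7 : Φ.B ((t * h) f) ((t * h) f) = 0 := by
      simp only [mul_app, e1, LinearMap.smul_apply, smul_eq_mul, Φ.bsimp, hO.σ, h4, hO.symm e, ee,
        hO.B_self (h f)]
      field_simp
      ring
    have h8 : ∀ y, Φ.B ((t * h) f) ((t * h) y) = μ / l * Φ.B f y := fun y => by
      have := h6 (y - Φ.B e y • f) (by simp [hef]) f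
      rw [map_sub, map_smul, Φ.B_sub_left, Φ.B_sub_left, Φ.B_smul_left, Φ.B_smul_left, h7,
        Φ.B_self hf] at this
      rw [hO.symm, hO.symm y]
      linear_combination this
    intro x y
    have := h6 (x - Φ.B e x • f) (by simp [hef]) y
    rw [map_sub, map_smul, Φ.B_sub_left, Φ.B_sub_left, Φ.B_smul_left, Φ.B_smul_left, h8] at this
    linear_combination this
  have h7 : t ∈ M := by
    simpa using M.mul_mem (hH _ ((SLV F V).mul_mem ht (hS hh)) ⟨_, h6⟩) (M.inv_mem hh)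
  have h8 := hO.eq_of_tv' h2 h₄ hM' hn he h0 h7 (by simp [e1, ee]) fun x => ⟨_, e1 x⟩
  exact ⟨μ / l, by simpa only [mul_app, h8] using h6⟩

end Rigid

theorem sim_isMaximalIn' (h2 : (2 : F) ≠ 0) (h4 : 4 ≤ finrank F V)
    {H : Subgroup (V ≃ₗ[F] V)}
    (hH : ∀ g, g ∈ H ↔ (∃ c : F, ∀ x y, Φ.B (g x) (g y) = c * Φ.B x y) ∧ g ∈ SLV F V) :
    Geo.IsMaximalIn (SLV F V) H := by
  refine sim_isMaximalIn_of (by rw [hO.d]; omega) (by omega) hH fun M h1 h3 h5 hn g hg => ?_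
  have hM : Φ.Iso ⊓ SLV F V ≤ M := fun k hk =>
    h3 ((hH k).2 ⟨⟨1, fun x y => by rw [Iso.B hk.1, one_mul]⟩, hk.2⟩)
  have hfix := fun e he h0 k hk => hO.sim_of_fix' h2 h4 hM hn
    (fun g hg hg' => h3 ((hH g).2 ⟨hg', hg⟩)) h5 (e := e) he h0 (h := k) hk (μ := 1)
  obtain ⟨e, h0, he, he'⟩ : ∃ e, e ≠ 0 ∧ Φ.Q e = 0 ∧ Φ.Q (g e) = 0 := by
    obtain ⟨e, -, h0, he⟩ := Φ.iso ⊤ (by rw [finrank_top, hO.d]; omega)
    by_cases qx : Φ.Q (g e) = 0
    · exact ⟨e, h0, he, qx⟩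
    have hU : Φ.ND (LinearMap.ker (Φ.B (g e))) := fun x hx h => by
      obtain ⟨c, rfl⟩ := Φ.exists_smul_of_perp h
      have : c * (2 * Φ.Q (g e)) = 0 := by simpa [hO.B_self] using hx
      rw [(mul_eq_zero.1 this).resolve_right (mul_ne_zero h2 qx), zero_smul]
    have hU3 : 3 ≤ finrank F (LinearMap.ker (Φ.B (g e))) := by
      have := finrank_le_inf_ker ⊤ (Φ.B (g e))
      rw [finrank_top, top_inf_eq] at this
      omega
    obtain ⟨s, hs, f, hf, qs, qf, hsf⟩ := hU.exists_hyp (hO.d ▸ hU3)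
    obtain ⟨w, hw, qw, hsw, -⟩ := hO.exists_nonsing_perp hU hU3 hs hf qs qf hsf
    have hv := hO.valid qs hsw
    refine ⟨g⁻¹ s, fun h => ?_, ?_, by rwa [app_inv_app]⟩
    · rw [(map_eq_zero_iff _ g⁻¹.injective).1 h] at hsf
      simp at hsf
    by_contra qa
    obtain ⟨c, hc⟩ := hfix e he h0 (g⁻¹ * hv.eich * g)
      (M.mul_mem (M.mul_mem (M.inv_mem hg) (h1 hv.eich_mem)) hg) (by
        rw [mul_app, mul_app, hv.eich_apply, ef_apply_of_perp (Φ.perp_symm hs) (Φ.perp_symm hw),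
          inv_app_app, one_smul])
    have h6 : (g⁻¹ * hv.eich * g) (g⁻¹ s) = g⁻¹ s := by
      rw [mul_app, mul_app, app_inv_app, hv.eich_apply, hv.ef_self]
    have h7 := hc (g⁻¹ s) (g⁻¹ s)
    rw [h6, hO.B_self] at h7
    obtain rfl : c = 1 := mul_right_cancel₀ (mul_ne_zero h2 qa) (by rw [← h7, one_mul])
    have h8 := hc (g⁻¹ s) (g⁻¹ w)
    rw [h6, mul_app, mul_app, app_inv_app, hv.eich_apply, ef_apply_of_perp' hsw, map_sub, map_smul,
      map_sub, map_smul, hO.B_self, hO.B_self, hO.ε] at h8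
    exact mul_ne_zero (mul_ne_zero h2 qw) (mul_ne_zero h2 qa) (by
      rw [smul_eq_mul] at h8; linear_combination -h8)
  obtain ⟨k, hk, e1⟩ := hO.move_SO (by omega) he' he (g.map_ne_zero_iff.2 h0) h0
  obtain ⟨c, hc⟩ := hfix e he h0 _ (M.mul_mem (hM hk) hg) (by rw [mul_app, e1, one_smul])
  exact ⟨c, by simpa only [mul_app, Iso.B hk.1] using hc⟩

end IsO

end Fm

theorem o_similarity_isMaximalIn_four {ι : Type} [Fintype ι] [DecidableEq ι] [Fintype F]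
    (hodd : Odd (Fintype.card F)) {Q : (ι → F) → F}
    (hQ : Geo.IsNondegenerateQuadraticForm Q) (hn : 4 ≤ Fintype.card ι) :
    Geo.IsMaximalIn (Geo.specialLinear ι F) (Geo.quadSimilarityGroup Q ⊓ Geo.specialLinear ι F) := by
  have h2 := two_ne_zero_of_odd hodd
  refine similarityGroup_isMaximalIn_of (fmO hQ) (by omega)
    (fun H hH => (isO_fmO hQ).sim_isMaximalIn' h2 (by simpa using hn) hH)
    fun g => exists_congr fun c => ⟨fun h x y => ?_, fun h x => ?_⟩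
  · rw [fmO_B, fmO_B, QuadraticMap.polar, QuadraticMap.polar, ← map_add, glEquiv_apply,
      glEquiv_apply, glEquiv_apply, h, h, h]
    ring
  · have h1 := h x x
    rw [(isO_fmO hQ).B_self, (isO_fmO hQ).B_self, fmO_Q, fmO_Q, glEquiv_apply] at h1
    exact mul_left_cancel₀ h2 (by linear_combination h1)

end Cfsg.Agent.Class.Max
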