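import Mathlib
import Cfsg.Agent.Class.Max.C2Mon2

/-!
The monomial group is maximal in `SL₄(q)` for `q ≥ 7`.
-/

set_option autoImplicit false

namespace Cfsg.Agent.Class.Max

open Module Polynomial

variable {F : Type*} [Field F]

theorem exists_sq_fix {ι : Type*} [Fintype ι] (h4 : Fintype.card ι ≤ 4) (π : Equiv.Perm ι)
    {P : ι → Prop} (hP : ∀ r, P r ↔ P (π r)) {r s : ι} (hr : P r) (hs : ¬ P s) :
    ∃ m, π (π m) = m := by
  classical
  by_contra hc
  push Not at hc
  have h1 : ∀ m, π m ≠ m := fun m e => hc m (by rw [e, e])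
  have h2 := (hP _).1 hr
  have h3 := (hP _).1 h2
  have h5 : ¬ P (π s) := fun h => hs ((hP _).2 h)
  have h6 : ∀ {a b}, P a → ¬ P b → a ≠ b := fun ha hb e => hb (e ▸ ha)
  have := List.Nodup.length_le_card (l := [r, π r, π (π r), s, π s]) (by
    simp [(h1 r).symm, (hc r).symm, (h1 s).symm, h6 hr hs, h6 hr h5, h6 h2 hs,
      h6 h2 h5, h6 h3 hs, h6 h3 h5])
  simp at this
  omega

theorem exists_pow_four_ne [Fintype F] (hq : 7 ≤ Fintype.card F) : ∃ a : F, a ≠ 0 ∧ a ^ 4 ≠ 1 := by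
  obtain ⟨a, ha⟩ := exists_eval_ne_zero (X * (X ^ 4 - 1) : F[X])
    (mul_ne_zero X_ne_zero fun h => by simpa using congrArg (eval 0) h)
    (lt_of_le_of_lt (show _ ≤ 5 by compute_degree) (by omega))
  simp only [eval_mul, eval_X, eval_sub, eval_one, eval_pow, mul_ne_zero_iff, sub_ne_zero] at ha
  exact ⟨a, ha⟩

/-- Eigenvalues of a monomial map with eigenvectors of full support. -/
theorem sq_eq_of_mem_Nblk {x : (Fin 4 → F) ≃ₗ[F] (Fin 4 → F)} (hx : x ∈ Nblk F (Fin 4) F)
    {u u' v : Fin 4 → F} {l μ : F} (hl : l ≠ 0) (hu : x u = l • u) (hu' : x u' = l • u')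
    (hv : x v = μ • v) (h1 : ∀ i, u i ≠ 0) (h2 : ∀ i, v i ≠ 0) (h3 : u' 0 • u - u 0 • u' ≠ 0) :
    μ * μ = l * l := by
  obtain ⟨π, hπ⟩ := hx
  have key : ∀ r, ∃ c, c ≠ 0 ∧ ∀ y, x y (π r) = c * y r := fun r => by
    refine ⟨x (ev F r) (π r), fun h => ?_, fun y => ?_⟩
    · have := eq_smul_ev ((hπ r _).1 (single_mem_blk r 1))
      rw [h, zero_smul, map_eq_zero_iff _ x.injective] at this
      simpa using congrFun this r
    · have := dual_apply_eq_sum (pr F (π r) ∘ₗ x.toLinearMap) y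
      rw [Finset.sum_eq_single r (fun s _ hs => by
        simp [(hπ s _).1 (single_mem_blk s 1) (π r) (π.injective.ne hs.symm)]) (by simp)] at this
      exact this.trans (mul_comm _ _)
  choose c hc hc' using key
  have h4 : ∀ {y : Fin 4 → F} {a : F}, x y = a • y → ∀ r, a * y (π r) = c r * y r :=
    fun h r => by rw [← hc', h]; rfl
  obtain ⟨r, hr⟩ := Function.ne_iff.1 h3
  obtain ⟨m, hm⟩ := exists_sq_fix (by simp) π (P := fun r => (u' 0 • u - u 0 • u') r ≠ 0) (fun r => by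
    have := h4 (y := u' 0 • u - u 0 • u') (a := l) (by
      rw [map_sub, map_smul, map_smul, hu, hu']; module) r
    exact ⟨fun h e => mul_ne_zero (hc r) h (by rw [← this, e, mul_zero]),
      fun h e => mul_ne_zero hl h (by rw [this, e, mul_zero])⟩) hr (s := 0) (by simp [mul_comm])
  have e1 := h4 hu m
  have e2 := h4 hu (π m)
  have e3 := h4 hv m
  have e4 := h4 hv (π m)
  rw [hm] at e2 e4
  refine mul_right_cancel₀ (mul_ne_zero (h1 m) (h2 m)) ?_
  linear_combination μ * u m * e4 + c (π m) * u m * e3 - l * v m * e2 - c (π m) * v m * e1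

variable [Fintype F] (hq : 7 ≤ Fintype.card F) {M : Subgroup ((Fin 4 → F) ≃ₗ[F] (Fin 4 → F))}
  (hM : Nblk F (Fin 4) F ⊓ SLV F (Fin 4 → F) ≤ M)
  (hA : ∀ g ∈ M, ∀ k i, g (ev F k) ∈ blk F F i → g ∈ Nblk F (Fin 4) F)
include hq hM hA

theorem mem_Nblk_of_two_zeros' {g : (Fin 4 → F) ≃ₗ[F] (Fin 4 → F)} (hg : g ∈ M) {k i j : Fin 4}
    (hij : i ≠ j) (hi : g (ev F k) i = 0) (hj : g (ev F k) j = 0) : g ∈ Nblk F (Fin 4) F := by
  obtain ⟨r, hr⟩ := exists_apply_ev_ne g i
  set p := g (ev F r) with hp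
  obtain ⟨b, hb⟩ := exists_eval_ne_zero (X * (X - 1) * (X + 1) *
    (X + C (p i * g⁻¹ (ev F i) r) * ((X - 1) * X) + C (p j * g⁻¹ (ev F j) r) * (1 - X)) : F[X])
    (mul_ne_zero (mul_ne_zero (mul_ne_zero X_ne_zero fun h => by simpa using congrArg (eval 0) h)
      fun h => by simpa using congrArg (eval 0) h) fun h => by simpa using congrArg (eval 1) h)
    (lt_of_le_of_lt (show _ ≤ 5 by compute_degree) (by omega))
  simp only [eval_mul, eval_X, eval_sub, eval_add, eval_one, eval_C, mul_ne_zero_iff,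
    sub_ne_zero] at hb
  obtain ⟨⟨⟨hb, hb1⟩, hb3⟩, hb2⟩ := hb
  have hy := M.mul_mem (M.mul_mem (M.inv_mem hg) (hM (dd_mem hij hb))) hg
  obtain ⟨r', hr'⟩ := Nblk_apply (hA _ hy k k (by
    rw [mul_app, mul_app, dd_fix _ _ hi hj, inv_app_app]; exact single_mem_blk _ _))
    (single_mem_blk r 1)
  rw [mul_app, mul_app, ← hp] at hr'
  have h1 : g⁻¹ (dd hij hb p) r ≠ 0 := by
    rw [dd_apply, map_add, map_add, map_smul, map_smul, hp, inv_app_app, ← hp]
    simp only [Pi.add_apply, Pi.smul_apply, smul_eq_mul, ev_same]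
    intro h1
    apply hb2
    field_simp at h1
    linear_combination h1
  rw [← eq_of_mem_blk hr' h1] at hr'
  have h2 := congrArg g (eq_smul_ev hr')
  rw [app_inv_app, map_smul, ← hp] at h2
  have h3 := congrFun h2 i
  rw [dd_left, Pi.smul_apply, smul_eq_mul] at h3
  refine hA g hg r i fun l hli => ?_
  have h4 := congrFun h2 l
  rw [Pi.smul_apply, smul_eq_mul, ← mul_right_cancel₀ hr h3] at h4
  by_cases hlj : l = j
  · subst hlj
    rw [dd_right, inv_mul_eq_iff_eq_mul₀ hb] at h4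
    exact (mul_eq_zero.1 (by linear_combination -h4 : (b - 1) * (b + 1) * p l = 0)).resolve_left
      (mul_ne_zero (sub_ne_zero.2 hb1) hb3)
  · rw [dd_ne _ _ _ hli hlj] at h4
    exact mul_left_cancel₀ (sub_ne_zero.2 hb1) (by linear_combination -h4)

theorem mem_Nblk_of_zero {g : (Fin 4 → F) ≃ₗ[F] (Fin 4 → F)} (hg : g ∈ M) {k i : Fin 4}
    (hi : g (ev F k) i = 0) : g ∈ Nblk F (Fin 4) F := by
  by_contra hg'
  obtain ⟨z, hz, hz'⟩ := exists_pow_four_ne hq
  obtain ⟨a, ha⟩ := exists_ne_list [i] (by simp)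
  obtain ⟨b, hb⟩ := exists_ne_list [i, a] (by simp)
  obtain ⟨c, hc⟩ := exists_ne_list [i, a, b] (by simp)
  simp only [List.mem_cons, List.not_mem_nil, or_false, forall_eq_or_imp, forall_eq] at ha hb hc
  have hall : ∀ m, m ≠ i → m = a ∨ m = b ∨ m = c := fun m hm => by omega
  set d := dd ha hz * dd hb.1 hz * dd hc.1 hz with hd
  have hdM : d ∈ M := M.mul_mem (M.mul_mem (hM (dd_mem _ _)) (hM (dd_mem _ _))) (hM (dd_mem _ _))
  have h1 : ∀ y, d y = z • y + ((z⁻¹ ^ 3 - z) * y i) • ev F i := fun y => by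
    ext m
    by_cases hm : m = i
    · subst hm
      simp only [hd, mul_app, dd_right, Pi.add_apply, Pi.smul_apply, smul_eq_mul, ev_same]
      ring
    · simp only [hd, mul_app, Pi.add_apply, Pi.smul_apply, smul_eq_mul, ev_ne hm, mul_zero, add_zero]
      rcases hall m hm with rfl | rfl | rfl
      · rw [dd_left, dd_ne _ _ _ hb.2.symm hm, dd_ne _ _ _ hc.2.1.symm hm]
      · rw [dd_ne _ _ _ hb.2 hm, dd_left, dd_ne _ _ _ hc.2.2.symm hm]
      · rw [dd_ne _ _ _ hc.2.1 hm, dd_ne _ _ _ hc.2.2 hm, dd_left]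
  have h2 : ∀ y, (g⁻¹ * d * g) y = z • y + ((z⁻¹ ^ 3 - z) * g y i) • g⁻¹ (ev F i) := fun y => by
    rw [mul_app, mul_app, h1, map_add, map_smul, map_smul, inv_app_app]
  have h3 := hA _ (M.mul_mem (M.mul_mem (M.inv_mem hg) hdM) hg) k k (by
    rw [h2, hi, mul_zero, zero_smul, add_zero]; exact smul_ev_mem _ _)
  obtain ⟨r, hr⟩ := exists_apply_ev_ne g i
  obtain ⟨s, hs⟩ := Nblk_apply h3 (single_mem_blk r 1)
  have h4 : z⁻¹ ^ 3 - z ≠ 0 := fun h => hz' (by field_simp at h; linear_combination -h)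
  have h5 : ∀ m, m ≠ r → m ≠ s → g⁻¹ (ev F i) m = 0 := fun m h5 h6 => by
    have := hs m h6
    rw [h2] at this
    generalize z⁻¹ ^ 3 - z = y at h4 this
    simpa [h5, h4, hr] using this
  obtain ⟨m, hm⟩ := exists_ne_list [r, s] (by simp)
  obtain ⟨m', hm'⟩ := exists_ne_list [r, s, m] (by simp)
  simp only [List.mem_cons, List.not_mem_nil, or_false, forall_eq_or_imp, forall_eq] at hm hm'
  exact hg' ((Nblk F _ F).inv_mem_iff.1 (mem_Nblk_of_two_zeros' hq hM hA (M.inv_mem hg)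
    hm'.2.2 (h5 m' hm'.1 hm'.2.1) (h5 m hm.1 hm.2)))

theorem le_Nblk_four : M ≤ Nblk F (Fin 4) F := by
  intro g hg
  by_contra hg'
  have h1 : ∀ k i, g (ev F k) i ≠ 0 := fun k i h => hg' (mem_Nblk_of_zero hq hM hA hg h)
  have h2 : ∀ k i, g⁻¹ (ev F k) i ≠ 0 := fun k i h =>
    hg' ((Nblk F _ F).inv_mem_iff.1 (mem_Nblk_of_zero hq hM hA (M.inv_mem hg) h))
  set α : Fin 4 → F := fun s => g⁻¹ (ev F 0) s * g (ev F s) 1 with hα
  have h3 : ∀ s, α s ≠ 0 := fun s => mul_ne_zero (h2 _ _) (h1 _ _)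
  have h4 : ∀ d : (Fin 4 → F) ≃ₗ[F] (Fin 4 → F), ∀ δ : Fin 4 → F, (∀ y s, d y s = δ s * y s) →
      (g * d * g⁻¹) (ev F 0) 1 = ∑ s, δ s * α s := fun d δ h => by
    have := dual_apply_eq_sum (pr F 1 ∘ₗ g.toLinearMap) (d (g⁻¹ (ev F 0)))
    simpa [h, hα, mul_assoc] using this
  have h5 : ∀ d ∈ M, ∀ δ : Fin 4 → F, (∀ y s, d y s = δ s * y s) → ∑ s, δ s * α s = 0 →
      ∀ s t u, s ≠ t → δ s = δ t → δ s ≠ 0 → δ u * δ u = δ s * δ s := fun d hd δ h h0 s t u hst e h6 => by
    have h7 : ∀ s, (g * d * g⁻¹) (g (ev F s)) = δ s • g (ev F s) := fun s => by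
      rw [mul_app, mul_app, inv_app_app, ← map_smul]
      congr 1
      ext m
      by_cases hm : m = s
      · simp [h, hm]
      · simp [h, hm]
    refine sq_eq_of_mem_Nblk (mem_Nblk_of_zero hq hM hA
      (M.mul_mem (M.mul_mem hg hd) (M.inv_mem hg)) ((h4 d δ h).trans h0)) h6 (h7 s) (e ▸ h7 t)
      (h7 u) (h1 s) (h1 u) fun h8 => h1 t 0 ?_
    rw [← map_smul, ← map_smul, ← map_sub, map_eq_zero_iff _ g.injective] at h8
    simpa [hst] using congrFun h8 s
  have h6 : ∑ s, α s = 0 := by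
    have := h4 1 (fun _ => 1) (by simp)
    simpa using this.symm
  have h7 : ∀ s t, α t * α t = α s * α s := fun s t => by
    by_cases hst : s = t
    · rw [hst]
    obtain ⟨u, hu⟩ := exists_ne_list [s, t] (by simp)
    obtain ⟨v, hv⟩ := exists_ne_list [s, t, u] (by simp)
    simp only [List.mem_cons, List.not_mem_nil, or_false, forall_eq_or_imp, forall_eq] at hu hv
    have ha := div_ne_zero (h3 t) (h3 s)
    have := h5 _ (hM (dd_mem hst ha))
      (fun m => if m = s then α t / α s else if m = t then (α t / α s)⁻¹ else 1) (fun y m => by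
        split_ifs with e1 e2
        · rw [e1, dd_left]
        · rw [e2, dd_right]
        · rw [dd_ne _ _ _ e1 e2, one_mul]) (by
        rw [← h6, ← sub_eq_zero, ← Finset.sum_sub_distrib, Finset.sum_eq_add s t hst
          (fun m _ hm => by simp [hm.1, hm.2]) (by simp) (by simp)]
        have := h3 s
        have := h3 t
        simp only [if_true, if_neg (Ne.symm hst)]
        field_simp
        ring) u v s hv.2.2.symm (by simp [hu.1, hu.2, hv.1, hv.2.1]) (by simp [hu.1, hu.2])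
    simp only [if_true, if_neg hu.1, if_neg hu.2] at this
    have h8 := h3 s
    field_simp at this
    linear_combination this
  obtain ⟨a, ha, ha'⟩ := exists_pow_four_ne hq
  have h8 : ∀ t u v : Fin 4, (0 : Fin 4) ≠ u → t ≠ v → (∀ m, m = 0 ∨ m = t ∨ m = u ∨ m = v) →
      (0 : Fin 4) ≠ t → u ≠ v → t ≠ u → (0 : Fin 4) ≠ v → α 0 + α t ≠ 0 :=
    fun t u v e1 e2 e3 e4 e5 e6 e7 e => by
      have h9 : ∀ f : Fin 4 → F, ∑ s, f s = f 0 + f t + (f u + f v) := fun f => by
        rw [show (Finset.univ : Finset (Fin 4)) = {0, t, u, v} from by ext m; simpa using e3 m,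
          Finset.sum_insert (by simp [e1, e4, e7]), Finset.sum_insert (by simp [e2, e6]),
          Finset.sum_pair e5, add_assoc]
      have := h5 _ (M.mul_mem (hM (dd_mem e1 ha)) (hM (dd_mem e2 ha)))
        (fun m => if m = 0 ∨ m = t then a else a⁻¹) (fun y m => by
          rw [mul_app]
          rcases e3 m with rfl | rfl | rfl | rfl
          · rw [dd_left, dd_ne _ _ _ e4 e7, if_pos (Or.inl rfl)]
          · rw [dd_ne _ _ _ e4.symm e6, dd_left, if_pos (Or.inr rfl)]
          · rw [dd_right, dd_ne _ _ _ e6.symm e5, if_neg (by simp [e1.symm, e6.symm])]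
          · rw [dd_ne _ _ _ e7.symm e5.symm, dd_right, if_neg (by simp [e7.symm, e2.symm])]) (by
          rw [h9] at h6 ⊢
          simp only [true_or, or_true, if_true, e1.symm, e6.symm, e7.symm, e2.symm, or_self, if_false]
          linear_combination (a - a⁻¹) * e + a⁻¹ * h6) 0 t u e4 (by simp) (by simpa using ha)
      simp only [true_or, if_true, e1.symm, e6.symm, or_self, if_false] at this
      field_simp at this
      exact ha' this.symm
  have h9 : ∀ t, α 0 + α t ≠ 0 → α t = α 0 := fun t h =>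
    (mul_self_eq_mul_self_iff.1 (h7 0 t)).resolve_right fun e => h (by rw [e, add_neg_cancel])
  have e1 := h8 1 2 3 (by decide) (by decide) (by decide) (by decide) (by decide) (by decide) (by decide)
  have e2 := h9 2 (h8 2 1 3 (by decide) (by decide) (by decide) (by decide) (by decide) (by decide)
    (by decide))
  have e3 := h9 3 (h8 3 1 2 (by decide) (by decide) (by decide) (by decide) (by decide) (by decide)
    (by decide))
  rw [Fin.sum_univ_four, e2, e3, h9 1 e1] at h6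
  rw [h9 1 e1] at e1
  exact mul_ne_zero e1 e1 (by linear_combination α 0 * h6)

omit hM hA in
theorem lin_decomposition_four {n : Type} [Fintype n] [DecidableEq n]
    {D : Fin 4 → Submodule F (n → F)} (hD : Geo.IsMDecomposition 1 D) :
    Geo.IsMaximalIn (Geo.specialLinear n F)
      (Geo.decompositionStabilizer D ⊓ Geo.specialLinear n F) := by
  classical
  refine decomposition_isMaximalIn_of (W := F) (by simpa using hD) ?_
  refine isMaximalIn_of inf_le_right exists_SLV_not_Nblk fun M h4 h5 g hg hg' => ?_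
  by_contra hc
  refine hg' ⟨le_Nblk_four hq h4 (fun g hg k i hk => ?_) hg, h5 hg⟩
  by_contra hg'
  obtain ⟨s, hs, s1, -⟩ := exists_perm (F := F) (W := F) i (Equiv.swap i k)
  refine hc (SLV_le_of_fix h4 (by simp) (by omega) h5 (M.mul_mem (h4 hs) hg) (k := k) ?_
    fun h => hg' ?_)
  · simpa using (s1 i _).1 hk
  · exact ((Nblk F _ F).mul_mem_cancel_left hs.1).1 h

end Cfsg.Agent.Class.Max
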