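import Mathlib
import Cfsg.Agent.Class.Max.C4Sm
import Cfsg.Agent.Class.Max.C2O1
import Cfsg.Agent.Class.Max.C3J
import Cfsg.Agent.Class.Max.C2Pair

/-!
The tensor decomposition `O₂ ⊗ Sp₂` of a symplectic `4`-space.
-/

set_option autoImplicit false
set_option linter.unusedSectionVars false

namespace Cfsg.Agent.Class.Max

open Module

section Abstract

variable {F U W V : Type*} [Field F] [AddCommGroup U] [Module F U] [AddCommGroup W]
  [Module F W] [AddCommGroup V] [Module F V] {T : Tn F U W V} {Φ₁ : Fm F U} {Φ₂ : Fm F W}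
  {Φ : Fm F V} {M : Subgroup (V ≃ₗ[F] V)} {l : F}
  [FiniteDimensional F U] [FiniteDimensional F W] [FiniteDimensional F V]

namespace Fm

theorem full_of_tvC (htv : Φ.TV) (hl : Φ.π l = 0) (l0 : l ≠ 0)
    (hF : ∃ c, Φ.σ c = c ∧ c ≠ 0 ∧ c ≠ 1) (hI : M ≤ Φ.Iso) {e : V} (he : Φ.TvC M e)
    (h : ∀ f, Φ.Q f = 0 → Φ.B e f ≠ 0 → Φ.TvC M f) : Φ.Full M e := fun w c hv => by
  by_cases e0 : e = 0
  · exact (e0 ▸ full_zero : Φ.Full M e) w c hv
  obtain ⟨f, hf, e1⟩ := exists_partner' hv.sing e0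
  have e2 : Φ.B e (f + w) = 1 := by simp [e1, hv.perp]
  obtain ⟨t, ht⟩ := Φ.exists_singular_add hv.sing (y := f + w) (by simp [e2])
  have e3 : Φ.B e (f + w + t • e) = 1 := by simp [e1, hv.perp, Φ.B_self hv.sing]
  have := (TvC.inA htv hl l0 hF hI he (h f hf (by simp [e1])) (h _ ht (by simp [e3])) e1 e3
    (map_one _)).sub (inA_smul_self hv.sing t)
  exact InA.hasE (by simpa [add_sub_assoc, add_assoc] using this) he.2 hv

theorem EG_le_of_tvC_all (htv : Φ.TV) (hl : Φ.π l = 0) (l0 : l ≠ 0)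
    (hF : ∃ c, Φ.σ c = c ∧ c ≠ 0 ∧ c ≠ 1) (hI : M ≤ Φ.Iso) (h : ∀ e, Φ.Q e = 0 → Φ.TvC M e) :
    Φ.EG ≤ M :=
  EG_le fun e w c hv => full_of_tvC htv hl l0 hF hI (h e hv.sing) (fun f hf _ => h f hf) w c hv

theorem eq_smul_of_two' (h2 : finrank F V ≤ 2) {w z y : V} (hw0 : w ≠ 0) (hz0 : z ≠ 0)
    (hz : Φ.B w z = 0) (hy : Φ.B w y = 0) : ∃ c : F, y = c • z := by
  obtain ⟨x, hx⟩ := Φ.exists_B_ne hw0
  have h1 := Module.Dual.finrank_ker_add_one_of_ne_zero (f := Φ.B w) fun e => hx (by simp [e])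
  have h3 : Submodule.span F {z} = LinearMap.ker (Φ.B w) := Submodule.eq_of_le_of_finrank_le
    ((Submodule.span_singleton_le_iff_mem _ _).2 hz) (by rw [finrank_span_singleton hz0]; omega)
  obtain ⟨c, e⟩ := Submodule.mem_span_singleton.1 (h3.ge hy)
  exact ⟨c, e.symm⟩

theorem coord_two (h2 : finrank F V ≤ 2) {w x z : V} (hx : Φ.B w x ≠ 0) (hz0 : z ≠ 0)
    (hz : Φ.B w z = 0) (v : V) : ∃ a b : F, v = a • x + b • z := by
  obtain ⟨c, e⟩ := eq_smul_of_two' (y := v - (Φ.B w v / Φ.B w x) • x) h2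
    (fun e => hx (by simp [e])) hz0 hz (by simp [hx])
  exact ⟨_, c, eq_add_of_sub_eq' e⟩

theorem exists_equiv_of_sim (a : End F V) {m : F} (m0 : m ≠ 0)
    (h : ∀ x y, Φ.B (a x) (a y) = m * Φ.B x y) : ∃ g : V ≃ₗ[F] V, ∀ x, g x = a x :=
  ⟨LinearEquiv.ofInjectiveEndo a ((injective_iff_map_eq_zero a).2 fun x hx => Φ.nondeg x fun y =>
    (mul_eq_zero.1 ((h x y).symm.trans (by simp [hx]))).resolve_left m0), fun _ => rfl⟩

theorem IsSp.tvC_move (hS : Φ.IsSp) (hI : M ≤ Φ.Iso) {A : Submodule F V} (hA : Φ.ND A)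
    (h : ∀ a ∈ A, Φ.TvC M a) {b : V} (hb : b ∈ Φ.perp A) {a a' : V} (ha : a ∈ A) (ha' : a' ∈ A)
    (a0 : a ≠ 0) (a0' : a' ≠ 0) (hab : Φ.TvC M (a + b)) : Φ.TvC M (a' + b) := by
  have k : ∀ a ∈ A, ∀ a' ∈ A, Φ.B a' a ≠ 0 → Φ.TvC M (a + b) → Φ.TvC M (a' + b) :=
    fun a ha a' ha' e hab => by
      obtain ⟨g, hg, eg⟩ := (h _ (A.sub_mem ha' ha)).2 (Φ.B a' a)⁻¹ (hS.π _)
      convert hab.conj hg (hI hg) using 1
      simp only [eg, ef, hS.ε, Φ.bsimp, hS.B_self, hb _ ha, hb _ ha']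
      match_scalars <;> field_simp <;> ring
  obtain ⟨z, hz, z1, z2⟩ := exists_ne_zero_ne_zero A (φ := Φ.B a) (ψ := Φ.B a') (map_add _)
    (map_add _) (hA.exists_ne ha a0) (hA.exists_ne ha' a0')
  exact k z hz a' ha' z2 (k a ha z hz (Φ.ne_symm z1) hab)

theorem IsSp.exists_sim_two (hS : Φ.IsSp) (h2 : finrank F V ≤ 2) {w : V} (w0 : w ≠ 0) {m : F}
    (m0 : m ≠ 0) : ∃ d : V ≃ₗ[F] V, ∀ x y, Φ.B (d x) (d y) = m * Φ.B x y := by
  obtain ⟨w', -, e⟩ := exists_partner' (hS.Q w) w0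
  have k : ∀ x y, Φ.B ((LinearMap.id + (m - 1) • Φ.rk w' w : End F V) x)
      ((LinearMap.id + (m - 1) • Φ.rk w' w : End F V) y) = m * Φ.B x y := fun x y => by
    obtain ⟨a, b, rfl⟩ := coord_two h2 (w := w) (x := w') (by simp [e]) w0 (hS.B_self w) x
    obtain ⟨c, d, rfl⟩ := coord_two h2 (w := w) (x := w') (by simp [e]) w0 (hS.B_self w) y
    simp only [LinearMap.add_apply, LinearMap.id_apply, LinearMap.smul_apply, rk_apply, Φ.bsimp,
      hS.σ, hS.B_self, hS.symm w w', e]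
    ring
  obtain ⟨d, hd⟩ := exists_equiv_of_sim _ m0 k
  exact ⟨d, fun x y => by rw [hd, hd, k]⟩

theorem exists_add_sq_ne [Finite F] (h2 : (2 : F) ≠ 0) (h3 : Nat.card F ≠ 3) {n n' : F}
    (n0 : n ≠ 0) : ∃ t, t ≠ 0 ∧ n + t * t * n' ≠ 0 := by
  by_cases h : n + 1 * 1 * n' = 0
  · obtain ⟨t, t0, t1⟩ := exists_mul_self_ne_one h2 h3
    exact ⟨t, t0, fun e => mul_ne_zero n0 (sub_ne_zero.2 t1) (by linear_combination t * t * h - e)⟩
  · exact ⟨1, one_ne_zero, h⟩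

theorem IsO.exists_perp_two (hO : Φ.IsO) (h2 : finrank F V = 2) {u : V} (hu : Φ.B u u ≠ 0) :
    ∃ u', Φ.B u u' = 0 ∧ Φ.B u' u' ≠ 0 := by
  obtain ⟨u', -, u0, h⟩ := exists_ne_zero_ker [Φ.B u] ⊤ (by simp [h2])
  have e := h _ (List.mem_singleton_self _)
  refine ⟨u', e, fun e' => u0 (Φ.nondeg u' fun y => ?_)⟩
  obtain ⟨a, b, rfl⟩ := coord_two h2.le hu u0 e y
  simp [e', hO.symm u u', e]

end Fm

namespace WK

variable (h : WK T Φ₁ Φ₂ Φ M l)
include h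

theorem qe_NG' (hr : Φ₂.Reg) (hL : ∀ w, Φ₂.Q w = 0 → w ≠ 0 → TF.Loc T Φ₂ M w)
    (hO : Φ₁.IsO) (h2 : (2 : F) ≠ 0) (hd : finrank F U ≤ finrank F W) {w : W}
    (hw : Φ₂.Q w = 0) (hw0 : w ≠ 0) : Φ.QE M (T.NG ⊓ M) (T.sl (l • Φ₂.rk w w)) :=
  ⟨inf_le_right, h.I, WK.sq_tv hw, h.skew_tv w, fun _ hc =>
    let ⟨τ, hτ, e⟩ := h.hasU_tv hw hc
    ⟨_, ⟨T.krR_mem τ, h.R τ hτ⟩, e⟩,
    fun g hg e => ⟨h.mem_NG_of_stab hr hL hw hw0 hg fun u => by
      obtain ⟨v, hv⟩ := (h.range_tv hw0).ge (T.tm_mem_sp u w)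
      exact hv ▸ h.range_tv hw0 ▸ e v, hg⟩, fun g hg hc => by
      obtain ⟨x, hx, e⟩ := hc 1 (map_one _)
      have r : finrank F (LinearMap.range (cjL g (T.sl (l • Φ₂.rk w w)))) = finrank F U := by
        rw [range_cjL, LinearEquiv.finrank_map_eq, h.range_tv hw0, T.finrank_sp hw0]
      rw [one_smul] at e
      rcases Tn.sl_or_cm (Or.inl h2) h.tf.ne₁ hx.1 e (fun v => by
        simp only [cjL_apply, inv_app_app, WK.sq_tv hw, map_zero]) r.le with ⟨η, eη⟩ | hc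
      · exact ⟨h.mem_of_sl hr hL hw hw0 hg eη, hg⟩
      obtain ⟨a, ea⟩ := hc.exists_left h.tf.ne₂
      have e1 : cjL g (T.sl (l • Φ₂.rk w w)) = T.swap.krL LinearMap.id a :=
        LinearMap.ext (T.ext fun u w => by rw [ea, ← T.swap_tm w u, Tn.krL_tm]; rfl)
      have s := (h.skew_tv w).cjL (h.I hg)
      rw [e1] at r s
      rw [Tn.range_krL, Tn.finrank_ts] at r
      obtain ⟨u, u0⟩ := h.tf.ne₁
      have p := (Module.finrank_pos_iff_exists_ne_zero (R := F)).2 ⟨u, u0⟩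
      rw [hO.eq_zero_of_skew h2 (h.tf.swap.skew_of_krL s) (by nlinarith)] at r
      rw [LinearMap.range_zero, finrank_bot] at r
      omega⟩

theorem tvC_of_rk' [Finite F] (hS : Φ.IsSp) (hS₂ : Φ₂.IsSp) {u : U} {b : F} (b0 : b ≠ 0)
    (hb : b • Φ₁.rk u u ∈ T.cenG Φ₂ M) (w : W) : Φ.TvC M (T.tm u w) := ⟨hS.Q _, fun c _ => by
  obtain ⟨g, hg, e⟩ := h.smul_mem_cenG hb (hS₂.σ (c / b)) w (hS₂.Q w)
  refine ⟨g, hg, fun v => ?_⟩
  simp only [e, Tn.xl_apply, Fm.ef, h.tf.B_tm, LinearMap.smul_apply, Fm.rk_apply, map_smul,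
    map_zero, LinearMap.zero_apply, hS.ε]
  match_scalars <;> field_simp
  ring⟩

theorem id_mem_cenG : l • LinearMap.id ∈ T.cenG Φ₂ M := fun w hw => by
  obtain ⟨τ, hτ, e⟩ := h.hasU_tv hw (map_one _)
  exact ⟨_, h.R τ hτ, fun v => by rw [e, one_smul, WK.tv_apply]; simp [Tn.xl_apply]⟩

theorem rk_mem_two [Finite F] (hO : Φ₁.IsO) (hS : Φ₂.IsSp) (h2 : finrank F U ≤ 2)
    (hL : ∀ a ∈ Φ₁.Iso, T.kr a 1 ∈ M) {C : End F U} (hC : C ∈ T.cenG Φ₂ M) {u u' : U}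
    (e : Φ₁.B u u' = 0) (n : Φ₁.B u u ≠ 0) (n' : Φ₁.B u' u' ≠ 0) :
    (2 * (Φ₁.B u (C u) / Φ₁.B u u - Φ₁.B u' (C u') / Φ₁.B u' u') / Φ₁.B u u) • Φ₁.rk u u ∈
      T.cenG Φ₂ M := by
  have u0 : u' ≠ 0 := fun e => n' (by simp [e])
  have q : Φ₁.Q u ≠ 0 := fun e => n (Φ₁.B_self e)
  refine mem_of_ext (sub_mem (add_mem hC (h.tf.cjL_mem_cenG (hL _ (hO.r_mem_Iso u)) hC))
    (h.smul_mem_cenG h.id_mem_cenG (hS.σ (2 * (Φ₁.B u' (C u') / Φ₁.B u' u') / l)))) fun v => ?_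
  obtain ⟨a, b, rfl⟩ := Fm.coord_two h2 n u0 e v
  obtain ⟨p, s, e1⟩ := Fm.coord_two h2 n u0 e (C u)
  obtain ⟨s', p', e2⟩ := Fm.coord_two h2 n u0 e (C u')
  have := h.l0
  simp only [LinearMap.sub_apply, LinearMap.add_apply, LinearMap.smul_apply, cjL_apply, hO.r_inv,
    map_add, map_smul, map_neg, hO.r_self q, hO.r_of_perp e, e1, e2, Fm.rk_apply, Φ₁.bsimp, e,
    Φ₁.perp_symm e, LinearMap.id_apply]
  match_scalars <;> field_simp <;> ring

theorem exists_rk_two [Finite F] (hO : Φ₁.IsO) (hS : Φ₂.IsSp) (two : (2 : F) ≠ 0)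
    (h2 : finrank F U = 2) (hq : Nat.card F ≠ 3) (hL : ∀ a ∈ Φ₁.Iso, T.kr a 1 ∈ M) {C : End F U}
    (hC : C ∈ T.cenG Φ₂ M) (hn : ¬ ∃ c : F, ∀ u, C u = c • u) :
    ∃ u u', Φ₁.B u u' = 0 ∧ Φ₁.B u u ≠ 0 ∧ Φ₁.B u' u' ≠ 0 ∧ ∃ b b' : F, b ≠ 0 ∧ b' ≠ 0 ∧
      b • Φ₁.rk u u ∈ T.cenG Φ₂ M ∧ b' • Φ₁.rk u' u' ∈ T.cenG Φ₂ M := by
  by_contra hc
  have k : ∀ u u', Φ₁.B u u' = 0 → Φ₁.B u u ≠ 0 → Φ₁.B u' u' ≠ 0 →
      Φ₁.B u (C u) * Φ₁.B u' u' = Φ₁.B u' (C u') * Φ₁.B u u := fun u u' e n n' => by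
    by_contra hh
    rw [← div_eq_div_iff n n'] at hh
    exact hc ⟨u, u', e, n, n', _, _, by simp [two, n, sub_ne_zero.2 hh],
      by simp [two, n', sub_ne_zero.2 (Ne.symm hh)], h.rk_mem_two hO hS h2.le hL hC e n n',
      h.rk_mem_two hO hS h2.le hL hC (Φ₁.perp_symm e) n' n⟩
  obtain ⟨w, w0⟩ := h.tf.ne₂
  have sa : ∀ x y, Φ₁.B (C x) y = Φ₁.B x (C y) := fun x y => by
    rw [← Φ₁.B_adj, h.tf.adj_of_cenG h.I (hS.Q w) w0 hC]; simp [hS.ε]
  obtain ⟨u, n⟩ : ∃ u, Φ₁.B u u ≠ 0 := by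
    by_contra hh
    push Not at hh
    obtain ⟨x, x0⟩ := h.tf.ne₁
    obtain ⟨y, hy⟩ := Φ₁.exists_B_ne x0
    have := hh (x + y)
    simp only [Φ₁.bsimp, hh, hO.symm x y] at this
    exact mul_ne_zero two hy (by linear_combination this)
  obtain ⟨u', e, n'⟩ := hO.exists_perp_two h2 n
  have u0 : u' ≠ 0 := fun e => n' (by simp [e])
  obtain ⟨p, s, e1⟩ := Fm.coord_two h2.le n u0 e (C u)
  obtain ⟨s', p', e2⟩ := Fm.coord_two h2.le n u0 e (C u')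
  obtain ⟨t, t0, t1⟩ := Fm.exists_add_sq_ne two hq (n' := Φ₁.B u' u') n
  have k1 := k u u' e n n'
  have k2 := sa u u'
  have k3 := k (u + t • u') ((t * Φ₁.B u' u') • u - Φ₁.B u u • u') (by
    simp only [Φ₁.bsimp, hO.σ, e, Φ₁.perp_symm e]; ring) (by
    convert t1 using 1; simp only [Φ₁.bsimp, hO.σ, e, Φ₁.perp_symm e]; ring) (by
    convert mul_ne_zero (mul_ne_zero n n') t1 using 1
    simp only [Φ₁.bsimp, hO.σ, e, Φ₁.perp_symm e]; ring)
  simp only [map_add C, map_sub C, map_smul C, e1, e2, Φ₁.bsimp, hO.σ, e, Φ₁.perp_symm e] at k1 k2 k3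
  obtain rfl : p = p' := mul_right_cancel₀ (mul_ne_zero n n') (by linear_combination k1)
  obtain rfl : s = 0 := by
    have := mul_ne_zero (mul_ne_zero (mul_ne_zero two two) t0)
      (mul_ne_zero (mul_ne_zero n (mul_ne_zero n' n')) t1)
    refine (mul_eq_zero.1 ?_).resolve_left this
    linear_combination k3 + (2 * t * Φ₁.B u u * Φ₁.B u' u' * (Φ₁.B u u + t * t * Φ₁.B u' u')) * k2
  obtain rfl : s' = 0 := (mul_eq_zero.1 (by linear_combination -k2)).resolve_right n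
  refine hn ⟨p, fun v => ?_⟩
  obtain ⟨a, b, rfl⟩ := Fm.coord_two h2.le n u0 e v
  simp only [map_add, map_smul, e1, e2]
  module

end WK

theorem TF.orth_two_sp_two (hT : TF T Φ₁ Φ₂ Φ) [Finite F] (h₁ : Φ₁.IsO) (h₂ : Φ₂.IsSp)
    (hS : Φ.IsSp) (h2 : (2 : F) ≠ 0) (hU : finrank F U = 2) (hW : finrank F W = 2)
    (hq : 5 ≤ Nat.card F) : Geo.IsMaximalIn Φ.EG (T.NG ⊓ Φ.EG) := by
  obtain ⟨w, w0⟩ := hT.ne₂
  have hw := h₂.Q w
  refine isMaximalIn_of inf_le_right ?_ fun M h1 hG g hg hg' => by_contra fun hn => hg' ⟨?_, hG hg⟩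
  · obtain ⟨g, a, b⟩ := hT.exists_tv_notMem_NG (hS.π 1) one_ne_zero hS.tv (Or.inl h2) (by omega)
      hW.ge hw w0
    exact ⟨g, a, fun h => b h.1⟩
  have h : WK T Φ₁ Φ₂ Φ M 1 := ⟨hT, fun τ => hT.krR_mem h1, hG.trans Φ.EG_le_Iso, one_ne_zero, h₂.π 1⟩
  have hL : ∀ a d, (∀ u u' w w', Φ₁.B (a u) (a u') * Φ₂.B (d w) (d w') = Φ₁.B u u' * Φ₂.B w w') →
      T.kr a d ∈ M := fun a d e => h1 ⟨T.kr_mem a d, hS.Iso_le (hT.kr_Iso e)⟩
  have hr := h₂.reg hW.le hq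
  have hl : ∀ w, Φ₂.Q w = 0 → w ≠ 0 → TF.Loc T Φ₂ M w := fun _ =>
    h.loc_two hW.le fun C hC => by_contra fun hc => by
      obtain ⟨u, u', e, n, n', b, b', b0, b0', k, k'⟩ := h.exists_rk_two h₁ h₂ h2 hU (by omega)
        (fun a ha => hL a 1 fun _ _ _ _ => by rw [ha.1]; rfl) hC hc
      have u0 : u' ≠ 0 := fun e => n' (by simp [e])
      obtain ⟨t, t0, t1⟩ := Fm.exists_add_sq_ne h2 (by omega) (n' := Φ₁.B u' u') n
      have m0 := div_ne_zero t1 n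
      have ea : ∀ x y, Φ₁.B ((LinearMap.id + (t / Φ₁.B u u) • (Φ₁.rk u' u - Φ₁.rk u u') : End F U) x)
          ((LinearMap.id + (t / Φ₁.B u u) • (Φ₁.rk u' u - Φ₁.rk u u') : End F U) y) =
          (Φ₁.B u u + t * t * Φ₁.B u' u') / Φ₁.B u u * Φ₁.B x y := fun x y => by
        obtain ⟨a, b, rfl⟩ := Fm.coord_two hU.le n u0 e x
        obtain ⟨c, d, rfl⟩ := Fm.coord_two hU.le n u0 e y
        simp only [LinearMap.add_apply, LinearMap.id_apply, LinearMap.smul_apply, Fm.rk_apply,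
          LinearMap.sub_apply, Φ₁.bsimp, h₁.σ, e, Φ₁.perp_symm e]
        field_simp
        ring
      obtain ⟨a, ha⟩ := Fm.exists_equiv_of_sim _ m0 ea
      obtain ⟨d, hd⟩ := h₂.exists_sim_two hW.le w0 (inv_ne_zero m0)
      have had := hL a d fun _ _ _ _ => by
        rw [ha, ha, ea, hd, mul_mul_mul_comm, mul_inv_cancel₀ m0, one_mul]
      have k1 := (h.tvC_of_rk' hS h₂ b0 k w).conj had (h.I had)
      rw [Tn.kr_tm, ha] at k1
      have mv : ∀ x, Φ₁.B x x ≠ 0 → (∀ y, Φ.TvC M (T.tm x y)) → ∀ x', Φ₁.B x x' = 0 → ∀ y y' z,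
          y ≠ 0 → y' ≠ 0 → Φ.TvC M (T.tm x y + T.tm x' z) → Φ.TvC M (T.tm x y' + T.tm x' z) :=
        fun x n k x' e y y' z y0 y0' => hS.tvC_move h.I (A := LinearMap.range (T.tm x))
          (by rintro _ ⟨y, rfl⟩ hy
              rw [Φ₂.nondeg y fun z => by simpa [hT.B, n] using hy _ ⟨z, rfl⟩, map_zero])
          (by rintro _ ⟨y, rfl⟩; exact k y) (by rintro _ ⟨y, rfl⟩; simp [hT.B, e]) ⟨y, rfl⟩ ⟨y', rfl⟩
          (T.tm_ne_zero (fun e => n (by simp [e])) y0) (T.tm_ne_zero (fun e => n (by simp [e])) y0')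
      refine hn (Fm.EG_le_of_tvC_all hS.tv (hS.π 1) one_ne_zero
        ⟨-1, hS.σ _, by simp, fun e => h2 (by linear_combination -e)⟩ h.I fun v _ => ?_)
      obtain ⟨y, z, rfl⟩ : ∃ y z, v = T.tm u y + T.tm u' z := T.induction
        (p := fun v => ∃ y z, v = T.tm u y + T.tm u' z) ⟨0, 0, by simp⟩ (fun x y => by
          obtain ⟨a, b, rfl⟩ := Fm.coord_two hU.le n u0 e x
          exact ⟨a • y, b • y, by simp⟩) (by
          rintro _ _ ⟨y, z, rfl⟩ ⟨y', z', rfl⟩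
          exact ⟨y + y', z + z', by simp only [map_add]; abel⟩) v
      by_cases y0 : y = 0
      · simpa [y0] using h.tvC_of_rk' hS h₂ b0' k' z
      by_cases z0 : z = 0
      · simpa [z0] using h.tvC_of_rk' hS h₂ b0 k y
      have d0 := d.map_ne_zero_iff.2 w0
      rw [add_comm]
      refine mv u' n' (h.tvC_of_rk' hS h₂ b0' k') u (Φ₁.perp_symm e) (t • d w) z y
        (smul_ne_zero t0 d0) z0 ?_
      rw [add_comm]
      refine mv u n (h.tvC_of_rk' hS h₂ b0 k) u' e (d w) y _ d0 y0 ?_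
      simpa [Φ₁.perp_symm e, smul_smul, n] using k1
  have D := h.qe_NG' hr hl h₁ h2 (by omega) hw w0
  exact (h.le_of_two (H := T.NG ⊓ M) h₂ hW.le h2 hq (fun τ hτ => ⟨T.krR_mem τ, h.R τ hτ⟩) w0 D
    (fun γ hγ e => (D.stab γ hγ e).1) (fun γ hγ => Or.inl hγ.1)
    (fun g hg η e => ⟨h.mem_of_sl hr hl hw w0 hg e, hg⟩) hg).1

theorem exists_tn (f : U →ₗ[F] W →ₗ[F] V)
    (hf : ∀ u w u' w', Φ.B (f u w) (f u' w') = Φ₁.B u u' * Φ₂.B w w')
    (hd : finrank F U * finrank F W = finrank F V) : ∃ T : Tn F U W V, ∀ u w, T.tm u w = f u w := by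
  let T₀ : Tn F U W (TensorProduct F U W) := ⟨LinearEquiv.refl _ _⟩
  refine ⟨⟨LinearEquiv.ofInjectiveOfFinrankEq (TensorProduct.lift f) ((injective_iff_map_eq_zero _).2
    fun z hz => T₀.eq_zero_of_cR fun φ => ?_) (by rw [Module.finrank_tensorProduct, hd])⟩,
    fun u w => TensorProduct.lift.tmul u w⟩
  obtain ⟨w, rfl⟩ := Φ₂.exists_eq_dual φ
  refine Φ₁.nondeg _ fun u => Φ₁.perp_symm ?_
  rw [← map_zero (Φ.B (f u w)), ← hz]
  exact T₀.ext (f := Φ₁.B u ∘ₗ T₀.cR (Φ₂.B w)) (g := Φ.B (f u w) ∘ₗ TensorProduct.lift f)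
    (fun x y => by
      rw [LinearMap.comp_apply, Tn.cR_tm]
      simp [T₀, Tn.tm_apply, hf, mul_comm]) z

theorem Fm.IsO.sim_comm (hO : Φ.IsO) (two : (2 : F) ≠ 0) (h2 : finrank F V ≤ 2) {J : End F V}
    (hJ : Φ.Skew J) {j : F} (j0 : j ≠ 0) (hj : ∀ v, J (J v) = j • v) {e : V} (he : Φ.B e e ≠ 0)
    {a : V ≃ₗ[F] V} {m : F} (ha : ∀ x y, m * Φ.B (a x) (a y) = Φ.B x y) :
    ∃ s : F, ∀ v, a (J v) = s • J (a v) := by
  have k : ∀ x, Φ.B x (J x) = 0 := fun x => mul_left_cancel₀ two (by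
    have := hJ x x
    rw [hO.symm] at this
    linear_combination this)
  have k2 : ∀ x, Φ.B (J x) (J x) = -(j * Φ.B x x) := fun x => by rw [hJ, hj]; simp
  have k3 : ∀ x, Φ.B x x ≠ 0 → J x ≠ 0 := fun x hx e =>
    mul_ne_zero j0 hx (by simpa [e] using k2 x)
  have n : Φ.B (a e) (a e) ≠ 0 := fun h => he (by rw [← ha, h, mul_zero])
  have m0 : m ≠ 0 := fun h => he (by rw [← ha, h, zero_mul])
  obtain ⟨s, hs⟩ := Fm.eq_smul_of_two' (y := a (J e)) h2 (fun h => n (by simp [h])) (k3 _ n) (k _)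
    ((mul_eq_zero.1 ((ha _ _).trans (k e))).resolve_left m0)
  have s1 : s * s = 1 := by
    have := ha (J e) (J e)
    rw [hs, Φ.B_smul_left, Φ.B_smul_right, k2, k2, hO.σ, ← ha e e] at this
    exact mul_right_cancel₀ (mul_ne_zero (mul_ne_zero m0 j0) n) (by linear_combination -this)
  refine ⟨s, fun v => ?_⟩
  obtain ⟨x, y, rfl⟩ := Fm.coord_two h2 he (k3 e he) (k e) v
  simp only [map_add, map_smul, hj, hs]
  linear_combination (norm := module) (-(y * j) * s1) • a e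

/-- The normaliser of a skew map with non-zero scalar square. -/
theorem Fm.IsSp.isMaximalIn_skew [Finite F] (hS : Φ.IsSp) (h2 : (2 : F) ≠ 0)
    (h4 : finrank F V = 4) (hq : 5 ≤ Nat.card F) {J : End F V} (hJ : Φ.Skew J) {j : F} (j0 : j ≠ 0)
    (hj : ∀ v, J (J v) = j • v) {w : V} (hw : Φ.B w (J w) = 0) (hw' : J w ∉ Submodule.span F {w})
    {H : Subgroup (V ≃ₗ[F] V)} (hH : ∀ s : F, ∀ g, (∀ v, g (J v) = s • J (g v)) → g ∈ H)
    (hH' : ∀ g ∈ H, ∃ s c : F, ∀ v, g (J v) = s • J (g v) + c • g v) :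
    Geo.IsMaximalIn Φ.EG (H ⊓ Φ.EG) := by
  obtain ⟨y, y1, y2⟩ : ∃ y, Φ.B w y = 1 ∧ Φ.B (J w) y = 0 := by
    by_contra hc
    push Not at hc
    obtain ⟨c, e⟩ := Φ.exists_smul_of_perp (e := J w) (v := w) fun y hy => by_contra fun h =>
      hc ((Φ.B w y)⁻¹ • y) (by simp [h]) (by simp [hy])
    exact hw' (Submodule.mem_span_singleton.2 ⟨c * j, by
      rw [mul_smul, ← hj, ← map_smul, ← e]⟩)
  obtain ⟨z, z1, z2, z3⟩ : ∃ z, Φ.B w z = 1 ∧ Φ.B w (J z) = 0 ∧ Φ.B z (J z) = 0 := by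
    have y3 : Φ.B w (J y) = 0 := by rw [← neg_eq_zero, ← hJ, y2]
    refine ⟨y + (Φ.B y (J y) / (2 * j)) • J w, by simp [y1, hw], by simp [y3, hj, hS.B_self], ?_⟩
    simp only [map_add J, map_smul J, hj, Φ.bsimp, hS.σ, hJ w, hS.symm w y, y1, hw]
    field_simp
    ring
  have z4 : Φ.B z (J w) = 0 := by rw [← neg_eq_zero, ← hJ, hS.symm, z2, neg_zero]
  have hg : Geo.IsSymmetricForm fun x y : Fin 2 → F => x 0 * y 0 - j * (x 1 * y 1) :=
    ⟨⟨fun _ _ _ => by simp; ring, fun _ _ _ => by simp; ring, fun _ _ _ => by simp; ring,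
      fun _ _ _ => by simp; ring⟩, fun _ _ => by ring, fun v hv => by
      by_cases h : v 0 = 0
      · have : v 1 ≠ 0 := fun e => hv (funext (Fin.forall_fin_two.2 ⟨h, e⟩))
        exact ⟨⟨![0, 1], by simp [j0, this]⟩, ![0, 1], by simp [j0, this]⟩
      · exact ⟨⟨![1, 0], by simp [h]⟩, ![1, 0], by simp [h]⟩⟩
  have hf : Geo.IsSymplecticForm fun x y : Fin 2 → F => x 0 * y 1 - x 1 * y 0 :=
    ⟨⟨fun _ _ _ => by simp; ring, fun _ _ _ => by simp; ring, fun _ _ _ => by simp; ring,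
      fun _ _ _ => by simp; ring⟩, fun _ _ => by ring, fun _ => by ring, fun v hv => by
      by_cases h : v 0 = 0
      · have : v 1 ≠ 0 := fun e => hv (funext (Fin.forall_fin_two.2 ⟨h, e⟩))
        exact ⟨⟨![1, 0], by simp [this]⟩, ![1, 0], by simp [this]⟩
      · exact ⟨⟨![0, 1], by simp [h]⟩, ![0, 1], by simp [h]⟩⟩
  have hO := isO_fmSym h2 hg
  obtain ⟨T, eT⟩ := exists_tn (Φ₁ := fmSym h2 hg) (Φ₂ := fmSp hf) (Φ := Φ) (LinearMap.mk₂ F
    (fun u x : Fin 2 → F => u 0 • (x 0 • w + x 1 • z) + u 1 • J (x 0 • w + x 1 • z))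
    (fun _ _ _ => by simp only [Pi.add_apply]; module)
    (fun _ _ _ => by simp only [Pi.smul_apply, smul_eq_mul]; module)
    (fun _ _ _ => by simp only [Pi.add_apply, map_add, map_smul]; module)
    (fun _ _ _ => by simp only [Pi.smul_apply, smul_eq_mul, map_add, map_smul]; module))
    (fun u x u' x' => by
      simp only [LinearMap.mk₂_apply, fmSym_B, fmSp_B, map_add J, map_smul J, Φ.bsimp, hS.σ, hJ w,
        hJ z, hj, hS.B_self, hw, z1, z2, z3, z4, hS.symm w z]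
      ring) (by simp [h4])
  have hB : ∀ u x u' x', Φ.B (T.tm u x) (T.tm u' x') = (fmSym h2 hg).B u u' * (fmSp hf).B x x' :=
    fun u x u' x' => by
      simp only [eT, LinearMap.mk₂_apply, fmSym_B, fmSp_B, map_add J, map_smul J, Φ.bsimp, hS.σ,
        hJ w, hJ z, hj, hS.B_self, hw, z1, z2, z3, z4, hS.symm w z]
      ring
  have hT : TF T (fmSym h2 hg) (fmSp hf) Φ := ⟨fun a => (hS.σ a).symm, fun a => (hS.σ a).symm,
    hS.ε.trans (one_mul _).symm, hB, ⟨0, fun u w => by rw [hS.Q, zero_mul]⟩, hO.tv h2,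
    (isSp_fmSp hf).tv, exists_ne_zero_fin (by omega), exists_ne_zero_fin (by omega)⟩
  have hm := hT.orth_two_sp_two hO (isSp_fmSp hf) hS h2 (by simp) (by simp) hq
  let J₁ : End F (Fin 2 → F) := Matrix.toLin' !![0, j; 1, 0]
  have e1 : ∀ u x, J (T.tm u x) = T.tm (J₁ u) x := fun u x => by
    simp [eT, J₁, hj, Matrix.vecHead, Matrix.vecTail]
    module
  refine ((hm.2 (H ⊓ Φ.EG) ?_ inf_le_right).resolve_right fun e => ?_).symm ▸ hm
  · rintro _ ⟨⟨a, d, rfl⟩, hg'⟩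
    obtain ⟨m, -, -, ha⟩ := hT.swap.exists_sim (a := d) (d := a) (Φ.EG_le_Iso (T.swap_kr a d ▸ hg'))
    obtain ⟨s, hs⟩ := hO.sim_comm h2 (by simp) (J := J₁) (fun x y => by
      simp [fmSym_B, J₁, Matrix.vecHead, Matrix.vecTail]; ring) j0 (fun v => by
      ext i; fin_cases i <;> simp [J₁, Matrix.vecHead, Matrix.vecTail, mul_comm]) (e := ![1, 0])
      (by simp [fmSym_B]) ha
    exact ⟨hH s _ (T.ext (f := (T.kr a d).toLinearMap ∘ₗ J) (g := s • J ∘ₗ (T.kr a d).toLinearMap)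
      fun u x => by simp [e1, hs]), hg'⟩
  · have hv := Fm.valid_tv (hS.Q w) (hS.π 1)
    obtain ⟨s, c, e'⟩ := hH' _ (e.ge hv.eich_mem).1
    have k1 := congrArg (Φ.B (J z)) (e' z)
    have k2 := congrArg (Φ.B (J w)) (e' z)
    simp only [hv.eich_apply, Fm.ef, Φ.bsimp, map_sub J, map_add J, map_smul J, hJ w, hJ z, hj, z1,
      z2, z3, z4, hw, hS.B_self, hS.ε, hS.symm w z, map_zero, LinearMap.zero_apply] at k1 k2
    exact j0 (by linear_combination -k1 - k2)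

theorem Fm.TsPair.isMaximalIn_sp_four [Finite F] {X Y : Submodule F V} (h : Φ.TsPair X Y)
    (hS : Φ.IsSp) (h2 : (2 : F) ≠ 0) (h4 : finrank F V = 4) (hX : finrank F X = 2)
    (hq : 5 ≤ Nat.card F) : Geo.IsMaximalIn Φ.EG (stabPair X Y ⊓ Φ.EG) := by
  have hc : IsCompl X Y := ⟨Submodule.disjoint_def.2 fun x => h.eq_zero, codisjoint_iff.2
    (eq_top_iff.2 fun v _ => let ⟨x, hx, y, hy, e⟩ := h.sup v; e ▸ Submodule.add_mem_sup hx hy)⟩
  obtain ⟨J, j1, j2⟩ : ∃ J : End F V, (∀ x ∈ X, J x = x) ∧ ∀ y ∈ Y, J y = -y :=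
    ⟨LinearMap.ofIsCompl hc X.subtype (-Y.subtype), fun x hx =>
      LinearMap.ofIsCompl_apply_left hc ⟨x, hx⟩, fun y hy => LinearMap.ofIsCompl_apply_right hc ⟨y, hy⟩⟩
  have ind : ∀ {p : V → Prop}, (∀ x ∈ X, ∀ y ∈ Y, p (x + y)) → ∀ v, p v := fun hp v =>
    let ⟨x, hx, y, hy, e⟩ := h.sup v; e ▸ hp x hx y hy
  have k1 : ∀ v, J v = v → v ∈ X := ind fun x hx y hy e => by
    rw [map_add, j1 x hx, j2 y hy, add_right_inj, neg_eq_iff_add_eq_zero, ← two_smul F,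
      smul_eq_zero, or_iff_right h2] at e
    simpa [e]
  have k2 : ∀ v, J v = -v → v ∈ Y := ind fun x hx y hy e => by
    rw [map_add, j1 x hx, j2 y hy, neg_add, add_left_inj, eq_neg_iff_add_eq_zero, ← two_smul F,
      smul_eq_zero, or_iff_right h2] at e
    simpa [e]
  have jj : ∀ v, J (J v) = (1 : F) • v := ind fun x hx y hy => by simp [j1 x hx, j2 y hy]
  obtain ⟨x, hx, x0, -⟩ := exists_ne_zero_ker [] X (by simp [hX])
  obtain ⟨y, hy, y0, e⟩ := exists_ne_zero_ker [Φ.B x] Y (by simp [h.finrank_eq, hX])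
  have e := e _ (List.mem_singleton_self _)
  refine hS.isMaximalIn_skew h2 h4 hq (J := J) (ind fun x hx y hy => ind fun x' hx' y' hy' => by
    simp [j1 x hx, j2 y hy, j1 x' hx', j2 y' hy', h.ts.2 x hx x' hx', h.ts'.2 y hy y' hy', add_comm])
    one_ne_zero jj (w := x + y) (by simp [j1 x hx, j2 y hy, hS.B_self, e, Φ.perp_symm e])
    (fun hh => ?_) (fun s g hg => ?_) fun g hg => ?_
  · obtain ⟨c, hc⟩ := Submodule.mem_span_singleton.1 hh
    rw [map_add, j1 x hx, j2 y hy] at hc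
    have e1 : (c - 1) • x = -((c + 1) • y) := by linear_combination (norm := module) hc
    have e2 := h.eq_zero (X.smul_mem (c - 1) hx) (e1 ▸ Y.neg_mem (Y.smul_mem _ hy))
    rw [e2, eq_comm, neg_eq_zero] at e1
    exact h2 (by linear_combination (smul_eq_zero.1 e1).resolve_right y0 -
      (smul_eq_zero.1 e2).resolve_right x0)
  · have e1 := hg (J x)
    rw [jj, hg, map_smul, map_smul, jj, smul_smul, smul_smul, mul_one] at e1
    rcases mul_self_eq_one_iff.1 (smul_left_injective F (g.map_ne_zero_iff.2 x0) e1).symm with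
      rfl | rfl
    · exact Or.inl ⟨mem_stab_of_mapsTo fun v hv => k1 _ (by simpa [j1 v hv] using (hg v).symm),
        mem_stab_of_mapsTo fun v hv => k2 _ (by simpa [j2 v hv] using (hg v).symm)⟩
    · exact mem_stabPair_of_swap
        (fun v hv => k2 _ (by simpa [j1 v hv, neg_eq_iff_eq_neg] using (hg v).symm))
        fun v hv => k1 _ (by simpa [j2 v hv] using (hg v).symm)
  · rcases hg with hg | hg
    · exact ⟨1, 0, ind fun x hx y hy => by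
        simp [j1 x hx, j2 y hy, j1 _ (stab_apply hg.1 hx), j2 _ (stab_apply hg.2 hy)]⟩
    · exact ⟨-1, 0, ind fun x hx y hy => by
        simp [j1 x hx, j2 y hy, j2 _ ((hg.1 x).1 hx), j1 _ ((hg.2 y).1 hy), add_comm]⟩

theorem Fm.IsSp.usp_four {K : Type*} [Field K] [Algebra F K] [Module K V] [IsScalarTower F K V]
    [Finite F] (hS : Φ.IsSp) (h2 : (2 : F) ≠ 0) (hr : finrank F K = 2) (h4 : finrank F V = 4)
    (hq : 5 ≤ Nat.card F) (hac : ∀ k : K, ∃ k' : K, ∀ u v, Φ.B (k • u) v = Φ.B u (k' • v))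
    (hnsa : ¬ ∀ (k : K) u v, Φ.B (k • u) v = Φ.B u (k • v)) :
    Geo.IsMaximalIn Φ.EG (GamL F K V ⊓ Φ.EG) := by
  have : Nontrivial V := Module.nontrivial_of_finrank_pos (R := F) (by omega)
  have : FiniteDimensional F K := Module.finite_of_finrank_pos (by omega)
  obtain ⟨s, hs2, hs⟩ := Φ.exists_adjoint hac
  have hne : s ≠ RingHom.id K := fun e => hnsa (by simpa [e] using hs)
  have hsF : ∀ c : F, s (algebraMap F K c) = algebraMap F K c := fun c => by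
    rw [Fm.adjoint_algebraMap hs, hS.σ]
  obtain ⟨k, hk⟩ := DFunLike.ne_iff.1 hne
  have h2' : (2 : K) ≠ 0 := map_ofNat (algebraMap F K) 2 ▸ (map_ne_zero (algebraMap F K)).2 h2
  have fix : ∀ a, s a = a → ∃ c, algebraMap F K c = a := fun a =>
    Fm.mem_range_of_fix (hr ▸ Nat.prime_two) hsF hne
  have z0 : s k - k ≠ 0 := sub_ne_zero.2 hk
  have z1 : s (s k - k) = -(s k - k) := by rw [map_sub, hs2]; ring
  generalize s k - k = ζ at z0 z1
  obtain ⟨j, hj⟩ := fix (ζ * ζ) (by rw [map_mul, z1]; ring)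
  have dec : ∀ a : K, ∃ c t : F, a = algebraMap F K t * ζ + algebraMap F K c := fun a => by
    obtain ⟨c, hc⟩ := fix ((a + s a) / 2) (by rw [map_div₀, map_add, hs2, map_ofNat, add_comm])
    obtain ⟨t, ht⟩ := fix ((a - s a) / (2 * ζ)) (by
      rw [map_div₀, map_sub, hs2, map_mul, map_ofNat, z1]; field_simp; ring)
    exact ⟨c, t, by rw [hc, ht]; field_simp; ring⟩
  let J : End F V := Algebra.lsmul F F V ζ
  have eJ : ∀ v, J v = ζ • v := fun _ => rfl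
  have e1 : ∀ (c t : F) (v : V), (algebraMap F K t * ζ + algebraMap F K c) • v = t • J v + c • v :=
    fun c t v => by rw [add_smul, mul_smul, algebraMap_smul, algebraMap_smul, eJ]
  obtain ⟨w, w0, hw⟩ := exists_root_quad (k := F) (W := V) (A := F) (LinearMap.mk₂ F
    (fun x y => Φ.B x (J y)) (fun _ _ _ => by simp) (fun _ _ _ => by simp [hS.σ])
    (fun _ _ _ => by simp) fun _ _ _ => by simp) 0 (by simp [h4])
  refine hS.isMaximalIn_skew h2 h4 hq (J := J) (fun x y => by rw [eJ, eJ, hs, z1]; simp) (j := j)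
    (fun e => mul_ne_zero z0 z0 (by rw [← hj, e, map_zero]))
    (fun v => by rw [eJ, eJ, smul_smul, ← hj, algebraMap_smul]) (w := w) (by simpa using hw)
    (fun hh => ?_) (fun a g hg => ⟨fun k => ?_, fun k => ?_⟩) fun g hg => ?_
  · obtain ⟨c, hc⟩ := Submodule.mem_span_singleton.1 hh
    rw [eJ, ← algebraMap_smul K c] at hc
    rw [← smul_left_injective K w0 hc, hsF] at z1
    exact mul_ne_zero h2' z0 (by rw [← smul_left_injective K w0 hc]; linear_combination z1)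
  · obtain ⟨c, t, rfl⟩ := dec k
    exact ⟨_, fun v => by rw [e1, e1 c (t * a), map_add, map_smul, map_smul, hg, mul_smul]⟩
  · obtain ⟨c, t, rfl⟩ := dec k
    have a0 : a ≠ 0 := fun e => smul_ne_zero z0 w0 (by simpa [e, eJ] using hg w)
    exact ⟨_, fun v => by
      rw [e1 c (t / a), e1, map_add, map_smul, map_smul, hg, smul_smul, div_mul_cancel₀ _ a0]⟩
  · obtain ⟨k', hk'⟩ := hg.1 ζ
    obtain ⟨c, t, rfl⟩ := dec k'
    exact ⟨t, c, fun v => by rw [eJ, hk', e1]⟩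

end Abstract

section Matrices

variable {F : Type*} [Field F] [Fintype F]

theorem sp_pair_isMaximalIn_two (hodd : Odd (Fintype.card F)) (hq : 5 ≤ Fintype.card F)
    {D : Fin 2 → Submodule F (Fin 2 ⊕ Fin 2 → F)} (hD : Geo.IsMDecomposition 2 D)
    (hts : ∀ i, Geo.IsTotallySingularFor (sympForm 2 F) (D i)) :
    Geo.IsMaximalIn (spGL 2 F) (Geo.decompositionStabilizer D ⊓ spGL 2 F) :=
  pair_isMaximalIn_of (mem_spGL_iff 2) ((tsPair_of (Φ := fmSpStd F 2) hD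
    fun i => ⟨fun _ _ => rfl, hts i⟩).isMaximalIn_sp_four (isSp_fmSp _) (two_ne_zero_of_odd hodd)
      (by simp) (hD.finrank_eq 0) (by simpa))

theorem usp_normalizer_isMaximalIn_two (hodd : Odd (Fintype.card F)) (hq : 5 ≤ Fintype.card F)
    {K : Subalgebra F (Matrix (Fin 2 ⊕ Fin 2) (Fin 2 ⊕ Fin 2) F)} (hK : Geo.IsFieldSubalgebra 2 K)
    (hac : Geo.IsAdjointClosedFor (sympForm 2 F) K)
    (hnsa : ¬ Geo.IsSelfAdjointFor (sympForm 2 F) K) :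
    Geo.IsMaximalIn (spGL 2 F) (Geo.subalgebraNormalizer K ⊓ spGL 2 F) := by
  refine normalizer_isMaximalIn_of (mem_spGL_iff 2) hK ?_
  let := (isField_of hK).toField
  refine (isSp_fmSp _).usp_four (two_ne_zero_of_odd hodd) hK.finrank_eq (by simp) (by simpa)
    (fun k => ?_) fun h => hnsa fun k hk => h ⟨k, hk⟩
  obtain ⟨k', h2, h3⟩ := hac k k.2
  exact ⟨⟨k', h2⟩, h3⟩

end Matrices

end Cfsg.Agent.Class.Max
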