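import Mathlib
import Cfsg.Agent.Class.Max.LowC5S

/-!
Class `C₅` in small dimensions: `Sp₄(q₀)` in `Sp₄(q)`, `q` odd.
-/

set_option autoImplicit false

namespace Cfsg.Agent.Class.Max

open Module

variable {F V : Type*} [Field F] [AddCommGroup V] [Module F V]
variable {θ₀ : F ≃+* F} {F₀ : Subfield F}

namespace Fm

variable {V₀ : Type*} [AddCommGroup V₀] [Module F₀ V₀]
variable {Φ : Fm F V} {Φ₀ : Fm F₀ V₀} {θ : V →ₛₗ[(θ₀ : F →+* F)] V} {j : V₀ →ₛₗ[F₀.subtype] V}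
variable {M : Subgroup (V ≃ₗ[F] V)}

namespace Sub

variable [FiniteDimensional F V] [FiniteDimensional F₀ V₀] (hS : Sub Φ Φ₀ θ j)
  (hd : Φ₀.d + 2 ≤ finrank F₀ V₀) (hH : Nfrob θ ⊓ Φ.EG ≤ M)
include hS hd hH

theorem EG_le_or_ratA_odd (h2 : (2 : F) ≠ 0) (hσ : ∀ a, Φ.σ a = a) (hε : Φ.ε = -1)
    (hπ : ∀ c, Φ.π c = 0) (hπ₀ : ∀ c, Φ₀.π c = 0) : Φ.EG ≤ M ∨ Φ.RatA Φ₀ j M := by
  have hQ : ∀ x, Φ.Q x = 0 := fun x => let ⟨a, ha⟩ := Φ.range x; ha ▸ hπ a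
  have hQ₀ : ∀ x, Φ₀.Q x = 0 := fun x => let ⟨a, ha⟩ := Φ₀.range x; ha ▸ hπ₀ a
  have h2' : (2 : F₀) ≠ 0 := fun h => h2 (congrArg Subtype.val h)
  have cm : ∀ e w w', Φ.InA M e w → Φ.InA M e w' → Φ.HasE M e 0 (2 * Φ.B w w') :=
    fun e w w' h h' => by
      convert h.comm h' using 1
      rw [Φ.symm w w', hε, hσ]; ring
  have h0 : ∀ e z (c : F₀), Φ₀.B e z = 0 → Φ.InA M (j e) ((c : F) • j z) := fun e z c h => by
    simpa [j_smul] using hS.inA_j hH (hQ₀ e) (y := c • z) (by simp [h])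
  have ex : ∀ e x, Φ₀.Pair e x → ∀ c : F₀, c ≠ 0 → ∃ y, Φ₀.Pair e y ∧ Φ.B (j x) (j y) = c :=
    fun e x h c c0 => by
      obtain ⟨y, h1, h3⟩ := h.ind
      refine ⟨(c / Φ₀.B x y) • y, ⟨hQ₀ _, hQ₀ _, by simp [h1], h.ne, x, h.perp,
        Φ₀.ne_symm (by simp [h3, c0])⟩, ?_⟩
      rw [hS.hB]; simp [h3]
  have sg : ∀ e, e ≠ 0 → ∀ c, Φ.HasE M (j e) 0 c → ∀ x s, Φ₀.Pair x s → Φ.InA M (j x) (c • j s) :=
    fun e e0 c h x s hp => ⟨0, (hS.pair hp).valid _, by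
      simpa [hε] using hS.siegel_of_center hd hH (hQ₀ e) e0 (hπ c) h hp⟩
  have mu : ∀ a b : F, ∀ e x, Φ₀.Pair e x → Φ.InA M (j e) (a • j x) →
      (∀ y, Φ₀.Pair e y → Φ.InA M (j e) (b • j y)) → Φ.HasE M (j e) 0 (a * b) :=
    fun a b e x h ha hb => by
      obtain ⟨y, hy, h1⟩ := ex e x h 2⁻¹ (inv_ne_zero h2')
      convert cm _ _ _ ha (hb y hy) using 1
      rw [Φ.B_smul_left, Φ.B_smul_right, h1, hσ]
      push_cast
      rw [show ((2 : F₀) : F) = 2 from rfl]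
      field_simp
  let R : Subring F :=
    { carrier := {a | ∀ e z, Φ₀.Pair e z → Φ.InA M (j e) (a • j z)}
      zero_mem' := fun e z h => by simpa using inA_zero (hQ _)
      add_mem' := fun {a b} ha hb e z h => by simpa [add_smul] using (ha e z h).add (hb e z h)
      neg_mem' := fun {a} ha e z h => by simpa using (ha e z h).neg
      one_mem' := fun e z h => h0 e z 1 h.perp
      mul_mem' := fun {a b} ha hb e z h => sg e h.ne _ (mu a b e z h (ha e z h) (hb e)) e z h }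
  rcases hS.frob.max R fun c hc e z h => h0 e z ⟨c, hc⟩ h.perp with h | h
  · refine Or.inr ⟨fun e he w hw => hS.rat_of_B he fun y hy => (hS.frob.fix _).2 (h _ (sg e he _ ?_)),
      fun e _ h1 c _ h3 => h _ (sg e h1 c h3)⟩
    convert cm _ _ _ (h0 e y 2⁻¹ hy) hw using 1
    rw [Φ.B_smul_left, hσ]
    push_cast
    rw [show ((2 : F₀) : F) = 2 from rfl]
    field_simp
  refine Or.inl (hS.EG_le_of_full' hd hH fun e he h1 w c hv => InA.hasE ?_ (fun c _ => ?_) hv)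
  · refine hS.perp_induction h1 (fun a y hy => ?_) (fun _ _ => InA.add) hv.perp
    rcases pair_or_smul he h1 (hQ₀ y) hy with hp | ⟨t, rfl⟩
    · exact h a e y hp
    · rw [j_smul, smul_smul]; exact inA_smul_self (hQ _) _
  · obtain ⟨x, hp⟩ := exists_pair' hd he h1
    simpa using mu c 1 e x hp (h c e x hp) (R.one_mem e)

theorem mem_Nfrob_of_perp' (hM : M ≤ Φ.EG) (hR : Φ.RatA Φ₀ j M) {c₀ : F₀} (hc₀ : c₀ ≠ 0)
    (hπ : Φ₀.π c₀ = 0) {e u : V₀} (he : Φ₀.Q e = 0) (h0 : e ≠ 0) (hu : Φ₀.Q u = 0) (hu0 : u ≠ 0)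
    {g : V ≃ₗ[F] V} (hg : g ∈ M) (h2 : Φ.B (g (j e)) (j u) = 0) : g ∈ Nfrob θ := by
  have hc : Φ.ε * c₀ ≠ 0 := mul_ne_zero Φ.eps_ne (by exact_mod_cast hc₀)
  have tv : ∀ a x, Φ.ef a 0 c₀ x = x + (-(Φ.ε * c₀) * Φ.B a x) • a := fun a x => by
    simp only [ef, Φ.bsimp]; module
  obtain ⟨x, hx, e1⟩ := ((hS.hasE (e := e) (w := 0) ⟨he, map_zero _, by
    rw [hπ, Φ₀.Q_zero]⟩).mono hH).conj hg (Φ.EG_le_Iso (hM hg))
  simp only [map_zero] at e1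
  obtain ⟨y, hy⟩ := hS.exists_B_j_ne (g.map_ne_zero_iff.2 (hS.j_ne h0))
  have h3 := hS.comm_of_fix' hd hH hM hR hu hu0 hx (by simp [e1, tv, h2]) (j y)
  rw [hS.θ_j, e1, tv, map_add, hS.θ_j, add_right_inj] at h3
  obtain ⟨w, hw⟩ := (hS.fix _).1 h3
  exact hS.mem_Nfrob_of_rat' hd hH hM hR he h0 hg
    ((eq_inv_smul_iff₀ (mul_ne_zero (neg_ne_zero.2 hc) (Φ.ne_symm hy))).2 hw.symm)

theorem le_Nfrob_alt [Finite F] (hM : M ≤ Φ.EG) (hR : Φ.RatA Φ₀ j M) (h2 : (2 : F) ≠ 0)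
    (hσ : ∀ a, Φ.σ a = a) (hπ₀ : ∀ c, Φ₀.π c = 0) (h3 : 3 ≤ finrank F₀ V₀) : M ≤ Nfrob θ := by
  have hQ₀ : ∀ x, Φ₀.Q x = 0 := fun x => let ⟨a, ha⟩ := Φ₀.range x; ha ▸ hπ₀ a
  obtain ⟨e, -, h0, he⟩ := Φ₀.iso ⊤ (by rw [finrank_top]; omega)
  obtain ⟨z, hz⟩ := exists_pair' hd he h0
  by_cases hδ : ∃ δ, δ ≠ 0 ∧ θ₀ δ = -δ
  · obtain ⟨δ, δ0, hδ⟩ := hδ
    have h4 := (hS.frob.max ((θ₀ : F →+* F).comp θ₀ |>.eqLocus (RingHom.id F)) fun c hc => by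
      simp [RingHom.mem_eqLocus, (hS.frob.fix c).2 hc]).resolve_left fun h => mul_ne_zero h2 δ0 (by
        have := (hS.frob.fix δ).2 (h δ (by simp [RingHom.mem_eqLocus, hδ]))
        linear_combination hδ - this)
    have h5 : ∀ v, θ (θ v) = v := hS.induction (fun a x => by
      rw [θ_smul, θ_smul, hS.θ_j, hS.θ_j]; exact congrArg (· • j x) (h4 a))
      fun x y hx hy => by rw [map_add, map_add, hx, hy]
    intro g hg
    obtain ⟨a, b, -, h1⟩ := hS.decomp δ0 hδ h2 h5 (g (j e))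
    obtain ⟨u, -, hu0, h6⟩ := exists_ne_zero_ker [Φ₀.B a, Φ₀.B b] ⊤ (by simp; omega)
    exact hS.mem_Nfrob_of_perp' hd hH hM hR one_ne_zero (hπ₀ 1) he h0 (hQ₀ u) hu0 hg (Φ.perp_symm
      ((h1 u).2 ⟨Φ₀.perp_symm (h6 _ (by simp)), Φ₀.perp_symm (h6 _ (by simp))⟩))
  refine hS.le_Nfrob_of_tv' hd hH hM hR (fun g hg ⟨κ, _, h⟩ x => ?_) hz one_ne_zero (hπ₀ 1)
  have h1 := g.map_ne_zero_iff.2 (hS.j_ne h0)
  rcases mul_self_eq_one_iff.1 (hS.kappa_sq (Φ.EG_le_Iso hg) hσ h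
    (finrank_pos_iff_exists_ne_zero.2 ⟨_, h1⟩)) with rfl | rfl
  · rw [h, one_smul]
  · obtain ⟨y, hy⟩ := hS.exists_B_j_ne h1
    exact (hδ ⟨_, hy, by rw [← hS.B_j_θ, h, hS.θ_j]; simp⟩).elim

end Sub

theorem alt_sub_isMaximalIn_odd {ι : Type} [Fintype ι] (Φ : Fm F V) (b : Basis ι F V) [Finite F]
    (hθ : IsFrob θ₀ F₀) (hn : 3 ≤ Fintype.card ι) (h2 : (2 : F) ≠ 0) (hσ : ∀ a, Φ.σ a = a)
    (hε : Φ.ε = -1) (hB : ∀ x y, Φ.B (ratMap F₀ b x) (ratMap F₀ b y) ∈ F₀) (hπ : ∀ c, Φ.π c = 0) :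
    Geo.IsMaximalIn Φ.EG (Nfrob (frob θ₀ b) ⊓ Φ.EG) := by
  have := Module.Finite.of_basis b
  have hQ : ∀ x, Φ.Q (ratMap F₀ b x) = 0 := fun x => let ⟨a, ha⟩ := Φ.range _; ha ▸ hπ a
  let Φ₀ := fmAlt (Φ.ratB b (σ₀ := RingHom.id F₀) (fun a => hσ a) hB)
    (fun x => Subtype.ext (Φ.B_self (hQ x))) (Φ.ratB_nondeg b _ _)
  have hS : Sub Φ Φ₀ (frob θ₀ b) (ratMap F₀ b) :=
    ⟨hθ, frob_eq_iff_ratMap hθ.fix b, span_ratMap b, fun a => hσ a, hε, fun _ _ => rfl,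
      fun c x => ⟨fun _ => rfl, fun _ => by rw [hπ, hQ]⟩, fun c _ =>
        ⟨c / 2, 0, 1, rfl, by rw [hε, hσ]; field_simp; ring⟩⟩
  have hd : Φ₀.d + 2 ≤ finrank F₀ (ι → F₀) := by
    rw [Module.finrank_fintype_fun_eq_card]; exact hn
  obtain ⟨e, -, h0, he⟩ := Φ₀.iso ⊤ (by rw [finrank_top]; omega)
  obtain ⟨z, hz⟩ := exists_pair' hd he h0
  exact hS.isMaximalIn_of_le' hz fun M hH hM =>
    (hS.EG_le_or_ratA_odd hd hH h2 hσ hε hπ fun _ => rfl).imp_right fun hR =>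
      hS.le_Nfrob_alt hd hH hM hR h2 hσ (fun _ => rfl) hd

end Fm

theorem subfield_isMaximalIn_sp_odd [Fintype F] {m : ℕ} (hm : 2 ≤ m) (hodd : Odd (Fintype.card F))
    (F₀ : Subfield F) {r : ℕ} (hr : r.Prime)
    (hcard : Fintype.card F = Nat.card F₀ ^ r) (P : GL (Fin m ⊕ Fin m) F) {ζ : F} (hζ : ζ ≠ 0)
    (hP : Geo.IsFormRationalStructure (sympForm m F) F₀ ζ P) :
    Geo.IsMaximalIn (spGL m F) (Geo.subfieldSubgroup F₀ P ⊓ spGL m F) := by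
  obtain ⟨θ₀, hθ, -⟩ := exists_isFrob F₀ hr hcard
  have : Nonempty (Fin m ⊕ Fin m) := ⟨.inl ⟨0, by omega⟩⟩
  let Φ := (fmSpStd F m).scale ζ 1 hζ one_ne_zero rfl
  have hε : Φ.ε = -1 := mul_div_cancel_right₀ _ hζ
  have hπ : ∀ c, Φ.π c = 0 := fun c => mul_zero _
  refine subfield_isMaximalIn_of hθ (Φ := Φ)
    (fun g => (mem_spGL_iff m g).trans (by rw [show Φ.EG = _ from Fm.EG_scale _ _ _]))
    (Φ.alt_sub_isMaximalIn_odd _ hθ (by simp; omega) (two_ne_zero_of_odd hodd) (fun _ => rfl) hε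
      (fun x y => ?_) hπ)
  rw [ratMap_colBasis, ratMap_colBasis]
  exact hP _ _ (fun i => (x i).2) fun i => (y i).2

end Cfsg.Agent.Class.Max
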