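import Mathlib
import Cfsg.Agent.Class.Max.N4S2

/-!
Class `C₅` in `SU₄(q)`: `Sp₄(q)` and `SU₄(q₀)`.
-/

set_option autoImplicit false

namespace Cfsg.Agent.Class.Max

open Module

section

variable {F V : Type*} [Field F] [AddCommGroup V] [Module F V]
variable {θ₀ : F ≃+* F} {F₀ : Subfield F}

namespace Fm

variable {V₀ : Type*} [AddCommGroup V₀] [Module F₀ V₀]
variable {Φ : Fm F V} {Φ₀ : Fm F₀ V₀} {θ : V →ₛₗ[(θ₀ : F →+* F)] V} {j : V₀ →ₛₗ[F₀.subtype] V}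
variable {M : Subgroup (V ≃ₗ[F] V)}

namespace Sub

variable [FiniteDimensional F V] [FiniteDimensional F₀ V₀] (hS : Sub Φ Φ₀ θ j)
  (hd : Φ₀.d + 2 ≤ finrank F₀ V₀) (hH : Nfrob θ ⊓ Φ.EG ≤ M)
include hS hd hH

omit [FiniteDimensional F V] in
theorem EG_le_of_pair (h : ∀ (a : F) e z, Φ₀.Pair e z → Φ.InA M (j e) (a • j z))
    (h' : ∀ e, Φ₀.Q e = 0 → e ≠ 0 → ∀ c, Φ.π c = 0 → Φ.HasE M (j e) 0 c) : Φ.EG ≤ M :=
  hS.EG_le_of_full' hd hH fun e he h0 w c hv => by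
    refine InA.hasE (hS.perp_induction h0 (fun a y hy => ?_) (fun _ _ => InA.add) hv.perp)
      (h' e he h0) hv
    obtain ⟨z, hz⟩ := exists_pair' hd he h0
    let A : AddSubgroup V₀ :=
      { carrier := {y | Φ.InA M (j e) (a • j y)}
        zero_mem' := by simpa using inA_zero hv.sing
        add_mem' := fun {x y} hx hy => by simpa [smul_add] using InA.add hx hy
        neg_mem' := fun {x} hx => by simpa using InA.neg hx }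
    exact le_of_sing (Y := LinearMap.ker (Φ₀.B e)) hz.perp hz.q₂ hz.ind A
      (fun s hs hs0 hs1 => h a e s ⟨he, hs0, hs, h0, hs1⟩) y hy

theorem EG_le_or_ratA_sq (hθ : ∀ c, θ₀ (θ₀ c) = c) (hπ : ∀ c, Φ.π c = 0 → c ∈ F₀)
    (hπ₀ : ∀ c, Φ₀.π c = 0) : Φ.EG ≤ M ∨ Φ.RatA Φ₀ j M := by
  have hQ₀ : ∀ x, Φ₀.Q x = 0 := fun x => let ⟨a, ha⟩ := Φ₀.range x; ha ▸ hπ₀ a
  have tv : ∀ e (c : F₀), Φ.HasE (Nfrob θ ⊓ Φ.EG) (j e) 0 c := fun e c => by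
    simpa using hS.hasE (e := e) (w := 0) (c := c) ⟨hQ₀ _, map_zero _, by rw [hπ₀, hQ₀]⟩
  refine or_iff_not_imp_right.2 fun hR => ?_
  obtain ⟨e, e0, w, hw, y, hy, hβ⟩ : ∃ e, e ≠ 0 ∧ ∃ w, Φ.InA M (j e) w ∧ ∃ y, Φ₀.B e y = 0 ∧
      θ₀ (Φ.B (j y) w) ≠ Φ.B (j y) w := by
    by_contra hc
    push Not at hc
    exact hR ⟨fun e e0 w hw => hS.rat_of_B e0 (hc e e0 w hw), fun e _ _ c hc _ => hπ c hc⟩
  obtain hp | ⟨t, rfl⟩ := pair_or_smul (hQ₀ e) e0 (hQ₀ y) hy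
  swap
  · exact (hβ (by simp [hw.perp])).elim
  obtain ⟨g, hg, eg⟩ := tv y (-Φ₀.ε)
  have h1 : Φ.InA M (j e) (Φ.B (j y) w • j y) := by
    have := (hw.conj (hH hg) (Φ.EG_le_Iso hg.2))
    rw [eg, ef_apply_of_perp (hS.pair hp).symm.perp (by simp)] at this
    convert this.sub hw using 1
    simp only [eg, ef, map_zero, LinearMap.zero_apply, NegMemClass.coe_neg, ← hS.hε]
    linear_combination (norm := module) -(Φ.B (j y) w * Φ.eps_sq) • j y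
  generalize Φ.B (j y) w = β at h1 hβ
  have h2 : ∀ e z, Φ₀.Pair e z → Φ.InA M (j e) (β • j z) := fun e' z hz => by
    obtain ⟨g₀, hg₀, e1, e2⟩ := hp.move_alt hd hQ₀ hz
    obtain ⟨g, hg, e3⟩ := hS.lift hg₀
    have := h1.conj (hH hg) (Φ.EG_le_Iso hg.2)
    rwa [map_smul, e3, e3, e1, e2] at this
  refine hS.EG_le_of_pair hd hH (fun a e z hz => ?_) fun e _ _ c hc => (tv e ⟨c, hπ c hc⟩).mono hH
  have b0 := sub_ne_zero.2 hβ
  have b1 := sub_ne_zero.2 hβ.symm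
  obtain ⟨v, hv⟩ : ∃ v : F₀, (v : F) = (θ₀ a - a) / (θ₀ β - β) := ⟨⟨_, (hS.frob.fix _).1 (by
    rw [map_div₀, map_sub, map_sub, hθ, hθ]; field_simp; ring)⟩, rfl⟩
  obtain ⟨u, hu⟩ : ∃ u : F₀, (u : F) = a - v * β := ⟨⟨_, (hS.frob.fix _).1 (by
    rw [map_sub, map_mul, hS.θ₀_coe, hv]; field_simp; ring)⟩, rfl⟩
  have h3 := hS.inA_j hH hz.q₁ (y := u • z) (by simp [hz.perp])
  by_cases v0 : v = 0
  · simpa [j_smul, hu, v0] using h3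
  obtain ⟨x, x1, x2⟩ := hz.ind
  convert h3.add (h2 e (v • z) ⟨hz.q₁, hQ₀ _, by simp [hz.perp], hz.ne, x, x1, by simp [v0, x2]⟩)
    using 1
  rw [j_smul, j_smul, hu]
  module

theorem le_Nfrob_sq (hM : M ≤ Φ.EG) (hR : Φ.RatA Φ₀ j M) (h2 : ∀ v, θ (θ v) = v)
    (hπ₀ : ∀ c, Φ₀.π c = 0) (h3 : 3 ≤ finrank F₀ V₀) : M ≤ Nfrob θ := fun g hg => by
  have hQ₀ : ∀ x, Φ₀.Q x = 0 := fun x => let ⟨a, ha⟩ := Φ₀.range x; ha ▸ hπ₀ a
  obtain ⟨e, -, h0, he⟩ := Φ₀.iso ⊤ (by rw [finrank_top]; omega)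
  obtain ⟨δ, hδ⟩ := hS.frob.ne
  obtain ⟨x, hx⟩ := (hS.fix (g (j e) + θ (g (j e)))).1 (by rw [map_add, h2, add_comm])
  obtain ⟨y, hy⟩ := (hS.fix (δ • g (j e) + θ (δ • g (j e)))).1 (by rw [map_add, h2, add_comm])
  obtain ⟨u, -, hu0, h6⟩ := exists_ne_zero_ker [Φ₀.B x, Φ₀.B y] ⊤ (by simp; omega)
  have h3 := hS.B_eq_zero.2 (Φ₀.perp_symm (h6 (Φ₀.B x) (by simp)))
  have h4 := hS.B_eq_zero.2 (Φ₀.perp_symm (h6 (Φ₀.B y) (by simp)))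
  rw [hx, map_add, hS.B_j_θ] at h3
  rw [hy, map_add, hS.B_j_θ, Φ.B_smul_right, map_mul] at h4
  have h5 : (δ - θ₀ δ) * Φ.B (j u) (g (j e)) = 0 := by linear_combination h4 - θ₀ δ * h3
  exact hS.mem_Nfrob_of_perp' hd hH hM hR one_ne_zero (hπ₀ 1) he h0 (hQ₀ u) hu0 hg (Φ.perp_symm
    ((mul_eq_zero.1 h5).resolve_left fun h => hδ ((hS.frob.fix δ).1 (sub_eq_zero.1 h).symm)))

theorem EG_le_or_ratA_uu (hε : Φ.ε = 1) {δ : F₀} (hδ : Φ.σ δ ≠ δ) : Φ.EG ≤ M ∨ Φ.RatA Φ₀ j M := by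
  have sm : ∀ e z, Φ₀.Pair e z → ∀ c : F₀, c ≠ 0 → Φ₀.Pair e (c • z) := fun e z h c c0 =>
    let ⟨x, x1, x2⟩ := h.ind
    ⟨h.q₁, Φ₀.Q_smul_zero h.q₂ c, by simp [h.perp], h.ne, x, x1, by simp [c0, x2]⟩
  let A : AddSubgroup F :=
    { carrier := {a | ∀ e z, Φ₀.Pair e z → Φ.InA M (j e) (a • j z)}
      zero_mem' := fun e z h => by simpa using inA_zero (hS.pair h).q₁
      add_mem' := fun {a b} ha hb e z h => by simpa [add_smul] using (ha e z h).add (hb e z h)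
      neg_mem' := fun {a} ha e z h => by simpa using (ha e z h).neg }
  have a0 : ∀ (c : F₀), ∀ a ∈ A, a * c ∈ A := fun c a ha e z h => by
    by_cases c0 : c = 0
    · simpa [c0] using inA_zero (hS.pair h).q₁
    · simpa [j_smul, smul_smul] using ha e _ (sm e z h c c0)
  have a1 : (1 : F) ∈ A := fun e z h => by simpa using hS.inA_j hH h.q₁ h.perp
  have sg : ∀ e, Φ₀.Q e = 0 → e ≠ 0 → ∀ c, Φ.π c = 0 → Φ.HasE M (j e) 0 c → c ∈ A :=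
    fun e he e0 c hc h => neg_mem_iff.1 fun x s hp => ⟨0, (hS.pair hp).valid _, by
      simpa [hε] using hS.siegel_of_center hd hH he e0 hc h hp⟩
  have cm : ∀ e w w', Φ.InA M e w → Φ.InA M e w' →
      Φ.HasE M e 0 (Φ.B w w' - Φ.ε * Φ.σ (Φ.B w w')) := fun e w w' h h' => by
    rw [← Φ.symm]; exact h.comm h'
  have key : ∀ e, Φ₀.Q e = 0 → e ≠ 0 → ∀ w w', Φ.InA M (j e) w →
      (∀ c : F₀, Φ.InA M (j e) ((c : F) • w')) → Φ.B w w' ∈ A := fun e he e0 w w' h h' => by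
    have k := fun c => sg e he e0 _ (Φ.π_sub_conj _) (cm _ _ _ h (h' c))
    have d0 : δ - Φ₀.σ δ ≠ 0 := fun e => hδ (by rw [hS.hσ, ← sub_eq_zero.1 e])
    have d1 : (δ : F) - Φ₀.σ δ ≠ 0 := by exact_mod_cast d0
    convert a0 (δ - Φ₀.σ δ)⁻¹ _ (A.sub_mem (k δ) (a0 (Φ₀.σ δ) _ (k 1))) using 1
    simp only [Φ.bsimp, hε, hS.hσ, OneMemClass.coe_one]
    push_cast
    field_simp
    ring
  have ex : ∀ e x, Φ₀.Pair e x → ∃ y, Φ₀.Pair e y ∧ Φ.B (j x) (j y) = 1 := fun e x h => by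
    obtain ⟨y, hy, q, b⟩ := exists_partner (U := LinearMap.ker (Φ₀.B e)) h.perp h.q₂ h.ind
    exact ⟨y, ⟨h.q₁, q, hy, h.ne, x, h.perp, Φ₀.ne_symm (by simp [b])⟩, by rw [hS.hB, b]; rfl⟩
  obtain ⟨e₀, -, h0, he₀⟩ := Φ₀.iso ⊤ (by rw [finrank_top]; omega)
  obtain ⟨x₀, hx₀⟩ := exists_pair' hd he₀ h0
  obtain ⟨y₀, hy₀, b₀⟩ := ex _ _ hx₀
  have mu : ∀ a ∈ A, ∀ b ∈ A, Φ.σ a * b ∈ A := fun a ha b hb => by
    simpa [b₀, mul_comm] using key e₀ he₀ h0 _ (b • j y₀) (ha _ _ hx₀) fun c => by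
      rw [smul_smul, mul_comm]; exact a0 c b hb _ _ hy₀
  let R : Subring F :=
    { A with
      one_mem' := a1
      mul_mem' := fun {a b} ha hb => by
        simpa [Φ.invol] using mu _ (mu a ha 1 a1) b hb }
  rcases hS.frob.max R fun c hc => show c ∈ A by simpa using a0 ⟨c, hc⟩ 1 a1 with h | h
  · refine Or.inr ⟨fun e e0 w hw => hS.rat_of_B e0 fun y hy => ?_,
      fun e he e0 c hc k => h _ (sg e he e0 c hc k)⟩
    have he := let ⟨_, hv, _⟩ := hw; hS.Q_eq_zero.1 hv.sing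
    have := (hS.frob.fix _).2 (h _ (key e he e0 w (j y) hw fun c => by
      simpa [j_smul] using hS.inA_j hH he (y := c • y) (by simp [hy])))
    rw [Φ.symm w, hε, one_mul, hS.frob.comm, this]
  refine Or.inl (hS.EG_le_of_pair hd hH h fun e he e0 c hc => ?_)
  obtain ⟨β, rfl⟩ := Φ.exists_eq_sub_conj (δ := δ) (by rw [hε, one_mul]; exact hδ.symm) hc
  obtain ⟨x, hx⟩ := exists_pair' hd he e0
  obtain ⟨y, hy, b⟩ := ex _ _ hx
  simpa [b] using cm _ _ _ (a1 _ _ hx) (h β _ _ hy)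

end Sub

variable {ι : Type} [Fintype ι] (Φ) (b : Basis ι F V) [Finite F] (hθ : IsFrob θ₀ F₀)
include hθ

omit [Finite F] in
theorem alt_sub_isMaximalIn_sq (hn : 3 ≤ Fintype.card ι) (hθθ : ∀ c, θ₀ (θ₀ c) = c)
    (hσ : ∀ a : F₀, Φ.σ a = a) (hε : Φ.ε = -1)
    (hB : ∀ x y, Φ.B (ratMap F₀ b x) (ratMap F₀ b y) ∈ F₀) (hQ : ∀ x, Φ.Q (ratMap F₀ b x) = 0)
    (hπ : ∀ c, Φ.π c = 0 ↔ c ∈ F₀) : Geo.IsMaximalIn Φ.EG (Nfrob (frob θ₀ b) ⊓ Φ.EG) := by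
  have := Module.Finite.of_basis b
  let Φ₀ := fmAlt (Φ.ratB b (σ₀ := RingHom.id F₀) hσ hB)
    (fun x => Subtype.ext (Φ.B_self (hQ x))) (Φ.ratB_nondeg b _ _)
  have hS : Sub Φ Φ₀ (frob θ₀ b) (ratMap F₀ b) :=
    ⟨hθ, frob_eq_iff_ratMap hθ.fix b, span_ratMap b, hσ, hε, fun _ _ => rfl,
      fun c x => ⟨fun _ => rfl, fun _ => by rw [(hπ _).2 c.2, hQ]⟩, fun c hc =>
        ⟨0, 1, ⟨c, (hπ c).1 hc⟩, rfl, by simp⟩⟩
  have hd : Φ₀.d + 2 ≤ finrank F₀ (ι → F₀) := by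
    rw [Module.finrank_fintype_fun_eq_card]; exact hn
  obtain ⟨e, -, h0, he⟩ := Φ₀.iso ⊤ (by rw [finrank_top]; omega)
  obtain ⟨z, hz⟩ := exists_pair' hd he h0
  exact hS.isMaximalIn_of_le' hz fun M hH hM =>
    (hS.EG_le_or_ratA_sq hd hH hθθ (fun c => (hπ c).1) fun _ => rfl).imp_right fun hR =>
      hS.le_Nfrob_sq hd hH hM hR (frob_frob hθθ b) (fun _ => rfl) hd

theorem herm_sub_isMaximalIn_four (hn : Fintype.card ι = 4) {δ : F} (hδ : δ ∈ F₀)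
    (hδ' : Φ.σ δ ≠ δ) (hε : Φ.ε = 1) (hB : ∀ x y, Φ.B (ratMap F₀ b x) (ratMap F₀ b y) ∈ F₀)
    (hQ : ∀ x, Φ.Q x = Φ.B x x) (hπ : ∀ c, Φ.π c = c + Φ.σ c)
    (ho : ∀ c κ, c ≠ 0 → κ * κ = 1 → θ₀ c = κ * c → κ = 1) :
    Geo.IsMaximalIn Φ.EG (Nfrob (frob θ₀ b) ⊓ Φ.EG) := by
  have := Module.Finite.of_basis b
  let σ₀ : F₀ →+* F₀ := Φ.σ.restrict F₀ F₀ fun a ha => by
    rw [← hθ.fix, hθ.comm, (hθ.fix a).2 ha]
  let Φ₀ := fmHerm (σ := σ₀)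
    (fun h => hδ' (congrArg Subtype.val (RingHom.congr_fun h ⟨δ, hδ⟩)))
    (fun a => Subtype.ext (Φ.invol a)) (Φ.ratB b (fun _ => rfl) hB)
    (fun x y => Subtype.ext (by
      change Φ.B _ _ = Φ.σ (Φ.B _ _)
      rw [Φ.symm, hε, one_mul])) (Φ.ratB_nondeg b _ _)
  have hS : Sub Φ Φ₀ (frob θ₀ b) (ratMap F₀ b) :=
    ⟨hθ, frob_eq_iff_ratMap hθ.fix b, span_ratMap b, fun _ => rfl, hε, fun _ _ => rfl,
      fun c x => by rw [hπ, hQ]; exact (Subtype.ext_iff (a1 := Φ₀.π c) (a2 := Φ₀.Q x)).symm, fun c hc =>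
        let ⟨β, h⟩ := Φ.exists_eq_sub_conj (by rw [hε, one_mul]; exact hδ'.symm) hc
        ⟨β, 0, 0, map_zero _, by simpa using h⟩⟩
  have hd : Φ₀.d + 2 ≤ finrank F₀ (ι → F₀) := by
    rw [Module.finrank_fintype_fun_eq_card]; exact hn.ge
  obtain ⟨e, -, h0, he⟩ := Φ₀.iso ⊤ (by rw [finrank_top]; omega)
  obtain ⟨z, hz⟩ := exists_pair' hd he h0
  refine hS.isMaximalIn_of_le' hz fun M hH hM =>
    (hS.EG_le_or_ratA_uu hd hH hε (δ := ⟨δ, hδ⟩) hδ').imp_right fun hR =>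
      hS.le_Nfrob_of_tv' hd hH hM hR (fun g hg ⟨κ, _, h⟩ x => ?_) hz (c₀ := ⟨δ, hδ⟩ - σ₀ ⟨δ, hδ⟩)
      (fun h => hδ' (sub_eq_zero.1 (show δ - Φ.σ δ = 0 from Subtype.ext_iff.1 h)).symm)
      (by rw [← one_mul (σ₀ _)]; exact Φ₀.π_sub_conj ⟨δ, hδ⟩)
  have h4 := kappa_pow b (Φ.EG_le_SLV hg) h
  obtain ⟨y, hy⟩ := hS.exists_B_j_ne (g.map_ne_zero_iff.2 (hS.j_ne h0))
  have h1 := (hS.B_j_θ y (g (ratMap F₀ b e))).symm
  rw [h, hS.θ_j, Φ.B_smul_right] at h1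
  rw [h, ho _ κ hy (ho _ _ (mul_ne_zero hy hy) (by rw [← h4, hn]; ring)
    (by rw [map_mul, h1]; ring)) h1, one_smul]

end Fm

end

variable {F : Type*} [Field F] [Fintype F] {q : ℕ}

theorem sp_isMaximalIn_su' {n : ℕ} (hF : Fintype.card F = q ^ 2) (hn : 3 ≤ n)
    (F₀ : Subfield F) (hcard : Fintype.card F = Nat.card F₀ ^ 2) {ζ : F} (hζ0 : ζ ≠ 0)
    (hζ : ζ + ζ ^ q = 0) (P : GL (Fin n) F)
    (hP : Geo.IsFormRationalStructure (hermForm n F q) F₀ ζ P)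
    (halt : ∀ u : Fin n → F, (∀ i, u i ∈ F₀) → hermForm n F q
      (Matrix.mulVec (P : Matrix (Fin n) (Fin n) F) u)
      (Matrix.mulVec (P : Matrix (Fin n) (Fin n) F) u) = 0) :
    Geo.IsMaximalIn (GU n F q ⊓ Geo.specialLinear (Fin n) F)
      (Geo.subfieldSubgroup F₀ P ⊓ (GU n F q ⊓ Geo.specialLinear (Fin n) F)) := by
  obtain ⟨θ₀, hθ, hθ'⟩ := exists_isFrob F₀ Nat.prime_two hcard
  have := U.UF.of_card hF
  have : Nonempty (Fin n) := ⟨⟨0, by omega⟩⟩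
  have h0 : ∀ a, (fmUStd F n q).σ a = θ₀ a := fun a => by rw [hθ', card_eq_of_sq hF hcard]; rfl
  have h1 : (fmUStd F n q).σ ζ = -ζ := eq_neg_of_add_eq_zero_right hζ
  let Φ := (fmUStd F n q).scale ζ 1 hζ0 one_ne_zero (by rw [h1]; ring)
  have hε : Φ.ε = -1 := by
    change 1 * ζ / (fmUStd F n q).σ ζ = _
    rw [h1]; field_simp
  refine subfield_isMaximalIn_of hθ (Φ := Φ)
    (fun g => (mem_SU_iff n q g).trans (by rw [show Φ.EG = _ from Fm.EG_scale _ _ _]))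
    (Φ.alt_sub_isMaximalIn_sq _ hθ (by simpa using hn) (fun c => by rw [← h0, ← h0, Fm.invol])
      (fun a => (h0 a).trans ((hθ.fix a).2 a.2)) hε (fun x y => ?_) (fun x => ?_) fun c => ?_)
  · rw [ratMap_colBasis, ratMap_colBasis]
    exact hP _ _ (fun i => (y i).2) fun i => (x i).2
  · rw [ratMap_colBasis]
    exact (one_mul _).trans (halt _ fun i => (x i).2)
  · change 1 * (ζ⁻¹ * c + (fmUStd F n q).σ (ζ⁻¹ * c)) = 0 ↔ _
    rw [map_mul, map_inv₀, h1, h0, ← hθ.fix, one_mul, inv_neg, neg_mul, ← sub_eq_add_neg, ← mul_sub,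
      mul_eq_zero, inv_eq_zero, sub_eq_zero, or_iff_right hζ0, eq_comm]

theorem subfield_isMaximalIn_su_four (hF : Fintype.card F = q ^ 2)
    (F₀ : Subfield F) {r : ℕ} (hr : r.Prime) (hro : Odd r)
    (hcard : Fintype.card F = Nat.card F₀ ^ r) (P : GL (Fin 4) F)
    (hP : Geo.IsFormRationalStructure (hermForm 4 F q) F₀ 1 P) :
    Geo.IsMaximalIn (GU 4 F q ⊓ Geo.specialLinear (Fin 4) F)
      (Geo.subfieldSubgroup F₀ P ⊓ (GU 4 F q ⊓ Geo.specialLinear (Fin 4) F)) := by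
  obtain ⟨θ₀, hθ, hθ'⟩ := exists_isFrob F₀ hr hcard
  have := U.UF.of_card hF
  obtain ⟨k, rfl⟩ := hro
  have k1 : ∀ c, θ₀ (θ₀ c) = c → θ₀ c = c := fun c h1 => by
    have h2 : ∀ k, c ^ Nat.card F₀ ^ (2 * k) = c := fun k => by
      induction k with
      | zero => simp
      | succ k ih => rw [mul_add, mul_one, pow_add, pow_mul c, ih, sq, pow_mul, ← hθ', ← hθ', h1]
    have h3 := FiniteField.pow_card c
    rwa [hcard, pow_succ, pow_mul c, h2, ← hθ'] at h3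
  obtain ⟨δ, hδ, hδ'⟩ : ∃ δ ∈ F₀, U.conj F q δ ≠ δ := by
    by_contra hc
    push Not at hc
    rcases hθ.max (RingHom.eqLocus (U.conj F q) (RingHom.id F)) hc with h | h
    · obtain ⟨c, hc'⟩ := hθ.ne
      refine hc' ((hθ.fix c).1 (k1 c ?_))
      have h2 := (hθ.fix _).2 (h (c + U.conj F q c) (by
        change U.conj F q _ = _; rw [map_add, U.conj_conj, add_comm]; rfl))
      have h3 := (hθ.fix _).2 (h (c * U.conj F q c) (by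
        change U.conj F q _ = _; rw [map_mul, U.conj_conj, mul_comm]; rfl))
      rw [map_add] at h2
      rw [map_mul] at h3
      have h4 : (θ₀ c - c) * (θ₀ c - U.conj F q c) = 0 := by
        linear_combination θ₀ c * h2 - h3
      rcases mul_eq_zero.1 h4 with h5 | h5 <;> rw [sub_eq_zero] at h5
      · rw [h5, h5]
      · rw [h5, hθ.comm, h5, U.conj_conj]
    · exact U.conj_ne_id F q (RingHom.ext h)
  refine subfield_isMaximalIn_of hθ (mem_SU_iff 4 q)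
    (Fm.herm_sub_isMaximalIn_four _ _ hθ (by simp) hδ hδ' rfl (fun x y => ?_)
      (fun _ => rfl) (fun _ => rfl) fun c κ c0 h1 h2 => ?_)
  · rw [ratMap_colBasis, ratMap_colBasis]
    have := hP _ _ (fun i => (y i).2) fun i => (x i).2
    rwa [one_mul] at this
  · refine (mul_eq_right₀ c0).1 (h2.symm.trans (k1 c ?_))
    rcases mul_self_eq_one_iff.1 h1 with rfl | rfl <;> simp [h2]

end Cfsg.Agent.Class.Max
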