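import Mathlib
import Cfsg.Agent.Class.Max.N4S1
import Cfsg.Agent.Class.Max.N4L2
import Cfsg.Agent.Class.Max.LowC5S
import Cfsg.Agent.Class.Max.N4U1

/-!
Class `C₅`: `O₄^±(q)` in `SU₄(q)`.
-/

set_option autoImplicit false
set_option linter.unusedSectionVars false

namespace Cfsg.Agent.Class.Max

open Module

section

variable {F V : Type*} [Field F] [AddCommGroup V] [Module F V]
variable {θ₀ : F ≃+* F} {F₀ : Subfield F}

namespace Fm

variable {V₀ : Type*} [AddCommGroup V₀] [Module F₀ V₀]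

/-- A real structure on a unitary `4`-space. -/
structure OU (Φ : Fm F V) (Φ₀ : Fm F₀ V₀) (θ : V →ₛₗ[(θ₀ : F →+* F)] V)
    (j : V₀ →ₛₗ[F₀.subtype] V) (δ : F) : Prop where
  sub : Sub Φ Φ₀ θ j
  u : Φ.IsU
  o : Φ₀.IsO
  σ : ∀ a, Φ.σ a = θ₀ a
  δ0 : δ ≠ 0
  δc : θ₀ δ = -δ
  two : (2 : F) ≠ 0
  θθ : ∀ v, θ (θ v) = v
  three : Nat.card F₀ ≠ 3
  dim : finrank F₀ V₀ = 4

variable {Φ : Fm F V} {Φ₀ : Fm F₀ V₀} {θ : V →ₛₗ[(θ₀ : F →+* F)] V} {j : V₀ →ₛₗ[F₀.subtype] V}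
variable {M : Subgroup (V ≃ₗ[F] V)} {δ : F}

namespace OU

variable [FiniteDimensional F V] [FiniteDimensional F₀ V₀] [Finite F] (h : OU Φ Φ₀ θ j δ)
include h

theorem σc (c : F₀) : Φ.σ c = c := by rw [h.σ, h.sub.θ₀_coe]

theorem σδ : Φ.σ δ = -δ := by rw [h.σ, h.δc]

theorem two₀ : (2 : F₀) ≠ 0 := fun e => h.two (congrArg Subtype.val e)

theorem B_jj (c : V₀) : Φ.B (j c) (j c) = 2 * Φ₀.Q c := by rw [h.sub.hB, h.o.B_self]; rfl

theorem πδ {c : F₀} : Φ.π (c * δ) = 0 := by rw [h.u.pi, map_mul, h.σc, h.σδ]; ring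

theorem rf_j (c y : V₀) : Φ.rf (j c) (Φ₀.Q c) (j y) = j (Φ₀.rf c (Φ₀.Q c) y) := by
  simp [rf, h.sub.hB]

theorem exists_rr {c d : V₀} (hc : Φ₀.Q c ≠ 0) (hd : Φ₀.Q d ≠ 0) : ∃ k ∈ Nfrob θ ⊓ Φ.EG,
    ∀ v, k v = Φ.rf (j c) (Φ₀.Q c) (Φ.rf (j d) (Φ₀.Q d) v) := by
  have k : ∀ c, Φ₀.Q c ≠ 0 → ∃ r ∈ Φ.Iso, LinearMap.det (r : V →ₗ[F] V) = -1 ∧
      ∀ v, r v = Φ.rf (j c) (Φ₀.Q c) v := fun c hc => by
    have c0 : (Φ₀.Q c : F) ≠ 0 := by exact_mod_cast hc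
    have e := (h.sub.hv (Φ₀.Q c) c).2 (h.o.π _)
    exact ⟨refl c0 e, refl_mem_Iso _ _, by rw [det_refl, h.B_jj]; field_simp; ring, fun _ => rfl⟩
  obtain ⟨r, hr, d1, e1⟩ := k c hc
  obtain ⟨s, hs, d2, e2⟩ := k d hd
  exact ⟨r * s, ⟨h.sub.mem_Nfrob one_ne_zero fun x => ⟨_, by
    rw [one_smul, mul_app, e2, e1, h.rf_j, h.rf_j]⟩, h.u.mem_EG (mul_mem hr hs) (by
      rw [det_mul_equiv, d1, d2]; ring)⟩, fun v => by rw [mul_app, e2, e1]⟩

theorem move {u u' : V₀} (hu : Φ₀.Q u = 0) (hu' : Φ₀.Q u' = 0) (h0 : u ≠ 0) (h0' : u' ≠ 0) :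
    ∃ k ∈ Nfrob θ ⊓ Φ.EG, k (j u) = j u' := by
  have hO := h.o
  have key : ∀ u u', Φ₀.Q u = 0 → Φ₀.Q u' = 0 → Φ₀.B u' u ≠ 0 →
      ∃ k ∈ Nfrob θ ⊓ Φ.EG, k (j u) = j u' := fun u u' hu hu' hb => by
    obtain ⟨f, hf, e⟩ := exists_partner' hu' fun e => hb (by simp [e])
    obtain ⟨c, -, hc, h1, -⟩ := hO.exists_nonsing_perp Φ₀.nd_top (by simp [h.dim]) trivial trivial
      hu' hf e
    have q : Φ₀.Q (u' - u) = -Φ₀.B u' u := by rw [hO.Q_sub, hu, hu']; ring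
    obtain ⟨k, hk, ek⟩ := h.exists_rr hc (d := u' - u) (by simpa [q])
    refine ⟨k, hk, ?_⟩
    rw [ek, h.rf_j, h.rf_j]
    congr 1
    have : Φ₀.rf (u' - u) (Φ₀.Q (u' - u)) u = u' := by
      simp [rf, q, Φ₀.B_self hu, hb]
    rw [this]
    simp [rf, Φ₀.perp_symm h1]
  by_cases hb : Φ₀.B u' u = 0
  · obtain ⟨s, -, hs, h1, h2⟩ := exists_sing_not_perp₂ ⊤ trivial hu' hb
      (Φ₀.nd_top.exists_ne trivial h0') (Φ₀.nd_top.exists_ne trivial h0)
    obtain ⟨k, hk, e1⟩ := key u s hu hs (Φ₀.ne_symm h2)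
    obtain ⟨k', hk', e2⟩ := key s u' hs hu' h1
    exact ⟨k' * k, mul_mem hk' hk, by rw [mul_app, e1, e2]⟩
  · exact key u u' hu hu' hb

variable (hH : Nfrob θ ⊓ Φ.EG ≤ M) (hM : M ≤ Φ.EG)
include hH hM

theorem EG_le_of_tvC {e₀ : V₀} (h0 : e₀ ≠ 0) (he : Φ.TvC M (j e₀)) : Φ.EG ≤ M := by
  have hS := h.sub
  have hO := h.o
  have hI := hM.trans Φ.EG_le_Iso
  have h2 := h.two
  have all : ∀ x, Φ₀.Q x = 0 → x ≠ 0 → Φ.TvC M (j x) := fun x hx x0 => by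
    obtain ⟨k, hk, e⟩ := h.move (hS.Q_eq_zero.1 he.1) hx h0 x0
    exact e ▸ he.conj (hH hk) (hI (hH hk))
  have hδ : Φ.π δ = 0 := by simpa using h.πδ (c := 1)
  have full : ∀ e f, Φ₀.Q e = 0 → Φ₀.Q f = 0 → Φ₀.B e f = 1 → Φ.Full M (j e) :=
    fun e f qe qf ef w c hv => by
    have e0 : e ≠ 0 := fun e => by simp [e] at ef
    have fe : Φ₀.B f e = 1 := by rw [hO.symm, ef]
    refine InA.hasE ?_ (all e qe e0).2 hv
    obtain ⟨a, b, rfl, h6⟩ := hS.decomp h.δ0 h.δc h2 h.θθ w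
    obtain ⟨h7, h8⟩ := (h6 e).1 hv.perp
    refine (hS.inA_j hH qe h7).add ?_
    obtain ⟨y, t, rfl, y1, y2⟩ : ∃ y, ∃ t : F₀, b = y + t • e ∧ Φ₀.B e y = 0 ∧ Φ₀.B f y = 0 :=
      ⟨b - Φ₀.B f b • e, _, (sub_add_cancel _ _).symm, by simp [h8, Φ₀.B_self qe], by simp [fe]⟩
    rw [map_add, smul_add, j_smul, smul_smul]
    refine InA.add ?_ (inA_smul_self hv.sing _)
    by_cases y0 : y = 0
    · simpa [y0] using inA_zero hv.sing
    by_cases qy : Φ₀.Q y = 0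
    · obtain ⟨z, hz⟩ := Φ₀.exists_B_ne y0
      simpa [hS.hB, Φ₀.perp_symm y2, hz] using (all y qy y0).inA_comm hI
        (hS.B_eq_zero.2 (Φ₀.perp_symm y1)) (hS.inA_j hH qe
          (y := (Φ₀.B y z)⁻¹ • (z - Φ₀.B e z • f)) (by simp [ef])) hδ
    have d1 : ∀ η : F₀, η * η = 1 → 1 + η * δ ≠ 0 := fun η hη e => by
      have := congrArg Φ.σ e
      have hη' : (η : F) * η = 1 := by exact_mod_cast hη
      simp only [Φ.bsimp, h.σc, h.σδ] at this
      exact h2 (by linear_combination e + this)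
    obtain ⟨a, ha⟩ : ∃ a : F₀, (a : F) = (δ * δ - 1) / 2 := ⟨⟨_, (hS.frob.fix _).1 (by
      simp [h.δc, map_ofNat])⟩, rfl⟩
    have p1 : 1 + δ ≠ 0 := by simpa using d1 1 (by simp)
    have p2 : 1 - δ ≠ 0 := by simpa [sub_eq_add_neg] using d1 (-1) (by simp)
    have a0 : (a : F) ≠ 0 := by
      rw [ha, show δ * δ - 1 = -((1 + δ) * (1 - δ)) by ring]; simp [p1, p2, h2]
    have n0 : Φ₀.Q (a • y) ≠ 0 := by
      rw [hO.Q_smul]; exact mul_ne_zero (mul_self_ne_zero.2 (by exact_mod_cast a0)) qy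
    generalize hn : Φ₀.Q (a • y) = n at n0
    have qs : Φ₀.Q (f + a • y - n • e) = 0 := by
      simp [hO.Q_sub, hO.Q_add, hn, qf, Φ₀.Q_smul_zero qe, y2, fe, Φ₀.perp_symm y1]
    have tv : ∀ η : F₀, η * η = 1 → ∃ x, Φ.TvC M x ∧ Φ.B (j e) x = 1 ∧
        x = j f + (1 + η * δ)⁻¹ • (j (a • y) - (n : F) • j e) := fun η hη => by
      obtain ⟨g, hg, eg⟩ := (all f qf fun e => by simp [e] at ef).2 _ (h.πδ (c := η / n))
      have n1 : (n : F) ≠ 0 := by exact_mod_cast n0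
      have := d1 η hη
      have s0 : f + a • y - n • e ≠ 0 := fun e0 => by
        simpa [ef, y1, Φ₀.B_self qe] using congrArg (Φ₀.B e) e0
      refine ⟨_, ((all _ qs s0).conj hg (hI hg)).smul (1 + η * δ)⁻¹, ?_, ?_⟩ <;>
      simp only [eg, Fm.ef, Φ.bsimp, map_add, map_sub, j_smul, hS.hB, ef, fe, y1, y2, h.u.eps,
        Φ₀.B_self qe, Φ₀.B_self qf, map_zero, LinearMap.zero_apply]
      · push_cast; field_simp; ring
      · push_cast; match_scalars <;> field_simp; ring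
    obtain ⟨x, h3, h4, ex⟩ := tv 1 (by simp)
    obtain ⟨x', h3', h4', ex'⟩ := tv (-1) (by simp)
    convert (TvC.inA (fun c e => by rwa [h.u.pi, ← one_mul (Φ.σ c), ← h.u.eps]) hδ h.δ0
      ⟨-1, by simp, by simp, fun e => h2 (by linear_combination -e)⟩ hI (all e qe e0) h3' h3 h4' h4
      (map_one _)).add (inA_smul_self hv.sing (δ / a * n)) using 1
    rw [ex, ex', j_smul]
    push_cast
    rw [show (1 : F) + -1 * δ = 1 - δ by ring, one_mul, ha]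
    rw [show δ * δ - 1 = -((1 + δ) * (1 - δ)) by ring]
    match_scalars <;> field_simp <;> ring
  obtain ⟨e, f, qe, qf, ef⟩ := exists_hyp (Φ := Φ₀) (by rw [hO.d, h.dim]; omega)
  exact EG_le_of_full (full e f qe qf ef) (full f e qf qe (by rw [hO.symm, ef]))
    (hS.Q_eq_zero.2 qe) (hS.Q_eq_zero.2 qf) (hS.B_eq_zero.not.2 (by simp [ef]))

theorem EG_le_or_ratA : Φ.EG ≤ M ∨ Φ.RatA Φ₀ j M := by
  have hS := h.sub
  refine or_iff_not_imp_left.2 fun hn => ?_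
  have cen : ∀ e, Φ₀.Q e = 0 → e ≠ 0 → ∀ c, Φ.π c = 0 → Φ.HasE M (j e) 0 c → c = 0 :=
    fun e he e0 c hc k => by_contra fun c0 => hn (h.EG_le_of_tvC hH hM e0 ⟨hS.Q_eq_zero.2 he,
      fun c' hc' => by
        have k1 : ∀ α : F₀, Φ.HasE M (j e) 0 (α * Φ.σ α * c) := fun α => by
          by_cases α0 : α = 0
          · simpa [α0] using hasE_zero (j e)
          obtain ⟨g, hg, eg⟩ := h.move he (Φ₀.Q_smul_zero he α) e0 (smul_ne_zero α0 e0)
          have := k.conj (hH hg) (Φ.EG_le_Iso hg.2)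
          rw [eg, j_smul, hasE_smul_left] at this
          simpa using this
        have k2 : ∀ α : F₀, Φ.Valid (j e) 0 (α * Φ.σ α * c) := fun α =>
          valid_tv (hS.Q_eq_zero.2 he) (by rw [Φ.π_norm, hc, mul_zero])
        rw [h.u.pi, h.σ] at hc hc'
        obtain ⟨α, β, e1⟩ := Max.exists_sq_sub_sq (⟨c' / c, (hS.frob.fix _).1 (by
          rw [map_div₀, eq_neg_of_add_eq_zero_right hc, eq_neg_of_add_eq_zero_right hc',
            neg_div_neg_eq])⟩ : F₀)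
        have e2 : c' / c = α * α - β * β := congrArg Subtype.val e1
        convert (k1 α).sub (k2 α) (k2 β) (k1 β) using 1
        · simp
        · rw [div_eq_iff c0] at e2
          simp only [h.σc, map_zero]
          linear_combination e2⟩)
  refine ⟨fun e h0 w hw => ?_, fun e he h0 c hc k => by rw [cen e he h0 c hc k]; exact zero_mem _⟩
  have he := let ⟨_, hv, _⟩ := hw; hS.Q_eq_zero.1 hv.sing
  obtain ⟨a, b, rfl, h6⟩ := hS.decomp h.δ0 h.δc h.two h.θθ w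
  have h7 := hw.sub (hS.inA_j hH he ((h6 e).1 hw.perp).1)
  rw [add_sub_cancel_left] at h7
  obtain ⟨t, rfl⟩ := Φ₀.exists_smul_of_perp (e := e) (v := b) fun y hy => Φ₀.perp_symm (by
    have := (hS.inA_j hH he hy).comm h7
    rw [Φ.symm (j y) (δ • j b)] at this
    have := cen e he h0 _ (Φ.π_sub_conj _) this
    simp only [Φ.bsimp, hS.hB, h.σc, h.σδ, h.u.eps] at this
    have h8 : (2 * δ) * Φ₀.B y b = 0 := by linear_combination this
    exact_mod_cast (mul_eq_zero.1 h8).resolve_left (mul_ne_zero h.two h.δ0))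
  exact ⟨a, δ * t, by rw [j_smul, smul_smul]⟩

variable (hR : Φ.RatA Φ₀ j M)
include hR

theorem mem_of_smul {e : V₀} (he : Φ₀.Q e = 0) (h0 : e ≠ 0) {g : V ≃ₗ[F] V} (hh : g ∈ M)
    {l : F} (hl : g (j e) = l • j e) : g ∈ Nfrob θ := by
  have hS := h.sub
  have hI := Φ.EG_le_Iso (hM hh)
  have he' := hS.Q_eq_zero.2 he
  have hl0 : l ≠ 0 := by
    rintro rfl
    exact hS.j_ne h0 (by simpa using hl)
  obtain ⟨f, hf, hef⟩ := exists_partner' he h0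
  have hef' : Φ.B (j e) (j f) = 1 := by rw [hS.hB, hef]; rfl
  have hB : ∀ x, Φ.B (j e) (Φ.σ l • g x) = Φ.B (j e) x := fun x => by
    rw [← Iso.B hI (j e) x, hl, Φ.B_smul_left, Φ.B_smul_right]
  obtain ⟨f', hf'⟩ : ∃ f', Φ.σ l • g (j f) = f' := ⟨_, rfl⟩
  obtain ⟨c, hv, hc⟩ := exists_ef_eq (x := j f) (y := f') he' (by simp [hef']) (hf' ▸ hB _)
    (by rw [← hf', Φ.Q_smul_zero (by rw [Iso.Q hI, hS.Q_eq_zero.2 hf]), hS.Q_eq_zero.2 hf])
  have hE := Φ.Iso.inv_mem (hv.mem_Iso hv.eich_apply)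
  set k := hv.eich⁻¹ * g with hk
  have hkI : k ∈ Φ.Iso := Φ.Iso.mul_mem hE hI
  have hkf : Φ.σ l • k (j f) = j f := by
    rw [hk, mul_app, ← map_smul, hf']
    exact hv.eich.injective (by rw [app_inv_app, hv.eich_apply, hc])
  have hke : k (j e) = l • j e := by
    rw [hk, mul_app, hl, map_smul]
    congr 1
    exact hv.neg.ef_self
  have h1 : ∀ y, Φ₀.B e y = 0 → Φ₀.B f y = 0 → ∃ z, j z = Φ.σ l • k (j y) := fun y h1 h2 => by
    obtain ⟨c', hv'⟩ := exists_valid he h1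
    have h3 := InA.conj ⟨_, hS.valid_iff.2 hv', (hS.hasE hv').mono hH⟩ hh hI
    rw [hl] at h3
    obtain ⟨z, t, h4⟩ := hR.1 _ h0 _ (h3.of_smul_left hl0)
    obtain ⟨t', h5⟩ : ∃ t' : F, Φ.σ l • k (j y) = j z + t' • j e := by
      rw [hk, mul_app, ← map_smul]
      change ∃ t' : F, Φ.ef _ _ _ _ = _
      rw [ef_apply_of_perp' (h3.of_smul_left hl0).perp, h4]
      exact ⟨_, by rw [add_sub_assoc, ← sub_smul]⟩
    have h6 : Φ.B (j f) (Φ.σ l • k (j y)) = 0 := by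
      rw [← hkf, Φ.B_smul_left, Φ.B_smul_right, Iso.B hkI, hS.B_eq_zero.2 h2, mul_zero, mul_zero]
    refine ⟨z - (Φ₀.ε * Φ₀.B f z) • e, ?_⟩
    rw [h5, map_add, Φ.B_smul_right, B_eq_eps hef', hS.hB] at h6
    rw [h5, map_sub, j_smul, sub_eq_add_neg, ← neg_smul]
    congr 2
    push_cast
    rw [← hS.hε]
    linear_combination -Φ.ε * h6 + t' * Φ.eps_sq
  have h2 : Φ.σ l * l ∈ F₀ := by
    obtain ⟨y, -, q, y1, y2⟩ := h.o.exists_nonsing_perp Φ₀.nd_top (by simp [h.dim]) trivial trivial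
      he hf hef
    obtain ⟨z, hz⟩ := h1 y y1 y2
    have := h.B_jj z
    have q' : (Φ₀.Q y : F) ≠ 0 := by exact_mod_cast q
    rw [hz, Φ.B_smul_left, Φ.B_smul_right, Iso.B hkI, h.B_jj, Φ.invol] at this
    rw [show Φ.σ l * l = Φ₀.Q z / Φ₀.Q y from (eq_div_iff q').2
      (mul_left_cancel₀ h.two (by linear_combination this))]
    exact F₀.div_mem (Φ₀.Q z).2 (Φ₀.Q y).2
  have h3 : k ∈ Nfrob θ := hS.mem_Nfrob (Φ.σ_ne hl0) fun x => by
    obtain ⟨z, hz⟩ := h1 _ (sub_mem_ker_hyp he hf hef x).1 (sub_mem_ker_hyp he hf hef x).2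
    refine ⟨z + Φ₀.B e x • f + (Φ₀.ε * Φ₀.B f x * ⟨_, h2⟩) • e, ?_⟩
    simp only [map_add, map_sub, j_smul, hz, map_smul, smul_sub, hke]
    rw [smul_comm (Φ.σ l) _ (k (j f)), hkf]
    push_cast
    module
  have h4 : hv.eich ∈ M := by
    simpa [hk] using M.mul_mem hh (M.inv_mem (hH ⟨h3, Φ.EG.mul_mem (Φ.EG.inv_mem hv.eich_mem)
      (hM hh)⟩))
  simpa [hk] using (Nfrob θ).mul_mem (hS.eich_mem_Nfrob' hH hR h0 hv h4) h3

theorem mem_of_eig {u : V₀} (hu : Φ₀.Q u = 0) (h0 : u ≠ 0) {g : V ≃ₗ[F] V} (hg : g ∈ M)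
    {κ : F} (hκ : θ (g (j u)) = κ • g (j u)) : g ∈ Nfrob θ := by
  have hS := h.sub
  have h1 := g.map_ne_zero_iff.2 (hS.j_ne h0)
  obtain ⟨u', l, hl⟩ := hS.exists_rat h1 hκ
  have hl0 : l ≠ 0 := left_ne_zero_of_smul (hl ▸ h1)
  have h2 : Φ₀.Q u' = 0 := by
    have := Φ.Q_smul_zero ((Iso.Q (Φ.EG_le_Iso (hM hg)) (j u)).trans (hS.Q_eq_zero.2 hu)) l⁻¹
    rwa [hl, smul_smul, inv_mul_cancel₀ hl0, one_smul, hS.Q_eq_zero] at this
  obtain ⟨k, hk, e2⟩ := h.move h2 hu (fun e => h1 (by simp [hl, e])) h0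
  have := h.mem_of_smul hH hM hR hu h0 (M.mul_mem (hH hk) hg) (l := l)
    (by rw [mul_app, hl, map_smul, e2])
  exact ((Nfrob θ).mul_mem_cancel_left hk.1).1 this

theorem le_Nfrob : M ≤ Nfrob θ := fun g hg => by_contra fun hg' => by
  have hS := h.sub
  have hO := h.o
  have h2 := h.two
  have hI := Φ.EG_le_Iso (hM hg)
  obtain ⟨τ, hτ⟩ : ∃ τ : V →ₛₗ[(θ₀ : F →+* F)] V, ∀ v, τ v = g (θ (g⁻¹ v)) :=
    ⟨g.toLinearMap ∘ₛₗ θ ∘ₛₗ (g⁻¹).toLinearMap, fun _ => rfl⟩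
  have τj : ∀ u, τ (g (j u)) = g (j u) := fun u => by rw [hτ, inv_app_app, hS.θ_j]
  have ττ : ∀ v, τ (τ v) = v := fun v => by rw [hτ, hτ, inv_app_app, h.θθ, app_inv_app]
  have τB : ∀ v w, Φ.B (τ v) (τ w) = Φ.σ (Φ.B v w) := fun v w => by
    rw [hτ, hτ, Iso.B hI, hS.θB, Iso.B (inv_mem hI), h.σ]
  have τs : ∀ (a : F) v, τ (a • v) = Φ.σ a • τ v := fun a v => by rw [θ_smul, h.σ]
  let E : F → Submodule F₀ V₀ := fun κ =>
    { carrier := {u | τ (j u) = κ • j u}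
      zero_mem' := by simp
      add_mem' := fun {x y} hx hy => by
        simp only [Set.mem_ofPred_eq, map_add, smul_add] at hx hy ⊢; rw [hx, hy]
      smul_mem' := fun c x hx => by
        simp only [Set.mem_ofPred_eq, j_smul, τs, h.σc] at hx ⊢; rw [hx, smul_comm] }
  have mE : ∀ {κ u}, u ∈ E κ ↔ τ (j u) = κ • j u := Iff.rfl
  have an : ∀ κ, ∀ u ∈ E κ, Φ₀.Q u = 0 → u = 0 := fun κ u hu q => by_contra fun u0 =>
    hg' (inv_mem_iff.1 (h.mem_of_eig hH hM hR q u0 (inv_mem hg) (κ := κ) (g.injective (by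
      rw [← hτ, mE.1 hu, map_smul, app_inv_app]))))
  have le2 : ∀ κ, finrank F₀ (E κ) ≤ 2 := fun κ => by
    by_contra hc
    obtain ⟨v, h1, h3, h4⟩ := Φ₀.iso (E κ) (by rw [hO.d]; omega)
    exact h3 (an κ v h1 h4)
  have K : ∀ e, Φ₀.Q e = 0 → e ≠ 0 → ∃ κ, 2 ≤ finrank F₀ (E κ) ∧
      ∀ u ∈ E κ, Φ.B (j u) (g (j e)) = 0 := fun e he e0 => by
    have cm : ∀ k ∈ Nfrob θ ⊓ Φ.EG, k (g (j e)) = g (j e) → ∀ v, τ (k v) = k (τ v) :=
      fun k hk ek v => by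
        have m := mul_mem (inv_mem hg) (mul_mem (hH hk) hg)
        have e1 : (g⁻¹ * (k * g)) (j e) = j e := by rw [mul_app, mul_app, ek, inv_app_app]
        have := Nfrob.comm (h.mem_of_smul hH hM hR he e0 m (l := 1) (by rw [e1, one_smul]))
          (by rw [hS.θ_j]; exact hS.j_ne e0) e1 (by rw [hS.θ_j, e1]) (g⁻¹ v)
        simp only [mul_app, app_inv_app] at this
        rw [hτ, hτ, this, app_inv_app]
    obtain ⟨a, b, ex, h6⟩ := hS.decomp h.δ0 h.δc h2 h.θθ (g (j e))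
    have qx : Φ.B (g (j e)) (g (j e)) = 0 := by rw [Iso.B hI, hS.B_eq_zero, Φ₀.B_self he]
    have qa : (Φ₀.Q a : F) = δ * δ * Φ₀.Q b := by
      rw [ex] at qx
      simp only [Φ.bsimp, h.B_jj, h.σδ] at qx
      rw [hS.hB, hS.hB, hO.symm a b] at qx
      exact mul_left_cancel₀ h2 (by linear_combination qx)
    by_cases ts : Φ₀.Q b = 0 ∧ Φ₀.B a b = 0
    · exfalso
      have qa' : Φ₀.Q a = 0 := by exact_mod_cast (by simp [qa, ts.1] : (Φ₀.Q a : F) = 0)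
      obtain ⟨k, hk, ek⟩ := hS.hasE_zero (valid_zero qa' ts.2 ts.1)
      have c1 := cm k hk (by rw [ek, ef_apply_of_perp ((h6 a).2 ⟨Φ₀.B_self qa', ts.2⟩)
        ((h6 b).2 ⟨Φ₀.perp_symm ts.2, Φ₀.B_self ts.1⟩)])
      obtain ⟨t, ht⟩ := Φ.exists_smul_of_perp (e := j e) (v := g⁻¹ (j b)) fun y hy => by
        rw [Iso.B_inv_left hI]
        refine hS.perp_induction e0 (P := fun y => Φ.B (j b) (g y) = 0) (fun r u hu => ?_)
          (fun x y hx hy => by rw [map_add, map_add, hx, hy, add_zero]) hy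
        have c2 := τB (g (j u)) (k (g (j u)))
        have c3 : Φ.B (g (j e)) (g (j u)) = 0 := by rw [Iso.B hI, hS.B_eq_zero, hu]
        have c4 : Φ.σ (Φ.B (g (j u)) (g (j u))) = Φ.B (g (j u)) (g (j u)) := (h.u.symm _ _).symm
        rw [c1, τj, ek, ef] at c2
        rw [ex] at c3
        simp only [Φ.bsimp, h.u.symm (j a) (g (j u)), h.u.symm (j b) (g (j u)), h.u.eps, h.σδ, c4]
          at c2 c3
        rw [show Φ.B (j a) (g (j u)) = δ * Φ.B (j b) (g (j u)) by linear_combination c3] at c2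
        simp only [Φ.bsimp, h.σδ] at c2
        have c5 : (2 * 2 * δ) * (Φ.B (j b) (g (j u)) * Φ.σ (Φ.B (j b) (g (j u)))) = 0 := by
          linear_combination c2
        simp only [mul_eq_zero, h2, h.δ0, Φ.σ_eq_zero, or_self, false_or] at c5
        simp [c5]
      refine hg' ?_
      by_cases b0 : b = 0
      · exact h.mem_of_eig hH hM hR he e0 hg (κ := 1) (by simp [ex, b0, hS.θ_j])
      have t0 : t ≠ 0 := fun e => hS.j_ne b0 (by simpa [e] using ht)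
      have e1 : g (j e) = t⁻¹ • j b := by
        rw [eq_inv_smul_iff₀ t0, ← map_smul, ← ht, app_inv_app]
      exact h.mem_of_eig hH hM hR he e0 hg (κ := θ₀ t⁻¹ * t) (by
        rw [e1, θ_smul, hS.θ_j, smul_smul, mul_assoc, mul_inv_cancel₀ t0, mul_one])
    have dt : 2 * 2 * (Φ₀.Q a * Φ₀.Q b) - Φ₀.B a b * Φ₀.B a b ≠ 0 := fun e1 => ts (by
      have e2 : 2 * 2 * ((Φ₀.Q a : F) * Φ₀.Q b) - Φ₀.B a b * Φ₀.B a b = 0 := congrArg Subtype.val e1
      have e3 : (2 * δ * Φ₀.Q b - Φ₀.B a b) * (2 * δ * Φ₀.Q b + Φ₀.B a b) = 0 := by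
        linear_combination e2 - 2 * 2 * Φ₀.Q b * qa
      have e4 : (2 * 2 * δ) * Φ₀.Q b = 0 := by
        rcases mul_eq_zero.1 e3 with e3 | e3 <;> have e5 := congrArg Φ.σ e3 <;>
          simp only [Φ.bsimp, h.σc, h.σδ, map_ofNat] at e5 <;> linear_combination e3 - e5
      have e5 : Φ₀.Q b = 0 := by simpa [h2, h.δ0] using e4
      exact ⟨e5, by simpa [e5] using e1⟩)
    have nd : Φ₀.ND (Submodule.span F₀ {a, b}) := fun x hx hx' => by
      obtain ⟨α, β, rfl⟩ := Submodule.mem_span_pair.1 hx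
      have e1 := hx' a (Submodule.subset_span (by simp))
      have e2 := hx' b (Submodule.subset_span (by simp))
      simp only [Φ₀.bsimp, hO.σ, hO.B_self, hO.symm a b] at e1 e2
      rw [(mul_eq_zero.1 (show α * _ = 0 by linear_combination 2 * Φ₀.Q b * e1 - Φ₀.B a b * e2)).resolve_right dt,
        (mul_eq_zero.1 (show β * _ = 0 by linear_combination 2 * Φ₀.Q a * e2 - Φ₀.B a b * e1)).resolve_right dt]
      simp
    have hZ := nd.perp
    have d2 : 2 ≤ finrank F₀ (Φ₀.perp (Submodule.span F₀ {a, b})) := by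
      have e1 := nd.finrank_add
      have e2 := finrank_span_pair_le_two (F := F₀) a b
      have := h.dim
      omega
    have mZ : ∀ u ∈ Φ₀.perp (Submodule.span F₀ {a, b}), Φ.B (j u) (g (j e)) = 0 := fun u hu =>
      (h6 u).2 ⟨Φ₀.perp_symm (hu a (Submodule.subset_span (by simp))),
        Φ₀.perp_symm (hu b (Submodule.subset_span (by simp)))⟩
    generalize Φ₀.perp (Submodule.span F₀ {a, b}) = Z at hZ d2 mZ
    obtain ⟨c, hc, qc⟩ := hO.exists_nonsing hZ fun e => by rw [e, finrank_bot] at d2; omega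
    have c2 : Φ₀.B c c ≠ 0 := by rw [hO.B_self]; exact mul_ne_zero h.two₀ qc
    obtain ⟨d, ⟨hd, cd⟩, qd⟩ := hO.exists_nonsing (W := Z ⊓ LinearMap.ker (Φ₀.B c))
      (fun x hx hx' => hZ x hx.1 fun y hy => by
        simpa [Φ₀.perp_symm hx.2] using hx' (y - (Φ₀.B c y / Φ₀.B c c) • c)
          ⟨Z.sub_mem hy (Z.smul_mem _ hc), by simp [c2]⟩) fun e => by
      have := finrank_le_inf_ker Z (Φ₀.B c)
      rw [e, finrank_bot] at this
      omega
    replace cd : Φ.B (j c) (j d) = 0 := hS.B_eq_zero.2 cd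
    have dc := Φ.perp_symm cd
    have qc' : (Φ₀.Q c : F) ≠ 0 := by exact_mod_cast qc
    have qd' : (Φ₀.Q d : F) ≠ 0 := by exact_mod_cast qd
    have rr : ∀ d ∈ Z, Φ₀.Q d ≠ 0 → ∀ v, τ (Φ.rf (j c) (Φ₀.Q c) (Φ.rf (j d) (Φ₀.Q d) v)) =
        Φ.rf (j c) (Φ₀.Q c) (Φ.rf (j d) (Φ₀.Q d) (τ v)) := fun d hd qd v => by
      obtain ⟨k, hk, ek⟩ := h.exists_rr qc qd
      rw [← ek, ← ek, cm k hk (by simp [ek, rf, mZ c hc, mZ d hd])]
    have sp : ∀ v, (v = j c ∨ v = j d) → ∃ p r : F, τ v = p • j c + r • j d := fun v hv => by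
      have e1 := rr d hd qd v
      have e2 : Φ.rf (j c) (Φ₀.Q c) (Φ.rf (j d) (Φ₀.Q d) v) = -v := by
        rcases hv with rfl | rfl <;> simp only [rf, Φ.bsimp, cd, dc, h.B_jj] <;>
          match_scalars <;> field_simp <;> ring
      rw [e2, map_neg, rf, rf] at e1
      generalize (Φ₀.Q c : F)⁻¹ * _ = p at e1
      generalize (Φ₀.Q d : F)⁻¹ * _ = r at e1
      refine ⟨2⁻¹ * p, 2⁻¹ * r, ?_⟩
      rw [mul_smul, mul_smul, ← smul_add, eq_inv_smul_iff₀ h2]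
      linear_combination (norm := skip) -e1
      module
    obtain ⟨p, r, e1⟩ := sp _ (Or.inl rfl)
    obtain ⟨r', s, e2⟩ := sp _ (Or.inr rfl)
    obtain ⟨t, t0, n0⟩ := exists_add_sq_ne h.two₀ h.three (n' := Φ₀.Q d) qc
    have qn : Φ₀.Q (c + t • d) = Φ₀.Q c + t * t * Φ₀.Q d := by
      simp [hO.Q_add, hO.Q_smul, hS.B_eq_zero.1 cd]
    have e3 := rr _ (Z.add_mem hc (Z.smul_mem t hd)) (qn ▸ n0) (j c)
    have e4 := τB (j c) (τ (j d))
    have n1 : (Φ₀.Q c : F) + t * t * Φ₀.Q d ≠ 0 := by exact_mod_cast n0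
    have t1 : (t : F) ≠ 0 := by exact_mod_cast t0
    rw [ττ, e1, e2] at e4
    simp only [Φ.bsimp, cd, h.B_jj, map_ofNat, h.σc] at e4
    have e5 := congrArg (Φ.B (j c)) e3
    have e6 := congrArg (Φ.B (j d)) e3
    simp only [qn, rf, map_add, map_sub, j_smul, τs, e1, e2, Φ.bsimp, cd, dc, h.B_jj, h.σc,
      map_ofNat, LinearMap.add_apply] at e5 e6
    push_cast at e5 e6
    have e7 : r * Φ₀.Q d = r' * Φ₀.Q c := by
      have := congrArg Φ.σ e4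
      simp only [Φ.bsimp, map_ofNat, h.σc] at this
      exact mul_left_cancel₀ h2 (by linear_combination this)
    have m0 := inv_ne_zero n1
    generalize ((Φ₀.Q c : F) + t * t * Φ₀.Q d)⁻¹ = m at e5 e6 m0
    field_simp at e5 e6
    obtain rfl : r = 0 := by
      have : (2 * 2 * 2 * t * Φ₀.Q c * Φ₀.Q d * Φ₀.Q c * m : F) * r = 0 := by
        linear_combination -e5 + 2 * 2 * t * Φ₀.Q c * Φ₀.Q c * m * e7
      simpa [h2, t1, qc', qd', m0] using this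
    obtain rfl : r' = 0 := by simpa [qc'] using e7
    obtain rfl : p = s := by
      have : (2 * 2 * t * Φ₀.Q c * Φ₀.Q d * Φ₀.Q c * m : F) * (p - s) = 0 := by
        linear_combination e6
      simpa [h2, t1, qc', qd', sub_eq_zero, m0] using this
    have li : LinearIndependent F₀ ![c, d] := by
      rw [LinearIndependent.pair_iff]
      intro x y e
      have e8 := congrArg (Φ₀.B c) e
      simp only [Φ₀.bsimp, hS.B_eq_zero.1 cd, mul_zero, add_zero, mul_eq_zero, c2, or_false] at e8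
      rw [e8, zero_smul, zero_add, smul_eq_zero] at e
      exact ⟨e8, e.resolve_right fun e => qd (e ▸ Φ₀.Q_zero)⟩
    have f2 := finrank_span_eq_card li
    rw [Matrix.range_cons, Matrix.range_cons, Matrix.range_empty, Set.union_empty,
      Set.singleton_union, Fintype.card_fin] at f2
    have e9 : Submodule.span F₀ {c, d} = E p := Submodule.eq_of_le_of_finrank_le
      (Submodule.span_le.2 (Set.pair_subset (mE.2 (by simpa using e1)) (mE.2 (by simpa using e2)))) (f2 ▸ le2 p)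
    refine ⟨p, (e9 ▸ f2).ge, fun u hu => mZ u ?_⟩
    exact (Submodule.span_le.2 (Set.pair_subset hc hd) : _ ≤ Z) (e9 ▸ hu)
  obtain ⟨e, -, e0, he⟩ := Φ₀.iso ⊤ (by rw [finrank_top, hO.d, h.dim]; omega)
  obtain ⟨κ, k1, k2⟩ := K e he e0
  obtain ⟨u, hu, u0⟩ := (E κ).exists_mem_ne_zero_of_ne_bot fun e => by
    rw [e, finrank_bot] at k1; omega
  obtain ⟨e', he', hb⟩ : ∃ e', Φ₀.Q e' = 0 ∧ Φ.B (j u) (g (j e')) ≠ 0 := by
    by_contra hc
    push Not at hc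
    obtain ⟨y, hy⟩ := hS.exists_B_j_ne ((g⁻¹).map_ne_zero_iff.2 (hS.j_ne u0))
    refine hy (Φ.perp_symm ?_)
    rw [Iso.B_inv_left hI]
    exact Φ₀.nd_top.induction_sing trivial he e0 (A := fun y => Φ.B (j u) (g (j y)) = 0)
      (fun x y hx hy => by simp [hx, hy]) (fun y _ => hc y) trivial
  obtain ⟨κ', k1', k2'⟩ := K e' he' fun e => hb (by simp [e])
  have hκ : Φ.σ κ * κ = 1 := by
    have := τB (j u) (j u)
    rw [mE.1 hu, Φ.B_smul_left, Φ.B_smul_right, h.B_jj, map_mul, h.σc, map_ofNat] at this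
    have q : (Φ₀.Q u : F) ≠ 0 := by exact_mod_cast fun q => u0 (an κ u hu q)
    exact mul_right_cancel₀ (mul_ne_zero h2 q) (by linear_combination this)
  have ne : κ ≠ κ' := fun e => hb (k2' u (e ▸ hu))
  have e1 : E κ' = Φ₀.perp (E κ) := Submodule.eq_of_le_of_finrank_le (fun y hy x hx => by
    have := τB (j x) (j y)
    rw [mE.1 hx, mE.1 hy, Φ.B_smul_left, Φ.B_smul_right, hS.hB, h.σc] at this
    have e : (κ - κ') * Φ₀.B x y = 0 := by
      linear_combination -κ * this + κ' * Φ₀.B x y * hκ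
    exact_mod_cast (mul_eq_zero.1 e).resolve_left (sub_ne_zero.2 ne)) (by
      have := Φ₀.finrank_add_perp (E κ)
      have := h.dim
      omega)
  obtain ⟨a, b, ex, h6⟩ := hS.decomp h.δ0 h.δc h2 h.θθ (g (j e))
  have ha : a ∈ E κ' := e1 ▸ fun x hx => ((h6 x).1 (k2 x hx)).1
  have hb : b ∈ E κ' := e1 ▸ fun x hx => ((h6 x).1 (k2 x hx)).2
  have e2 : g (j e) = κ' • θ (g (j e)) := by
    conv_lhs => rw [← τj]
    rw [ex, map_add, map_add, τs, θ_smul, mE.1 ha, mE.1 hb, hS.θ_j, hS.θ_j, h.σ]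
    module
  have k0 : κ' ≠ 0 := left_ne_zero_of_smul (e2 ▸ g.map_ne_zero_iff.2 (hS.j_ne e0))
  exact hg' (h.mem_of_eig hH hM hR he e0 hg (κ := κ'⁻¹) ((eq_inv_smul_iff₀ k0).2 e2.symm))

omit hH hM hR in
theorem isMaximalIn : Geo.IsMaximalIn Φ.EG (Nfrob θ ⊓ Φ.EG) := by
  have hS := h.sub
  refine isMaximalIn_of inf_le_right ?_ fun M hH hM g hg hg' =>
    (h.EG_le_or_ratA hH hM).resolve_right fun hR => hg' ⟨h.le_Nfrob hH hM hR hg, hM hg⟩
  obtain ⟨e, f, qe, qf, ef⟩ := exists_hyp (Φ := Φ₀) (by rw [h.o.d, h.dim]; omega)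
  have e0 : j e ≠ 0 := hS.j_ne fun e => by simp [e] at ef
  have hv : Φ.Valid (j e) 0 δ := valid_tv (hS.Q_eq_zero.2 qe) (by simpa using h.πδ (c := 1))
  refine ⟨hv.eich, hv.eich_mem, fun k => ?_⟩
  have := Nfrob.comm k.1 (v := j e) (by rwa [hS.θ_j]) hv.ef_self
    (by rw [hS.θ_j]; exact hv.ef_self) (j f)
  simp only [hS.θ_j, hv.eich_apply, Fm.ef, map_zero, LinearMap.zero_apply, hS.hB, ef, map_add,
    map_sub, θ_smul, map_mul, h.δc, h.u.eps, map_one] at this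
  have e1 : (2 * δ) • j e = 0 := by
    linear_combination (norm := skip) this
    simp
    module
  simp [h.two, h.δ0, e0] at e1

end OU

variable {ι : Type} [Fintype ι] [Finite F] (Φ : Fm F V) (b : Basis ι F V) (hθ : IsFrob θ₀ F₀)
include hθ

theorem quad_herm_isMaximalIn_four (hn : Fintype.card ι = 4) (h2 : (2 : F) ≠ 0)
    (h3 : Nat.card F₀ ≠ 3) (hσ : ∀ a, Φ.σ a = θ₀ a) (hU : Φ.IsU)
    (hB : ∀ x y, Φ.B (ratMap F₀ b x) (ratMap F₀ b y) ∈ F₀) (hQ : ∀ x, Φ.Q x = Φ.B x x) :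
    Geo.IsMaximalIn Φ.EG (Nfrob (frob θ₀ b) ⊓ Φ.EG) := by
  have := Module.Finite.of_basis b
  have hε := hU.eps
  have hσ' : ∀ a : F₀, Φ.σ a = RingHom.id F₀ a := fun a => by rw [hσ, (hθ.fix a).2 a.2]; rfl
  have h2' : (2 : F₀) ≠ 0 := fun h => h2 (congrArg Subtype.val h)
  let B₀ := Φ.ratB b hσ' hB
  have hs : ∀ x y, B₀ y x = B₀ x y := fun x y => Subtype.ext (by
    change Φ.B _ _ = _
    rw [Φ.symm, hε, one_mul]
    exact hσ' (B₀ x y))
  let Q₀ : QuadraticForm F₀ (ι → F₀) := LinearMap.BilinMap.toQuadraticMap ((2 : F₀)⁻¹ • B₀)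
  have hp : ∀ x y, QuadraticMap.polar Q₀ x y = B₀ x y := fun x y => by
    rw [LinearMap.BilinMap.polar_toQuadraticMap]
    simp only [LinearMap.smul_apply, hs x y, smul_eq_mul]
    field_simp
    ring
  let Φ₀ := fmQuad Q₀ fun x hx => Φ.ratB_nondeg b _ _ x fun y => (hp x y).symm.trans (hx y)
  obtain ⟨δ, hδ⟩ := hθ.ne
  have hS : Sub Φ Φ₀ (frob θ₀ b) (ratMap F₀ b) :=
    ⟨hθ, frob_eq_iff_ratMap hθ.fix b, span_ratMap b, hσ', hε,
      fun x y => congrArg Subtype.val (hp x y).symm, fun c x => by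
        rw [hU.pi, hQ, hσ']
        change ((c + c : F₀) : F) = B₀ x x ↔ c = 2⁻¹ * B₀ x x
        rw [Subtype.coe_inj, eq_inv_mul_iff_mul_eq₀ h2', two_mul], fun c hc =>
        let ⟨β, h⟩ := Φ.exists_eq_sub_conj (δ := δ)
          (by rw [hε, one_mul, hσ]; exact fun h => hδ ((hθ.fix δ).1 h.symm)) hc
        ⟨β, 0, 0, map_zero _, by simpa using h⟩⟩
  have hθθ : ∀ c, θ₀ (θ₀ c) = c := fun c => by rw [← hσ, ← hσ, Φ.invol]
  exact OU.isMaximalIn (δ := δ - θ₀ δ) ⟨hS, hU, ⟨fun _ => rfl, rfl, fun _ => rfl, rfl⟩, hσ,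
    fun h => hδ ((hθ.fix δ).1 (sub_eq_zero.1 h).symm), by rw [map_sub, hθθ, neg_sub], h2,
    frob_frob hθθ b, h3, by rwa [Module.finrank_fintype_fun_eq_card]⟩

end Fm

end

theorem orth_isMaximalIn_su_four {F : Type*} [Field F] [Fintype F] {q : ℕ}
    (hF : Fintype.card F = q ^ 2) (hodd : Odd q) (hq : q ≠ 3)
    (F₀ : Subfield F) (hcard : Fintype.card F = Nat.card F₀ ^ 2) (P : GL (Fin 4) F)
    (hP : Geo.IsFormRationalStructure (hermForm 4 F q) F₀ 1 P) :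
    Geo.IsMaximalIn (GU 4 F q ⊓ Geo.specialLinear (Fin 4) F)
      (Geo.subfieldSubgroup F₀ P ⊓ (GU 4 F q ⊓ Geo.specialLinear (Fin 4) F)) := by
  obtain ⟨θ₀, hθ, hθ'⟩ := exists_isFrob F₀ Nat.prime_two hcard
  have := U.UF.of_card hF
  refine subfield_isMaximalIn_of hθ (mem_SU_iff 4 q)
    (Fm.quad_herm_isMaximalIn_four _ _ hθ (by simp) (two_ne_zero_of_odd (hF ▸ hodd.pow))
      (card_eq_of_sq hF hcard ▸ hq) (fun a => by rw [hθ', card_eq_of_sq hF hcard]; rfl)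
      (isU_fmUStd _ _) (fun x y => ?_) fun _ => rfl)
  rw [ratMap_colBasis, ratMap_colBasis]
  have := hP _ _ (fun i => (y i).2) fun i => (x i).2
  rwa [one_mul] at this

end Cfsg.Agent.Class.Max
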